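import Mathlib
import Cfsg.Prelude.Def_RootSubgroups
import Cfsg.Agent.Lib.H01.Fitting

/-!
Root involutions and odd transpositions: first lemmas.
-/

set_option autoImplicit false

namespace Cfsg.Agent.H24

open Cfsg

open scoped commutatorElement

variable {G : Type*} [Group G] {D : Set G}

theorem inv_eq_of_orderOf_two {a : G} (h : orderOf a = 2) : a⁻¹ = a := by
  have h1 : a ^ 2 = 1 := h ▸ pow_orderOf_eq_one a
  exact inv_eq_of_mul_eq_one_left (by rw [← pow_two, h1])

theorem mul_self_of_orderOf_two {a : G} (h : orderOf a = 2) : a * a = 1 := by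
  have h1 : a ^ 2 = 1 := h ▸ pow_orderOf_eq_one a
  rwa [pow_two] at h1

/-- An element of odd order that is a 2-element is trivial. -/
theorem eq_one_of_odd_of_two {g : G} (h : Odd (orderOf g)) {k : ℕ} (hk : g ^ 2 ^ k = 1) : g = 1 := by
  have h1 : orderOf g ∣ 2 ^ k := orderOf_dvd_of_pow_eq_one hk
  obtain ⟨j, _, hj⟩ := (Nat.dvd_prime_pow Nat.prime_two).1 h1
  cases j with
  | zero => simpa using hj
  | succ j =>
    rw [hj] at h
    rw [pow_succ] at h
    exact absurd h (by simp [Nat.odd_mul, parity_simps])

theorem inv_mul_of_orderOf_two {a b : G} (ha : orderOf a = 2) (hb : orderOf b = 2) :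
    (a * b)⁻¹ = b * a := by
  rw [mul_inv_rev, inv_eq_of_orderOf_two ha, inv_eq_of_orderOf_two hb]

variable (hD : IsOddTranspositionSet D)

include hD in
/-- Two members of `D` whose product is a 2-element commute. -/
theorem commute_of_two_element {x y : G} (hx : x ∈ D) (hy : y ∈ D) {k : ℕ}
    (hk : (x * y) ^ 2 ^ k = 1) : x * y = y * x := by
  rcases hD.1.pair x hx y hy with h | h | h
  · exact h
  · have h1 := eq_one_of_odd_of_two h hk
    have h2 : x = y⁻¹ := eq_inv_of_mul_eq_one_left h1
    rw [h2, inv_eq_of_orderOf_two (hD.1.orderOf_eq y hy)]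
  · exact absurd h.1 (hD.2 x hx y hy)

variable [Finite G]

section

variable {a b e x : G}

theorem two_element_of_mem_pCore {t : G} (ht : t ∈ pCore 2 G) : ∃ k : ℕ, t ^ 2 ^ k = 1 := by
  have : Fact (Nat.Prime 2) := ⟨Nat.prime_two⟩
  obtain ⟨k, hk⟩ := Cfsg.Agent.H01.pCore_isPGroup (G := G) 2 ⟨t, ht⟩
  refine ⟨k, ?_⟩
  exact congrArg Subtype.val hk

theorem conj_mul_mem_pCore {q : G} (hq : q ∈ pCore 2 G) (a : G) : q * a * q⁻¹ * a⁻¹ ∈ pCore 2 G := by
  have hn := Cfsg.Agent.H01.pCore_normal (G := G) 2
  have h1 : a * q⁻¹ * a⁻¹ ∈ pCore 2 G := hn.conj_mem _ (Subgroup.inv_mem _ hq) a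
  have h2 : q * a * q⁻¹ * a⁻¹ = q * (a * q⁻¹ * a⁻¹) := by group
  rw [h2]
  exact Subgroup.mul_mem _ hq h1

include hD in
/-- Conjugating by an element of `O₂(G)`: `a^q` commutes with `a`. -/
theorem commute_conj_pCore (ha : a ∈ D) {q : G} (hq : q ∈ pCore 2 G) :
    (q * a * q⁻¹) * a = a * (q * a * q⁻¹) := by
  have h1 := conj_mul_mem_pCore hq a
  rw [inv_eq_of_orderOf_two (hD.1.orderOf_eq a ha)] at h1
  obtain ⟨k, hk⟩ := two_element_of_mem_pCore h1
  exact commute_of_two_element hD (hD.1.conj_mem a ha q) ha hk

include hD in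
theorem odd_trans_part_one (ha : a ∈ D) (he : e ∈ commutingMembers D a) :
    ∀ q ∈ ⁅pCore 2 G, Subgroup.zpowers a⁆, e * q = q * e := by
  have hn := Cfsg.Agent.H01.pCore_normal (G := G) 2
  have hle : ⁅pCore 2 G, Subgroup.zpowers a⁆ ≤ Subgroup.centralizer {e} := by
    rw [Subgroup.commutator_le]
    rintro q hq _ ⟨n, rfl⟩
    have hoa := hD.1.orderOf_eq a ha
    have hz : (fun k : ℤ => a ^ k) n = 1 ∨ (fun k : ℤ => a ^ k) n = a := by
      rcases Int.even_or_odd' n with ⟨m, rfl | rfl⟩
      · left
        show a ^ (2 * m) = 1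
        rw [zpow_mul]
        have : a ^ (2 : ℤ) = 1 := by
          rw [show (2 : ℤ) = ((2 : ℕ) : ℤ) from rfl, zpow_natCast, ← hoa, pow_orderOf_eq_one]
        rw [this, one_zpow]
      · right
        show a ^ (2 * m + 1) = a
        rw [zpow_add, zpow_mul, zpow_one]
        have : a ^ (2 : ℤ) = 1 := by
          rw [show (2 : ℤ) = ((2 : ℕ) : ℤ) from rfl, zpow_natCast, ← hoa, pow_orderOf_eq_one]
        rw [this, one_zpow, one_mul]
    show ⁅q, a ^ n⁆ ∈ _
    rcases hz with h | h
    · simp only at h
      rw [h, commutatorElement_one_right]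
      exact Subgroup.one_mem _
    · simp only at h
      rw [h, commutatorElement_def, inv_eq_of_orderOf_two hoa]
      -- b = q a q⁻¹
      set b := q * a * q⁻¹ with hb
      have hbD : b ∈ D := hD.1.conj_mem a ha q
      have heD : e ∈ D := he.1
      have hea : e * a = a * e := he.2
      have hob := hD.1.orderOf_eq b hbD
      have hoe := hD.1.orderOf_eq e heD
      have hba : b * a = a * b := commute_conj_pCore hD ha hq
      have htQ : b * a ∈ pCore 2 G := by
        have := conj_mul_mem_pCore hq a
        rwa [inv_eq_of_orderOf_two hoa] at this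
      -- `(e b)^2 ∈ Q`
      have h2 : (e * b) * (e * b) ∈ pCore 2 G := by
        have h3 : e * (b * a) * e⁻¹ * (b * a)⁻¹ ∈ pCore 2 G := by
          have h4 : e * (b * a) * e⁻¹ ∈ pCore 2 G := hn.conj_mem _ htQ e
          exact Subgroup.mul_mem _ h4 (Subgroup.inv_mem _ htQ)
        have h5 : e * (b * a) * e⁻¹ * (b * a)⁻¹ = (e * b) * (e * b) := by
          rw [inv_mul_of_orderOf_two hob hoa, inv_eq_of_orderOf_two hoe]
          calc e * (b * a) * e * (a * b) = e * b * (a * e) * (a * b) := by group
            _ = e * b * (e * a) * (a * b) := by rw [hea]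
            _ = e * b * e * (a * a) * b := by group
            _ = (e * b) * (e * b) := by rw [mul_self_of_orderOf_two hoa]; group
        rwa [h5] at h3
      obtain ⟨k, hk⟩ := two_element_of_mem_pCore h2
      have heb : e * b = b * e := by
        refine commute_of_two_element hD heD hbD (k := k + 1) ?_
        rw [pow_succ, mul_comm, pow_mul, pow_two]
        exact hk
      refine Subgroup.mem_centralizer_singleton_iff.2 ?_
      calc b * a * e = b * (a * e) := by group
        _ = b * (e * a) := by rw [hea]
        _ = b * e * a := by group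
        _ = e * b * a := by rw [heb]
        _ = e * (b * a) := by group
  intro q hq
  exact (Subgroup.mem_centralizer_singleton_iff.1 (hle hq)).symm

include hD in
theorem odd_trans_part_two (ha : a ∈ D) (hb : b ∈ oddPartners D a) :
    pCore 2 G ⊓ Subgroup.centralizer {a * b} =
      pCore 2 G ⊓ Subgroup.centralizer {a} ⊓ Subgroup.centralizer {b} := by
  apply le_antisymm
  · rintro x ⟨hxQ, hx⟩
    have hx' : x * (a * b) = (a * b) * x := Subgroup.mem_centralizer_singleton_iff.1 hx
    have hbD : b ∈ D := hb.1
    have hoa := hD.1.orderOf_eq a ha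
    have hob := hD.1.orderOf_eq b hbD
    set a' := x * a * x⁻¹ with ha'
    set b' := x * b * x⁻¹ with hb'
    have ha'D : a' ∈ D := hD.1.conj_mem a ha x
    have hb'D : b' ∈ D := hD.1.conj_mem b hbD x
    have hoa' := hD.1.orderOf_eq a' ha'D
    have hob' := hD.1.orderOf_eq b' hb'D
    have htt : a' * b' = a * b := by
      calc a' * b' = x * (a * b) * x⁻¹ := by rw [ha', hb']; group
        _ = (a * b) * x * x⁻¹ := by rw [hx']
        _ = a * b := by group
    have hcomm : a' * a = a * a' := commute_conj_pCore hD ha hxQ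
    obtain ⟨v, hv⟩ : ∃ v, v = a * a' := ⟨_, rfl⟩
    have hvQ : v ∈ pCore 2 G := by
      have := conj_mul_mem_pCore hxQ a
      rw [inv_eq_of_orderOf_two hoa] at this
      rw [hv, ← hcomm]
      exact this
    obtain ⟨k, hk⟩ := two_element_of_mem_pCore hvQ
    have hva : v * a = a * v := by
      rw [hv]
      calc a * a' * a = a * (a' * a) := by group
        _ = a * (a * a') := by rw [hcomm]
    obtain ⟨t, ht⟩ : ∃ t, t = a * b := ⟨_, rfl⟩
    rw [← ht] at hx' htt
    have hinv : b' * a' = b * a := by
      have h1 := inv_mul_of_orderOf_two hoa' hob'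
      have h2 := inv_mul_of_orderOf_two hoa hob
      rw [htt, ht] at h1
      rw [← h1, h2]
    have hvt : v * t = t * v := by
      have h1 : v * t = a * b' := by
        calc v * t = a * a' * (a' * b') := by rw [htt, hv]
          _ = a * (a' * a') * b' := by group
          _ = a * b' := by rw [mul_self_of_orderOf_two hoa']; group
      have h2 : t * v = a * b' := by
        calc t * v = a * ((b * a) * a') := by rw [ht, hv]; group
          _ = a * ((b' * a') * a') := by rw [hinv]
          _ = a * (b' * (a' * a')) := by group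
          _ = a * b' := by rw [mul_self_of_orderOf_two hoa']; group
      rw [h1, h2]
    have hvb : v * b = b * v := by
      have hb2 : b = a * t := by
        rw [ht]
        calc b = (a * a) * b := by rw [mul_self_of_orderOf_two hoa]; group
          _ = a * (a * b) := by group
      rw [hb2]
      calc v * (a * t) = (v * a) * t := by group
        _ = (a * v) * t := by rw [hva]
        _ = a * (v * t) := by group
        _ = a * (t * v) := by rw [hvt]
        _ = a * t * v := by group
    have ha'v : a' = a * v := by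
      rw [hv]
      calc a' = (a * a) * a' := by rw [mul_self_of_orderOf_two hoa]; group
        _ = a * (a * a') := by group
    have hprod : a' * b = t * v := by
      rw [ha'v, mul_assoc, hvb]
      rw [ht]; group
    have hCtv : Commute t v := hvt.symm
    have hodd : Odd (orderOf t) := ht ▸ hb.2.2
    have hv1 : v = 1 := by
      rcases hD.1.pair a' ha'D b hbD with h | h | h
      · exfalso
        have h1 : (t * v) * (t * v) = 1 := by
          rw [← hprod]
          calc a' * b * (a' * b) = a' * (b * a') * b := by group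
            _ = a' * (a' * b) * b := by rw [h]
            _ = (a' * a') * (b * b) := by group
            _ = 1 := by rw [mul_self_of_orderOf_two hoa', mul_self_of_orderOf_two hob, one_mul]
        have h2 : t ^ 2 ^ (k + 1) = 1 := by
          have h3 : (t * v) ^ 2 ^ (k + 1) = 1 := by
            rw [pow_succ, mul_comm, pow_mul, pow_two, h1, one_pow]
          rw [hCtv.mul_pow] at h3
          have h4 : v ^ 2 ^ (k + 1) = 1 := by
            rw [pow_succ, pow_mul, hk, one_pow]
          rwa [h4, mul_one] at h3
        have h5 := eq_one_of_odd_of_two hodd h2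
        rw [ht] at h5
        have h6 : a = b⁻¹ := eq_inv_of_mul_eq_one_left h5
        rw [inv_eq_of_orderOf_two hob] at h6
        exact hb.2.1 h6.symm
      · rw [hprod] at h
        have h1 : (t * v) ^ (orderOf (t * v) * orderOf t) = 1 := by
          rw [pow_mul, pow_orderOf_eq_one, one_pow]
        rw [hCtv.mul_pow] at h1
        have h2 : t ^ (orderOf (t * v) * orderOf t) = 1 := by
          rw [mul_comm, pow_mul, pow_orderOf_eq_one, one_pow]
        rw [h2, one_mul] at h1
        have h3 : orderOf v ∣ orderOf (t * v) * orderOf t := orderOf_dvd_of_pow_eq_one h1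
        have h4 : Odd (orderOf v) := Odd.of_dvd_nat (h.mul hodd) h3
        exact eq_one_of_odd_of_two h4 hk
      · exact absurd h.1 (hD.2 a' ha'D b hbD)
    have haa : a' = a := by
      rw [ha'v, hv1, mul_one]
    have hxa : x * a = a * x := by
      calc x * a = x * a * x⁻¹ * x := by group
        _ = a * x := by rw [← ha', haa]
    have hxb : x * b = b * x := by
      have h1 : a * (x * b) = a * (b * x) := by
        calc a * (x * b) = (a * x) * b := by group
          _ = (x * a) * b := by rw [hxa]
          _ = x * t := by rw [ht]; group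
          _ = t * x := hx'
          _ = a * (b * x) := by rw [ht]; group
      exact mul_left_cancel h1
    exact ⟨⟨hxQ, Subgroup.mem_centralizer_singleton_iff.2 hxa⟩, Subgroup.mem_centralizer_singleton_iff.2 hxb⟩
  · rintro x ⟨⟨hxQ, hxa⟩, hxb⟩
    refine ⟨hxQ, Subgroup.mem_centralizer_singleton_iff.2 ?_⟩
    have h1 : x * a = a * x := Subgroup.mem_centralizer_singleton_iff.1 hxa
    have h2 : x * b = b * x := Subgroup.mem_centralizer_singleton_iff.1 hxb
    calc x * (a * b) = (x * a) * b := by group
      _ = a * (x * b) := by rw [h1]; group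
      _ = a * (b * x) := by rw [h2]
      _ = a * b * x := by group

include hD in
/-- S5049. -/
theorem odd_trans_centralizers (ha : a ∈ D) :
    (∀ e ∈ commutingMembers D a, ∀ q ∈ ⁅pCore 2 G, Subgroup.zpowers a⁆, e * q = q * e) ∧
    (∀ b ∈ oddPartners D a,
      pCore 2 G ⊓ Subgroup.centralizer {a * b} = pCore 2 G ⊓ Subgroup.centralizer {a} ⊓ Subgroup.centralizer {b}) :=
  ⟨fun _ he => odd_trans_part_one hD ha he, fun _ hb => odd_trans_part_two hD ha hb⟩

end

end Cfsg.Agent.H24
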