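import Mathlib
import Cfsg.Prelude.Def_RootSubgroups
import Cfsg.Agent.Lib.H24.OddTrans

/-!
The involutions of `A₆` form a class of root involutions.
-/

set_option autoImplicit false

namespace Cfsg.Agent.H24

open Cfsg Equiv Equiv.Perm

theorem neg_one_units_pow_eq_one {n : ℕ} (h : (-1 : ℤˣ) ^ n = 1) : Even n := by
  by_contra hn
  rw [Nat.not_even_iff_odd] at hn
  rw [hn.neg_one_pow] at h
  exact absurd h (by decide)

theorem alt_six_order_le (σ : Perm (Fin 6)) (hs : sign σ = 1) : orderOf σ ≤ 5 := by
  have hsum : σ.cycleType.sum ≤ 6 := by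
    have := sum_cycleType_le σ
    simpa using this
  have hsign : Even (σ.cycleType.sum + Multiset.card σ.cycleType) := by
    rw [sign_of_cycleType] at hs
    exact neg_one_units_pow_eq_one hs
  have htwo : ∀ n ∈ σ.cycleType, 2 ≤ n := fun n hn => two_le_of_mem_cycleType hn
  have hcard : Multiset.card σ.cycleType * 2 ≤ σ.cycleType.sum := by
    have := Multiset.card_nsmul_le_sum htwo
    simpa using this
  rw [← lcm_cycleType]
  have hc : Multiset.card σ.cycleType ≤ 3 := by omega
  generalize σ.cycleType = m at *
  interval_cases hcc : Multiset.card m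
  · rw [Multiset.card_eq_zero] at hcc
    subst hcc
    simp
  · obtain ⟨x, rfl⟩ := Multiset.card_eq_one.1 hcc
    simp only [Multiset.sum_singleton, Multiset.lcm_singleton] at *
    have hx : x ≠ 6 := by
      rintro rfl
      revert hsign
      decide
    simp only [normalize_eq]
    omega
  · obtain ⟨x, y, rfl⟩ := Multiset.card_eq_two.1 hcc
    have hx : 2 ≤ x := htwo x (by simp)
    have hy : 2 ≤ y := htwo y (by simp)
    simp only [Multiset.insert_eq_cons, Multiset.sum_cons, Multiset.sum_singleton] at hsum hsign
    have hx6 : x ≤ 4 := by omega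
    have hy6 : y ≤ 4 := by omega
    simp only [Multiset.insert_eq_cons, Multiset.lcm_cons, Multiset.lcm_singleton]
    interval_cases x <;> interval_cases y <;> first | omega | decide | (revert hsign; decide)
  · obtain ⟨x, y, z, rfl⟩ := Multiset.card_eq_three.1 hcc
    have hx : 2 ≤ x := htwo x (by simp)
    have hy : 2 ≤ y := htwo y (by simp)
    have hz : 2 ≤ z := htwo z (by simp)
    simp only [Multiset.insert_eq_cons, Multiset.sum_cons, Multiset.sum_singleton] at hsum hsign
    have e1 : x = 2 := by omega
    have e2 : y = 2 := by omega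
    have e3 : z = 2 := by omega
    subst e1 e2 e3
    revert hsign
    decide

theorem alt_six_cycleType (σ : Perm (Fin 6)) (hs : sign σ = 1) (h2 : orderOf σ = 2) :
    σ.cycleType = {2, 2} := by
  have hp : σ ^ 2 = 1 := h2 ▸ pow_orderOf_eq_one σ
  have : Fact (Nat.Prime 2) := ⟨Nat.prime_two⟩
  have hrep := cycleType_of_pow_prime_eq_one hp
  set k := Multiset.card σ.cycleType with hk
  have hsum : σ.cycleType.sum ≤ 6 := by
    have := sum_cycleType_le σ
    simpa using this
  rw [hrep] at hsum
  simp only [Multiset.sum_replicate, smul_eq_mul] at hsum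
  have hsign : Even (σ.cycleType.sum + Multiset.card σ.cycleType) := by
    rw [sign_of_cycleType] at hs
    exact neg_one_units_pow_eq_one hs
  rw [← hk, hrep] at hsign
  simp only [Multiset.sum_replicate, smul_eq_mul] at hsign
  have hk0 : k ≠ 0 := by
    intro h0
    rw [h0, Multiset.replicate_zero, cycleType_eq_zero] at hrep
    rw [hrep, orderOf_one] at h2
    exact absurd h2 (by norm_num)
  have hk2 : k = 2 := by
    have hk3 : k ≤ 3 := by omega
    interval_cases k
    · omega
    · revert hsign; decide
    · rfl
    · revert hsign; decide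
  rw [hrep, hk2]
  rfl

/-- S5057. -/
theorem alt_six_root_involutions :
    IsRootInvolutionClass {g : ↥(alternatingGroup (Fin 6)) | orderOf g = 2} ∧
    ∀ d ∈ {g : ↥(alternatingGroup (Fin 6)) | orderOf g = 2},
      ∀ e ∈ {g : ↥(alternatingGroup (Fin 6)) | orderOf g = 2}, orderOf (d * e) ≤ 5 := by
  have hle : ∀ g : alternatingGroup (Fin 6), orderOf g ≤ 5 := by
    intro g
    rw [← Subgroup.orderOf_coe]
    exact alt_six_order_le _ (mem_alternatingGroup.1 g.2)
  have hct : ∀ g : alternatingGroup (Fin 6), orderOf g = 2 → (g : Perm (Fin 6)).cycleType = {2, 2} := by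
    intro g hg
    exact alt_six_cycleType _ (mem_alternatingGroup.1 g.2) (by rw [Subgroup.orderOf_coe]; exact hg)
  have hgen : Subgroup.closure {g : ↥(alternatingGroup (Fin 6)) | orderOf g = 2} = ⊤ := by
    rw [eq_top_iff, ← alternatingGroup.closure_cycleType_eq_two_two_eq_top (α := Fin 6) (by simp)]
    apply Subgroup.closure_mono
    intro g hg
    show orderOf g = 2
    rw [← Subgroup.orderOf_coe, ← lcm_cycleType]
    have hg' : (g : Perm (Fin 6)).cycleType = {2, 2} := hg
    rw [hg']
    decide
  refine ⟨⟨⟨fun _ h => h, hgen, ?_, ?_⟩, ?_, ?_⟩, fun d _ e _ => hle _⟩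
  · intro d hd g
    show orderOf _ = 2
    have : g * d * g⁻¹ = MulAut.conj g d := rfl
    rw [this, MulEquiv.orderOf_eq]
    exact hd
  · intro a ha b hb
    have hod := hle (a * b)
    have hpos := orderOf_pos (a * b)
    have ha1 : a * a = 1 := mul_self_of_orderOf_two ha
    have hb1 : b * b = 1 := mul_self_of_orderOf_two hb
    have hcomm : (a * b) * (a * b) = 1 → a * b = b * a := by
      intro h
      calc a * b = a * b * ((a * b) * (b * a)) := by
            have : (a * b) * (b * a) = 1 := by
              calc (a * b) * (b * a) = a * (b * b) * a := by group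
                _ = 1 := by rw [hb1, mul_one, ha1]
            rw [this, mul_one]
        _ = ((a * b) * (a * b)) * (b * a) := by group
        _ = b * a := by rw [h, one_mul]
    have hcases : orderOf (a * b) = 1 ∨ orderOf (a * b) = 2 ∨ orderOf (a * b) = 3 ∨
        orderOf (a * b) = 4 ∨ orderOf (a * b) = 5 := by omega
    rcases hcases with h | h | h | h | h
    · left
      apply hcomm
      rw [orderOf_eq_one_iff] at h
      rw [h, one_mul]
    · left
      apply hcomm
      exact mul_self_of_orderOf_two h
    · right; left; rw [h]; decide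
    · right; right
      refine ⟨h, ?_⟩
      show orderOf ((a * b) ^ 2) = 2
      rw [orderOf_pow' _ (by norm_num), h]
      rfl
    · right; left; rw [h]; decide
  · by_contra hne
    rw [Set.not_nonempty_iff_eq_empty] at hne
    rw [hne, Subgroup.closure_empty] at hgen
    have hnt : Nontrivial (alternatingGroup (Fin 6)) :=
      alternatingGroup.nontrivial_of_three_le_card (by simp)
    exact bot_ne_top hgen
  · intro a ha b hb
    have hc : IsConj (a : Perm (Fin 6)) (b : Perm (Fin 6)) :=
      isConj_iff_cycleType_eq.2 ((hct a ha).trans (hct b hb).symm)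
    have hsupp : (a : Perm (Fin 6)).support.card + 2 ≤ Fintype.card (Fin 6) := by
      rw [← sum_cycleType, hct a ha]
      decide
    obtain ⟨g, hg⟩ := isConj_iff.1 (alternatingGroup.isConj_of hc hsupp)
    exact ⟨g, hg.symm⟩

end Cfsg.Agent.H24
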