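import Mathlib

/-!
Sylow subgroups of alternating groups: abelian iff the degree is below `p²`.
-/

set_option autoImplicit false

namespace Cfsg.Agent.H24

open Equiv Equiv.Perm

/-- A `p`-group of permutations of fewer than `p²` points is abelian. -/
theorem perm_comm_of_small {α : Type*} [Finite α] (p : ℕ) [hp : Fact p.Prime]
    (P : Subgroup (Perm α)) (hP : IsPGroup p P) (hn : Nat.card α < p ^ 2) :
    ∀ x ∈ P, ∀ y ∈ P, x * y = y * x := by
  classical
  intro x hx y hy
  ext a
  let O := MulAction.orbit P a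
  haveI : Finite O := inferInstance
  obtain ⟨k, hk⟩ := IsPGroup.card_orbit (α := α) hP a
  have hOle : Nat.card O ≤ Nat.card α := Nat.card_le_card_of_injective _ Subtype.val_injective
  have hk1 : k ≤ 1 := by
    by_contra h
    push Not at h
    have : p ^ 2 ≤ p ^ k := Nat.pow_le_pow_right hp.out.pos h
    have h2 : Nat.card (MulAction.orbit P a) = p ^ k := hk
    change Nat.card (MulAction.orbit P a) ≤ _ at hOle
    omega
  let φ : P →* Perm O := MulAction.toPermHom P O
  have hR : IsPGroup p φ.range := hP.of_surjective φ.rangeRestrict φ.rangeRestrict_surjective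
  obtain ⟨m, hm⟩ := IsPGroup.iff_card.mp hR
  have hdvd : Nat.card φ.range ∣ (Nat.card O).factorial := by
    have := Subgroup.card_subgroup_dvd_card φ.range
    rwa [Nat.card_perm] at this
  have hm1 : m ≤ 1 := by
    by_contra h
    push Not at h
    have h2 : p ^ 2 ∣ (Nat.card O).factorial :=
      dvd_trans (by rw [hm]; exact pow_dvd_pow p h) hdvd
    have h3 : (Nat.card O).factorial ∣ p.factorial := by
      apply Nat.factorial_dvd_factorial
      have h2' : Nat.card (MulAction.orbit P a) = p ^ k := hk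
      change Nat.card (MulAction.orbit P a) ≤ _
      rw [h2']
      interval_cases k
      · simpa using hp.out.one_le
      · simp
    have h4 : p ^ 2 ∣ p.factorial := dvd_trans h2 h3
    obtain ⟨q, hq⟩ : ∃ q, p = q + 1 := ⟨p - 1, by have := hp.out.pos; omega⟩
    have h5 : p.factorial = p * (p - 1).factorial := by
      rw [hq]; simp [Nat.factorial_succ]
    rw [h5, pow_two] at h4
    have h6 : p ∣ (p - 1).factorial := Nat.dvd_of_mul_dvd_mul_left hp.out.pos h4
    have := (hp.out.dvd_factorial).mp h6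
    have := hp.out.pos
    omega
  have hcomm : ∀ u v : φ.range, u * v = v * u := by
    interval_cases m
    · have : Subsingleton φ.range := by
        exact (Nat.card_eq_one_iff_unique.mp (by simpa using hm)).1
      intro u v
      exact Subsingleton.elim _ _
    · haveI : Fact (Nat.card φ.range).Prime := ⟨by rw [hm]; simpa using hp.out⟩
      haveI : IsCyclic φ.range := isCyclic_of_prime_card rfl
      intro u v
      exact (IsCyclic.isMulCommutative (α := φ.range)).is_comm.comm u v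
  have := hcomm ⟨φ ⟨x, hx⟩, ⟨_, rfl⟩⟩ ⟨φ ⟨y, hy⟩, ⟨_, rfl⟩⟩
  have h2 : φ ⟨x, hx⟩ * φ ⟨y, hy⟩ = φ ⟨y, hy⟩ * φ ⟨x, hx⟩ := congrArg Subtype.val this
  have h3 := congrArg (fun f : Perm O => (f ⟨a, MulAction.mem_orbit_self a⟩ : O).1) h2
  exact h3

/-- Sign is preserved by extension of a permutation along an embedding. -/
theorem sign_viaEmbeddingHom {α β : Type*} [Fintype α] [DecidableEq α] [Fintype β] [DecidableEq β]
    (ι : α ↪ β) (e : Perm α) : sign (viaEmbeddingHom ι e) = sign e := by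
  classical
  rw [viaEmbeddingHom_apply]
  unfold viaEmbedding
  exact @sign_extendDomain _ _ _ _ _ _ e _ (fun a => Classical.propDecidable _) (ofInjective ι.1 ι.2)

/-- The permutations `(u,v) ↦ (u+a, v+b u+c)` of `(ZMod p)²`. -/
def heisPerm (p : ℕ) [Fact p.Prime] (t : ZMod p × ZMod p × ZMod p) : Perm (ZMod p × ZMod p) where
  toFun x := (x.1 + t.1, x.2 + t.2.1 * x.1 + t.2.2)
  invFun x := (x.1 - t.1, x.2 - t.2.1 * (x.1 - t.1) - t.2.2)
  left_inv x := by ext <;> simp <;> ring
  right_inv x := by ext <;> simp <;> ring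

theorem heisPerm_injective (p : ℕ) [Fact p.Prime] : Function.Injective (heisPerm p) := by
  rintro ⟨a, b, c⟩ ⟨a', b', c'⟩ h
  have h0 := congrArg (fun f : Perm (ZMod p × ZMod p) => f (0, 0)) h
  have h1 := congrArg (fun f : Perm (ZMod p × ZMod p) => f (1, 0)) h
  simp [heisPerm] at h0 h1
  obtain ⟨ha, hc⟩ := h0
  obtain ⟨_, hb⟩ := h1
  subst ha hc
  have : b = b' := by simpa using hb
  subst this
  rfl

/-- The Heisenberg subgroup of `Perm ((ZMod p)²)`. -/
def heisGroup (p : ℕ) [Fact p.Prime] : Subgroup (Perm (ZMod p × ZMod p)) where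
  carrier := Set.range (heisPerm p)
  one_mem' := ⟨(0, 0, 0), by ext x <;> simp [heisPerm]⟩
  mul_mem' := by
    rintro _ _ ⟨⟨a, b, c⟩, rfl⟩ ⟨⟨a', b', c'⟩, rfl⟩
    refine ⟨(a + a', b + b', c + c' + b * a'), ?_⟩
    ext x
    · simp [heisPerm]; ring
    · simp [heisPerm]; ring
  inv_mem' := by
    rintro _ ⟨⟨a, b, c⟩, rfl⟩
    refine ⟨(-a, -b, -c + b * a), ?_⟩
    rw [eq_inv_iff_mul_eq_one]
    ext x
    · simp [heisPerm]
    · simp [heisPerm]; ring

theorem heisGroup_isPGroup (p : ℕ) [hp : Fact p.Prime] : IsPGroup p (heisGroup p) := by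
  apply IsPGroup.of_card (n := 3)
  have h1 : Nat.card (heisGroup p) = Nat.card (Set.range (heisPerm p)) := rfl
  rw [h1, Nat.card_range_of_injective (heisPerm_injective p)]
  simp only [Nat.card_prod, Nat.card_zmod]
  ring

theorem exists_nonabelian_alt_odd (n p : ℕ) [hp : Fact p.Prime] (hodd : p ≠ 2) (hn : p ^ 2 ≤ n) :
    ∃ Q : Subgroup (alternatingGroup (Fin n)), IsPGroup p Q ∧
      ∃ x ∈ Q, ∃ y ∈ Q, x * y ≠ y * x := by
  classical
  haveI : NeZero p := ⟨hp.out.ne_zero⟩
  have hc : Fintype.card (ZMod p × ZMod p) ≤ Fintype.card (Fin n) := by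
    simp [ZMod.card, pow_two] at *
    nlinarith
  obtain ⟨ι⟩ := Function.Embedding.nonempty_of_card_le hc
  let φ := viaEmbeddingHom ι
  have hφ : Function.Injective φ := viaEmbeddingHom_injective ι
  let Q' := (heisGroup p).map φ
  have hQ' : IsPGroup p Q' := by
    exact (heisGroup_isPGroup p).map φ
  have hsign : ∀ g ∈ Q', g ∈ alternatingGroup (Fin n) := by
    intro g hg
    rw [mem_alternatingGroup]
    obtain ⟨k, hk⟩ := hQ' ⟨g, hg⟩
    have hk' : g ^ (p ^ k) = 1 := by
      have := congrArg Subtype.val hk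
      simpa using this
    have hs : (sign g) ^ (p ^ k) = 1 := by rw [← map_pow, hk', map_one]
    have hoddp : Odd (p ^ k) := (hp.out.odd_of_ne_two hodd).pow
    rcases Int.units_eq_one_or (sign g) with h | h
    · exact h
    · rw [h, hoddp.neg_one_pow] at hs
      exact absurd hs (by decide)
  refine ⟨Q'.subgroupOf (alternatingGroup (Fin n)), ?_, ?_⟩
  · intro g
    obtain ⟨k, hk⟩ := hQ' ⟨g.1.1, g.2⟩
    refine ⟨k, ?_⟩
    apply Subtype.ext
    apply Subtype.ext
    have := congrArg Subtype.val hk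
    simpa using this
  · let σ := heisPerm p (1, 0, 0)
    let ρ := heisPerm p (0, 1, 0)
    have hσ : σ ∈ heisGroup p := ⟨_, rfl⟩
    have hρ : ρ ∈ heisGroup p := ⟨_, rfl⟩
    have hσ' : φ σ ∈ Q' := Subgroup.mem_map_of_mem φ hσ
    have hρ' : φ ρ ∈ Q' := Subgroup.mem_map_of_mem φ hρ
    refine ⟨⟨φ σ, hsign _ hσ'⟩, by simpa [Subgroup.mem_subgroupOf] using hσ',
      ⟨φ ρ, hsign _ hρ'⟩, by simpa [Subgroup.mem_subgroupOf] using hρ', ?_⟩
    intro h
    have h2 : φ σ * φ ρ = φ ρ * φ σ := congrArg Subtype.val h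
    rw [← map_mul, ← map_mul] at h2
    have h3 := hφ h2
    have h4 := congrArg (fun f : Perm (ZMod p × ZMod p) => f (0, 0)) h3
    simp [σ, ρ, heisPerm] at h4

/-- The dihedral group of order 8 inside `A₆`. -/
def d8Set : Finset (Perm (Fin 6)) :=
  {1, swap 0 1 * swap 1 2 * swap 2 3 * swap 4 5, swap 0 2 * swap 1 3,
    swap 3 2 * swap 2 1 * swap 1 0 * swap 4 5, swap 0 2 * swap 4 5, swap 1 3 * swap 4 5,
    swap 0 1 * swap 2 3, swap 0 3 * swap 1 2}

set_option maxRecDepth 100000 in
theorem d8Set_mul : ∀ g ∈ d8Set, ∀ h ∈ d8Set, g * h ∈ d8Set := by decide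

set_option maxRecDepth 100000 in
theorem d8Set_inv : ∀ g ∈ d8Set, g⁻¹ ∈ d8Set := by decide

set_option maxRecDepth 100000 in
theorem d8Set_one : (1 : Perm (Fin 6)) ∈ d8Set := by decide

set_option maxRecDepth 100000 in
theorem d8Set_sign : ∀ g ∈ d8Set, sign g = 1 := by decide

set_option maxRecDepth 100000 in
theorem d8Set_card : d8Set.card = 8 := by decide

set_option maxRecDepth 100000 in
theorem d8Set_ne : swap 0 1 * swap 2 3 * (swap 0 2 * swap 4 5) ≠ swap 0 2 * swap 4 5 * (swap 0 1 * swap 2 3 : Perm (Fin 6)) := by decide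

def d8Group : Subgroup (Perm (Fin 6)) where
  carrier := d8Set
  one_mem' := d8Set_one
  mul_mem' := fun {a b} ha hb => d8Set_mul a ha b hb
  inv_mem' := fun {a} ha => d8Set_inv a ha

theorem d8Group_isPGroup : IsPGroup 2 d8Group := by
  apply IsPGroup.of_card (n := 3)
  have h1 : Nat.card d8Group = Nat.card (d8Set : Set (Perm (Fin 6))) := rfl
  rw [h1, Nat.card_coe_set_eq, Set.ncard_coe_finset, d8Set_card]
  norm_num

theorem exists_nonabelian_alt_two (n : ℕ) (hn : 6 ≤ n) :
    ∃ Q : Subgroup (alternatingGroup (Fin n)), IsPGroup 2 Q ∧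
      ∃ x ∈ Q, ∃ y ∈ Q, x * y ≠ y * x := by
  classical
  have hc : Fintype.card (Fin 6) ≤ Fintype.card (Fin n) := by simpa using hn
  obtain ⟨ι⟩ := Function.Embedding.nonempty_of_card_le hc
  let φ := viaEmbeddingHom ι
  have hφ : Function.Injective φ := viaEmbeddingHom_injective ι
  let Q' := d8Group.map φ
  have hQ' : IsPGroup 2 Q' := d8Group_isPGroup.map φ
  have hsign : ∀ g ∈ Q', g ∈ alternatingGroup (Fin n) := by
    rintro g ⟨g₀, hg₀, rfl⟩
    rw [mem_alternatingGroup]
    rw [sign_viaEmbeddingHom]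
    exact d8Set_sign g₀ hg₀
  refine ⟨Q'.subgroupOf (alternatingGroup (Fin n)), ?_, ?_⟩
  · intro g
    obtain ⟨k, hk⟩ := hQ' ⟨g.1.1, g.2⟩
    refine ⟨k, ?_⟩
    apply Subtype.ext
    apply Subtype.ext
    have := congrArg Subtype.val hk
    simpa using this
  · have hσ : (swap 0 1 * swap 2 3 : Perm (Fin 6)) ∈ d8Group := by
      change _ ∈ d8Set
      decide
    have hρ : (swap 0 2 * swap 4 5 : Perm (Fin 6)) ∈ d8Group := by
      change _ ∈ d8Set
      decide
    have hσ' := Subgroup.mem_map_of_mem φ hσ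
    have hρ' := Subgroup.mem_map_of_mem φ hρ
    refine ⟨⟨φ _, hsign _ hσ'⟩, by rw [Subgroup.mem_subgroupOf]; exact hσ',
      ⟨φ _, hsign _ hρ'⟩, by rw [Subgroup.mem_subgroupOf]; exact hρ', ?_⟩
    intro h
    have h2 := congrArg Subtype.val h
    simp only [MulMemClass.mk_mul_mk] at h2
    rw [← map_mul, ← map_mul] at h2
    exact d8Set_ne (hφ h2)

/-- Main theorem on Sylow subgroups of `Aₙ`. -/
theorem alt_sylow_abelian_iff (n p : ℕ) (hn : 6 ≤ n) [hp : Fact p.Prime]
    (S : Sylow p (alternatingGroup (Fin n))) : IsMulCommutative S ↔ n < p ^ 2 := by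
  classical
  constructor
  · intro hS
    by_contra hlt
    push Not at hlt
    obtain ⟨Q, hQ, x, hx, y, hy, hxy⟩ : ∃ Q : Subgroup (alternatingGroup (Fin n)), IsPGroup p Q ∧
        ∃ x ∈ Q, ∃ y ∈ Q, x * y ≠ y * x := by
      by_cases h2 : p = 2
      · subst h2
        exact exists_nonabelian_alt_two n hn
      · exact exists_nonabelian_alt_odd n p h2 hlt
    obtain ⟨S', hS'⟩ := hQ.exists_le_sylow
    obtain ⟨g, hg⟩ := MulAction.exists_smul_eq (alternatingGroup (Fin n)) S S'
    have hmem : ∀ z ∈ Q, g⁻¹ * z * g ∈ (S : Subgroup (alternatingGroup (Fin n))) := by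
      intro z hz
      have : z ∈ (S' : Subgroup (alternatingGroup (Fin n))) := hS' hz
      rw [← hg, Sylow.coe_subgroup_smul, Subgroup.mem_pointwise_smul_iff_inv_smul_mem] at this
      simpa [MulAut.conj_apply] using this
    have hcomm := hS.is_comm.comm (⟨_, hmem x hx⟩ : S) (⟨_, hmem y hy⟩ : S)
    have h2 : (g⁻¹ * x * g) * (g⁻¹ * y * g) = (g⁻¹ * y * g) * (g⁻¹ * x * g) :=
      congrArg Subtype.val hcomm
    apply hxy
    have h3 : g⁻¹ * (x * y) * g = g⁻¹ * (y * x) * g := by
      simpa [mul_assoc] using h2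
    simpa using h3
  · intro hlt
    have hP : IsPGroup p ((S : Subgroup (alternatingGroup (Fin n))).map (alternatingGroup (Fin n)).subtype) :=
      S.isPGroup'.map _
    have hcard : Nat.card (Fin n) < p ^ 2 := by simpa using hlt
    have := perm_comm_of_small p _ hP hcard
    refine ⟨⟨fun a b => ?_⟩⟩
    have h1 := this a.1.1 ⟨a.1, a.2, rfl⟩ b.1.1 ⟨b.1, b.2, rfl⟩
    apply Subtype.ext
    apply Subtype.ext
    exact h1

end Cfsg.Agent.H24
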