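import Cfsg.Agent.Lib.H25.FusNormSat

/-!
Saturation of the centralizer system of a fully centralized subgroup.
-/

set_option autoImplicit false

namespace Cfsg.Agent.H24.CSat

open Cfsg Cfsg.FusionSystem Cfsg.Agent.H25

variable {Ω : Type*} [Group Ω] {S : Subgroup Ω} {F : FusionSystem S} {Q : Subgroup Ω}
  {E : FusionSystem (centralizerIn S Q)}
variable {P R K A B : Subgroup Ω} {f g h : Ω → Ω} {p : ℕ}

theorem mp_E_iff (hE : F.IsCentralizerSystem Q E) : Mp E P f ↔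
    Mp F P f ∧ P ≤ centralizerIn S Q ∧ (∀ x ∈ P, f x ∈ centralizerIn S Q) ∧
      ∃ h, Mp F (P ⊔ Q) h ∧ (∀ x ∈ P, h x = f x) ∧ ∀ z ∈ Q, h z = z := by
  constructor
  · rintro ⟨φ, hφ, hf⟩
    rw [hE P] at hφ
    obtain ⟨h1, h2, h3, ψ, hψ, h4, h5⟩ := hφ
    refine ⟨⟨φ, h1, hf⟩, h2, fun x hx => ?_, toFun ψ, mp_of_mem hψ, fun x hx => ?_, fun z hz => ?_⟩
    · rw [← hf ⟨x, hx⟩]
      exact h3 ⟨x, hx⟩
    · rw [toFun_coe ψ ⟨x, Subgroup.mem_sup_left hx⟩, ← hf ⟨x, hx⟩]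
      exact h4 ⟨x, hx⟩
    · rw [toFun_coe ψ ⟨z, Subgroup.mem_sup_right hz⟩]
      exact h5 ⟨z, hz⟩
  · rintro ⟨⟨φ, h1, hf⟩, h2, h3, h', ⟨ψ, hψ, hψv⟩, h4, h5⟩
    refine ⟨φ, ?_, hf⟩
    rw [hE P]
    refine ⟨h1, h2, fun x => ?_, ψ, hψ, fun x => ?_, fun z => ?_⟩
    · rw [hf x]
      exact h3 x x.2
    · have h6 := hψv (Subgroup.inclusion le_sup_left x)
      rw [h6, hf x]
      exact h4 x x.2
    · have h6 := hψv (Subgroup.inclusion le_sup_right z)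
      rw [h6]
      exact h5 z z.2

theorem mpE_of_ext (hE : F.IsCentralizerSystem Q E) (hRT : R ≤ centralizerIn S Q) (hh : Mp F (R ⊔ Q) h)
    (hfix : ∀ z ∈ Q, h z = z) : Mp E R h := by
  refine (mp_E_iff hE).mpr ⟨hh.restrict le_sup_left, hRT, fun x hx => ?_, h, hh, fun _ _ => rfl, hfix⟩
  refine mem_centralizerIn.mpr ⟨hh.mem (Subgroup.mem_sup_left hx), fun z hz => ?_⟩
  have h1 := (mem_centralizerIn.mp (hRT hx)).2 z hz
  have hz' : z ∈ R ⊔ Q := Subgroup.mem_sup_right hz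
  have hx' : x ∈ R ⊔ Q := Subgroup.mem_sup_left hx
  have h2 := hh.map_mul hz' hx'
  have h3 := hh.map_mul hx' hz'
  rw [hfix z hz] at h2 h3
  rw [← h2, ← h3, h1]

/-- A conjugation relation extends from generators. -/
theorem conj_rel_sup (hh : Mp F (A ⊔ B) h) {g t : Ω} (hgN : g ∈ Subgroup.normalizer ((A ⊔ B : Subgroup Ω) : Set Ω))
    (h1 : ∀ x ∈ A, h (g * x * g⁻¹) = t * h x * t⁻¹) (h2 : ∀ x ∈ B, h (g * x * g⁻¹) = t * h x * t⁻¹) :
    ∀ x ∈ A ⊔ B, h (g * x * g⁻¹) = t * h x * t⁻¹ := by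
  have key : ∀ x, x ∈ Subgroup.closure ((A : Set Ω) ∪ B) → h (g * x * g⁻¹) = t * h x * t⁻¹ := by
    have hsub : Subgroup.closure ((A : Set Ω) ∪ B) = A ⊔ B := (Subgroup.sup_eq_closure A B).symm
    intro x hx
    induction hx using Subgroup.closure_induction with
    | mem x hx =>
      rcases hx with hx | hx
      · exact h1 x hx
      · exact h2 x hx
    | one =>
      have : g * (1 : Ω) * g⁻¹ = 1 := by group
      rw [this, hh.map_one]
      group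
    | mul a b ha hb iha ihb =>
      rw [hsub] at ha hb
      have e : g * (a * b) * g⁻¹ = (g * a * g⁻¹) * (g * b * g⁻¹) := by group
      rw [e, hh.map_mul (conj_mem_of_normalizer hgN ha) (conj_mem_of_normalizer hgN hb), iha, ihb,
        hh.map_mul ha hb]
      group
    | inv a ha iha =>
      rw [hsub] at ha
      have e : g * a⁻¹ * g⁻¹ = (g * a * g⁻¹)⁻¹ := by group
      rw [e, hh.map_inv (conj_mem_of_normalizer hgN ha), iha, hh.map_inv ha]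
      group
  intro x hx
  rw [Subgroup.sup_eq_closure] at hx
  exact key x hx

theorem norm_sup {g : Ω} (hgA : g ∈ Subgroup.normalizer (A : Set Ω)) (hgB : g ∈ Subgroup.normalizer (B : Set Ω)) :
    g ∈ Subgroup.normalizer ((A ⊔ B : Subgroup Ω) : Set Ω) := by
  have h3 : (A ⊔ B).map (MulAut.conj g).toMonoidHom = A ⊔ B := by
    rw [Subgroup.map_sup]
    have hA' : A.map (MulAut.conj g).toMonoidHom = A := by
      ext y
      constructor
      · rintro ⟨x, hx, rfl⟩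
        exact conj_mem_of_normalizer hgA hx
      · intro hy
        exact ⟨g⁻¹ * y * g, conj_inv_mem_of_normalizer hgA hy, by simp [mul_assoc]⟩
    have hB' : B.map (MulAut.conj g).toMonoidHom = B := by
      ext y
      constructor
      · rintro ⟨x, hx, rfl⟩
        exact conj_mem_of_normalizer hgB hx
      · intro hy
        exact ⟨g⁻¹ * y * g, conj_inv_mem_of_normalizer hgB hy, by simp [mul_assoc]⟩
    rw [hA', hB']
  refine mem_normalizer_of_conj (fun y hy => ?_) (fun y hy => ?_)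
  · rw [← h3]
    exact ⟨y, hy, rfl⟩
  · rw [← h3] at hy
    obtain ⟨x, hx, rfl⟩ := hy
    have : g⁻¹ * (MulAut.conj g).toMonoidHom x * g = x := by simp [mul_assoc]
    rw [this]
    exact hx

theorem cent_norm {t : Ω} (ht : t ∈ centralizerIn S Q) : t ∈ Subgroup.normalizer (Q : Set Ω) :=
  (mem_normalizerIn.mp (centralizerIn_le_normalizerIn ht)).2

theorem cent_conj {t z : Ω} (ht : t ∈ centralizerIn S Q) (hz : z ∈ Q) : t * z * t⁻¹ = z := by
  have h1 := (mem_centralizerIn.mp ht).2 z hz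
  rw [← h1]
  group

variable [Finite S] [Fact p.Prime]

/-- The extension to `C_S(Q') ⊔ Q'` of the inverse of a map of `F` on `Q`. -/
theorem exists_chi (hS : IsPGroup p S) (hF : F.IsSaturated p) (hQ : F.IsFullyCentralized Q) {Q' : Subgroup Ω}
    {h₂ : Ω → Ω} (hQ' : Iso F Q Q' h₂) :
    ∃ χ, Mp F (centralizerIn S Q' ⊔ Q') χ ∧ Iso F Q' Q χ ∧ (∀ z ∈ Q, χ (h₂ z) = z) ∧
      ∀ y ∈ centralizerIn S Q', χ y ∈ centralizerIn S Q := by
  have hQrec := receptive_of_fullyCentralized hS hF hQ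
  obtain ⟨χ₀, hχ₀, l, r⟩ := hQ'.inv
  obtain ⟨χ, hχ, hχv⟩ := recept_ext hQrec hχ₀ (le_sup_right : Q' ≤ centralizerIn S Q' ⊔ Q')
    (sup_le (fun c hc => Subgroup.subset_closure (mem_good_of_centralizes hχ₀
        (mem_centralizerIn.mp hc).1 (fun x hx => ((mem_centralizerIn.mp hc).2 x hx).symm)))
      (fun x hx => Subgroup.subset_closure (mem_good_of_mem hχ₀ hx)))
  have hI : Iso F Q' Q χ := hχ₀.congr fun x hx => (hχv x hx).symm
  refine ⟨χ, hχ, hI, fun z hz => ?_, fun y hy => ?_⟩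
  · rw [hχv _ (hQ'.maps z hz), l z hz]
  · exact maps_centralizer hχ hI le_sup_right (Subgroup.mem_sup_left hy)
      (Subgroup.mem_centralizer_iff.mpr fun x hx => (mem_centralizerIn.mp hy).2 x hx)

/-- Fully normalized subgroups of `C_F(Q)` are receptive. -/
theorem recep (hS : IsPGroup p S) (hF : F.IsSaturated p) (hQ : F.IsFullyCentralized Q)
    (hE : F.IsCentralizerSystem Q E) (hR : E.IsFullyNormalized R) : E.IsReceptive R := by
  classical
  have hQS := hQ.1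
  have hTS : centralizerIn S Q ≤ S := inf_le_left
  haveI : Finite (centralizerIn S Q) := finite_of_le hTS
  have hRT : R ≤ centralizerIn S Q := hR.1
  have hRS : R ≤ S := hRT.trans hTS
  refine ⟨hRT, fun P' φ hφ hr => ?_⟩
  have hI : Iso E P' R (toFun φ) := iso_range' hφ hr
  obtain ⟨e, he⟩ : ∃ e, e = toFun φ := ⟨_, rfl⟩
  rw [← he] at hI
  obtain ⟨heF, hP'T, -, eh, heh, hee, hefix⟩ := (mp_E_iff hE).mp hI.mp
  have hRhat : R ⊔ Q ≤ S := sup_le hRS hQS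
  have heI : Iso F (P' ⊔ Q) (R ⊔ Q) eh := by
    refine ⟨heh, fun x hx => ?_, fun y hy => ?_⟩
    · exact Mp.sup_maps heh (fun x hx => by rw [hee x hx]; exact hI.maps x hx) (fun z hz => by rw [hefix z hz]; exact hz) x hx
    · have hle : R ⊔ Q ≤ heh.img := by
        refine sup_le (fun y hy => ?_) (fun y hy => ?_)
        · obtain ⟨x, hx, rfl⟩ := hI.surj y hy
          exact (Mp.mem_img heh).mpr ⟨x, Subgroup.mem_sup_left hx, hee x hx⟩
        · exact (Mp.mem_img heh).mpr ⟨y, Subgroup.mem_sup_right hy, hefix y hy⟩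
      exact (Mp.mem_img heh).mp (hle hy)
  obtain ⟨R₂, f₂, hR₂, hf₂⟩ := exists_far hF hRhat
  obtain ⟨h₂, hh₂, hI₂⟩ := exists_ext_normalizer hS hR₂ (isConj_iff.mpr ⟨f₂, hf₂⟩)
  have hN : ∀ g ∈ extender (centralizerIn S Q) P' φ, g ∈ centralizerIn S Q ∧ g ∈ Subgroup.normalizer (P' : Set Ω) ∧
      ∃ t ∈ centralizerIn S Q, ∀ x ∈ P', e (g * x * g⁻¹) = t * e x * t⁻¹ := by
    intro g hg
    obtain ⟨h1, h2, t, ht, h3⟩ := extender_props hg
    refine ⟨h1, h2, t, ht, fun x hx => ?_⟩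
    have hgx : g * x * g⁻¹ ∈ P' := conj_mem_of_normalizer h2 hx
    rw [he, toFun_coe φ ⟨_, hgx⟩, toFun_coe φ ⟨x, hx⟩]
    exact h3 ⟨x, hx⟩ hgx
  have hle' : P' ≤ extender (centralizerIn S Q) P' φ := Cfsg.Agent.H24.le_extender hφ
  -- `t` normalizes `R ⊔ Q`
  have htN : ∀ g ∈ extender (centralizerIn S Q) P' φ, ∀ t ∈ centralizerIn S Q,
      (∀ x ∈ P', e (g * x * g⁻¹) = t * e x * t⁻¹) → g ∈ Subgroup.normalizer (P' : Set Ω) →
      t ∈ normalizerIn S (R ⊔ Q) := by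
    intro g _ t ht h3 hgN
    refine ⟨hTS ht, norm_sup (mem_normalizer_of_conj (fun y hy => ?_) (fun y hy => ?_)) (cent_norm ht)⟩
    · obtain ⟨x, hx, rfl⟩ := hI.surj y hy
      rw [← h3 x hx]
      exact hI.maps _ (conj_mem_of_normalizer hgN hx)
    · obtain ⟨x, hx, rfl⟩ := hI.surj y hy
      have hx' : g⁻¹ * x * g ∈ P' := conj_inv_mem_of_normalizer hgN hx
      have h4 := h3 _ hx'
      have e1 : g * (g⁻¹ * x * g) * g⁻¹ = x := by group
      rw [e1] at h4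
      rw [h4]
      have e2 : t⁻¹ * (t * e (g⁻¹ * x * g) * t⁻¹) * t = e (g⁻¹ * x * g) := by group
      rw [e2]
      exact hI.maps _ hx'
  have hI₃ : Iso F (P' ⊔ Q) R₂ (h₂ ∘ eh) := heI.comp hI₂
  -- the extension of `h₂ ∘ eh`
  obtain ⟨h₃, hh₃, hh₃e⟩ := recept_ext hR₂.recep hI₃
    (le_sup_right : P' ⊔ Q ≤ extender (centralizerIn S Q) P' φ ⊔ (P' ⊔ Q))
    (sup_le (fun g hg => by
      obtain ⟨hg1, hg2, t, ht, hg3⟩ := hN g hg
      have htn := htN g hg t ht hg3 hg2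
      have hgN : g ∈ Subgroup.normalizer ((P' ⊔ Q : Subgroup Ω) : Set Ω) := norm_sup hg2 (cent_norm hg1)
      refine Subgroup.subset_closure ⟨hTS hg1, hgN, h₂ t, hh₂.mem htn, fun x hx => ?_⟩
      have hrel := conj_rel_sup heh (g := g) (t := t) hgN (fun x hx => by
          rw [hee _ (conj_mem_of_normalizer hg2 hx), hee x hx]
          exact hg3 x hx) (fun z hz => by
          rw [cent_conj hg1 hz, hefix z hz, cent_conj ht hz]) x hx
      have hex : eh x ∈ normalizerIn S (R ⊔ Q) := le_normalizerIn hRhat (heI.maps x hx)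
      simp only [Function.comp]
      rw [hrel, hh₂.map_mul ((normalizerIn S (R ⊔ Q)).mul_mem htn hex) ((normalizerIn S (R ⊔ Q)).inv_mem htn),
        hh₂.map_mul htn hex, hh₂.map_inv htn])
      (fun x hx => Subgroup.subset_closure (mem_good_of_mem hI₃ hx)))
  -- the map on `Q`
  have hQN : Q ≤ normalizerIn S (R ⊔ Q) := le_sup_right.trans (le_normalizerIn hRhat)
  obtain ⟨Q', hQ'⟩ : ∃ Q', Iso F Q Q' h₂ := ⟨_, Iso.of_mp (hh₂.restrict hQN)⟩
  obtain ⟨χ, hχ, hχI, hχl, hχT⟩ := exists_chi hS hF hQ hQ'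
  have hh₃Q : ∀ z ∈ Q, h₃ z = h₂ z := fun z hz => by
    have := hh₃e z (Subgroup.mem_sup_right hz)
    simp only [Function.comp] at this
    rw [this, hefix z hz]
  have hh₃Q' : Iso F Q Q' h₃ := hQ'.congr fun z hz => (hh₃Q z hz).symm
  have hQD : Q ≤ extender (centralizerIn S Q) P' φ ⊔ (P' ⊔ Q) := le_sup_right.trans' le_sup_right
  have hNC : ∀ g ∈ extender (centralizerIn S Q) P' φ, h₃ g ∈ centralizerIn S Q' := fun g hg =>
    maps_centralizer hh₃ hh₃Q' hQD (Subgroup.mem_sup_left hg)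
      (Subgroup.mem_centralizer_iff.mpr fun z hz => (mem_centralizerIn.mp (hN g hg).1).2 z hz)
  -- the map on the normalizer
  have hW₀ : normalizerIn (centralizerIn S Q) R ≤ centralizerIn S Q := inf_le_left
  have hWH : normalizerIn (centralizerIn S Q) R ⊔ Q ≤ normalizerIn S (R ⊔ Q) := by
    refine sup_le (fun g hg => ?_) hQN
    exact ⟨hTS (hW₀ hg), norm_sup hg.2 (cent_norm (hW₀ hg))⟩
  have hh2WH := hh₂.restrict hWH
  have hQWH : Q ≤ normalizerIn (centralizerIn S Q) R ⊔ Q := le_sup_right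
  have hh₂W₀ : ∀ g ∈ normalizerIn (centralizerIn S Q) R, h₂ g ∈ centralizerIn S Q' := fun g hg =>
    maps_centralizer hh2WH hQ' hQWH (Subgroup.mem_sup_left hg)
      (Subgroup.mem_centralizer_iff.mpr fun z hz => (mem_centralizerIn.mp (hW₀ hg)).2 z hz)
  have hsigH : Mp F (normalizerIn (centralizerIn S Q) R ⊔ Q) (χ ∘ h₂) :=
    hh2WH.comp (Mp.sup_maps hh2WH hh₂W₀ hQ'.maps) hχ
  have hσE : Mp E (normalizerIn (centralizerIn S Q) R) (χ ∘ h₂) :=
    mpE_of_ext hE hW₀ hsigH hχl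
  have hRW : R ≤ normalizerIn (centralizerIn S Q) R := le_normalizerIn hRT
  obtain ⟨R₁, hR₁⟩ : ∃ R₁, Iso E R R₁ (χ ∘ h₂) := ⟨_, Iso.of_mp (hσE.restrict hRW)⟩
  have hcardle := hR.2 R₁ (isConj_iff.mpr ⟨_, hR₁⟩)
  have hσImg : hσE.img = normalizerIn (centralizerIn S Q) R₁ := by
    haveI : Finite (normalizerIn (centralizerIn S Q) R₁) :=
      finite_of_le (S := S) ((inf_le_left : normalizerIn (centralizerIn S Q) R₁ ≤ centralizerIn S Q).trans hTS)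
    apply Subgroup.eq_of_le_of_card_ge
    · intro y hy
      obtain ⟨x, hx, rfl⟩ := (Mp.mem_img hσE).mp hy
      exact maps_normalizer hσE hR₁ hRW inf_le_right hx
    · have h1 : Nat.card hσE.img = Nat.card (normalizerIn (centralizerIn S Q) R) := (Iso.of_mp hσE).card_eq.symm
      rw [h1]
      exact hcardle
  obtain ⟨σ', hσ', hσ'1, hσ'2⟩ := hσE.inv
  -- the extension
  have hNT : extender (centralizerIn S Q) P' φ ≤ centralizerIn S Q := fun g hg => (hN g hg).1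
  have hND : extender (centralizerIn S Q) P' φ ⊔ Q ≤ extender (centralizerIn S Q) P' φ ⊔ (P' ⊔ Q) :=
    sup_le le_sup_left hQD
  have hh₃' := hh₃.restrict hND
  have hpsiH : Mp F (extender (centralizerIn S Q) P' φ ⊔ Q) (χ ∘ h₃) :=
    hh₃'.comp (Mp.sup_maps hh₃' hNC hh₃Q'.maps) hχ
  have hψ₀E : Mp E (extender (centralizerIn S Q) P' φ) (χ ∘ h₃) :=
    mpE_of_ext hE hNT hpsiH fun z hz => by
      simp only [Function.comp]
      rw [hh₃Q z hz]
      exact hχl z hz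
  have hψ₀P : ∀ x ∈ P', (χ ∘ h₃) x = (χ ∘ h₂) (e x) := fun x hx => by
    have := hh₃e x (Subgroup.mem_sup_left hx)
    simp only [Function.comp] at this ⊢
    rw [this, hee x hx]
  have hψ₀I : Iso E P' R₁ (χ ∘ h₃) := (hI.comp hR₁).congr fun x hx => (hψ₀P x hx).symm
  have hψ₀val : ∀ g ∈ extender (centralizerIn S Q) P' φ, (χ ∘ h₃) g ∈ hσE.img := by
    intro g hg
    rw [hσImg]
    exact maps_normalizer hψ₀E hψ₀I hle' (fun g hg => (hN g hg).2.1) hg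
  have hψ : Mp E (extender (centralizerIn S Q) P' φ) (σ' ∘ (χ ∘ h₃)) := hψ₀E.comp hψ₀val hσ'
  obtain ⟨ψ₁, hψ₁, hψ₁v⟩ := hψ
  refine ⟨ψ₁, hψ₁, fun x hP hNx => ?_⟩
  rw [hψ₁v ⟨x, hNx⟩]
  simp only [Function.comp]
  have h1 := hψ₀P x hP
  simp only [Function.comp] at h1
  rw [h1]
  have h2 := hσ'1 _ (hRW (hI.maps x hP))
  simp only [Function.comp] at h2
  rw [h2, he, toFun_coe φ ⟨x, hP⟩]

theorem cent_sup {c y : Ω} (hA : ∀ x ∈ A, x * c = c * x) (hB : ∀ x ∈ B, x * c = c * x) (hy : y ∈ A ⊔ B) :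
    y * c = c * y := by
  rw [Subgroup.sup_eq_closure] at hy
  induction hy using Subgroup.closure_induction with
  | mem x hx =>
    rcases hx with hx | hx
    · exact hA x hx
    · exact hB x hx
  | one => simp
  | mul a b _ _ ha hb => rw [mul_assoc, hb, ← mul_assoc, ha, mul_assoc]
  | inv a _ ha =>
    calc a⁻¹ * c = a⁻¹ * (c * a) * a⁻¹ := by group
      _ = a⁻¹ * (a * c) * a⁻¹ := by rw [ha]
      _ = c * a⁻¹ := by group

/-- An automorphism of `A ⊔ B` trivial on `A` and `B` is trivial. -/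
theorem mulAut_sup_ext (β : MulAut (A ⊔ B : Subgroup Ω))
    (hA : ∀ x (hx : x ∈ A), ((β ⟨x, Subgroup.mem_sup_left hx⟩ : (A ⊔ B : Subgroup Ω)) : Ω) = x)
    (hB : ∀ x (hx : x ∈ B), ((β ⟨x, Subgroup.mem_sup_right hx⟩ : (A ⊔ B : Subgroup Ω)) : Ω) = x) : β = 1 := by
  have key : A ⊔ B ≤ (MonoidHom.eqLocus β.toMonoidHom (MonoidHom.id (A ⊔ B : Subgroup Ω))).map (A ⊔ B).subtype := by
    refine sup_le (fun x hx => ?_) (fun x hx => ?_)
    · exact ⟨⟨x, Subgroup.mem_sup_left hx⟩, Subtype.ext (hA x hx), rfl⟩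
    · exact ⟨⟨x, Subgroup.mem_sup_right hx⟩, Subtype.ext (hB x hx), rfl⟩
  apply MulEquiv.ext
  intro y
  obtain ⟨y', hy', hyy⟩ := key y.2
  have e : y' = y := Subtype.ext hyy
  rw [e] at hy'
  exact hy'

/-- The lifts to `R ⊔ Q` of the elements of a subgroup of `Aut(R)`, fixing `Q` pointwise. -/
def liftGroup (Q R : Subgroup Ω) (VV : Subgroup (MulAut R)) : Subgroup (MulAut (R ⊔ Q : Subgroup Ω)) where
  carrier := {β | (∀ z (hz : z ∈ Q), ((β ⟨z, Subgroup.mem_sup_right hz⟩ : (R ⊔ Q : Subgroup Ω)) : Ω) = z) ∧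
    ∃ α ∈ VV, ∀ x (hx : x ∈ R), ((β ⟨x, Subgroup.mem_sup_left hx⟩ : (R ⊔ Q : Subgroup Ω)) : Ω) = ((α ⟨x, hx⟩ : R) : Ω)}
  one_mem' := ⟨fun _ _ => rfl, 1, VV.one_mem, fun _ _ => rfl⟩
  mul_mem' := by
    rintro a b ⟨ha, α, hα, hax⟩ ⟨hb, α', hα', hbx⟩
    refine ⟨fun z hz => ?_, α * α', VV.mul_mem hα hα', fun x hx => ?_⟩
    · have h1 : b ⟨z, Subgroup.mem_sup_right hz⟩ = ⟨z, Subgroup.mem_sup_right hz⟩ := Subtype.ext (hb z hz)
      rw [MulAut.mul_apply, h1]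
      exact ha z hz
    · have h1 : b ⟨x, Subgroup.mem_sup_left hx⟩ = ⟨((α' ⟨x, hx⟩ : R) : Ω), Subgroup.mem_sup_left (α' ⟨x, hx⟩).2⟩ :=
        Subtype.ext (hbx x hx)
      rw [MulAut.mul_apply, h1, hax _ (α' ⟨x, hx⟩).2]
      rfl
  inv_mem' := by
    rintro a ⟨ha, α, hα, hax⟩
    refine ⟨fun z hz => ?_, α⁻¹, VV.inv_mem hα, fun x hx => ?_⟩
    · have h1 : a ⟨z, Subgroup.mem_sup_right hz⟩ = ⟨z, Subgroup.mem_sup_right hz⟩ := Subtype.ext (ha z hz)
      have h2 : a⁻¹ ⟨z, Subgroup.mem_sup_right hz⟩ = ⟨z, Subgroup.mem_sup_right hz⟩ := by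
        conv_lhs => rw [← h1]
        simp
      rw [h2]
    · have h1 : a ⟨((α⁻¹ ⟨x, hx⟩ : R) : Ω), Subgroup.mem_sup_left (α⁻¹ ⟨x, hx⟩).2⟩ = ⟨x, Subgroup.mem_sup_left hx⟩ := by
        apply Subtype.ext
        rw [hax _ (α⁻¹ ⟨x, hx⟩).2]
        have : α (α⁻¹ ⟨x, hx⟩) = ⟨x, hx⟩ := by simp
        exact congrArg Subtype.val this
      have h2 : a⁻¹ ⟨x, Subgroup.mem_sup_left hx⟩ = ⟨((α⁻¹ ⟨x, hx⟩ : R) : Ω), Subgroup.mem_sup_left (α⁻¹ ⟨x, hx⟩).2⟩ := by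
        conv_lhs => rw [← h1]
        simp
      rw [h2]

theorem liftGroup_pgroup {VV : Subgroup (MulAut R)} (hVV : IsPGroup p VV) : IsPGroup p (liftGroup Q R VV) := by
  rintro ⟨β, hβz, α, hα, hβx⟩
  obtain ⟨k, hk⟩ := hVV ⟨α, hα⟩
  refine ⟨k, Subtype.ext ?_⟩
  have hk' : α ^ p ^ k = 1 := congrArg Subtype.val hk
  have hpow : ∀ n : ℕ, (∀ z (hz : z ∈ Q), (((β ^ n) ⟨z, Subgroup.mem_sup_right hz⟩ : (R ⊔ Q : Subgroup Ω)) : Ω) = z) ∧
      ∀ x (hx : x ∈ R), (((β ^ n) ⟨x, Subgroup.mem_sup_left hx⟩ : (R ⊔ Q : Subgroup Ω)) : Ω) = (((α ^ n) ⟨x, hx⟩ : R) : Ω) := by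
    intro n
    induction n with
    | zero => exact ⟨fun _ _ => rfl, fun _ _ => rfl⟩
    | succ n ih =>
      refine ⟨fun z hz => ?_, fun x hx => ?_⟩
      · have h1 : (β) ⟨z, Subgroup.mem_sup_right hz⟩ = ⟨z, Subgroup.mem_sup_right hz⟩ := Subtype.ext (hβz z hz)
        rw [pow_succ, MulAut.mul_apply, h1]
        exact ih.1 z hz
      · have h1 : (β) ⟨x, Subgroup.mem_sup_left hx⟩ = ⟨((α ⟨x, hx⟩ : R) : Ω), Subgroup.mem_sup_left (α ⟨x, hx⟩).2⟩ :=
          Subtype.ext (hβx x hx)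
        rw [pow_succ, MulAut.mul_apply, h1, ih.2 _ (α ⟨x, hx⟩).2, pow_succ, MulAut.mul_apply]
  have h1 := hpow (p ^ k)
  show β ^ p ^ k = 1
  apply mulAut_sup_ext
  · intro x hx
    rw [h1.2 x hx, hk']
    rfl
  · exact h1.1

/-- A `p`-subgroup of `Aut_F(A)` is, after an `F`-isomorphism onto a far subgroup, induced by conjugation in `S`. -/
theorem exists_uniform (hF : F.IsSaturated p) (hAS : A ≤ S) (WH : Subgroup (MulAut A))
    (hWH : WH ≤ F.autGroup A) (hWHp : IsPGroup p WH) :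
    ∃ R₂ f₃, Far F p R₂ ∧ Iso F A R₂ f₃ ∧ ∀ β ∈ WH, ∃ u ∈ S, ∀ x : A, f₃ ((β x : A) : Ω) = u * f₃ x * u⁻¹ := by
  classical
  haveI : Finite A := finite_of_le hAS
  obtain ⟨R₂, f₂, hR₂, hf₂⟩ := exists_far hF hAS
  obtain ⟨f₂', hf₂', h12, h21⟩ := hf₂.inv
  let Φ₂ := autTransport hAS hf₂ hf₂' h12
  obtain ⟨WW, hWW⟩ : ∃ WW : Subgroup (MulAut R₂), WW = ((WH.subgroupOf (F.autGroup A)).map Φ₂).map
    (F.autGroup R₂).subtype := ⟨_, rfl⟩
  have hWWp : IsPGroup p WW := by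
    rw [hWW]
    have h1 : IsPGroup p (WH.subgroupOf (F.autGroup A)) :=
      hWHp.of_injective (Subgroup.subgroupOfEquivOfLe hWH).toMonoidHom (MulEquiv.injective _)
    exact (h1.map _).map _
  have hWWF : WW ≤ F.autGroup R₂ := by
    rw [hWW]
    rintro _ ⟨a, -, rfl⟩
    exact a.2
  obtain ⟨γ, hγ, hγW⟩ := Cfsg.Agent.H24.exists_conj_into_autS hR₂.auto WW hWWF hWWp
  have hγI := Iso.of_mem_autGroup hR₂.le hγ
  obtain ⟨f₃, hf₃⟩ : ∃ f₃, f₃ = toFun (R₂.subtype.comp γ.toMonoidHom) ∘ f₂ := ⟨_, rfl⟩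
  have hf₃I : Iso F A R₂ f₃ := by
    rw [hf₃]
    exact hf₂.comp hγI
  refine ⟨R₂, f₃, hR₂, hf₃I, ?_⟩
  intro α hα
  have hαF := hWH hα
  have h1 : ((Φ₂ ⟨α, hαF⟩ : F.autGroup R₂) : MulAut R₂) ∈ WW := by
    rw [hWW]
    exact ⟨Φ₂ ⟨α, hαF⟩, ⟨⟨α, hαF⟩, Subgroup.mem_subgroupOf.mpr hα, rfl⟩, rfl⟩
  obtain ⟨u, hu, hux⟩ := exists_of_mem_autInducedBy (hγW _ h1)
  refine ⟨u, hu, fun x => ?_⟩
  have h2 := hux (γ ⟨f₂ x, hf₂.maps x x.2⟩)
  have h3 : (γ * ((Φ₂ ⟨α, hαF⟩ : F.autGroup R₂) : MulAut R₂) * γ⁻¹) (γ ⟨f₂ x, hf₂.maps x x.2⟩) =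
      γ (((Φ₂ ⟨α, hαF⟩ : F.autGroup R₂) : MulAut R₂) ⟨f₂ x, hf₂.maps x x.2⟩) := by
    simp [MulAut.mul_apply]
  rw [h3] at h2
  have h4 := autTransport_apply hAS hf₂ hf₂' h12 ⟨α, hαF⟩ ⟨f₂ x, hf₂.maps x x.2⟩
  have e : (⟨f₂' (f₂ x), hf₂'.maps _ (hf₂.maps x x.2)⟩ : A) = x := Subtype.ext (h12 x x.2)
  simp only [e] at h4
  have h5 : ((Φ₂ ⟨α, hαF⟩ : F.autGroup R₂) : MulAut R₂) ⟨f₂ x, hf₂.maps x x.2⟩ = ⟨f₂ (α x), hf₂.maps _ (α x).2⟩ :=
    Subtype.ext h4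
  rw [h5] at h2
  have h6 : ∀ z : R₂, toFun (R₂.subtype.comp γ.toMonoidHom) z = ((γ z : R₂) : Ω) := fun z => toFun_aut γ z
  rw [hf₃]
  simp only [Function.comp]
  rw [h6 ⟨f₂ _, hf₂.maps _ (α x).2⟩, h6 ⟨f₂ x, hf₂.maps x x.2⟩]
  exact h2

/-- Fully normalized subgroups of `C_F(Q)` are fully automized. -/
theorem auto (hS : IsPGroup p S) (hF : F.IsSaturated p) (hQ : F.IsFullyCentralized Q)
    (hE : F.IsCentralizerSystem Q E) (hR : E.IsFullyNormalized R) : E.IsFullyAutomized p R := by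
  classical
  have hQS := hQ.1
  have hTS : centralizerIn S Q ≤ S := inf_le_left
  have hRT : R ≤ centralizerIn S Q := hR.1
  have hRS : R ≤ S := hRT.trans hTS
  haveI hfinR : Finite R := finite_of_le hRS
  haveI hfinT : Finite (centralizerIn S Q) := finite_of_le hTS
  have hTp : IsPGroup p (centralizerIn S Q) := hS.to_le hTS
  have hAT : autInducedBy (centralizerIn S Q) R ≤ E.autGroup R := autInducedBy_le hRT
  have hB : IsPGroup p ((autInducedBy (centralizerIn S Q) R).subgroupOf (E.autGroup R)) :=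
    (Cfsg.Agent.H24.isPGroup_autInducedBy hTp R).of_injective
      (Subgroup.subgroupOfEquivOfLe hAT).toMonoidHom (MulEquiv.injective _)
  obtain ⟨V, hV⟩ := hB.exists_le_sylow
  have hEF : E.autGroup R ≤ F.autGroup R := fun α hα =>
    (Cfsg.Agent.H25.mem_autGroup_iff hRS).mpr ((mp_E_iff hE).mp ((Cfsg.Agent.H25.mem_autGroup_iff hRT).mp hα)).1
  obtain ⟨VV, hVV⟩ : ∃ VV : Subgroup (MulAut R), VV = (V : Subgroup (E.autGroup R)).map
    (E.autGroup R).subtype := ⟨_, rfl⟩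
  have hVVp : IsPGroup p VV := by
    rw [hVV]
    exact V.isPGroup'.map _
  have hVVE : VV ≤ E.autGroup R := by
    rw [hVV]
    rintro _ ⟨a, -, rfl⟩
    exact a.2
  have hVVF : VV ≤ F.autGroup R := hVVE.trans hEF
  have hVVcard : Nat.card VV = Nat.card V := by
    rw [hVV]
    exact (Nat.card_congr (Subgroup.equivMapOfInjective _ _ (Subgroup.subtype_injective _)).toEquiv).symm
  have hRh : R ≤ R ⊔ Q := le_sup_left
  have hQh : Q ≤ R ⊔ Q := le_sup_right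
  have hRhS : R ⊔ Q ≤ S := sup_le hRS hQS
  haveI hfinRh : Finite (R ⊔ Q : Subgroup Ω) := finite_of_le hRhS
  -- the lifts
  have hlift : ∀ α ∈ VV, ∃ β ∈ liftGroup Q R VV ⊓ F.autGroup (R ⊔ Q),
      (∀ x (hx : x ∈ R), ((β ⟨x, Subgroup.mem_sup_left hx⟩ : (R ⊔ Q : Subgroup Ω)) : Ω) = ((α ⟨x, hx⟩ : R) : Ω)) ∧
      ∀ z (hz : z ∈ Q), ((β ⟨z, Subgroup.mem_sup_right hz⟩ : (R ⊔ Q : Subgroup Ω)) : Ω) = z := by
    intro α hα
    obtain ⟨-, -, -, e, he, hex, hez⟩ := (mp_E_iff hE).mp ((Cfsg.Agent.H25.mem_autGroup_iff hRT).mp (hVVE hα))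
    have heI : Iso F (R ⊔ Q) (R ⊔ Q) e := Iso.of_maps he (Mp.sup_maps he (fun x hx => by
      rw [hex x hx, toFun_aut α ⟨x, hx⟩]
      exact (α ⟨x, hx⟩).2) (fun z hz => by rw [hez z hz]; exact hz))
    have h1 : ∀ x (hx : x ∈ R), ((autOfIso heI ⟨x, Subgroup.mem_sup_left hx⟩ : (R ⊔ Q : Subgroup Ω)) : Ω) = ((α ⟨x, hx⟩ : R) : Ω) := by
      intro x hx
      rw [autOfIso_apply, hex x hx, toFun_aut α ⟨x, hx⟩]
    have h2 : ∀ z (hz : z ∈ Q), ((autOfIso heI ⟨z, Subgroup.mem_sup_right hz⟩ : (R ⊔ Q : Subgroup Ω)) : Ω) = z := by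
      intro z hz
      rw [autOfIso_apply, hez z hz]
    exact ⟨autOfIso heI, ⟨⟨h2, α, hα, h1⟩, autOfIso_mem heI⟩, h1, h2⟩
  have hWHp : IsPGroup p (liftGroup Q R VV ⊓ F.autGroup (R ⊔ Q) : Subgroup (MulAut (R ⊔ Q : Subgroup Ω))) :=
    (liftGroup_pgroup hVVp).to_le inf_le_left
  obtain ⟨R₂, f₃, hR₂, hf₃I, hU⟩ := exists_uniform hF hRhS _ inf_le_right hWHp
  -- the extension to the centralizer
  obtain ⟨h₃, hh₃, hh₃f⟩ := recept_ext hR₂.recep hf₃I (le_sup_left : R ⊔ Q ≤ (R ⊔ Q) ⊔ centralizerIn S (R ⊔ Q))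
    (sup_le (fun x hx => Subgroup.subset_closure (mem_good_of_mem hf₃I hx))
      (fun c hc => Subgroup.subset_closure (mem_good_of_centralizes hf₃I
        (mem_centralizerIn.mp hc).1 (fun x hx => ((mem_centralizerIn.mp hc).2 x hx).symm))))
  have hQK : Q ≤ (R ⊔ Q) ⊔ centralizerIn S (R ⊔ Q) := hQh.trans le_sup_left
  obtain ⟨Q'', hQ''⟩ : ∃ Q'', Iso F Q Q'' h₃ := ⟨_, Iso.of_mp (hh₃.restrict hQK)⟩
  obtain ⟨χ, hχ, hχI, hχl, hχT⟩ := exists_chi hS hF hQ hQ''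
  -- the domain
  have hCT : centralizerIn (centralizerIn S Q) R ≤ centralizerIn S (R ⊔ Q) := fun c hc =>
    mem_centralizerIn.mpr ⟨hTS hc.1, fun y hy => cent_sup (mem_centralizerIn.mp hc).2
      (mem_centralizerIn.mp hc.1).2 hy⟩
  obtain ⟨Y, hY⟩ : ∃ Y, Y = R ⊔ centralizerIn (centralizerIn S Q) R := ⟨_, rfl⟩
  have hRY : R ≤ Y := hY ▸ le_sup_left
  have hCY : centralizerIn (centralizerIn S Q) R ≤ Y := hY ▸ le_sup_right
  have hYT : Y ≤ centralizerIn S Q := by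
    rw [hY]
    exact sup_le hRT inf_le_left
  have hYle : Y ⊔ Q ≤ (R ⊔ Q) ⊔ centralizerIn S (R ⊔ Q) := by
    refine sup_le ?_ hQK
    rw [hY]
    exact sup_le (hRh.trans le_sup_left) (hCT.trans le_sup_right)
  have hh₃Y := hh₃.restrict hYle
  have hh₃C : ∀ y ∈ Y, h₃ y ∈ centralizerIn S Q'' := fun y hy =>
    maps_centralizer hh₃Y hQ'' le_sup_right (Subgroup.mem_sup_left hy)
      (Subgroup.mem_centralizer_iff.mpr fun z hz => (mem_centralizerIn.mp (hYT hy)).2 z hz)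
  have hτH : Mp F (Y ⊔ Q) (χ ∘ h₃) := hh₃Y.comp (Mp.sup_maps hh₃Y hh₃C hQ''.maps) hχ
  have hτE : Mp E Y (χ ∘ h₃) := mpE_of_ext hE hYT hτH hχl
  have hτ : Mp F Y (χ ∘ h₃) := hτH.restrict le_sup_left
  obtain ⟨R₃, hR₃E⟩ : ∃ R₃, Iso E R R₃ (χ ∘ h₃) := ⟨_, Iso.of_mp (hτE.restrict hRY)⟩
  have hR₃ : Iso F R R₃ (χ ∘ h₃) := ⟨hτ.restrict hRY, hR₃E.maps, hR₃E.surj⟩
  have hcardle := hR.2 R₃ (isConj_iff.mpr ⟨_, hR₃E⟩)
  have hR₃S : R₃ ≤ S := fun y hy => by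
    obtain ⟨x, hx, rfl⟩ := hR₃.surj y hy
    exact hτ.mem (hRY hx)
  haveI hfinR₃ : Finite R₃ := finite_of_le hR₃S
  obtain ⟨τ', hτ', h1τ, h2τ⟩ := hR₃.inv
  let Ψ := autTransport hRS hR₃ hτ' h1τ
  have hΨinj := autTransport_injective hRS hR₃ hτ' h1τ
  have hCle : centralizerIn S Q'' ≤ centralizerIn S Q'' ⊔ Q'' := le_sup_left
  have hΨmem : ∀ α (hα : α ∈ VV), ((Ψ ⟨α, hVVF hα⟩ : F.autGroup R₃) : MulAut R₃) ∈
      autInducedBy (centralizerIn S Q) R₃ := by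
    intro α hα
    obtain ⟨β, hβW, hβx, hβz⟩ := hlift α hα
    obtain ⟨u, hu, hux⟩ := hU β hβW
    have huC : u ∈ centralizerIn S Q'' := by
      refine mem_centralizerIn.mpr ⟨hu, fun y hy => ?_⟩
      obtain ⟨z, hz, rfl⟩ := hQ''.surj y hy
      have h1 := hux ⟨z, hQh hz⟩
      rw [hβz z hz] at h1
      rw [hh₃f z (hQh hz)]
      have h2 : f₃ z * u = u * f₃ z * u⁻¹ * u := by rw [← h1]
      rw [h2]
      group
    refine mem_autInducedBy_of_conj (hχT u huC) fun y => ?_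
    have h3 := autTransport_apply hRS hR₃ hτ' h1τ ⟨α, hVVF hα⟩ y
    have hyR := hτ'.maps y y.2
    refine h3.trans ?_
    have hαR : ((α ⟨τ' y, hyR⟩ : R) : Ω) ∈ R := (α ⟨τ' y, hyR⟩).2
    have h5 := hux ⟨τ' y, hRh hyR⟩
    rw [hβx _ hyR] at h5
    have hfy : f₃ (τ' y) ∈ centralizerIn S Q'' := by
      rw [← hh₃f _ (hRh hyR)]
      exact hh₃C _ (hRY hyR)
    show χ (h₃ ((α ⟨τ' y, hyR⟩ : R) : Ω)) = _
    rw [hh₃f _ (hRh hαR), h5]
    have hχm : χ (u * f₃ (τ' y) * u⁻¹) = χ u * χ (f₃ (τ' y)) * (χ u)⁻¹ := by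
      rw [hχ.map_mul ((centralizerIn S Q'' ⊔ Q'').mul_mem (hCle huC) (hCle hfy)) ((centralizerIn S Q'' ⊔ Q'').inv_mem (hCle huC)),
        hχ.map_mul (hCle huC) (hCle hfy), hχ.map_inv (hCle huC)]
    rw [hχm]
    congr 2
    rw [← hh₃f _ (hRh hyR)]
    exact h2τ y y.2
  have hcardV : Nat.card VV ≤ Nat.card (autInducedBy (centralizerIn S Q) R₃) := by
    haveI : Finite (autInducedBy (centralizerIn S Q) R₃) := inferInstance
    refine Nat.card_le_card_of_injective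
      (fun α : VV => (⟨_, hΨmem α.1 α.2⟩ : autInducedBy (centralizerIn S Q) R₃)) ?_
    intro a b hab
    have h1 : ((Ψ ⟨a.1, hVVF a.2⟩ : F.autGroup R₃) : MulAut R₃) = ((Ψ ⟨b.1, hVVF b.2⟩ : F.autGroup R₃) : MulAut R₃) :=
      Subtype.mk.inj hab
    have h2 := hΨinj (Subtype.ext h1)
    exact Subtype.ext (Subtype.mk.inj h2)
  have hcardC : Nat.card (centralizerIn (centralizerIn S Q) R) ≤ Nat.card (centralizerIn (centralizerIn S Q) R₃) := by
    haveI : Finite (centralizerIn (centralizerIn S Q) R₃) :=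
      finite_of_le (S := S) ((inf_le_left : centralizerIn (centralizerIn S Q) R₃ ≤ centralizerIn S Q).trans hTS)
    have hval : ∀ u : centralizerIn (centralizerIn S Q) R, (χ ∘ h₃) u ∈ centralizerIn (centralizerIn S Q) R₃ := by
      intro u
      have huK : (u : Ω) ∈ Y := hCY u.2
      refine ⟨hχT _ (hh₃C u huK), ?_⟩
      exact (maps_centralizer hτ hR₃ hRY huK u.2.2).2
    refine Nat.card_le_card_of_injective (fun u => (⟨_, hval u⟩ : centralizerIn (centralizerIn S Q) R₃)) ?_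
    intro a b hab
    have h1 : (χ ∘ h₃) (a : Ω) = (χ ∘ h₃) (b : Ω) := congrArg Subtype.val hab
    exact Subtype.ext (hτ.inj (hCY a.2) (hCY b.2) h1)
  have e1 := card_normalizerIn_eq (T := centralizerIn S Q) (X := R) hTS
  have e2 := card_normalizerIn_eq (T := centralizerIn S Q) (X := R₃) hTS
  have hCpos : 0 < Nat.card (centralizerIn (centralizerIn S Q) R) := by
    haveI : Finite (centralizerIn (centralizerIn S Q) R) :=
      finite_of_le (S := S) ((inf_le_left : centralizerIn (centralizerIn S Q) R ≤ centralizerIn S Q).trans hTS)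
    exact Nat.card_pos
  have hfinal : Nat.card V ≤ Nat.card (autInducedBy (centralizerIn S Q) R) := by
    rw [← hVVcard]
    have h1 : Nat.card VV * Nat.card (centralizerIn (centralizerIn S Q) R) ≤
        Nat.card (autInducedBy (centralizerIn S Q) R) * Nat.card (centralizerIn (centralizerIn S Q) R) := by
      calc _ ≤ Nat.card (autInducedBy (centralizerIn S Q) R₃) * Nat.card (centralizerIn (centralizerIn S Q) R₃) :=
            Nat.mul_le_mul hcardV hcardC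
        _ = Nat.card (normalizerIn (centralizerIn S Q) R₃) := e2.symm
        _ ≤ Nat.card (normalizerIn (centralizerIn S Q) R) := hcardle
        _ = _ := e1
    exact Nat.le_of_mul_le_mul_right h1 hCpos
  have hcardB : Nat.card ((autInducedBy (centralizerIn S Q) R).subgroupOf (E.autGroup R)) =
      Nat.card (autInducedBy (centralizerIn S Q) R) :=
    Nat.card_congr (Subgroup.subgroupOfEquivOfLe hAT).toEquiv
  refine ⟨hRT, V, (Subgroup.eq_of_le_of_card_ge hV ?_).symm⟩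
  rw [hcardB]
  exact hfinal

/-- The centralizer system of a fully centralized subgroup is saturated. -/
theorem saturated (hS : IsPGroup p S) (hF : F.IsSaturated p) (hQ : F.IsFullyCentralized Q)
    (hE : F.IsCentralizerSystem Q E) : E.IsSaturated p := by
  intro P hP
  haveI : Finite (centralizerIn S Q) := finite_of_le inf_le_left
  obtain ⟨R, hPR, hR⟩ := Cfsg.Agent.H24.exists_fullyNormalized_conj (F := E) hP
  exact ⟨R, hPR, auto hS hF hQ hE hR, recep hS hF hQ hE hR⟩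

end Cfsg.Agent.H24.CSat
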