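import Mathlib
import Cfsg.Agent.Lib.H25.Fus3
import Cfsg.Agent.Lib.H24.FusBasic
import Cfsg.Agent.Lib.H18.Syl

/-!
Fusion systems over a direct product of two strongly closed subgroups: extension lemmas.
-/

set_option autoImplicit false
set_option linter.style.haveILetI false

namespace Cfsg.Agent.H24

open Cfsg Cfsg.FusionSystem Cfsg.Agent.H25

variable {Ω : Type*} [Group Ω] {S : Subgroup Ω} {F : FusionSystem S} {p : ℕ}
variable {X Y P Q R K : Subgroup Ω} {f g h : Ω → Ω}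

theorem mem_sup_of_comm {A B : Subgroup Ω} (hc : ∀ a ∈ A, ∀ b ∈ B, a * b = b * a) {x : Ω} (hx : x ∈ A ⊔ B) :
    ∃ a ∈ A, ∃ b ∈ B, x = a * b := by
  rw [Subgroup.sup_eq_closure] at hx
  induction hx using Subgroup.closure_induction with
  | mem x hx =>
    rcases hx with hx | hx
    · exact ⟨x, hx, 1, B.one_mem, by simp⟩
    · exact ⟨1, A.one_mem, x, hx, by simp⟩
  | one => exact ⟨1, A.one_mem, 1, B.one_mem, by simp⟩
  | mul x y _ _ ihx ihy =>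
    obtain ⟨a, ha, b, hb, rfl⟩ := ihx
    obtain ⟨a', ha', b', hb', rfl⟩ := ihy
    refine ⟨a * a', A.mul_mem ha ha', b * b', B.mul_mem hb hb', ?_⟩
    calc a * b * (a' * b') = a * (b * a') * b' := by simp only [mul_assoc]
      _ = a * (a' * b) * b' := by rw [hc a' ha' b hb]
      _ = _ := by simp only [mul_assoc]
  | inv x _ ihx =>
    obtain ⟨a, ha, b, hb, rfl⟩ := ihx
    refine ⟨a⁻¹, A.inv_mem ha, b⁻¹, B.inv_mem hb, ?_⟩
    rw [mul_inv_rev]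
    exact (hc _ (A.inv_mem ha) _ (B.inv_mem hb)).symm

theorem sc_mem (hX : F.StronglyClosed X) (hR : R ≤ X) (hf : Mp F R f) {x : Ω} (hx : x ∈ R) : f x ∈ X := by
  obtain ⟨φ, hφ, hv⟩ := hf
  rw [← hv ⟨x, hx⟩]
  exact hX.2 R hR φ hφ ⟨x, hx⟩

theorem Mp.of_eq (h : R = K) (hm : Mp F R f) : Mp F K f := h ▸ hm

theorem iso_of_sc [Finite S] (hX : F.StronglyClosed X) (hf : Mp F X f) : Iso F X X f := by
  haveI := finite_of_le (S := S) hX.1
  exact Iso.of_maps hf (fun x hx => sc_mem hX le_rfl hf hx)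

/-- Maps on subgroups of `X` extend to `Y` when `X` and `Y` are strongly closed and commute. -/
theorem ext_sup [Finite S] (hF : F.IsSaturated p) (hX : F.StronglyClosed X) (hY : F.StronglyClosed Y)
    (hXY : ∀ a ∈ X, ∀ b ∈ Y, a * b = b * a) (hPX : P ≤ X) (hf : Mp F P f) :
    ∃ g, Mp F (P ⊔ Y) g ∧ ∀ x ∈ P, g x = f x := by
  have hI : Iso F P hf.img f := Iso.of_mp hf
  have hQ₁X : hf.img ≤ X := by
    intro y hy
    obtain ⟨x, hx, rfl⟩ := hf.mem_img.1 hy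
    exact sc_mem hX hPX hf hx
  set Q₁ := hf.img with hQ₁
  obtain ⟨Q', k, hQ', hk⟩ := exists_far hF (hQ₁X.trans hX.1)
  have hQ'X : Q' ≤ X := by
    intro y hy
    obtain ⟨x, hx, rfl⟩ := hk.surj y hy
    exact sc_mem hX hQ₁X hk.mp hx
  have hcomp : Iso F P Q' (k ∘ f) := hI.comp hk
  have hgood : ∀ {A : Subgroup Ω} {a : Ω → Ω} {B : Subgroup Ω}, A ≤ X → Iso F A B a →
      A ⊔ Y ≤ Subgroup.closure {g : Ω | g ∈ S ∧ g ∈ Subgroup.normalizer (A : Set Ω) ∧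
        ∃ s ∈ S, ∀ x ∈ A, a (g * x * g⁻¹) = s * a x * s⁻¹} := by
    intro A a B hAX ha
    refine sup_le (fun x hx => Subgroup.subset_closure (mem_good_of_mem ha hx))
      (fun y hy => Subgroup.subset_closure (mem_good_of_centralizes ha (hY.1 hy) fun x hx => (hXY x (hAX hx) y hy).symm))
  obtain ⟨h₁, hh₁, hh₁f⟩ := recept_ext hQ'.recep hcomp le_sup_left (hgood hPX hcomp)
  obtain ⟨h₂, hh₂, hh₂k⟩ := recept_ext hQ'.recep hk le_sup_left (hgood hQ₁X hk)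
  have hcQ₁ : ∀ a ∈ Q₁, ∀ b ∈ Y, a * b = b * a := fun a ha => hXY a (hQ₁X ha)
  have hcP : ∀ a ∈ P, ∀ b ∈ Y, a * b = b * a := fun a ha => hXY a (hPX ha)
  have hcQ' : ∀ a ∈ Q', ∀ b ∈ Y, a * b = b * a := fun a ha => hXY a (hQ'X ha)
  have hY₂ : Iso F Y Y h₂ := iso_of_sc hY (hh₂.restrict le_sup_right)
  have hI₂ : Iso F (Q₁ ⊔ Y) (Q' ⊔ Y) h₂ := by
    refine ⟨hh₂, ?_, ?_⟩
    · intro x hx
      obtain ⟨a, ha, b, hb, rfl⟩ := mem_sup_of_comm hcQ₁ hx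
      rw [hh₂.map_mul (Subgroup.mem_sup_left ha) (Subgroup.mem_sup_right hb), hh₂k a ha]
      exact Subgroup.mul_mem _ (Subgroup.mem_sup_left (hk.maps a ha)) (Subgroup.mem_sup_right (hY₂.maps b hb))
    · intro y hy
      obtain ⟨a, ha, b, hb, rfl⟩ := mem_sup_of_comm hcQ' hy
      obtain ⟨q, hq, rfl⟩ := hk.surj a ha
      obtain ⟨b', hb', rfl⟩ := hY₂.surj b hb
      refine ⟨q * b', Subgroup.mul_mem _ (Subgroup.mem_sup_left hq) (Subgroup.mem_sup_right hb'), ?_⟩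
      rw [hh₂.map_mul (Subgroup.mem_sup_left hq) (Subgroup.mem_sup_right hb'), hh₂k q hq]
  obtain ⟨g', hg', hg'1, -⟩ := hI₂.inv
  refine ⟨g' ∘ h₁, hh₁.comp ?_ hg'.mp, fun x hx => ?_⟩
  · intro x hx
    obtain ⟨a, ha, b, hb, rfl⟩ := mem_sup_of_comm hcP hx
    rw [hh₁.map_mul (Subgroup.mem_sup_left ha) (Subgroup.mem_sup_right hb), hh₁f a ha]
    exact Subgroup.mul_mem _ (Subgroup.mem_sup_left (hcomp.maps a ha))
      (Subgroup.mem_sup_right (sc_mem hY le_rfl (hh₁.restrict le_sup_right) hb))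
  · have hfx : f x ∈ Q₁ := hI.maps x hx
    simp only [Function.comp]
    rw [hh₁f x hx]
    simp only [Function.comp]
    rw [← hh₂k (f x) hfx]
    exact hg'1 _ (Subgroup.mem_sup_left hfx)

/-- A map on `P ⊔ Y`, `P ≤ X`, is an automorphism of `S` composed with a map fixing `Y`. -/
theorem exists_fix_of_sup [Finite S] (hF : F.IsSaturated p) (hX : F.StronglyClosed X) (hY : F.StronglyClosed Y)
    (hXY : ∀ a ∈ X, ∀ b ∈ Y, a * b = b * a) (hS : X ⊔ Y = S) (hg : Mp F (P ⊔ Y) g) :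
    ∃ b b', Iso F S S b ∧ Iso F S S b' ∧ (∀ x ∈ S, b' (b x) = x) ∧ (∀ y ∈ S, b (b' y) = y) ∧
      Mp F (P ⊔ Y) (b' ∘ g) ∧ (∀ y ∈ Y, b' (g y) = y) := by
  have hgY : Mp F Y g := hg.restrict le_sup_right
  obtain ⟨b₀, hb₀, hb₀g⟩ := ext_sup hF hY hX (fun a ha b hb => (hXY b hb a ha).symm) (le_refl Y) hgY
  have hb₀S : Mp F S b₀ := Mp.of_eq (by rw [sup_comm, hS]) hb₀
  haveI : Finite S := inferInstance
  have hIb : Iso F S S b₀ := Iso.of_maps hb₀S fun x hx => hb₀S.mem hx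
  obtain ⟨b₁, hb₁, h1, h2⟩ := hIb.inv
  refine ⟨b₀, b₁, hIb, hb₁, h1, h2, hg.comp (fun x hx => hg.mem hx) hb₁.mp, fun y hy => ?_⟩
  rw [← hb₀g y hy]
  have hyS : y ∈ S := hY.1 hy
  exact h1 y hyS

/-- The form with a map from `P ≤ X`. -/
theorem exists_fix [Finite S] (hF : F.IsSaturated p) (hX : F.StronglyClosed X) (hY : F.StronglyClosed Y)
    (hXY : ∀ a ∈ X, ∀ b ∈ Y, a * b = b * a) (hS : X ⊔ Y = S) (hPX : P ≤ X) (hf : Mp F P f) :
    ∃ b, Iso F S S b ∧ ∃ h, Mp F (P ⊔ Y) h ∧ (∀ y ∈ Y, h y = y) ∧ ∀ x ∈ P, b (h x) = f x := by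
  obtain ⟨g, hg, hgf⟩ := ext_sup hF hX hY hXY hPX hf
  obtain ⟨b, b', hb, hb', -, h2, hm, hfix⟩ := exists_fix_of_sup hF hX hY hXY hS hg
  refine ⟨b, hb, b' ∘ g, hm, hfix, fun x hx => ?_⟩
  simp only [Function.comp]
  rw [h2 _ (hg.mem (Subgroup.mem_sup_left hx)), hgf x hx]

end Cfsg.Agent.H24
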