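import Mathlib
import Cfsg.Agent.Lib.H24.DirP1

/-!
Fusion systems over a direct product of two strongly closed subgroups: the system of maps fixing the second
factor is saturated.
-/

set_option autoImplicit false
set_option linter.style.haveILetI false

namespace Cfsg.Agent.H24

open Cfsg Cfsg.FusionSystem Cfsg.Agent.H25

variable {Ω : Type*} [Group Ω] {S : Subgroup Ω} {F : FusionSystem S} {p : ℕ}
variable {X Y P Q R K : Subgroup Ω} {f g h : Ω → Ω}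

theorem mp_cen_iff {R' : FusionSystem X} (hX : F.StronglyClosed X) (hXY : ∀ a ∈ X, ∀ b ∈ Y, a * b = b * a)
    (hR' : ∀ P : Subgroup Ω, P ≤ X → R'.Hom P = F.centralizerHom Y P) :
    Mp R' P f ↔ P ≤ X ∧ ∃ h, Mp F (P ⊔ Y) h ∧ (∀ y ∈ Y, h y = y) ∧ ∀ x ∈ P, h x = f x := by
  constructor
  · rintro ⟨φ, hφ, hv⟩
    have hPX : P ≤ X := (R'.le_of_mem hφ).1
    rw [hR' P hPX] at hφ
    obtain ⟨-, -, -, ψ, hψ, hψφ, hψY⟩ := hφ
    refine ⟨hPX, toFun ψ, mp_of_mem hψ, fun y hy => ?_, fun x hx => ?_⟩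
    · rw [toFun_coe ψ ⟨y, Subgroup.mem_sup_right hy⟩]
      exact hψY ⟨y, hy⟩
    · rw [toFun_coe ψ ⟨x, Subgroup.mem_sup_left hx⟩]
      exact (hψφ ⟨x, hx⟩).trans (hv ⟨x, hx⟩)
  · rintro ⟨hPX, h, hh, hfix, hhf⟩
    have hm : Mp F P f := (hh.restrict le_sup_left).congr hhf
    have hm' := hm
    obtain ⟨φ, hφ, hv⟩ := hm
    refine ⟨φ, ?_, hv⟩
    rw [hR' P hPX]
    obtain ⟨ψ, hψ, hψv⟩ := hh
    refine ⟨hφ, fun x hx => ?_, fun x => ?_, ψ, hψ, fun x => ?_, fun y => ?_⟩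
    · exact mem_centralizerIn.2 ⟨hX.1 (hPX hx), fun y hy => (hXY x (hPX hx) y hy).symm⟩
    · rw [hv]
      have hxX := sc_mem hX hPX hm' x.2
      exact mem_centralizerIn.2 ⟨hX.1 hxX, fun y hy => (hXY _ hxX y hy).symm⟩
    · rw [hv x]
      exact (hψv _).trans (hhf x x.2)
    · exact (hψv _).trans (hfix y y.2)

theorem mem_of_sup_inf (hinf : X ⊓ Y = ⊥) (hQX : Q ≤ X) (hXY : ∀ a ∈ X, ∀ b ∈ Y, a * b = b * a) {x : Ω}
    (hx : x ∈ Q ⊔ Y) (hxX : x ∈ X) : x ∈ Q := by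
  obtain ⟨a, ha, b, hb, rfl⟩ := mem_sup_of_comm (fun a ha => hXY a (hQX ha)) hx
  have hbX : b ∈ X := by
    have : b = a⁻¹ * (a * b) := by group
    rw [this]
    exact X.mul_mem (X.inv_mem (hQX ha)) hxX
  have hb1 : b = 1 := by
    have : b ∈ X ⊓ Y := ⟨hbX, hb⟩
    rw [hinf] at this
    exact this
  rw [hb1, mul_one]
  exact ha

section FixSub

variable (F) in
/-- The automorphisms of `U` in the system fixing `Y` pointwise. -/
def fixSub (U Y : Subgroup Ω) (hYU : Y ≤ U) : Subgroup (F.autGroup U) where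
  carrier := {γ | ∀ y : Y, (((γ : MulAut U) (Subgroup.inclusion hYU y) : U) : Ω) = y}
  one_mem' := fun y => rfl
  mul_mem' := by
    intro a b ha hb y
    have h1 : ((b : MulAut U) (Subgroup.inclusion hYU y) : U) = Subgroup.inclusion hYU y :=
      Subtype.ext (hb y)
    change (((a : MulAut U) ((b : MulAut U) (Subgroup.inclusion hYU y)) : U) : Ω) = y
    rw [h1]
    exact ha y
  inv_mem' := by
    intro a ha y
    have h1 : ((a : MulAut U) (Subgroup.inclusion hYU y) : U) = Subgroup.inclusion hYU y :=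
      Subtype.ext (ha y)
    change (((a : MulAut U)⁻¹ (Subgroup.inclusion hYU y) : U) : Ω) = y
    have h2 : (a : MulAut U)⁻¹ (Subgroup.inclusion hYU y) = Subgroup.inclusion hYU y := by
      conv_lhs => rw [← h1]
      simp
    rw [h2]
    rfl

theorem mem_fixSub {U Y : Subgroup Ω} {hYU : Y ≤ U} {γ : F.autGroup U} :
    γ ∈ fixSub F U Y hYU ↔ ∀ y : Y, (((γ : MulAut U) (Subgroup.inclusion hYU y) : U) : Ω) = y := Iff.rfl

theorem aut_maps_sc {U : Subgroup Ω} (hUS : U ≤ S) (hY : F.StronglyClosed Y) (hYU : Y ≤ U) {δ : MulAut U}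
    (hδ : δ ∈ F.autGroup U) (y : Y) : ((δ (Subgroup.inclusion hYU y) : U) : Ω) ∈ Y := by
  have h1 := Mp.of_mem_autGroup hUS hδ
  have h2 := sc_mem hY le_rfl (h1.restrict hYU) y.2
  have h3 := toFun_aut δ (Subgroup.inclusion hYU y)
  have h4 : toFun (U.subtype.comp δ.toMonoidHom) (y : Ω) = ((δ (Subgroup.inclusion hYU y) : U) : Ω) := h3
  rwa [h4] at h2

theorem fixSub_normal [Finite S] {U : Subgroup Ω} (hUS : U ≤ S) (hY : F.StronglyClosed Y) (hYU : Y ≤ U) :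
    (fixSub F U Y hYU).Normal := by
  constructor
  intro γ hγ δ y
  have hδ := (δ⁻¹ : F.autGroup U).2
  set y' : Y := ⟨(((δ⁻¹ : F.autGroup U) : MulAut U) (Subgroup.inclusion hYU y) : U), aut_maps_sc hUS hY hYU hδ y⟩ with hy'
  have h1 : ((δ⁻¹ : F.autGroup U) : MulAut U) (Subgroup.inclusion hYU y) = Subgroup.inclusion hYU y' := rfl
  have h2 : (γ : MulAut U) (Subgroup.inclusion hYU y') = Subgroup.inclusion hYU y' := Subtype.ext (hγ y')
  change (((δ : MulAut U) ((γ : MulAut U) (((δ⁻¹ : F.autGroup U) : MulAut U) (Subgroup.inclusion hYU y))) : U) : Ω) = y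
  rw [h1, h2, ← h1]
  have h3 : (δ : MulAut U) (((δ⁻¹ : F.autGroup U) : MulAut U) (Subgroup.inclusion hYU y)) = Subgroup.inclusion hYU y := by
    change (δ : MulAut U) ((δ : MulAut U)⁻¹ (Subgroup.inclusion hYU y)) = _
    simp
  rw [h3]
  rfl

end FixSub

section Main

variable [Finite S] [Fact p.Prime] {R' : FusionSystem X}

/-- Sylow property of the system fixing `Y`. -/
theorem fullyAutomized_cen (hX : F.StronglyClosed X) (hY : F.StronglyClosed Y)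
    (hXY : ∀ a ∈ X, ∀ b ∈ Y, a * b = b * a) (hinf : X ⊓ Y = ⊥) (hS : X ⊔ Y = S)
    (hR' : ∀ P : Subgroup Ω, P ≤ X → R'.Hom P = F.centralizerHom Y P) (hQX : Q ≤ X)
    (hU : F.IsFullyAutomized p (Q ⊔ Y)) : R'.IsFullyAutomized p Q := by
  classical
  set U := Q ⊔ Y with hU_def
  have hUS : U ≤ S := hU.1
  have hYU : Y ≤ U := le_sup_right
  have hQU : Q ≤ U := le_sup_left
  have hQS : Q ≤ S := hQU.trans hUS
  haveI : Finite U := finite_of_le hUS
  haveI : Finite Q := finite_of_le hQS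
  have hcQ : ∀ a ∈ Q, ∀ b ∈ Y, a * b = b * a := fun a ha => hXY a (hQX ha)
  haveI hÂ : (fixSub F U Y hYU).Normal := fixSub_normal hUS hY hYU
  let Â := fixSub F U Y hYU
  -- the function attached to an element
  let fn : Â → Ω → Ω := fun γ => toFun (U.subtype.comp (γ.1.1).toMonoidHom)
  have hfn : ∀ (γ : Â) (x : U), fn γ x = ((γ.1.1 x : U) : Ω) := fun γ x => toFun_aut γ.1.1 x
  have hfnI : ∀ γ : Â, Iso F U U (fn γ) := fun γ => Iso.of_mem_autGroup hUS γ.1.2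
  have hfnY : ∀ (γ : Â), ∀ y ∈ Y, fn γ y = y := fun γ y hy => by
    have h1 := hfn γ ⟨y, hYU hy⟩
    rw [h1]
    exact γ.2 ⟨y, hy⟩
  have hfnQ : ∀ (γ : Â), ∀ x ∈ Q, fn γ x ∈ Q := fun γ x hx =>
    mem_of_sup_inf hinf hQX hXY ((hfnI γ).maps x (hQU hx)) (sc_mem hX hQX ((hfnI γ).mp.restrict hQU) hx)
  have hfnM : ∀ γ : Â, Mp R' Q (fn γ) := fun γ =>
    (mp_cen_iff hX hXY hR').2 ⟨hQX, fn γ, (hfnI γ).mp, hfnY γ, fun _ _ => rfl⟩
  have hfnIQ : ∀ γ : Â, Iso R' Q Q (fn γ) := fun γ => Iso.of_maps (hfnM γ) (hfnQ γ)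
  let ρ₀ : Â → R'.autGroup Q := fun γ => ⟨autOfIso (hfnIQ γ), autOfIso_mem (hfnIQ γ)⟩
  have hρ₀ : ∀ (γ : Â) (x : Q), (((ρ₀ γ : MulAut Q) x : Q) : Ω) = ((γ.1.1 (Subgroup.inclusion hQU x) : U) : Ω) :=
    fun γ x => hfn γ (Subgroup.inclusion hQU x)
  let ρ : Â →* R'.autGroup Q := MonoidHom.mk' ρ₀ (by
    intro γ δ
    apply Subtype.ext
    apply MulEquiv.ext
    intro x
    apply Subtype.ext
    rw [hρ₀]
    change _ = (((ρ₀ γ : MulAut Q) ((ρ₀ δ : MulAut Q) x) : Q) : Ω)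
    rw [hρ₀ γ]
    have h1 : Subgroup.inclusion hQU ((ρ₀ δ : MulAut Q) x) = δ.1.1 (Subgroup.inclusion hQU x) :=
      Subtype.ext (hρ₀ δ x)
    rw [h1]
    rfl)
  have hρv : ∀ (γ : Â) (x : Q), (((ρ γ : MulAut Q) x : Q) : Ω) = ((γ.1.1 (Subgroup.inclusion hQU x) : U) : Ω) := hρ₀
  have hρs : Function.Surjective ρ := by
    intro α
    have h1 := Mp.of_mem_autGroup hQX α.2
    obtain ⟨-, h, hh, hfix, hhf⟩ := (mp_cen_iff hX hXY hR').1 h1
    have hmaps : ∀ x ∈ U, h x ∈ U := by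
      intro x hx
      obtain ⟨a, ha, b, hb, rfl⟩ := mem_sup_of_comm hcQ hx
      rw [hh.map_mul (Subgroup.mem_sup_left ha) (Subgroup.mem_sup_right hb), hfix b hb, hhf a ha,
        toFun_aut α.1 ⟨a, ha⟩]
      exact Subgroup.mul_mem _ (hQU (α.1 ⟨a, ha⟩).2) (hYU hb)
    have hI : Iso F U U h := Iso.of_maps hh hmaps
    refine ⟨⟨⟨autOfIso hI, autOfIso_mem hI⟩, fun y => ?_⟩, ?_⟩
    · exact hfix y y.2
    · apply Subtype.ext
      apply MulEquiv.ext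
      intro x
      apply Subtype.ext
      rw [hρv]
      change h (x : Ω) = _
      rw [hhf x x.2, toFun_aut α.1 x]
  obtain ⟨T₁, hT₁⟩ := hU.2
  refine ⟨hQX, Sylow.mapSurjective hρs (H18.sylowOfNormal T₁ Â), ?_⟩
  rw [Sylow.coe_mapSurjective]
  ext α
  constructor
  · rintro ⟨γ, hγ, rfl⟩
    have h1 : γ.1 ∈ (T₁ : Subgroup (F.autGroup U)) := hγ
    rw [hT₁, Subgroup.mem_subgroupOf] at h1
    obtain ⟨s, hsS, hs⟩ := exists_of_mem_autInducedBy h1
    rw [← hS] at hsS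
    obtain ⟨s₁, hs₁, s₂, hs₂, rfl⟩ := mem_sup_of_comm hXY hsS
    rw [Subgroup.mem_subgroupOf]
    refine mem_autInducedBy_of_conj hs₁ fun x => ?_
    rw [hρv, hs]
    have hc : s₂ * (x : Ω) = x * s₂ := (hXY x (hQX x.2) s₂ hs₂).symm
    change (s₁ * s₂) * (x : Ω) * (s₁ * s₂)⁻¹ = _
    calc (s₁ * s₂) * (x : Ω) * (s₁ * s₂)⁻¹ = s₁ * (s₂ * x) * s₂⁻¹ * s₁⁻¹ := by group
      _ = s₁ * (x * s₂) * s₂⁻¹ * s₁⁻¹ := by rw [hc]
      _ = _ := by group
  · intro hα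
    rw [Subgroup.mem_subgroupOf] at hα
    obtain ⟨s, hsX, hs⟩ := exists_of_mem_autInducedBy hα
    have hsS : s ∈ S := hX.1 hsX
    have hcy : ∀ y ∈ Y, s * y * s⁻¹ = y := fun y hy => by
      rw [hXY s hsX y hy]
      group
    have hmaps : ∀ x ∈ U, s * x * s⁻¹ ∈ U := by
      intro x hx
      obtain ⟨a, ha, b, hb, rfl⟩ := mem_sup_of_comm hcQ hx
      have e : s * (a * b) * s⁻¹ = (s * a * s⁻¹) * (s * b * s⁻¹) := by group
      rw [e, hcy b hb, ← hs ⟨a, ha⟩]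
      exact Subgroup.mul_mem _ (hQU (α.1 ⟨a, ha⟩).2) (hYU hb)
    have hI : Iso F U U (fun x => s * x * s⁻¹) := Iso.of_maps (Mp.conj hUS hsS) hmaps
    have hmem : (⟨autOfIso hI, autOfIso_mem hI⟩ : F.autGroup U) ∈ Â := fun y => hcy y y.2
    refine ⟨⟨_, hmem⟩, ?_, ?_⟩
    · change (⟨autOfIso hI, autOfIso_mem hI⟩ : F.autGroup U) ∈ (T₁ : Subgroup (F.autGroup U))
      rw [hT₁, Subgroup.mem_subgroupOf]
      exact mem_autInducedBy_of_conj hsS fun x => rfl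
    · apply Subtype.ext
      apply MulEquiv.ext
      intro x
      apply Subtype.ext
      change ((((ρ _) : MulAut Q) x : Q) : Ω) = _
      rw [hρv, hs]
      rfl

end Main

end Cfsg.Agent.H24
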