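import Mathlib
import Cfsg.Agent.Lib.H24.DirP2

/-!
Fusion systems over a direct product of two strongly closed subgroups: saturation and normality.
-/

set_option autoImplicit false
set_option linter.style.haveILetI false

namespace Cfsg.Agent.H24

open Cfsg Cfsg.FusionSystem Cfsg.Agent.H25

variable {Ω : Type*} [Group Ω] {S : Subgroup Ω} {F : FusionSystem S} {p : ℕ}
variable {X Y P Q K : Subgroup Ω} {f g h : Ω → Ω}

section Main

variable [Finite S] {R' : FusionSystem X}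

theorem receptive_cen (hX : F.StronglyClosed X) (hY : F.StronglyClosed Y)
    (hXY : ∀ a ∈ X, ∀ b ∈ Y, a * b = b * a)
    (hR' : ∀ P : Subgroup Ω, P ≤ X → R'.Hom P = F.centralizerHom Y P) (hQX : Q ≤ X)
    (hU : F.IsReceptive (Q ⊔ Y)) : R'.IsReceptive Q := by
  refine ⟨hQX, fun P' φ hφ hr => ?_⟩
  have hP'X : P' ≤ X := (R'.le_of_mem hφ).1
  have hmp : Mp R' P' (toFun φ) := mp_of_mem hφ
  obtain ⟨-, ĥ, hĥ, hfix, hĥφ⟩ := (mp_cen_iff hX hXY hR').1 hmp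
  have hcP : ∀ a ∈ P', ∀ b ∈ Y, a * b = b * a := fun a ha => hXY a (hP'X ha)
  have hcQ : ∀ a ∈ Q, ∀ b ∈ Y, a * b = b * a := fun a ha => hXY a (hQX ha)
  have hI : Iso F (P' ⊔ Y) (Q ⊔ Y) ĥ := by
    refine ⟨hĥ, ?_, ?_⟩
    · intro x hx
      obtain ⟨a, ha, b, hb, rfl⟩ := mem_sup_of_comm hcP hx
      rw [hĥ.map_mul (Subgroup.mem_sup_left ha) (Subgroup.mem_sup_right hb), hfix b hb, hĥφ a ha,
        toFun_coe φ ⟨a, ha⟩]
      refine Subgroup.mul_mem _ (Subgroup.mem_sup_left ?_) (Subgroup.mem_sup_right hb)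
      rw [← hr]
      exact ⟨⟨a, ha⟩, rfl⟩
    · intro y hy
      obtain ⟨a, ha, b, hb, rfl⟩ := mem_sup_of_comm hcQ hy
      rw [← hr] at ha
      obtain ⟨a', rfl⟩ := ha
      refine ⟨a' * b, Subgroup.mul_mem _ (Subgroup.mem_sup_left a'.2) (Subgroup.mem_sup_right hb), ?_⟩
      rw [hĥ.map_mul (Subgroup.mem_sup_left a'.2) (Subgroup.mem_sup_right hb), hfix b hb, hĥφ a' a'.2,
        toFun_coe φ a']
  set E₁ := extender X P' φ with hE₁
  have hE₁X : E₁ ≤ X := (Subgroup.closure_le _).2 fun g hg => hg.1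
  have hP'E₁ : P' ≤ E₁ := by
    intro x hx
    refine Subgroup.subset_closure ⟨hP'X hx, ?_, φ ⟨x, hx⟩, ?_, fun y hy => ?_⟩
    · exact mem_normalizer_of_conj (fun y hy => P'.mul_mem (P'.mul_mem hx hy) (P'.inv_mem hx))
        (fun y hy => P'.mul_mem (P'.mul_mem (P'.inv_mem hx) hy) hx)
    · exact sc_mem hX hP'X (R'.le_of_mem hφ |> fun _ => (mp_of_mem (F := F) ((hR' P' hP'X) ▸ hφ).1)) hx |>
        fun h => by rwa [toFun_coe φ ⟨x, hx⟩] at h
    · have e : (⟨x * y * x⁻¹, hy⟩ : P') = ⟨x, hx⟩ * y * (⟨x, hx⟩ : P')⁻¹ := rfl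
      rw [e, map_mul, map_mul, map_inv]
  have hgood : E₁ ⊔ Y ≤ Subgroup.closure {g : Ω | g ∈ S ∧ g ∈ Subgroup.normalizer ((P' ⊔ Y : Subgroup Ω) : Set Ω) ∧
      ∃ s ∈ S, ∀ x ∈ P' ⊔ Y, ĥ (g * x * g⁻¹) = s * ĥ x * s⁻¹} := by
    refine sup_le ((Subgroup.closure_le _).2 ?_) (fun y hy => Subgroup.subset_closure
      (mem_good_of_mem hI (Subgroup.mem_sup_right hy)))
    rintro g ⟨hgX, hgN, s, hsX, hgs⟩
    refine Subgroup.subset_closure ⟨hX.1 hgX, ?_, s, hX.1 hsX, fun x hx => ?_⟩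
    · refine mem_normalizer_of_conj (fun x hx => ?_) (fun x hx => ?_)
      · obtain ⟨a, ha, b, hb, rfl⟩ := mem_sup_of_comm hcP hx
        have e : g * (a * b) * g⁻¹ = (g * a * g⁻¹) * b := by
          calc g * (a * b) * g⁻¹ = g * a * (b * g⁻¹) := by group
            _ = g * a * (g⁻¹ * b) := by rw [hXY g⁻¹ (X.inv_mem hgX) b hb]
            _ = _ := by group
        rw [e]
        exact Subgroup.mul_mem _ (Subgroup.mem_sup_left (conj_mem_of_normalizer hgN ha)) (Subgroup.mem_sup_right hb)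
      · obtain ⟨a, ha, b, hb, rfl⟩ := mem_sup_of_comm hcP hx
        have e : g⁻¹ * (a * b) * g = (g⁻¹ * a * g) * b := by
          have h1 : b * g = g * b := (hXY g hgX b hb).symm
          calc g⁻¹ * (a * b) * g = g⁻¹ * a * (b * g) := by group
            _ = g⁻¹ * a * (g * b) := by rw [h1]
            _ = _ := by group
        rw [e]
        exact Subgroup.mul_mem _ (Subgroup.mem_sup_left (conj_inv_mem_of_normalizer hgN ha)) (Subgroup.mem_sup_right hb)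
    · obtain ⟨a, ha, b, hb, rfl⟩ := mem_sup_of_comm hcP hx
      have hgaP : g * a * g⁻¹ ∈ P' := conj_mem_of_normalizer hgN ha
      have e : g * (a * b) * g⁻¹ = (g * a * g⁻¹) * b := by
        calc g * (a * b) * g⁻¹ = g * a * (b * g⁻¹) := by group
          _ = g * a * (g⁻¹ * b) := by rw [hXY g⁻¹ (X.inv_mem hgX) b hb]
          _ = _ := by group
      rw [e, hĥ.map_mul (Subgroup.mem_sup_left hgaP) (Subgroup.mem_sup_right hb), hfix b hb, hĥφ _ hgaP,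
        hĥ.map_mul (Subgroup.mem_sup_left ha) (Subgroup.mem_sup_right hb), hfix b hb, hĥφ a ha,
        toFun_coe φ ⟨_, hgaP⟩, toFun_coe φ ⟨a, ha⟩, hgs ⟨a, ha⟩ hgaP]
      have h1 : b * s⁻¹ = s⁻¹ * b := by
        have := hXY (s⁻¹) (X.inv_mem hsX) b hb
        exact this.symm
      calc s * φ ⟨a, ha⟩ * s⁻¹ * b = s * φ ⟨a, ha⟩ * (s⁻¹ * b) := by group
        _ = s * φ ⟨a, ha⟩ * (b * s⁻¹) := by rw [h1]
        _ = _ := by group
  obtain ⟨Ψ, hΨ, hΨĥ⟩ := recept_ext hU hI (sup_le_sup_right hP'E₁ Y) hgood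
  have hM : Mp R' E₁ Ψ := (mp_cen_iff hX hXY hR').2 ⟨hE₁X, Ψ, hΨ,
    fun y hy => (hΨĥ y (Subgroup.mem_sup_right hy)).trans (hfix y hy), fun _ _ => rfl⟩
  obtain ⟨ψ, hψ, hψv⟩ := hM
  refine ⟨ψ, hψ, fun x hP hN => ?_⟩
  rw [hψv ⟨x, hN⟩]
  change Ψ x = _
  rw [hΨĥ x (Subgroup.mem_sup_left hP), hĥφ x hP, toFun_coe φ ⟨x, hP⟩]

theorem fullyNormalized_of_aut {U₁ U' : Subgroup Ω} {b b' : Ω → Ω} (hb : Iso F S S b) (hb' : Iso F S S b')
    (h1 : ∀ x ∈ S, b' (b x) = x) (h2 : ∀ y ∈ S, b (b' y) = y) (hU₁ : U₁ ≤ S)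
    (hI : Iso F U₁ U' b) (hU' : F.IsFullyNormalized U') : F.IsFullyNormalized U₁ := by
  refine ⟨hU₁, fun V hV => ?_⟩
  have hV' : F.IsConj U' V := isConj_trans (isConj_symm (isConj_iff.2 ⟨b, hI⟩)) hV
  refine (hU'.2 V hV').trans ?_
  haveI : Finite (normalizerIn S U₁) := finite_of_le inf_le_left
  have hU'S : U' ≤ S := hU'.1
  have hb'U : ∀ y ∈ U', b' y ∈ U₁ := by
    intro y hy
    obtain ⟨x, hx, rfl⟩ := hI.surj y hy
    rw [h1 x (hU₁ hx)]
    exact hx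
  have hconj : ∀ g ∈ S, g ∈ Subgroup.normalizer (U' : Set Ω) → ∀ x ∈ U₁, b' g * x * (b' g)⁻¹ ∈ U₁ := by
    intro g hgS hgN x hx
    have hbx : b x ∈ U' := hI.maps x hx
    have e : b' (g * b x * g⁻¹) = b' g * x * (b' g)⁻¹ := by
      have hbxS := hb.maps x (hU₁ hx)
      rw [hb'.mp.map_mul (S.mul_mem hgS hbxS) (S.inv_mem hgS), hb'.mp.map_mul hgS hbxS, hb'.mp.map_inv hgS,
        h1 x (hU₁ hx)]
    rw [← e]
    exact hb'U _ (conj_mem_of_normalizer hgN hbx)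
  refine Nat.card_le_card_of_injective (fun g : normalizerIn S U' => (⟨b' g, ?_⟩ : normalizerIn S U₁)) ?_
  · refine mem_normalizerIn.2 ⟨hb'.maps g (mem_normalizerIn.1 g.2).1, ?_⟩
    obtain ⟨hgS, hgN⟩ := mem_normalizerIn.1 g.2
    refine mem_normalizer_of_conj (hconj g hgS hgN) fun x hx => ?_
    have := hconj g⁻¹ (S.inv_mem hgS) (Subgroup.inv_mem _ hgN) x hx
    rwa [hb'.mp.map_inv hgS, inv_inv] at this
  · intro g₁ g₂ hg
    have h3 : b' g₁ = b' g₂ := congrArg Subtype.val hg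
    exact Subtype.ext (hb'.mp.inj (mem_normalizerIn.1 g₁.2).1 (mem_normalizerIn.1 g₂.2).1 h3)

variable [Fact p.Prime]

theorem saturated_cen (hS₀ : IsPGroup p S) (hF : F.IsSaturated p) (hX : F.StronglyClosed X)
    (hY : F.StronglyClosed Y)
    (hXY : ∀ a ∈ X, ∀ b ∈ Y, a * b = b * a) (hinf : X ⊓ Y = ⊥) (hS : X ⊔ Y = S)
    (hR' : ∀ P : Subgroup Ω, P ≤ X → R'.Hom P = F.centralizerHom Y P) : R'.IsSaturated p := by
  intro P hP
  have hU₀S : P ⊔ Y ≤ S := sup_le (hP.trans hX.1) hY.1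
  obtain ⟨U', hconj, hU'⟩ := exists_fullyNormalized_conj (F := F) hU₀S
  obtain ⟨θ, hθ⟩ := isConj_iff.1 hconj
  obtain ⟨b, b', hb, hb', h1, h2, hm, hfix⟩ := exists_fix_of_sup hF hX hY hXY hS hθ.mp
  set h := b' ∘ θ with hh
  have hImg : Iso F (P ⊔ Y) hm.img h := Iso.of_mp hm
  set U₁ := hm.img with hU₁
  have hU₁S : U₁ ≤ S := by
    intro y hy
    obtain ⟨x, hx, rfl⟩ := hImg.surj y hy
    exact hm.mem hx
  have hYU₁ : Y ≤ U₁ := by
    intro y hy
    have := hImg.maps y (Subgroup.mem_sup_right hy)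
    have e : h y = y := hfix y hy
    rwa [e] at this
  set Q := U₁ ⊓ X with hQ
  have hQX : Q ≤ X := inf_le_right
  have hUeq : Q ⊔ Y = U₁ := by
    apply le_antisymm (sup_le inf_le_left hYU₁)
    intro x hx
    have hxS := hU₁S hx
    rw [← hS] at hxS
    obtain ⟨a, ha, c, hc, rfl⟩ := mem_sup_of_comm hXY hxS
    have haU : a ∈ U₁ := by
      have : a = (a * c) * c⁻¹ := by group
      rw [this]
      exact U₁.mul_mem hx (U₁.inv_mem (hYU₁ hc))
    exact Subgroup.mul_mem _ (Subgroup.mem_sup_left ⟨haU, ha⟩) (Subgroup.mem_sup_right hc)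
  have hIb : Iso F U₁ U' b := by
    refine ⟨hb.mp.restrict hU₁S, ?_, ?_⟩
    · intro x hx
      obtain ⟨u, hu, rfl⟩ := hImg.surj x hx
      have e : b (h u) = θ u := h2 _ (hθ.mp.mem hu)
      rw [e]
      exact hθ.maps u hu
    · intro y hy
      obtain ⟨u, hu, rfl⟩ := hθ.surj y hy
      exact ⟨h u, hImg.maps u hu, h2 _ (hθ.mp.mem hu)⟩
  have hU₁n : F.IsFullyNormalized U₁ := fullyNormalized_of_aut hb hb' h1 h2 hU₁S hIb hU'
  have hfar : Far F p U₁ := far_of_fullyNormalized hS₀ hF hU₁n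
  have hfar' : Far F p (Q ⊔ Y) := by rw [hUeq]; exact hfar
  have hIso : Iso R' P Q h := by
    refine ⟨(mp_cen_iff hX hXY hR').2 ⟨hP, h, hm, hfix, fun _ _ => rfl⟩, ?_, ?_⟩
    · intro x hx
      exact ⟨hImg.maps x (Subgroup.mem_sup_left hx),
        sc_mem hX hP (hm.restrict le_sup_left) hx⟩
    · intro y hy
      obtain ⟨u, hu, hue⟩ := hImg.surj y hy.1
      obtain ⟨a, ha, c, hc, rfl⟩ := mem_sup_of_comm (fun a ha => hXY a (hP ha)) hu
      rw [hm.map_mul (Subgroup.mem_sup_left ha) (Subgroup.mem_sup_right hc)] at hue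
      have e : h c = c := hfix c hc
      rw [e] at hue
      have hax : h a ∈ X := sc_mem hX hP (hm.restrict le_sup_left) ha
      have hcX : c ∈ X := by
        have : c = (h a)⁻¹ * (h a * c) := by group
        rw [this, hue]
        exact X.mul_mem (X.inv_mem hax) hy.2
      have hc1 : c = 1 := by
        have : c ∈ X ⊓ Y := ⟨hcX, hc⟩
        rw [hinf] at this
        exact this
      refine ⟨a, ha, ?_⟩
      rw [← hue, hc1, mul_one]
  exact ⟨Q, isConj_iff.2 ⟨h, hIso⟩, fullyAutomized_cen hX hY hXY hinf hS hR' hQX hfar'.auto,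
    receptive_cen hX hY hXY hR' hQX hfar'.recep⟩

end Main

end Cfsg.Agent.H24
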