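import Mathlib
import Cfsg.Agent.Lib.H24.DirP3

/-!
Fusion systems over a direct product of two strongly closed subgroups: the main theorem.
-/

set_option autoImplicit false
set_option linter.style.haveILetI false

namespace Cfsg.Agent.H24

open Cfsg Cfsg.FusionSystem Cfsg.Agent.H25

variable {Ω : Type*} [Group Ω] {S : Subgroup Ω} {F : FusionSystem S} {p : ℕ}
variable {X Y P Q K : Subgroup Ω} {f g h : Ω → Ω}

theorem autGroup_eq_of_hom {T : Subgroup Ω} {E : FusionSystem T} (h : E.Hom Q = F.Hom Q) :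
    E.autGroup Q = F.autGroup Q := by
  unfold FusionSystem.autGroup
  simp only [h]

section Main

variable [Finite S] {R R' : FusionSystem X}

theorem saturated_full [Fact p.Prime] (hF : F.IsSaturated p) (hX : F.StronglyClosed X)
    (hXY : ∀ a ∈ X, ∀ b ∈ Y, a * b = b * a) (hS : X ⊔ Y = S)
    (hR : ∀ P : Subgroup Ω, P ≤ X → R.Hom P = F.Hom P) : R.IsSaturated p := by
  intro P hP
  obtain ⟨Q, f, hQ, hf⟩ := exists_far hF (hP.trans hX.1)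
  have hQX : Q ≤ X := by
    intro y hy
    obtain ⟨x, hx, rfl⟩ := hf.surj y hy
    exact sc_mem hX hP hf.mp hx
  have hmR : ∀ {A : Subgroup Ω}, A ≤ X → ∀ {a : Ω → Ω}, Mp F A a → Mp R A a := by
    intro A hA a ha
    obtain ⟨φ, hφ, hv⟩ := ha
    exact ⟨φ, (hR A hA).symm ▸ hφ, hv⟩
  refine ⟨Q, isConj_iff.2 ⟨f, ⟨hmR hP hf.mp, hf.maps, hf.surj⟩⟩, ⟨hQX, ?_⟩, ⟨hQX, fun P' φ hφ hr => ?_⟩⟩
  · have e₁ : R.autGroup Q = F.autGroup Q := autGroup_eq_of_hom (hR Q hQX)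
    have e₂ : autInducedBy X Q = autInducedBy S Q := by
      apply le_antisymm
      · refine Subgroup.closure_mono ?_
        rintro α ⟨g, hg, hv⟩
        exact ⟨g, hX.1 hg, hv⟩
      · refine (Subgroup.closure_le _).2 ?_
        rintro α ⟨g, hg, hv⟩
        rw [← hS] at hg
        obtain ⟨a, ha, b, hb, rfl⟩ := mem_sup_of_comm hXY hg
        refine mem_autInducedBy_of_conj ha fun x => ?_
        rw [hv]
        have hc : b * (x : Ω) = x * b := (hXY x (hQX x.2) b hb).symm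
        calc (a * b) * (x : Ω) * (a * b)⁻¹ = a * (b * x) * b⁻¹ * a⁻¹ := by group
          _ = a * (x * b) * b⁻¹ * a⁻¹ := by rw [hc]
          _ = _ := by group
    obtain ⟨T, hT⟩ := hQ.auto.2
    rw [e₁, e₂]
    exact ⟨T, hT⟩
  · have hP'X : P' ≤ X := (R.le_of_mem hφ).1
    have hφF : φ ∈ F.Hom P' := (hR P' hP'X) ▸ hφ
    obtain ⟨ψ, hψ, hψv⟩ := hQ.recep.2 P' φ hφF hr
    have hle : extender X P' φ ≤ extender S P' φ := by
      refine Subgroup.closure_mono ?_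
      rintro g ⟨hgX, hgN, s, hs, hgs⟩
      exact ⟨hX.1 hgX, hgN, s, hX.1 hs, hgs⟩
    have hE₁X : extender X P' φ ≤ X := (Subgroup.closure_le _).2 fun g hg => hg.1
    obtain ⟨ψ', hψ', hv'⟩ := hmR hE₁X ((mp_of_mem hψ).restrict hle)
    refine ⟨ψ', hψ', fun x hP hN => ?_⟩
    rw [hv' ⟨x, hN⟩]
    change toFun ψ x = _
    rw [toFun_coe ψ ⟨x, hle hN⟩]
    exact hψv x hP (hle hN)

/-- Automorphisms of a strongly closed direct factor extend to the whole group. -/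
theorem exists_aut_ext (hF : F.IsSaturated p) (hX : F.StronglyClosed X) (hY : F.StronglyClosed Y)
    (hXY : ∀ a ∈ X, ∀ b ∈ Y, a * b = b * a) (hS : X ⊔ Y = S) {α : MulAut X} (hα : α ∈ F.autGroup X) :
    ∃ b b', Iso F S S b ∧ Iso F S S b' ∧ (∀ x ∈ S, b' (b x) = x) ∧ (∀ y ∈ S, b (b' y) = y) ∧
      ∀ x : X, b x = (α x : X) := by
  have h1 := Mp.of_mem_autGroup hX.1 hα
  obtain ⟨b₀, hb₀, hb₀g⟩ := ext_sup hF hX hY hXY (le_refl X) h1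
  have hb₀S : Mp F S b₀ := Mp.of_eq hS hb₀
  have hIb : Iso F S S b₀ := Iso.of_maps hb₀S fun x hx => hb₀S.mem hx
  obtain ⟨b₁, hb₁, h1', h2'⟩ := hIb.inv
  refine ⟨b₀, b₁, hIb, hb₁, h1', h2', fun x => ?_⟩
  rw [hb₀g x x.2, toFun_aut α x]

theorem mem_transport {α : MulAut X} {b b' : Ω → Ω} (h1 : ∀ x ∈ S, b' (b x) = x) (hXS : X ≤ S)
    (hv : ∀ x : X, b x = (α x : X)) (hPX : P ≤ X) {y : Ω}
    (hy : y ∈ (P.subgroupOf X).map (X.subtype.comp α.toMonoidHom)) : b' y ∈ P ∧ b (b' y) = y := by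
  obtain ⟨x, hx, rfl⟩ := hy
  have e : (X.subtype.comp α.toMonoidHom) x = b x := (hv x).symm
  rw [e, h1 _ (hXS x.2)]
  exact ⟨hx, rfl⟩

theorem transport_le {α : MulAut X} : (P.subgroupOf X).map (X.subtype.comp α.toMonoidHom) ≤ X := by
  rintro _ ⟨x, -, rfl⟩
  exact (α x).2

theorem invariance_cen (hF : F.IsSaturated p) (hX : F.StronglyClosed X) (hY : F.StronglyClosed Y)
    (hXY : ∀ a ∈ X, ∀ b ∈ Y, a * b = b * a) (hS : X ⊔ Y = S)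
    (hR' : ∀ P : Subgroup Ω, P ≤ X → R'.Hom P = F.centralizerHom Y P)
    (P : Subgroup Ω) (hPT : P ≤ X) (φ : P →* Ω) (hφ : φ ∈ R'.Hom P) (α : MulAut X) (hα : α ∈ F.autGroup X) :
    ∃ χ ∈ R'.Hom ((P.subgroupOf X).map (X.subtype.comp α.toMonoidHom)),
        ∀ (x : P) (hφx : φ x ∈ X)
          (hαx : ((α ⟨x, hPT x.2⟩ : X) : Ω) ∈ (P.subgroupOf X).map (X.subtype.comp α.toMonoidHom)),
          χ ⟨(α ⟨x, hPT x.2⟩ : X), hαx⟩ = ((α ⟨φ x, hφx⟩ : X) : Ω) := by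
  obtain ⟨b, b', hb, hb', h1, h2, hv⟩ := exists_aut_ext hF hX hY hXY hS hα
  obtain ⟨-, ĥ, hĥ, hfix, hĥφ⟩ := (mp_cen_iff hX hXY hR').1 (mp_of_mem hφ)
  set P₁ := (P.subgroupOf X).map (X.subtype.comp α.toMonoidHom) with hP₁
  have hP₁X : P₁ ≤ X := transport_le
  have hc₁ : ∀ a ∈ P₁, ∀ c ∈ Y, a * c = c * a := fun a ha => hXY a (hP₁X ha)
  have hb'Y : Iso F Y Y b' := iso_of_sc hY (hb'.mp.restrict hY.1)
  have hP₁S : P₁ ⊔ Y ≤ S := sup_le (hP₁X.trans hX.1) hY.1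
  have hmaps : ∀ x ∈ P₁ ⊔ Y, b' x ∈ P ⊔ Y := by
    intro x hx
    obtain ⟨a, ha, c, hc, rfl⟩ := mem_sup_of_comm hc₁ hx
    rw [hb'.mp.map_mul (hP₁S (Subgroup.mem_sup_left ha)) (hP₁S (Subgroup.mem_sup_right hc))]
    exact Subgroup.mul_mem _ (Subgroup.mem_sup_left (mem_transport h1 hX.1 hv hPT ha).1)
      (Subgroup.mem_sup_right (hb'Y.maps c hc))
  have hm : Mp F (P₁ ⊔ Y) (ĥ ∘ b') := (hb'.mp.restrict hP₁S).comp hmaps hĥ
  have hm₂ : Mp F (P₁ ⊔ Y) (b ∘ (ĥ ∘ b')) := hm.comp (fun x hx => hm.mem hx) hb.mp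
  have hfix₂ : ∀ y ∈ Y, (b ∘ (ĥ ∘ b')) y = y := by
    intro y hy
    simp only [Function.comp]
    rw [hfix _ (hb'Y.maps y hy)]
    exact h2 y (hY.1 hy)
  obtain ⟨χ, hχ, hχv⟩ := (mp_cen_iff hX hXY hR').2 ⟨hP₁X, _, hm₂, hfix₂, fun _ _ => rfl⟩
  refine ⟨χ, hχ, fun x hφx hαx => ?_⟩
  rw [hχv]
  simp only [Function.comp]
  have e0 : (b ((⟨x, hPT x.2⟩ : X) : Ω)) = ((α ⟨x, hPT x.2⟩ : X) : Ω) := hv _
  have e1 : b' ((α ⟨x, hPT x.2⟩ : X) : Ω) = x := by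
    rw [← e0]
    exact h1 x (hX.1 (hPT x.2))
  rw [e1, hĥφ x x.2, toFun_coe φ x]
  exact hv ⟨φ x, hφx⟩

theorem invariance_full (hF : F.IsSaturated p) (hX : F.StronglyClosed X) (hY : F.StronglyClosed Y)
    (hXY : ∀ a ∈ X, ∀ b ∈ Y, a * b = b * a) (hS : X ⊔ Y = S)
    (hR : ∀ P : Subgroup Ω, P ≤ X → R.Hom P = F.Hom P)
    (P : Subgroup Ω) (hPT : P ≤ X) (φ : P →* Ω) (hφ : φ ∈ R.Hom P) (α : MulAut X) (hα : α ∈ F.autGroup X) :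
    ∃ χ ∈ R.Hom ((P.subgroupOf X).map (X.subtype.comp α.toMonoidHom)),
        ∀ (x : P) (hφx : φ x ∈ X)
          (hαx : ((α ⟨x, hPT x.2⟩ : X) : Ω) ∈ (P.subgroupOf X).map (X.subtype.comp α.toMonoidHom)),
          χ ⟨(α ⟨x, hPT x.2⟩ : X), hαx⟩ = ((α ⟨φ x, hφx⟩ : X) : Ω) := by
  obtain ⟨b, b', hb, hb', h1, h2, hv⟩ := exists_aut_ext hF hX hY hXY hS hα
  have hφF : φ ∈ F.Hom P := (hR P hPT) ▸ hφ
  have hφm : Mp F P (toFun φ) := mp_of_mem hφF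
  set P₁ := (P.subgroupOf X).map (X.subtype.comp α.toMonoidHom) with hP₁
  have hP₁X : P₁ ≤ X := transport_le
  have hm : Mp F P₁ (toFun φ ∘ b') := (hb'.mp.restrict (hP₁X.trans hX.1)).comp
    (fun x hx => (mem_transport h1 hX.1 hv hPT hx).1) hφm
  have hm₂ : Mp F P₁ (b ∘ (toFun φ ∘ b')) := hm.comp (fun x hx => hm.mem hx) hb.mp
  obtain ⟨χ, hχ, hχv⟩ := hm₂
  refine ⟨χ, (hR P₁ hP₁X).symm ▸ hχ, fun x hφx hαx => ?_⟩
  rw [hχv]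
  simp only [Function.comp]
  have e0 : (b ((⟨x, hPT x.2⟩ : X) : Ω)) = ((α ⟨x, hPT x.2⟩ : X) : Ω) := hv _
  have e1 : b' ((α ⟨x, hPT x.2⟩ : X) : Ω) = x := by
    rw [← e0]
    exact h1 x (hX.1 (hPT x.2))
  rw [e1, toFun_coe φ x]
  exact hv ⟨φ x, hφx⟩

theorem frattini_cen (hF : F.IsSaturated p) (hX : F.StronglyClosed X) (hY : F.StronglyClosed Y)
    (hXY : ∀ a ∈ X, ∀ b ∈ Y, a * b = b * a) (hS : X ⊔ Y = S)
    (hR' : ∀ P : Subgroup Ω, P ≤ X → R'.Hom P = F.centralizerHom Y P)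
    (P : Subgroup Ω) (hPT : P ≤ X) (φ : P →* Ω) (hφ : φ ∈ F.Hom P) :
    ∃ α ∈ F.autGroup X, ∃ φ₀ ∈ R'.Hom P, ∀ (x : P) (hx : φ₀ x ∈ X), φ x = ((α ⟨φ₀ x, hx⟩ : X) : Ω) := by
  obtain ⟨b, hb, h, hm, hfix, hbh⟩ := exists_fix hF hX hY hXY hS hPT (mp_of_mem hφ)
  have hI : Iso F X X b := iso_of_sc hX (hb.mp.restrict hX.1)
  obtain ⟨φ₀, hφ₀, hv⟩ := (mp_cen_iff hX hXY hR').2 ⟨hPT, h, hm, hfix, fun _ _ => rfl⟩
  refine ⟨autOfIso hI, autOfIso_mem hI, φ₀, hφ₀, fun x hx => ?_⟩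
  rw [autOfIso_apply hI]
  change φ x = b (φ₀ x)
  rw [hv x, hbh x x.2, toFun_coe φ x]

end Main

end Cfsg.Agent.H24
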