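import Mathlib
import Cfsg.Agent.Lib.H24.DirP4
import Cfsg.Prelude.Def_TwoFusion

/-!
Fusion systems over a direct product of two strongly closed subgroups: the main theorem.
-/

set_option autoImplicit false
set_option linter.style.haveILetI false

namespace Cfsg.Agent.H24

open Cfsg Cfsg.FusionSystem Cfsg.Agent.H25

variable {Ω : Type*} [Group Ω] {S : Subgroup Ω} {F : FusionSystem S} {p : ℕ}
variable {X Y P Q K : Subgroup Ω} {f g h : Ω → Ω}

section Main

variable [Finite S] {R R' : FusionSystem X}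

theorem central_of_aut {α : MulAut X} {a : X} (ha : ∀ y : X, y * a = a * y) (y : X) :
    y * α a = α a * y := by
  obtain ⟨y', rfl⟩ := α.surjective y
  rw [← map_mul, ← map_mul, ha y']

theorem extension_cen (hX : F.StronglyClosed X) (hY : F.StronglyClosed Y)
    (hXY : ∀ a ∈ X, ∀ b ∈ Y, a * b = b * a) (hS : X ⊔ Y = S)
    (hR' : ∀ P : Subgroup Ω, P ≤ X → R'.Hom P = F.centralizerHom Y P) (α : MulAut X) (hα : α ∈ R'.autGroup X) :
    ∃ β ∈ F.autGroup (X ⊔ centralizerIn S X),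
      (∀ x : X, ((β (Subgroup.inclusion le_sup_left x) : ↥(X ⊔ centralizerIn S X)) : Ω) = ((α x : X) : Ω)) ∧
      ∀ c : ↥(X ⊔ centralizerIn S X), (c : Ω) ∈ centralizerIn S X →
        (c : Ω)⁻¹ * ((β c : ↥(X ⊔ centralizerIn S X)) : Ω) ∈ X ⊓ Subgroup.centralizer (X : Set Ω) := by
  set W := X ⊔ centralizerIn S X with hW
  have hWS : W ≤ S := sup_le hX.1 inf_le_left
  have hSW : S ≤ W := by
    rw [← hS]
    exact sup_le le_sup_left (fun y hy => Subgroup.mem_sup_right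
      (mem_centralizerIn.2 ⟨hY.1 hy, fun x hx => hXY x hx y hy⟩))
  have h1 := Mp.of_mem_autGroup (le_refl X) hα
  obtain ⟨-, h, hh, hfix, hhα⟩ := (mp_cen_iff hX hXY hR').1 h1
  have hmW : Mp F W h := Mp.of_eq (le_antisymm (by rw [hS]; exact hSW) (by rw [hS]; exact hWS)) hh
  haveI : Finite W := finite_of_le hWS
  have hI : Iso F W W h := Iso.of_maps hmW (fun x hx => hSW (hmW.mem hx))
  have hhX : ∀ x : X, h x = (α x : X) := fun x => by rw [hhα x x.2, toFun_aut]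
  refine ⟨autOfIso hI, autOfIso_mem hI, fun x => hhX x, fun c hc => ?_⟩
  change (c : Ω)⁻¹ * h c ∈ _
  obtain ⟨hcS, hcc⟩ := mem_centralizerIn.1 hc
  have hcS' : (c : Ω) ∈ X ⊔ Y := by
    rw [hS]
    exact hcS
  obtain ⟨a, ha, d, hd, hca⟩ := mem_sup_of_comm hXY hcS'
  have haZ : ∀ y ∈ X, y * a = a * y := by
    intro y hy
    have h2 := hcc y hy
    rw [hca] at h2
    have h3 : d * y = y * d := (hXY y hy d hd).symm
    have h4 : y * a * d = a * y * d := by
      calc y * a * d = y * (a * d) := by group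
        _ = a * d * y := h2
        _ = a * (d * y) := by group
        _ = a * (y * d) := by rw [h3]
        _ = _ := by group
    exact mul_right_cancel h4
  have hha : h a = (α ⟨a, ha⟩ : X) := hhX ⟨a, ha⟩
  have hhaX : h a ∈ X := by rw [hha]; exact (α ⟨a, ha⟩).2
  have e : (c : Ω)⁻¹ * h c = a⁻¹ * h a := by
    have hcm : (c : Ω) = a * d := hca
    have hd1 : h d = d := hfix d hd
    rw [hcm, hh.map_mul (Subgroup.mem_sup_left ha) (Subgroup.mem_sup_right hd), hd1]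
    have h5 : a⁻¹ * h a * d = d * (a⁻¹ * h a) := hXY _ (X.mul_mem (X.inv_mem ha) hhaX) d hd
    calc (a * d)⁻¹ * (h a * d) = d⁻¹ * (a⁻¹ * h a * d) := by group
      _ = d⁻¹ * (d * (a⁻¹ * h a)) := by rw [h5]
      _ = _ := by group
  rw [e]
  refine ⟨X.mul_mem (X.inv_mem ha) hhaX, Subgroup.mem_centralizer_iff.2 fun y hy => ?_⟩
  have hay : y * a = a * y := haZ y hy
  have hay' : y * a⁻¹ = a⁻¹ * y := by
    rw [mul_inv_eq_iff_eq_mul, mul_assoc, hay, ← mul_assoc, inv_mul_cancel, one_mul]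
  have h6 : y * h a = h a * y := by
    have := central_of_aut (α := α) (a := ⟨a, ha⟩) (fun y' => Subtype.ext (haZ y' y'.2)) ⟨y, hy⟩
    have h7 := congrArg Subtype.val this
    rw [hha]
    exact h7
  calc y * (a⁻¹ * h a) = (y * a⁻¹) * h a := by group
    _ = (a⁻¹ * y) * h a := by rw [hay']
    _ = a⁻¹ * (y * h a) := by group
    _ = a⁻¹ * (h a * y) := by rw [h6]
    _ = _ := by group

theorem extension_self [Finite X] (hR₁ : ∀ P : Subgroup Ω, R'.Hom P ⊆ R.Hom P) (α : MulAut X) (hα : α ∈ R'.autGroup X) :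
    ∃ β ∈ R.autGroup (X ⊔ centralizerIn X X),
      (∀ x : X, ((β (Subgroup.inclusion le_sup_left x) : ↥(X ⊔ centralizerIn X X)) : Ω) = ((α x : X) : Ω)) ∧
      ∀ c : ↥(X ⊔ centralizerIn X X), (c : Ω) ∈ centralizerIn X X →
        (c : Ω)⁻¹ * ((β c : ↥(X ⊔ centralizerIn X X)) : Ω) ∈ X ⊓ Subgroup.centralizer (X : Set Ω) := by
  set W := X ⊔ centralizerIn X X with hW
  have hWX : W = X := sup_eq_left.2 inf_le_left
  have h1 := Mp.of_mem_autGroup (le_refl X) hα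
  have h2 : Mp R X (toFun (X.subtype.comp α.toMonoidHom)) := by
    obtain ⟨φ, hφ, hv⟩ := h1
    exact ⟨φ, hR₁ X hφ, hv⟩
  have hmW : Mp R W (toFun (X.subtype.comp α.toMonoidHom)) := Mp.of_eq hWX.symm h2
  haveI : Finite W := by
    rw [hWX]
    infer_instance
  have hI : Iso R W W (toFun (X.subtype.comp α.toMonoidHom)) := Iso.of_maps hmW (fun x hx => by
    have hxX : x ∈ X := hWX ▸ hx
    rw [toFun_aut α ⟨x, hxX⟩]
    exact Subgroup.mem_sup_left (α ⟨x, hxX⟩).2)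
  refine ⟨autOfIso hI, autOfIso_mem hI, fun x => toFun_aut α x, fun c hc => ?_⟩
  obtain ⟨hcX, hcc⟩ := mem_centralizerIn.1 hc
  have e : ((autOfIso hI c : ↥W) : Ω) = (α ⟨c, hcX⟩ : X) := toFun_aut α ⟨c, hcX⟩
  rw [e]
  refine ⟨X.mul_mem (X.inv_mem hcX) (α ⟨c, hcX⟩).2, Subgroup.mem_centralizer_iff.2 fun y hy => ?_⟩
  have hay : y * (c : Ω) = c * y := hcc y hy
  have hay' : y * (c : Ω)⁻¹ = (c : Ω)⁻¹ * y := by
    rw [mul_inv_eq_iff_eq_mul, mul_assoc, hay, ← mul_assoc, inv_mul_cancel, one_mul]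
  have h6 : y * ((α ⟨c, hcX⟩ : X) : Ω) = ((α ⟨c, hcX⟩ : X) : Ω) * y := by
    have := central_of_aut (α := α) (a := ⟨c, hcX⟩) (fun y' => Subtype.ext (hcc y' y'.2)) ⟨y, hy⟩
    exact congrArg Subtype.val this
  calc y * ((c : Ω)⁻¹ * ((α ⟨c, hcX⟩ : X) : Ω)) = (y * (c : Ω)⁻¹) * ((α ⟨c, hcX⟩ : X) : Ω) := by group
    _ = ((c : Ω)⁻¹ * y) * ((α ⟨c, hcX⟩ : X) : Ω) := by rw [hay']
    _ = (c : Ω)⁻¹ * (y * ((α ⟨c, hcX⟩ : X) : Ω)) := by group
    _ = (c : Ω)⁻¹ * (((α ⟨c, hcX⟩ : X) : Ω) * y) := by rw [h6]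
    _ = _ := by group

/-- The structure of fusion systems over a direct product of two strongly closed subgroups (S5130). -/
theorem dirprod_main [Fact p.Prime] (hS₀ : IsPGroup p S) (hF : F.IsSaturated p) (hprod : IsInternalDirectProduct X Y S)
    (hX : F.StronglyClosed X) (hY : F.StronglyClosed Y)
    (hR : ∀ P : Subgroup Ω, P ≤ X → R.Hom P = F.Hom P)
    (hR' : ∀ P : Subgroup Ω, P ≤ X → R'.Hom P = F.centralizerHom Y P) :
    R.IsSaturated p ∧ R'.IsSaturated p ∧ R'.IsNormalIn F p ∧ R'.IsNormalIn R p ∧ R.IsWeaklyNormalIn F p := by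
  obtain ⟨-, -, hXY, hinf, hS⟩ := hprod
  haveI : Finite X := finite_of_le hX.1
  have hRs : R.IsSaturated p := saturated_full hF hX hXY hS hR
  have hR's : R'.IsSaturated p := saturated_cen hS₀ hF hX hY hXY hinf hS hR'
  have hR'F : ∀ P : Subgroup Ω, R'.Hom P ⊆ F.Hom P := by
    intro P φ hφ
    have hP := (R'.le_of_mem hφ).1
    rw [hR' P hP] at hφ
    exact hφ.1
  have hR'R : ∀ P : Subgroup Ω, R'.Hom P ⊆ R.Hom P := by
    intro P φ hφ
    have hP := (R'.le_of_mem hφ).1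
    rw [hR P hP]
    exact hR'F P hφ
  have hRF : ∀ P : Subgroup Ω, R.Hom P ⊆ F.Hom P := by
    intro P φ hφ
    have hP := (R.le_of_mem hφ).1
    rw [hR P hP] at hφ
    exact hφ
  have haut : R.autGroup X = F.autGroup X := autGroup_eq_of_hom (hR X le_rfl)
  have hRsc : R.StronglyClosed X := ⟨le_rfl, fun Q _ φ hφ x => (R.le_of_mem hφ).2 x⟩
  refine ⟨hRs, hR's, ⟨⟨hR's, hF, hR'F, hX, ?_, ?_⟩, ?_⟩, ⟨⟨hR's, hRs, hR'R, hRsc, ?_, ?_⟩, ?_⟩, hRs, hF, hRF, hX, ?_, ?_⟩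
  · exact fun P hPT φ hφ α hα => invariance_cen hF hX hY hXY hS hR' P hPT φ hφ α hα
  · exact fun P hPT φ hφ => frattini_cen hF hX hY hXY hS hR' P hPT φ hφ
  · exact fun α hα => extension_cen hX hY hXY hS hR' α hα
  · rw [haut]
    exact fun P hPT φ hφ α hα => invariance_cen hF hX hY hXY hS hR' P hPT φ hφ α hα
  · intro P hPT φ hφ
    rw [hR P hPT] at hφ
    rw [haut]
    exact frattini_cen hF hX hY hXY hS hR' P hPT φ hφ
  · exact fun α hα => extension_self hR'R α hα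
  · exact fun P hPT φ hφ α hα => invariance_full hF hX hY hXY hS hR P hPT φ hφ α hα
  · intro P hPT φ hφ
    refine ⟨1, Subgroup.one_mem _, φ, (hR P hPT).symm ▸ hφ, fun x hx => rfl⟩

end Main

end Cfsg.Agent.H24
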