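import Mathlib
import Cfsg.Agent.Lib.H24.FusCore

/-!
Constrained fusion systems and subnormal subgroups.
-/

set_option autoImplicit false

namespace Cfsg.Agent.H24

open scoped commutatorElement

open Cfsg Cfsg.FusionSystem

section Group

variable {G : Type*} [Group G] [Finite G] {p : ℕ} [Fact p.Prime]

theorem subnormal_facts (S : Sylow p G) (hc : (groupFusionSystem (S : Subgroup G)).IsConstrained p)
    (H : Subgroup G) (hH : H.IsSubnormal) :
    ¬ p ∣ ((S : Subgroup G) ⊓ H).relIndex H ∧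
      (fusionSystemOfSubgroup H ((S : Subgroup G) ⊓ H) inf_le_right).IsConstrained p := by
  have hpinf : ∀ K : Subgroup G, IsPGroup p ((S : Subgroup G) ⊓ K : Subgroup G) :=
    fun K => S.isPGroup'.to_le inf_le_left
  induction hH with
  | top =>
    have h1 : ¬ p ∣ ((S : Subgroup G) ⊓ ⊤).relIndex ⊤ := by
      rw [inf_top_eq, Subgroup.relIndex_top_right]
      exact S.not_dvd_index
    refine ⟨h1, ?_⟩
    refine constrained_of_subsystem S.isPGroup' hc (normal_inf_stronglyClosed (S : Subgroup G) ⊤)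
      (saturated_fusionSystemOfSubgroup inf_le_right (hpinf ⊤) h1) ?_
    rintro Q φ ⟨hQ, hv, g, -, hg⟩
    exact ⟨hQ.trans inf_le_left, fun x => (hv x).1, g, hg⟩
  | step H K hle _ hN ih =>
    obtain ⟨h1, h2⟩ := ih
    have hK' : IsPGroup p (((S : Subgroup G) ⊓ K).subgroupOf K) :=
      IsPGroup.comap_of_injective (hpinf K) K.subtype (Subgroup.subtype_injective _)
    have h1' : ¬ p ∣ (((S : Subgroup G) ⊓ K).subgroupOf K).index := h1
    have h3 := sylow_inf_normal_index (hK'.toSylow h1') (H.subgroupOf K)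
    rw [hK'.toSylow_coe h1'] at h3
    have e0 : ((S : Subgroup G) ⊓ K).subgroupOf K ⊓ H.subgroupOf K = ((S : Subgroup G) ⊓ H).subgroupOf K := by
      ext y
      simp only [Subgroup.mem_inf, Subgroup.mem_subgroupOf]
      constructor
      · rintro ⟨⟨h4, -⟩, h5⟩
        exact ⟨h4, h5⟩
      · rintro ⟨h4, h5⟩
        exact ⟨⟨h4, y.2⟩, h5⟩
    rw [e0, Subgroup.relIndex_subgroupOf hle] at h3
    refine ⟨h3, ?_⟩
    have hsc : (fusionSystemOfSubgroup K ((S : Subgroup G) ⊓ K) inf_le_right).StronglyClosed ((S : Subgroup G) ⊓ H) := by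
      refine ⟨inf_le_inf_left _ hle, ?_⟩
      rintro R hR φ ⟨hRT, hv, g, hgK, hg⟩ x
      refine ⟨(hv x).1, ?_⟩
      rw [hg]
      have hxH : (x : G) ∈ H := (hR x.2).2
      exact Subgroup.mem_subgroupOf.1 (hN.conj_mem ⟨x, hle hxH⟩ (Subgroup.mem_subgroupOf.2 hxH) ⟨g, hgK⟩)
    refine constrained_of_subsystem (hpinf K) h2 hsc (saturated_fusionSystemOfSubgroup inf_le_right (hpinf H) h3) ?_
    rintro Q φ ⟨hQ, hv, g, hgH, hg⟩
    exact ⟨hQ.trans (inf_le_inf_left _ hle), fun x => ⟨(hv x).1, hle (hv x).2⟩, g, hle hgH, hg⟩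

/-- S5115. -/
theorem constrained_subnormal (S : Sylow p G) (hc : (groupFusionSystem (S : Subgroup G)).IsConstrained p)
    (H : Subgroup G) (hH : H.IsSubnormal) : (groupFusionSystem ((S : Subgroup G).subgroupOf H)).IsConstrained p := by
  obtain ⟨-, h2⟩ := subnormal_facts S hc H hH
  have hT : IsPGroup p ((S : Subgroup G) ⊓ H : Subgroup G) := S.isPGroup'.to_le inf_le_left
  let α : ↥((S : Subgroup G) ⊓ H) →* H := Subgroup.inclusion inf_le_right
  have hαv : ∀ s, α s ∈ (S : Subgroup G).subgroupOf H := fun s => Subgroup.mem_subgroupOf.2 s.2.1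
  have hαinj : Function.Injective α := Subgroup.inclusion_injective _
  have hmor : (fusionSystemOfSubgroup H ((S : Subgroup G) ⊓ H) inf_le_right).IsSurjectiveMorphism
      (groupFusionSystem ((S : Subgroup G).subgroupOf H)) α := by
    refine ⟨⟨hαv, ?_⟩, ?_, ?_⟩
    · rintro P φ ⟨hPT, hv, g, hgH, hg⟩
      have himg : imageAlong α P ≤ (S : Subgroup G).subgroupOf H := by
        rintro _ ⟨s, -, rfl⟩
        exact hαv s
      have hval : ∀ y : imageAlong α P, (⟨g, hgH⟩ : H) * (y : H) * (⟨g, hgH⟩ : H)⁻¹ ∈ (S : Subgroup G).subgroupOf H := by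
        rintro ⟨_, s, hs, rfl⟩
        have hsP : ((s : ↥((S : Subgroup G) ⊓ H)) : G) ∈ P := hs
        have h3 := (hv ⟨s, hsP⟩).1
        rw [hg] at h3
        exact Subgroup.mem_subgroupOf.2 h3
      refine ⟨conjHom (imageAlong α P) (⟨g, hgH⟩ : H), ⟨himg, hval, _, fun _ => rfl⟩, hPT, hv, ?_, ?_⟩
      · intro x
        exact ⟨⟨x, hPT x.2⟩, x.2, rfl⟩
      · intro x
        apply Subtype.ext
        show g * (x : G) * g⁻¹ = φ x
        rw [hg]
    · ext y
      constructor
      · rintro ⟨s, rfl⟩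
        exact hαv s
      · intro hy
        exact ⟨⟨y, Subgroup.mem_subgroupOf.1 hy, y.2⟩, rfl⟩
    · rintro P' hP' φ' ⟨-, hv, g, hg⟩
      have hmem : ∀ x : preimageAlong α P', α ⟨x, preimageAlong_le P' x.2⟩ ∈ P' := fun x => (mem_preimageAlong.1 x.2).2
      have hval : ∀ x : preimageAlong α P', (g : G) * (x : G) * (g : G)⁻¹ ∈ (S : Subgroup G) ⊓ H := by
        intro x
        have h3 := hv ⟨_, hmem x⟩
        rw [hg] at h3
        exact ⟨Subgroup.mem_subgroupOf.1 h3, H.mul_mem (H.mul_mem g.2 (preimageAlong_le P' x.2).2) (H.inv_mem g.2)⟩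
      refine ⟨conjHom (preimageAlong α P') (g : G), ⟨preimageAlong_le _, hval, g, g.2, fun _ => rfl⟩, preimageAlong_le _, hval, hmem, ?_⟩
      intro x
      rw [hg]
      rfl
  refine constrained_of_central_quotient hT h2 hmor ?_
  intro k hk s
  have : k = 1 := hαinj (by rw [hk, map_one])
  rw [this, one_mul, mul_one]

/-- A `p`-element in `S Z(G)`, `S` Sylow, lies in `S`. -/
theorem mem_sylow_of_mul_center (D : Sylow p G) {y s z : G} (hs : s ∈ (D : Subgroup G)) (hz : z ∈ Subgroup.center G)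
    (hy : y = s * z) {k : ℕ} (hyk : y ^ p ^ k = 1) : y ∈ (D : Subgroup G) := by
  obtain ⟨t, ht⟩ := D.isPGroup' ⟨s, hs⟩
  have ht' : s ^ p ^ t = 1 := congrArg Subtype.val ht
  have hcomm : Commute s z := ((Subgroup.mem_center_iff.1 hz) s)
  have hzp : z ^ p ^ (k + t) = 1 := by
    have h1 : y ^ p ^ (k + t) = 1 := by
      rw [pow_add, pow_mul, hyk, one_pow]
    have h2 : s ^ p ^ (k + t) = 1 := by
      rw [add_comm, pow_add, pow_mul, ht', one_pow]
    rw [hy, hcomm.mul_pow, h2, one_mul] at h1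
    exact h1
  have hZn : (Subgroup.zpowers z).Normal := by
    constructor
    rintro _ ⟨n, rfl⟩ g
    have e : g * z ^ n * g⁻¹ = z ^ n := by
      have h1 : z ^ n ∈ Subgroup.center G := Subgroup.zpow_mem _ hz n
      have h2 := (Subgroup.mem_center_iff.1 h1) g
      rw [h2]
      group
    rw [e]
    exact ⟨n, rfl⟩
  have hZp : IsPGroup p (Subgroup.zpowers z) := by
    have hp : p.Prime := Fact.out
    obtain ⟨j, -, hj⟩ := (Nat.dvd_prime_pow hp).1 (orderOf_dvd_of_pow_eq_one hzp)
    refine IsPGroup.of_card (n := j) ?_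
    rw [Nat.card_zpowers, hj]
  have hle := (Cfsg.Agent.H01.le_pCore hZn hZp).trans (Cfsg.Agent.H01.pCore_le_sylow p D)
  rw [hy]
  exact D.1.mul_mem hs (hle (Subgroup.mem_zpowers z))

/-- S5147. -/
theorem constrained_component_quotient (S : Sylow p G) (hc : (groupFusionSystem (S : Subgroup G)).IsConstrained p)
    (L : Subgroup G) (hL : L.IsSubnormal) :
    (groupFusionSystem (((S : Subgroup G).subgroupOf L).map (QuotientGroup.mk' (Subgroup.center L)))).IsConstrained p := by
  obtain ⟨h1, -⟩ := subnormal_facts S hc L hL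
  have hcL := constrained_subnormal S hc L hL
  have hS' : IsPGroup p ((S : Subgroup G).subgroupOf L) :=
    IsPGroup.comap_of_injective S.isPGroup' L.subtype (Subgroup.subtype_injective _)
  have h1' : ¬ p ∣ ((S : Subgroup G).subgroupOf L).index := by
    have e : ((S : Subgroup G) ⊓ L).relIndex L = ((S : Subgroup G).subgroupOf L).index := by
      unfold Subgroup.relIndex
      rw [Subgroup.inf_subgroupOf_right]
    rwa [e] at h1
  let D : Sylow p L := hS'.toSylow h1'
  have hD : (D : Subgroup L) = (S : Subgroup G).subgroupOf L := hS'.toSylow_coe h1'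
  let π := QuotientGroup.mk' (Subgroup.center L)
  let S' := (S : Subgroup G).subgroupOf L
  let α : ↥S' →* (L ⧸ Subgroup.center L) := π.comp S'.subtype
  have hαv : ∀ s, α s ∈ S'.map π := fun s => ⟨s, s.2, rfl⟩
  have hmor : (groupFusionSystem S').IsSurjectiveMorphism (groupFusionSystem (S'.map π)) α := by
    refine ⟨⟨hαv, ?_⟩, ?_, ?_⟩
    · rintro P φ ⟨hP, hv, g, hg⟩
      have himg : imageAlong α P ≤ S'.map π := by
        rintro _ ⟨s, -, rfl⟩
        exact hαv s
      have hval : ∀ y : imageAlong α P, π g * (y : L ⧸ Subgroup.center L) * (π g)⁻¹ ∈ S'.map π := by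
        rintro ⟨_, s, hs, rfl⟩
        have hsP : ((s : S') : L) ∈ P := hs
        have h3 := hv ⟨s, hsP⟩
        rw [hg] at h3
        refine ⟨_, h3, ?_⟩
        show π (g * (s : L) * g⁻¹) = _
        rw [map_mul, map_mul, map_inv]
        rfl
      refine ⟨conjHom (imageAlong α P) (π g), ⟨himg, hval, _, fun _ => rfl⟩, hP, hv, ?_, ?_⟩
      · intro x
        exact ⟨⟨x, hP x.2⟩, x.2, rfl⟩
      · intro x
        show π g * π (x : L) * (π g)⁻¹ = π (φ x)
        rw [hg, map_mul, map_mul, map_inv]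
    · ext y
      constructor
      · rintro ⟨s, rfl⟩
        exact hαv s
      · rintro ⟨s, hs, rfl⟩
        exact ⟨⟨s, hs⟩, rfl⟩
    · rintro P' hP' φ' ⟨-, hv, gb, hg⟩
      obtain ⟨g, rfl⟩ := QuotientGroup.mk'_surjective (Subgroup.center L) gb
      have hmem : ∀ x : preimageAlong α P', α ⟨x, preimageAlong_le P' x.2⟩ ∈ P' := fun x => (mem_preimageAlong.1 x.2).2
      have hval : ∀ x : preimageAlong α P', g * (x : L) * g⁻¹ ∈ S' := by
        intro x
        have h3 := hv ⟨_, hmem x⟩
        rw [hg] at h3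
        obtain ⟨s, hs, hsv⟩ := h3
        have h4 : π s = π (g * (x : L) * g⁻¹) := by
          rw [hsv]
          show _ = _
          rw [map_mul, map_mul, map_inv]
          rfl
        have h5 : s⁻¹ * (g * (x : L) * g⁻¹) ∈ Subgroup.center L := (QuotientGroup.eq).1 h4
        have hxS' : (x : L) ∈ S' := preimageAlong_le P' x.2
        obtain ⟨k, hk⟩ := hS' ⟨x, hxS'⟩
        have hk' : (x : L) ^ p ^ k = 1 := congrArg Subtype.val hk
        have hyk : (g * (x : L) * g⁻¹) ^ p ^ k = 1 := by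
          rw [conj_pow, hk']
          group
        have hsD : s ∈ (D : Subgroup L) := by
          rw [hD]
          exact hs
        have h6 := mem_sylow_of_mul_center D hsD h5 (by group) hyk
        rw [hD] at h6
        exact h6
      refine ⟨conjHom (preimageAlong α P') g, ⟨preimageAlong_le _, hval, g, fun _ => rfl⟩, preimageAlong_le _, hval, hmem, ?_⟩
      intro x
      rw [hg]
      show _ = π (g * (x : L) * g⁻¹)
      rw [map_mul, map_mul, map_inv]
      rfl
  refine constrained_of_central_quotient hS' hcL hmor ?_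
  intro k hk s
  have h3 : (k : L) ∈ Subgroup.center L := (QuotientGroup.eq_one_iff _).1 hk
  apply Subtype.ext
  exact (Subgroup.mem_center_iff.1 h3) s |>.symm

end Group

end Cfsg.Agent.H24
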