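import Mathlib
import Cfsg.Agent.Lib.H24.FusAG3
import Cfsg.Agent.Lib.H24.FusGroup
import Cfsg.Prelude.Def_TwoFusion

/-!
Fusion systems of finite groups: control by the normalizer.
-/

set_option autoImplicit false

namespace Cfsg.Agent.H24

open scoped commutatorElement

open Cfsg Cfsg.FusionSystem

section

variable {G : Type*} [Group G] [Finite G] {p : ℕ} [Fact p.Prime]

/-- S5107. -/
theorem normalizer_controls_of_class_two (S : Sylow p G)
    (hcl : ⁅(S : Subgroup G), (S : Subgroup G)⁆ ≤ (S : Subgroup G) ⊓ Subgroup.centralizer ((S : Subgroup G) : Set G))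
    (hZ : Cfsg.IsStronglyClosed ((S : Subgroup G) ⊓ Subgroup.centralizer ((S : Subgroup G) : Set G)) (S : Subgroup G)) :
    (∀ (P : Subgroup G) (φ : P →* G), φ ∈ (Cfsg.groupFusionSystem (S : Subgroup G)).Hom P →
      ∃ g ∈ Subgroup.normalizer ((S : Subgroup G) : Set G), ∀ x : P, φ x = g * (x : G) * g⁻¹) ∧
    (Cfsg.groupFusionSystem (S : Subgroup G)).core = S := by
  have hF := groupFusion_saturated S
  have hS : IsPGroup p (S : Subgroup G) := S.isPGroup'
  have hZc : (groupFusionSystem (S : Subgroup G)).StronglyClosed ((S : Subgroup G) ⊓ Subgroup.centralizer ((S : Subgroup G) : Set G)) := by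
    refine ⟨inf_le_left, ?_⟩
    rintro R hR φ ⟨-, hφS, g, hg⟩ x
    have h1 := hφS x
    rw [hg] at h1 ⊢
    exact hZ.2 _ (hR x.2) g h1
  have hSc : (groupFusionSystem (S : Subgroup G)).StronglyClosed (S : Subgroup G) := by
    refine ⟨le_rfl, ?_⟩
    rintro R hR φ ⟨-, hφS, g, hg⟩ x
    exact hφS x
  have hN : (groupFusionSystem (S : Subgroup G)).IsNormal (S : Subgroup G) := by
    refine (isNormal_iff_chain hS hF).2 ⟨2, ![⊥, (S : Subgroup G) ⊓ Subgroup.centralizer ((S : Subgroup G) : Set G), (S : Subgroup G)], rfl, rfl, ?_, ?_⟩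
    · intro i j hij
      fin_cases i <;> fin_cases j <;> first | exact le_rfl | exact bot_le | exact inf_le_left | (exact absurd hij (by decide))
    · intro i
      fin_cases i
      · refine ⟨hZc, ?_⟩
        show ⁅(S : Subgroup G), (S : Subgroup G) ⊓ Subgroup.centralizer ((S : Subgroup G) : Set G)⁆ ≤ ⊥
        refine Subgroup.commutator_le.2 fun x hx y hy => ?_
        have h1 : x * y = y * x := (Subgroup.mem_centralizer_iff.1 hy.2 x hx)
        rw [commutatorElement_def, h1]
        simp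
      · exact ⟨hSc, hcl⟩
  refine ⟨?_, le_antisymm (isNormal_core (F := groupFusionSystem (S : Subgroup G))).1 (le_sSup hN)⟩
  intro P φ hφ
  obtain ⟨ψ, ⟨-, hψS, g, hg⟩, hψφ, hψQ⟩ := hN.2 P φ hφ
  rw [map_subgroupOf_eq_iff (le_sup_right : (S : Subgroup G) ≤ P ⊔ S)] at hψQ
  refine ⟨g, mem_normalizer_of_forall ?_ ?_, fun x => ?_⟩
  · intro y hy
    have := hψQ.1 y hy
    rwa [hg] at this
  · intro y hy
    obtain ⟨x, hx, hxy⟩ := hψQ.2 y hy
    rw [hg] at hxy
    have e : g⁻¹ * y * g = x := by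
      rw [← hxy]
      group
    rw [e]
    exact hx
  · rw [← hψφ, hg]
    rfl

end

end Cfsg.Agent.H24
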