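import Mathlib
import Cfsg.Agent.Lib.H24.TrsC

/-! The layer of a saturated fusion system is characteristic. -/

set_option autoImplicit false

namespace Cfsg.Agent.H24.LayerCh

open Cfsg Cfsg.FusionSystem Cfsg.Agent.H25 Cfsg.Agent.H24.TS

variable {Ω : Type*} [Group Ω] {S : Subgroup Ω} {p : ℕ}

theorem morph_key (F : FusionSystem S) (b : MulAut S)
    (hb : F.IsMorphism F (S.subtype.comp b.toMonoidHom)) (P : Subgroup Ω) (f : Ω → Ω) (hf : Mp F P f) :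
    Mp F ((tr_aut b).im P) (tf b ∘ f ∘ tf b⁻¹) := by
  obtain ⟨φ, hφ, hφf⟩ := hf
  obtain ⟨φ', hφ', hP, hval, hP', hind⟩ := hb.2 P φ hφ
  have hPS : P ≤ S := hP
  have e0 : (tr_aut b).im P = imageAlong (S.subtype.comp b.toMonoidHom) P := im_aut b hPS
  rw [e0]
  refine ⟨φ', hφ', ?_⟩
  intro y
  obtain ⟨x, hx, hxy⟩ := (mem_imT hPS).1 y.2
  have h1 := hind ⟨x, hx⟩
  have e1 : (y : Ω) = ((S.subtype.comp b.toMonoidHom) ⟨x, hP hx⟩) := by
    rw [← hxy]
    exact tf_apply b (hPS hx)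
  have e2 : φ' y = φ' ⟨(S.subtype.comp b.toMonoidHom) ⟨x, hP hx⟩, hP' ⟨x, hx⟩⟩ :=
    congrArg φ' (Subtype.ext e1)
  rw [e2, h1]
  simp only [Function.comp]
  rw [← hxy, tf_inv' (hPS hx), ← hφf ⟨x, hx⟩, tf_apply b (hval ⟨x, hx⟩)]
  rfl

theorem trs_of_morph (F : FusionSystem S) (a : MulAut S)
    (ha : F.IsMorphism F (S.subtype.comp a.toMonoidHom))
    (ha' : F.IsMorphism F (S.subtype.comp (a⁻¹ : MulAut S).toMonoidHom)) : Trs F F (tf a) (tf a⁻¹) := by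
  refine ⟨tr_aut a, morph_key F a ha, fun P f hf => ?_⟩
  have h1 := morph_key F a⁻¹ ha' P f hf
  have h2 : (tr_aut a⁻¹).im P = (tr_aut a).symm.im P := by
    ext y
    constructor
    · rintro ⟨hy, hy'⟩
      refine ⟨hy, ?_⟩
      have := hy'
      rwa [inv_inv] at this
    · rintro ⟨hy, hy'⟩
      refine ⟨hy, ?_⟩
      rwa [inv_inv]
  rw [h2] at h1
  refine h1.congr fun y _ => ?_
  simp only [Function.comp, inv_inv]

theorem le_of_sub {U V : Subgroup Ω} {X : FusionSystem V} {D : FusionSystem U} (h : X.IsSubsystemOf D) : V ≤ U :=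
  (D.le_of_mem (h V (X.conj_mem le_rfl V.one_mem))).1

theorem layer_le [Fact p.Prime] [Finite S] (hS : IsPGroup p S) {F : FusionSystem S} {t t' : Ω → Ω}
    (hF : Trs F F t t') {T T₁ : Subgroup Ω} {E : FusionSystem T} {E₁ : FusionSystem T₁}
    (hE : E.IsLayerOf F p) (h₁ : Trs E E₁ t t') : E.IsSubsystemOf E₁ := by
  apply hE.2.2 T₁ E₁ (normalIn_tr hF h₁ hS hE.1)
  intro U C hC
  have hUS : U ≤ S := subnormal_le hC.1
  have htr : Tr U (hF.symm.tr.im U) t' t := hF.symm.tr.res hUS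
  haveI : Finite U := Finite.of_injective _ (Subgroup.inclusion_injective hUS)
  obtain ⟨C₀, hC₀⟩ := exists_trs htr C
  have hcomp : C₀.IsComponentIn F p :=
    ⟨subnormal_tr hC.1 hS F C₀ hF.symm hC₀, quasisimple_tr hC₀ (hS.to_le hUS) hC.2⟩
  have hle := hE.2.1 _ C₀ hcomp
  exact sub_tr h₁ hC₀.symm (le_of_sub hle) hle

theorem layer_char [Fact p.Prime] [Finite S] (hS : IsPGroup p S) (F : FusionSystem S) (a : MulAut S)
    (ha : F.IsMorphism F (S.subtype.comp a.toMonoidHom))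
    (ha' : F.IsMorphism F (S.subtype.comp (a⁻¹ : MulAut S).toMonoidHom))
    {T : Subgroup Ω} (E : FusionSystem T) (hE : E.IsLayerOf F p) :
    imageAlong (S.subtype.comp a.toMonoidHom) T = T ∧
      ∀ (P : Subgroup Ω) (φ : ↥P →* Ω), φ ∈ E.Hom P →
        ∀ φ' : ↥(imageAlong (S.subtype.comp a.toMonoidHom) P) →* Ω,
          InducedAlong (S.subtype.comp a.toMonoidHom) φ φ' →
            φ' ∈ E.Hom (imageAlong (S.subtype.comp a.toMonoidHom) P) := by
  have hFt := trs_of_morph F a ha ha'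
  have hTS : T ≤ S := hE.1.1.2.2.2.1.1
  haveI : Finite T := Finite.of_injective _ (Subgroup.inclusion_injective hTS)
  obtain ⟨E₁, h₁⟩ := exists_trs ((tr_aut a).res hTS) E
  obtain ⟨E₂, h₂⟩ := exists_trs ((tr_aut a).symm.res hTS) E
  have hsub1 := layer_le hS hFt hE h₁
  have hsub2 := layer_le hS hFt.symm hE h₂
  have hsub3 : E₁.IsSubsystemOf E := sub_tr h₂.symm h₁ (le_of_sub hsub2) hsub2
  have hT1 : T ≤ (tr_aut a).im T := (E₁.le_of_mem (hsub1 T (E.conj_mem le_rfl T.one_mem))).1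
  have hT2 : (tr_aut a).im T ≤ T := (E.le_of_mem (hsub3 _ (E₁.conj_mem le_rfl (Subgroup.one_mem _)))).1
  refine ⟨?_, ?_⟩
  · have e := im_aut a hTS
    change imT a T = T
    rw [← e]
    exact le_antisymm hT2 hT1
  · intro P φ hφ φ' hind
    obtain ⟨hPS', hval, hP', hind'⟩ := hind
    have hPS : P ≤ S := hPS'
    have hf : Mp E P (toFun φ) := mp_of_mem hφ
    have hPT : P ≤ T := hf.le
    have h3 := h₁.fwd P _ hf
    have h4 : Mp E (h₁.tr.im P) (tf a ∘ toFun φ ∘ tf a⁻¹) := by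
      obtain ⟨ψ, hψ, hψe⟩ := h3
      exact ⟨ψ, hsub3 _ hψ, hψe⟩
    have e5 : h₁.tr.im P = imageAlong (S.subtype.comp a.toMonoidHom) P :=
      (Tr.im_eq_im h₁.tr (tr_aut a) hTS hPT).trans (im_aut a hPS)
    rw [e5] at h4
    refine Mp.mem_hom h4 ?_
    intro y
    obtain ⟨x, hx, hxy⟩ := (mem_imT hPS).1 y.2
    have h1 := hind' ⟨x, hx⟩
    have e1 : (y : Ω) = ((S.subtype.comp a.toMonoidHom) ⟨x, hPS' hx⟩) := by
      rw [← hxy]
      exact tf_apply a (hPS hx)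
    have e2 : φ' y = φ' ⟨(S.subtype.comp a.toMonoidHom) ⟨x, hPS' hx⟩, hP' ⟨x, hx⟩⟩ :=
      congrArg φ' (Subtype.ext e1)
    rw [e2, h1]
    simp only [Function.comp]
    rw [← hxy, tf_inv' (hPS hx)]
    have e3 : toFun φ x = φ ⟨x, hx⟩ := toFun_coe φ ⟨x, hx⟩
    rw [e3, tf_apply a (hval ⟨x, hx⟩)]
    rfl

end Cfsg.Agent.H24.LayerCh
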