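import Mathlib

/-!
Normal closures of abelian subgroups of nilpotent groups have smaller class.
-/

set_option autoImplicit false

namespace Cfsg.Agent.H24

open scoped commutatorElement

variable {P : Type*} [Group P]

local notation "γ" => Subgroup.lowerCentralSeries (⊤ : Subgroup P)

/-- `[N, N] ≤ γ₃(P)` for the normal closure `N` of an abelian subgroup `E`. -/
theorem commutator_normalClosure_le {E : Subgroup P} (hE : IsMulCommutative E) :
    ⁅Subgroup.normalClosure (E : Set P), Subgroup.normalClosure (E : Set P)⁆ ≤ γ 2 := by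
  have hγ1 : (γ 1).Normal := inferInstance
  have hγ2 : (γ 2).Normal := inferInstance
  set M : Subgroup P := E ⊔ γ 1 with hM
  have hMn : M.Normal := by
    constructor
    intro x hx g
    have h1 : g * x * g⁻¹ * x⁻¹ ∈ γ 1 := by
      show _ ∈ ⁅(⊤ : Subgroup P), ⊤⁆
      exact Subgroup.commutator_mem_commutator (Subgroup.mem_top g) (Subgroup.mem_top x)
    have h2 : g * x * g⁻¹ = (g * x * g⁻¹ * x⁻¹) * x := by group
    rw [h2]
    exact M.mul_mem (Subgroup.mem_sup_right h1) hx
  have hNM : Subgroup.normalClosure (E : Set P) ≤ M :=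
    Subgroup.normalClosure_le_normal (fun x hx => Subgroup.mem_sup_left hx)
  let f := QuotientGroup.mk' (γ 2)
  have hf : ∀ x, f x = 1 ↔ x ∈ γ 2 := fun x => QuotientGroup.eq_one_iff x
  have hcentral : ∀ u ∈ γ 1, ∀ x : P, Commute (f u) (f x) := by
    intro u hu x
    have h1 : ⁅u, x⁆ ∈ γ 2 := by
      show _ ∈ ⁅γ 1, (⊤ : Subgroup P)⁆
      exact Subgroup.commutator_mem_commutator hu (Subgroup.mem_top x)
    have h2 := (hf _).2 h1
    rw [map_commutatorElement, commutatorElement_eq_one_iff_commute] at h2
    exact h2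
  have hM' : ∀ x ∈ M, ∃ e ∈ E, ∃ u ∈ γ 1, x = e * u := by
    intro x hx
    have := Subgroup.mul_normal E (γ 1)
    have h2 : x ∈ ((E ⊔ γ 1 : Subgroup P) : Set P) := hx
    rw [this] at h2
    obtain ⟨e, he, u, hu, rfl⟩ := Set.mem_mul.1 h2
    exact ⟨e, he, u, hu, rfl⟩
  rw [Subgroup.commutator_le]
  intro x hx y hy
  obtain ⟨e, he, u, hu, rfl⟩ := hM' x (hNM hx)
  obtain ⟨e', he', u', hu', rfl⟩ := hM' y (hNM hy)
  rw [← hf, map_commutatorElement, commutatorElement_eq_one_iff_commute]
  have hee : Commute (f e) (f e') := by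
    have h3 : e * e' = e' * e := by
      have := hE.is_comm.comm (⟨e, he⟩ : E) ⟨e', he'⟩
      exact congrArg Subtype.val this
    show f e * f e' = f e' * f e
    rw [← map_mul, ← map_mul, h3]
  rw [map_mul, map_mul]
  refine Commute.mul_left (Commute.mul_right hee ?_) ?_
  · exact (hcentral u' hu' e).symm
  · exact Commute.mul_right (hcentral u hu e') (hcentral u hu u')

theorem lcs_normalClosure_le {E : Subgroup P} (hE : IsMulCommutative E) (n : ℕ) :
    (Subgroup.normalClosure (E : Set P)).lowerCentralSeries (n + 1) ≤ γ (n + 2) := by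
  induction n with
  | zero => exact commutator_normalClosure_le hE
  | succ n ih =>
    rw [Subgroup.lowerCentralSeries_succ, Subgroup.lowerCentralSeries_succ]
    exact Subgroup.commutator_mono ih le_top

/-- S5067, for one abelian subgroup. -/
theorem class_normalClosure_lt [Group.IsNilpotent P] (hna : ¬ IsMulCommutative P) {E : Subgroup P}
    (hE : IsMulCommutative E) :
    Group.nilpotencyClass (Subgroup.normalClosure (E : Set P)) < Group.nilpotencyClass P := by
  have h2 : 2 ≤ Group.nilpotencyClass P := by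
    by_contra h
    exact hna (Group.IsNilpotent.nilpotencyClass_le_one_iff.1 (by omega))
  obtain ⟨n, hn⟩ : ∃ n, Group.nilpotencyClass P = n + 2 := ⟨_, (Nat.sub_add_cancel h2).symm⟩
  have h3 := lcs_normalClosure_le hE n
  rw [← hn, Subgroup.lowerCentralSeries_nilpotencyClass, le_bot_iff] at h3
  have h4 : Subgroup.lowerCentralSeries (⊤ : Subgroup (Subgroup.normalClosure (E : Set P))) (n + 1) = ⊥ := by
    rw [← Subgroup.map_subtype_inj, Subgroup.map_bot, Subgroup.top_subtype_lowerCentralSeries, h3]
  have h5 := Subgroup.lowerCentralSeries_eq_bot_iff_nilpotencyClass_le.1 h4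
  omega

end Cfsg.Agent.H24
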