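import Cfsg.Agent.Lib.H24.SatCI
import Cfsg.Agent.Lib.H25.FusSub

/-!
The `p'`-residual subsystem: generated fusion systems, transport by automorphisms of `S`, and the
subsystem generated by the `p`-elements on centric subgroups.
-/

set_option autoImplicit false

namespace Cfsg.Agent.H24.PRes

open Cfsg Cfsg.FusionSystem Cfsg.Agent.H25
open Cfsg.Agent.H24.SatC

variable {Ω : Type*} [Group Ω] {S : Subgroup Ω} {F E : FusionSystem S}
variable {P P₀ Q Q' Q'' R K X Y A B C W T T' U V : Subgroup Ω} {f g h θ β φ φ' α α' δ δ' : Ω → Ω} {p : ℕ}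

/-- The fusion system generated by a family of maps of `F`. -/
def genFus (F : FusionSystem S) (G : Subgroup Ω → Set (Ω → Ω)) (hG : ∀ R f, f ∈ G R → Mp F R f) :
    FusionSystem S where
  Hom P := {φ | ∀ E' : FusionSystem S, (∀ R f, f ∈ G R → Mp E' R f) → φ ∈ E'.Hom P}
  le_of_mem h := F.le_of_mem (h F hG)
  injective_of_mem h := F.injective_of_mem (h F hG)
  conj_mem hP hg := fun E' _ => E'.conj_mem hP hg
  comp_mem hφ hψ hx := fun E' hE' => E'.comp_mem (hφ E' hE') (hψ E' hE') hx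
  inv_mem := by
    intro P φ hφ
    obtain ⟨ψ, hψ, hψv⟩ := F.inv_mem (hφ F hG)
    refine ⟨ψ, fun E' hE' => ?_, hψv⟩
    obtain ⟨ψ', hψ', hψ'v⟩ := E'.inv_mem (hφ E' hE')
    have : ψ' = ψ := by
      ext ⟨y, x, rfl⟩
      rw [hψ'v x, hψv x]
    rwa [this] at hψ'

theorem genFus_min {G : Subgroup Ω → Set (Ω → Ω)} {hG : ∀ R f, f ∈ G R → Mp F R f} (E' : FusionSystem S)
    (h : ∀ R f, f ∈ G R → Mp E' R f) : genFus F G hG ≤ E' := fun _ _ hφ => hφ E' h

theorem gen_mem {G : Subgroup Ω → Set (Ω → Ω)} {hG : ∀ R f, f ∈ G R → Mp F R f} {R : Subgroup Ω} {f : Ω → Ω}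
    (hf : f ∈ G R) : Mp (genFus F G hG) R f := by
  obtain ⟨φ, -, hφv⟩ := hG R f hf
  refine ⟨φ, fun E' hE' => ?_, hφv⟩
  exact (hE' R f hf).mem_hom hφv

theorem genFus_le {G : Subgroup Ω → Set (Ω → Ω)} {hG : ∀ R f, f ∈ G R → Mp F R f} : genFus F G hG ≤ F :=
  genFus_min F hG

/-- Automorphisms of `S` in the system with inverse. -/
structure AutS (F : FusionSystem S) (α α' : Ω → Ω) : Prop where
  iso : Iso F S S α
  iso' : Iso F S S α'
  l : ∀ x ∈ S, α' (α x) = x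
  r : ∀ x ∈ S, α (α' x) = x

theorem AutS.symm (h : AutS F α α') : AutS F α' α := ⟨h.iso', h.iso, h.r, h.l⟩

/-- The preimage of a subgroup under an automorphism of `S`. -/
def pre (hα : AutS F α α') (P : Subgroup Ω) : Subgroup Ω where
  carrier := {y | y ∈ S ∧ α y ∈ P}
  mul_mem' := by
    rintro a b ⟨ha, ha'⟩ ⟨hb, hb'⟩
    refine ⟨S.mul_mem ha hb, ?_⟩
    rw [hα.iso.mp.map_mul ha hb]
    exact P.mul_mem ha' hb'
  one_mem' := by
    refine ⟨S.one_mem, ?_⟩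
    rw [hα.iso.mp.map_one]
    exact P.one_mem
  inv_mem' := by
    rintro a ⟨ha, ha'⟩
    refine ⟨S.inv_mem ha, ?_⟩
    rw [hα.iso.mp.map_inv ha]
    exact P.inv_mem ha'

theorem pre_le (hα : AutS F α α') : pre hα P ≤ S := fun _ h => h.1

theorem mem_pre (hα : AutS F α α') {y : Ω} : y ∈ pre hα P ↔ y ∈ S ∧ α y ∈ P := Iff.rfl

/-- `α` is an isomorphism from the preimage. -/
theorem iso_pre (hα : AutS F α α') (hP : P ≤ S) : Iso F (pre hα P) P α :=
  ⟨hα.iso.mp.restrict (pre_le hα), fun _ h => h.2, fun y hy =>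
    ⟨α' y, ⟨hα.iso'.maps y (hP hy), by rw [hα.r y (hP hy)]; exact hy⟩, hα.r y (hP hy)⟩⟩

theorem iso_pre' (hα : AutS F α α') (hP : P ≤ S) : Iso F P (pre hα P) α' :=
  ⟨hα.iso'.mp.restrict hP, fun y hy => ⟨hα.iso'.maps y (hP hy), by rw [hα.r y (hP hy)]; exact hy⟩,
    fun y hy => ⟨α y, hy.2, hα.l y hy.1⟩⟩

/-- The transport of a subsystem by an automorphism. -/
def Tr (E : FusionSystem S) (hEF : E ≤ F) (hα : AutS F α α') : FusionSystem S where
  Hom P := {φ | φ ∈ F.Hom P ∧ Mp E (pre hα P) (α' ∘ toFun φ ∘ α)}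
  le_of_mem h := F.le_of_mem h.1
  injective_of_mem h := F.injective_of_mem h.1
  conj_mem := by
    intro P g hP hg
    refine ⟨F.conj_mem hP hg, ?_⟩
    refine (Mp.conj (F := E) (pre_le hα) (hα.iso'.maps g hg)).congr fun y hy => ?_
    simp only [Function.comp]
    rw [toFun_coe (conjHom P g) ⟨α y, hy.2⟩]
    show _ = α' (g * α y * g⁻¹)
    have h1 := hα.iso'.mp
    have hyS : α y ∈ S := hP hy.2
    rw [h1.map_mul (S.mul_mem hg hyS) (S.inv_mem hg), h1.map_mul hg hyS, h1.map_inv hg, hα.l y hy.1]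
  comp_mem := by
    intro P Q φ ψ hφ hψ hx
    refine ⟨F.comp_mem hφ.1 hψ.1 hx, ?_⟩
    have hval : ∀ y ∈ pre hα P, toFun φ (α y) ∈ Q := fun y hy => by
      rw [toFun_coe φ ⟨α y, hy.2⟩]
      exact hx ⟨α y, hy.2⟩
    have hS' : ∀ y ∈ pre hα P, toFun φ (α y) ∈ S := fun y hy => by
      rw [toFun_coe φ ⟨α y, hy.2⟩]
      exact (F.le_of_mem hφ.1).2 ⟨α y, hy.2⟩
    refine (hφ.2.comp (Q := pre hα Q) ?_ hψ.2).congr fun y hy => ?_
    · intro y hy
      simp only [Function.comp]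
      refine ⟨hα.iso'.maps _ (hS' y hy), ?_⟩
      rw [hα.r _ (hS' y hy)]
      exact hval y hy
    · simp only [Function.comp]
      rw [hα.r _ (hS' y hy), toFun_coe (ψ.comp (φ.codRestrict Q hx)) ⟨α y, hy.2⟩,
        toFun_coe φ ⟨α y, hy.2⟩, toFun_coe ψ ⟨φ ⟨α y, hy.2⟩, hx _⟩]
      rfl
  inv_mem := by
    intro P φ hφ
    obtain ⟨ψ, hψ, hψv⟩ := F.inv_mem hφ.1
    refine ⟨ψ, ⟨hψ, ?_⟩, hψv⟩
    have hm := hφ.2
    have hφS : ∀ x : P, φ x ∈ S := (F.le_of_mem hφ.1).2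
    have hPS : P ≤ S := (F.le_of_mem hφ.1).1
    obtain ⟨g, hg, hg1, hg2⟩ := hm.inv
    have hle : pre hα φ.range ≤ hm.img := by
      rintro y ⟨hyS, x, hx⟩
      refine hm.mem_img.mpr ⟨α' x, ⟨hα.iso'.maps _ (hPS x.2), ?_⟩, ?_⟩
      · rw [hα.r _ (hPS x.2)]
        exact x.2
      · simp only [Function.comp]
        rw [hα.r _ (hPS x.2), toFun_coe φ x, hx, hα.l y hyS]
    refine (hg.restrict hle).congr fun y hy => ?_
    obtain ⟨hyS, x, hx⟩ := hy
    have hαx : α' x ∈ pre hα P := ⟨hα.iso'.maps _ (hPS x.2), by rw [hα.r _ (hPS x.2)]; exact x.2⟩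
    have h1 : y = (α' ∘ toFun φ ∘ α) (α' x) := by
      simp only [Function.comp]
      rw [hα.r _ (hPS x.2), toFun_coe φ x, hx, hα.l y hyS]
    have h2 : toFun ψ (α y) = x := by
      rw [← hx, ← hψv x]
      exact toFun_coe ψ ⟨φ x, ⟨x, rfl⟩⟩
    simp only [Function.comp]
    rw [h2]
    conv_lhs => rw [h1]
    exact hg1 _ hαx

section D0

variable (F p) in
/-- The generators: `p`-elements of automorphism groups of centric subgroups. -/
def G₀ : Subgroup Ω → Set (Ω → Ω) := fun R =>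
  {f | F.IsCentric R ∧ ∃ a : F.autGroup R, (∃ k : ℕ, orderOf a = p ^ k) ∧ f = funOf (a : MulAut R)}

theorem G₀_sub : ∀ R f, f ∈ G₀ F p R → Mp F R f := by
  rintro R f ⟨hc, a, -, rfl⟩
  exact Mp.of_mem_autGroup hc.1 a.2

variable (F p) in
/-- `O^{p'}_*(F)`. -/
def D₀ : FusionSystem S := genFus F (G₀ F p) G₀_sub

theorem D₀_le : D₀ F p ≤ F := genFus_le

theorem D₀_gen {R : Subgroup Ω} (hc : F.IsCentric R) (a : F.autGroup R) (ha : ∃ k : ℕ, orderOf a = p ^ k) :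
    Mp (D₀ F p) R (funOf (a : MulAut R)) := gen_mem ⟨hc, a, ha, rfl⟩

/-- Invariance of `D₀` under automorphisms of `S`. -/
theorem D₀_inv (hα : AutS F α α') {ψ : Ω → Ω} (hψ : Mp (D₀ F p) P ψ) :
    Mp (D₀ F p) (pre hα P) (α' ∘ ψ ∘ α) := by
  have hle : D₀ F p ≤ Tr (D₀ F p) D₀_le hα := by
    refine genFus_min _ ?_
    rintro R f ⟨hc, a, ⟨k, hk⟩, rfl⟩
    have hm : Mp F R (funOf (a : MulAut R)) := Mp.of_mem_autGroup hc.1 a.2
    obtain ⟨φ, hφ, hφv⟩ := hm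
    have e : ∀ x : R, toFun φ x = funOf (a : MulAut R) x := fun x => by
      rw [toFun_coe, hφv]
    have hRS := hc.1
    have h1 := iso_pre hα hRS
    have h2 := iso_pre' hα hRS
    have hl : ∀ x ∈ R, α (α' x) = x := fun x hx => hα.r x (hRS hx)
    let Φ := autTransport hRS h2 h1 hl
    have hΦi := autTransport_injective hRS h2 h1 hl
    have hRc : F.IsCentric (pre hα R) := IsCentric.of_conj hc (isConj_iff.mpr ⟨_, h2⟩)
    have hord : orderOf (Φ a) = p ^ k := by rw [orderOf_injective Φ hΦi a, hk]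
    have h3 := D₀_gen (p := p) hRc (Φ a) ⟨k, hord⟩
    refine ⟨φ, ⟨hφ, ?_⟩, ?_⟩
    · exact h3.congr fun y hy => by
        simp only [Function.comp]
        rw [funOf_apply _ ⟨y, hy⟩, autTransport_apply]
        rw [e ⟨α y, hy.2⟩, funOf_apply]
    · exact hφv
  obtain ⟨φ, hφ, hφv⟩ := hψ
  have h1 := (hle P hφ).2
  have hPS := (F.le_of_mem (D₀_le P hφ)).1
  refine h1.congr fun y hy => ?_
  simp only [Function.comp]
  rw [toFun_coe φ ⟨α y, hy.2⟩, hφv ⟨α y, hy.2⟩]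

end D0

end Cfsg.Agent.H24.PRes
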