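import Cfsg.Agent.Lib.H24.PResA

/-!
Every map of a saturated fusion system is an automorphism of `S` following a map of `O^{p'}_*(F)`, and
the `p`-elements of all the automorphism groups lie in `O^{p'}_*(F)`.
-/

set_option autoImplicit false

namespace Cfsg.Agent.H24.PRes

open Cfsg Cfsg.FusionSystem Cfsg.Agent.H25
open Cfsg.Agent.H24.SatC

variable {Ω : Type*} [Group Ω] {S : Subgroup Ω} {F E : FusionSystem S}
variable {P P₀ Q Q' Q'' R K X Y A B C W T T' U V : Subgroup Ω} {f g h θ β φ φ' α α' δ δ' : Ω → Ω} {p : ℕ}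

variable (F p) in
/-- Maps of the form (automorphism of `S`) ∘ (map of `D₀`). -/
def Fm (P : Subgroup Ω) (f : Ω → Ω) : Prop :=
  ∃ α α' ψ, ∃ _ : AutS F α α', Mp (D₀ F p) P ψ ∧ ∀ x ∈ P, f x = α (ψ x)

theorem AutS.refl : AutS F _root_.id _root_.id :=
  ⟨Iso.refl le_rfl, Iso.refl le_rfl, fun _ _ => rfl, fun _ _ => rfl⟩

theorem Fm.of_D₀ {ψ : Ω → Ω} (hψ : Mp (D₀ F p) P ψ) : Fm F p P ψ :=
  ⟨_, _, ψ, AutS.refl, hψ, fun _ _ => rfl⟩

theorem Fm.congr (h : Fm F p P f) (hfg : ∀ x ∈ P, f x = g x) : Fm F p P g := by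
  obtain ⟨α, α', ψ, hα, hψ, hv⟩ := h
  exact ⟨α, α', ψ, hα, hψ, fun x hx => by rw [← hfg x hx, hv x hx]⟩

theorem Fm.restrict (h : Fm F p P f) (hRP : R ≤ P) : Fm F p R f := by
  obtain ⟨α, α', ψ, hα, hψ, hv⟩ := h
  exact ⟨α, α', ψ, hα, hψ.restrict hRP, fun x hx => hv x (hRP hx)⟩

theorem Fm.comp (hf : Fm F p P f) (hg : Fm F p Q g) (hfg : ∀ x ∈ P, f x ∈ Q) : Fm F p P (g ∘ f) := by
  obtain ⟨α, α', ψ, hα, hψ, hv⟩ := hf
  obtain ⟨β, β', ψ', hβ, hψ', hv'⟩ := hg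
  have hAB : AutS F (β ∘ α) (α' ∘ β') := by
    refine ⟨hα.iso.comp hβ.iso, hβ.iso'.comp hα.iso', fun x hx => ?_, fun x hx => ?_⟩
    · simp only [Function.comp]
      rw [hβ.l _ (hα.iso.maps x hx), hα.l x hx]
    · simp only [Function.comp]
      rw [hα.r _ (hβ.iso'.maps x hx), hβ.r x hx]
  have hψ'' := D₀_inv hα hψ'
  have hmaps : ∀ x ∈ P, ψ x ∈ pre hα Q := fun x hx => ⟨hψ.mem hx, by rw [← hv x hx]; exact hfg x hx⟩
  refine ⟨β ∘ α, α' ∘ β', (α' ∘ ψ' ∘ α) ∘ ψ, hAB, hψ.comp hmaps hψ'', fun x hx => ?_⟩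
  simp only [Function.comp]
  have h1 : α (ψ x) ∈ Q := (hmaps x hx).2
  rw [hα.r _ (hψ'.mem h1), ← hv x hx]
  exact hv' _ (hfg x hx)

theorem Fm.inv (hf : Iso F P Q f) (hFm : Fm F p P f) (hg : Iso F Q P g) (hl : ∀ x ∈ P, g (f x) = x) :
    Fm F p Q g := by
  obtain ⟨α, α', ψ, hα, hψ, hv⟩ := hFm
  have hI := Iso.of_mp hψ
  obtain ⟨ψb, hψb, l₁, r₁⟩ := hI.inv
  have h1 := D₀_inv hα.symm hψb.mp
  have hQS := hg.mp.le
  have hle : Q ≤ pre hα.symm hψ.img := by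
    intro y hy
    refine ⟨hQS hy, ?_⟩
    obtain ⟨x, hx, rfl⟩ := hf.surj y hy
    rw [hv x hx, hα.l _ (hψ.mem hx)]
    exact hI.maps x hx
  refine ⟨α', α, α ∘ ψb ∘ α', hα.symm, h1.restrict hle, fun y hy => ?_⟩
  obtain ⟨x, hx, rfl⟩ := hf.surj y hy
  simp only [Function.comp]
  have hxI := hI.maps x hx
  rw [hl x hx, hv x hx, hα.l _ (hψ.mem hx), l₁ x hx, hα.l x (hf.mp.le hx)]

variable (F p) in
/-- The claim at `P`. -/
def Cl (P : Subgroup Ω) : Prop :=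
  (∀ f, Mp F P f → Fm F p P f) ∧
    ∀ a : F.autGroup P, (∃ k : ℕ, orderOf a = p ^ k) → Mp (D₀ F p) P (funOf (a : MulAut P))

variable [Finite S] [Fact p.Prime]

theorem isCentric_top : F.IsCentric S := by
  refine ⟨le_rfl, fun Q hQ => ?_⟩
  obtain ⟨f, hf⟩ := isConj_iff.mp hQ
  have hle := Iso.target_le hf
  have e : Q = S := Subgroup.eq_of_le_of_card_ge hle (by rw [Iso.card_eq' hf])
  rw [e]
  exact inf_le_left

theorem claim_top : Cl F p S := by
  refine ⟨fun f hf => ?_, fun a ha => D₀_gen isCentric_top a ha⟩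
  have hI : Iso F S S f := Iso.of_maps hf (fun _ hx => hf.mem hx)
  obtain ⟨f', hf', l, r⟩ := hI.inv
  exact ⟨f, f', _root_.id, ⟨hI, hf', l, r⟩, Mp.id le_rfl, fun _ _ => rfl⟩

/-- The claim at a far subgroup. -/
theorem claim_far (hS : IsPGroup p S) (hQ : Far F p Q) (hne : Q ≠ S)
    (IH : ∀ K, K ≤ S → Nat.card Q < Nat.card K → Cl F p K) :
    (∀ a : MulAut Q, a ∈ F.autGroup Q → Fm F p Q (funOf a)) ∧
      ∀ a : F.autGroup Q, (∃ k : ℕ, orderOf a = p ^ k) → Mp (D₀ F p) Q (funOf (a : MulAut Q)) := by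
  classical
  have hQS := hQ.le
  haveI : Finite Q := finite_of_le hQS
  by_cases hc : F.IsCentric Q
  · refine ⟨fun a ha => ?_, fun a ha => D₀_gen hc a ha⟩
    set Aa := F.autGroup Q with hAa
    obtain ⟨-, P₁, hP₁⟩ := hQ.auto
    let Xx : Subgroup Aa := Subgroup.normalClosure ((P₁ : Subgroup Aa) : Set Aa)
    have hPX : (P₁ : Subgroup Aa) ≤ Xx := Subgroup.le_normalClosure
    have hXD : ∀ ξ ∈ Xx, Mp (D₀ F p) Q (funOf (ξ : MulAut Q)) := by
      intro ξ hξ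
      have hle : Xx ≤ (D₀ F p |>.autGroup Q).subgroupOf Aa := by
        refine (Subgroup.closure_le _).mpr ?_
        intro x hx
        obtain ⟨t, ht, htx⟩ := Group.mem_conjugatesOfSet_iff.mp hx
        have h1 : ∃ k : ℕ, orderOf x = p ^ k := by
          obtain ⟨c, hcx⟩ := _root_.isConj_iff.mp htx
          have e := orderOf_injective (MulAut.conj c).toMonoidHom (MulEquiv.injective _) t
          have e2 : (MulAut.conj c).toMonoidHom t = c * t * c⁻¹ := by simp [MulAut.conj_apply]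
          rw [e2, hcx] at e
          rw [e]
          have hP₁p := P₁.isPGroup'
          obtain ⟨k, hk⟩ := (IsPGroup.iff_orderOf.mp hP₁p ⟨t, ht⟩)
          exact ⟨k, (Subgroup.orderOf_coe (⟨t, ht⟩ : ((P₁ : Subgroup Aa) : Subgroup Aa))).trans hk⟩
        have h2 := D₀_gen hc x h1
        exact mem_autGroup_of_mp h2 (fun z => (funOf_apply _ z).symm)
      exact Mp.of_mem_autGroup hQS (hle hξ)
    have htopA := Sylow.normalizer_sup_eq_top' P₁ hPX
    have hmem : (⟨a, ha⟩ : Aa) ∈ ((Subgroup.normalizer (P₁ : Set Aa) ⊔ Xx : Subgroup Aa) : Set Aa) := by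
      rw [htopA]; trivial
    rw [Subgroup.mul_normal] at hmem
    obtain ⟨b, hb, ξ, hξ, hbξ⟩ := Set.mem_mul.mp hmem
    have hbn : ∀ r ∈ autInducedBy S Q, (b : MulAut Q) * r * (b : MulAut Q)⁻¹ ∈ autInducedBy S Q := by
      intro r hr
      have hrA : r ∈ Aa := autInducedBy_le hQS hr
      have h1 : (⟨r, hrA⟩ : Aa) ∈ (P₁ : Subgroup Aa) := by
        rw [hP₁]
        exact hr
      have h2 := (Subgroup.mem_normalizer_iff.mp hb _).mp h1
      rw [hP₁] at h2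
      exact h2
    obtain ⟨bh, hbh, hbhe⟩ := far_ext_of_normalizes hQ b.2 hbn
    obtain ⟨z, hz, hzQ⟩ := exists_normalizer_not_mem hS hQS hne
    have hQN := le_normalizerIn hQS
    have hlt : Q < normalizerIn S Q := lt_of_le_of_ne hQN fun h => hzQ (h ▸ hz)
    haveI : Finite (normalizerIn S Q) := finite_of_le normalizerIn_le
    have h3 : Fm F p Q (funOf (b : MulAut Q)) :=
      (((IH _ normalizerIn_le (card_lt hlt)).1 bh hbh).restrict hQN).congr hbhe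
    have h4 := Fm.comp (Fm.of_D₀ (hXD ξ hξ)) h3 (fun x hx => by
      rw [funOf_apply _ ⟨x, hx⟩]
      exact ((ξ : MulAut Q) ⟨x, hx⟩).2)
    refine h4.congr fun x hx => ?_
    have h5 : a = (b : MulAut Q) * (ξ : MulAut Q) := by
      have := congrArg Subtype.val hbξ
      exact this.symm
    simp only [Function.comp]
    rw [funOf_apply _ ⟨x, hx⟩, funOf_apply _ ((ξ : MulAut Q) ⟨x, hx⟩), funOf_apply _ ⟨x, hx⟩, h5]
    rfl
  · have hcn : ¬ centralizerIn S Q ≤ Q := fun h => hc (isCentric_of_far hS hQ h)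
    have hT : ∀ a : MulAut Q, a ∈ F.autGroup Q → Fm F p Q (funOf a) := by
      intro a ha
      have hI := Iso.of_mem_autGroup hQS ha
      have hlt : Q < Q ⊔ centralizerIn S Q := lt_of_le_of_ne le_sup_left fun e => hcn (le_sup_right.trans e.ge)
      have hTS : Q ⊔ centralizerIn S Q ≤ S := sup_le hQS inf_le_left
      haveI : Finite ↥(Q ⊔ centralizerIn S Q) := finite_of_le hTS
      obtain ⟨ah, hah, hahv⟩ := recept_ext hQ.recep hI (le_sup_left : Q ≤ Q ⊔ centralizerIn S Q) (by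
        refine sup_le (fun x hx => Subgroup.subset_closure (mem_good_of_mem hI hx)) fun c hc' => ?_
        obtain ⟨hcS, hcc⟩ := mem_centralizerIn.mp hc'
        exact Subgroup.subset_closure (mem_good_of_centralizes hI hcS fun x hx => (hcc x hx).symm))
      exact (((IH _ hTS (card_lt hlt)).1 ah hah).restrict le_sup_left).congr hahv
    refine ⟨hT, fun a₁ ha₁ => ?_⟩
    obtain ⟨k, hk⟩ := ha₁
    let Kk : Subgroup (MulAut Q) := Subgroup.zpowers (a₁ : MulAut Q)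
    have hKF : Kk ≤ F.autGroup Q := (Subgroup.zpowers_le).mpr a₁.2
    have hKp : IsPGroup p Kk := by
      have hk' : orderOf (a₁ : MulAut Q) = p ^ k := (Subgroup.orderOf_coe a₁).trans hk
      refine IsPGroup.iff_card.mpr ⟨k, ?_⟩
      exact (Nat.card_zpowers (a₁ : MulAut Q)).trans hk'
    obtain ⟨b, hb, hbK⟩ := Cfsg.Agent.H24.exists_conj_into_autS hQ.auto Kk hKF hKp
    obtain ⟨s, hs, hsx⟩ := exists_of_mem_autInducedBy (hbK _ (Subgroup.mem_zpowers (a₁ : MulAut Q)))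
    obtain ⟨δ, δ', ψ, hδ, hψ, hv⟩ := hT b hb
    have hP₂S : hψ.img ≤ S := Iso.target_le (Iso.of_mp hψ)
    obtain ⟨ψb, hψb, l, r⟩ := (Iso.of_mp hψ).inv
    have hs' := hδ.iso'.maps s hs
    have hrel : ∀ x ∈ Q, δ' s * ψ x * (δ' s)⁻¹ = ψ (funOf (a₁ : MulAut Q) x) := by
      intro x hx
      have h1 := hsx (b ⟨x, hx⟩)
      have h2 : ((b * (a₁ : MulAut Q) * b⁻¹) (b ⟨x, hx⟩) : Q) = b ((a₁ : MulAut Q) ⟨x, hx⟩) := by
        show b ((a₁ : MulAut Q) (b⁻¹ (b ⟨x, hx⟩))) = _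
        rw [MulAut.inv_apply_self]
      rw [h2] at h1
      have h3 : (((b ((a₁ : MulAut Q) ⟨x, hx⟩) : Q)) : Ω) = δ (ψ (funOf (a₁ : MulAut Q) x)) := by
        rw [funOf_apply (a₁ : MulAut Q) ⟨x, hx⟩, ← hv _ ((a₁ : MulAut Q) ⟨x, hx⟩).2, funOf_apply]
      have h4 : ((b ⟨x, hx⟩ : Q) : Ω) = δ (ψ x) := by
        rw [← hv x hx, funOf_apply b ⟨x, hx⟩]
      rw [h3, h4] at h1
      have hψx : ψ x ∈ S := hψ.mem hx
      have hδψ : δ (ψ x) ∈ S := hδ.iso.maps _ hψx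
      have hax : ψ (funOf (a₁ : MulAut Q) x) ∈ S := by
        rw [funOf_apply (a₁ : MulAut Q) ⟨x, hx⟩]
        exact hψ.mem ((a₁ : MulAut Q) ⟨x, hx⟩).2
      have h5 := congrArg δ' h1
      rw [hδ.l _ hax, hδ.iso'.mp.map_mul (S.mul_mem hs hδψ) (S.inv_mem hs),
        hδ.iso'.mp.map_mul hs hδψ, hδ.iso'.mp.map_inv hs, hδ.l _ hψx] at h5
      exact h5.symm
    have hm1 : Mp (D₀ F p) Q ((fun y => δ' s * y * (δ' s)⁻¹) ∘ ψ) :=
      hψ.comp (fun x hx => hψ.mem_img.mpr ⟨x, hx, rfl⟩) (Mp.conj hP₂S hs')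
    have hm2 : Mp (D₀ F p) Q (ψb ∘ (fun y => δ' s * y * (δ' s)⁻¹) ∘ ψ) := hm1.comp (Q := hψ.img) (fun x hx => by
      simp only [Function.comp]
      rw [hrel x hx]
      refine hψ.mem_img.mpr ⟨_, ?_, rfl⟩
      rw [funOf_apply (a₁ : MulAut Q) ⟨x, hx⟩]
      exact ((a₁ : MulAut Q) ⟨x, hx⟩).2) hψb.mp
    refine hm2.congr fun x hx => ?_
    simp only [Function.comp]
    rw [hrel x hx]
    have hax : funOf (a₁ : MulAut Q) x ∈ Q := by
      rw [funOf_apply (a₁ : MulAut Q) ⟨x, hx⟩]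
      exact ((a₁ : MulAut Q) ⟨x, hx⟩).2
    exact l _ hax

/-- The claim at a general subgroup. -/
theorem claim_gen (hS : IsPGroup p S) (hF : F.IsSaturated p) (hP : P ≤ S) (hne : P ≠ S)
    (IH : ∀ K, K ≤ S → Nat.card P < Nat.card K → Cl F p K) : Cl F p P := by
  classical
  obtain ⟨Q, f₀, hQ, hf₀⟩ := exists_far hF hP
  have hPlt : Nat.card P < Nat.card S := card_lt (lt_of_le_of_ne hP hne)
  have hcQ : Nat.card P = Nat.card Q := Iso.card_eq' hf₀
  have hQne : Q ≠ S := by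
    rintro rfl
    omega
  have hfar := claim_far hS hQ hQne (fun K hK hlt => IH K hK (by omega))
  have hchi : ∀ R, F.IsConj R Q → ∃ h, Iso F R Q h ∧ Fm F p R h := by
    intro R hRQ
    obtain ⟨h, hh, hI⟩ := exists_ext_normalizer hS hQ hRQ
    have hRS := hI.mp.le
    have hcR : Nat.card R = Nat.card Q := Iso.card_eq' hI
    have hRne : R ≠ S := by
      rintro rfl
      omega
    obtain ⟨z, hz, hzR⟩ := exists_normalizer_not_mem hS hRS hRne
    have hRN := le_normalizerIn hRS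
    have hlt : R < normalizerIn S R := lt_of_le_of_ne hRN fun h => hzR (h ▸ hz)
    haveI : Finite (normalizerIn S R) := finite_of_le normalizerIn_le
    have hc2 := card_lt hlt
    exact ⟨h, hI, ((IH _ normalizerIn_le (by omega)).1 h hh).restrict hRN⟩
  have hPQ : F.IsConj P Q := isConj_iff.mpr ⟨f₀, hf₀⟩
  constructor
  · intro f hf
    have hI := Iso.of_mp hf
    have hP'Q : F.IsConj hf.img Q := isConj_trans (isConj_symm (isConj_iff.mpr ⟨f, hI⟩)) hPQ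
    obtain ⟨h₁, hI₁, hF₁⟩ := hchi P hPQ
    obtain ⟨h₂, hI₂, hF₂⟩ := hchi _ hP'Q
    obtain ⟨h₁', hI₁', l₁, r₁⟩ := hI₁.inv
    obtain ⟨h₂', hI₂', l₂, r₂⟩ := hI₂.inv
    have hmI : Iso F Q Q (h₂ ∘ f ∘ h₁') := (hI₁'.comp hI).comp hI₂
    have hm : Fm F p Q (h₂ ∘ f ∘ h₁') := by
      have h1 := hfar.1 _ (autOfIso_mem hmI)
      refine h1.congr fun x hx => ?_
      rw [funOf_apply _ ⟨x, hx⟩, autOfIso_apply]
    have h2 := Fm.inv hI₂ hF₂ hI₂' l₂
    have h3 : Fm F p P ((h₂' ∘ (h₂ ∘ f ∘ h₁')) ∘ h₁) :=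
      Fm.comp hF₁ (Fm.comp hm h2 hmI.maps) hI₁.maps
    refine h3.congr fun x hx => ?_
    simp only [Function.comp]
    rw [l₁ x hx]
    exact l₂ _ (hI.maps x hx)
  · rintro a ⟨k, hk⟩
    obtain ⟨h₁, hI₁, δ, δ', ψ, hδ, hψ, hv⟩ := hchi P hPQ
    obtain ⟨h₁', hI₁', l₁, r₁⟩ := hI₁.inv
    let Φ := autTransport hP hI₁ hI₁' l₁
    have hΦi := autTransport_injective hP hI₁ hI₁' l₁
    have hord : orderOf (Φ a) = p ^ k := by rw [orderOf_injective Φ hΦi a, hk]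
    have h1 := hfar.2 (Φ a) ⟨k, hord⟩
    have h2 := D₀_inv hδ h1
    obtain ⟨ψb, hψb, l, r⟩ := (Iso.of_mp hψ).inv
    have hmaps : ∀ x ∈ P, ψ x ∈ pre hδ Q := fun x hx =>
      ⟨hψ.mem hx, by rw [← hv x hx]; exact hI₁.maps x hx⟩
    have hval : ∀ x ∈ P, (δ' ∘ funOf ((Φ a : F.autGroup Q) : MulAut Q) ∘ δ) (ψ x) = ψ (funOf (a : MulAut P) x) := by
      intro x hx
      simp only [Function.comp]
      have hax : funOf (a : MulAut P) x ∈ P := by
        rw [funOf_apply (a : MulAut P) ⟨x, hx⟩]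
        exact ((a : MulAut P) ⟨x, hx⟩).2
      rw [← hv x hx, funOf_apply _ ⟨_, hI₁.maps x hx⟩, autTransport_apply]
      have e : (⟨h₁' (h₁ x), hI₁'.maps _ (hI₁.maps x hx)⟩ : P) = ⟨x, hx⟩ := Subtype.ext (l₁ x hx)
      rw [e, ← funOf_apply (a : MulAut P) ⟨x, hx⟩, hv _ hax, hδ.l _ (hψ.mem hax)]
    have h3 : Mp (D₀ F p) P (ψb ∘ (δ' ∘ funOf ((Φ a : F.autGroup Q) : MulAut Q) ∘ δ) ∘ ψ) :=
      (hψ.comp hmaps h2).comp (Q := hψ.img) (fun x hx => by
        simp only [Function.comp] at hval ⊢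
        rw [hval x hx]
        refine hψ.mem_img.mpr ⟨_, ?_, rfl⟩
        rw [funOf_apply (a : MulAut P) ⟨x, hx⟩]
        exact ((a : MulAut P) ⟨x, hx⟩).2) hψb.mp
    refine h3.congr fun x hx => ?_
    simp only [Function.comp]
    simp only [Function.comp] at hval
    rw [hval x hx]
    have hax : funOf (a : MulAut P) x ∈ P := by
      rw [funOf_apply (a : MulAut P) ⟨x, hx⟩]
      exact ((a : MulAut P) ⟨x, hx⟩).2
    exact l _ hax

/-- **The claim.** -/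
theorem claim (hS : IsPGroup p S) (hF : F.IsSaturated p) : ∀ P, P ≤ S → Cl F p P := by
  have key : ∀ c, ∀ P, P ≤ S → Nat.card S - Nat.card P = c → Cl F p P := by
    intro c
    induction c using Nat.strong_induction_on with
    | _ c ih =>
      intro P hP hc
      by_cases hne : P = S
      · subst hne
        exact claim_top
      · refine claim_gen hS hF hP hne fun K hK hlt => ?_
        have h1 : Nat.card K ≤ Nat.card S := card_le hK
        exact ih (Nat.card S - Nat.card K) (by omega) K hK rfl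
  exact fun P hP => key _ P hP rfl

end Cfsg.Agent.H24.PRes
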