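import Cfsg.Agent.Lib.H24.PResB
import Cfsg.Prelude.Def_FusionComponents

/-!
The `p'`-residual subsystem of a saturated fusion system.
-/

set_option autoImplicit false

namespace Cfsg.Agent.H24.PRes

open Cfsg Cfsg.FusionSystem Cfsg.Agent.H25
open Cfsg.Agent.H24.SatC

variable {Ω : Type*} [Group Ω] {S : Subgroup Ω} {F E D : FusionSystem S}
variable {P P₀ Q Q' Q'' R K X Y A B C W T T' U V : Subgroup Ω} {f g h θ β φ φ' α α' δ δ' : Ω → Ω} {p : ℕ}

variable (F p) in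
/-- The generators of the residual: maps on centric subgroups lying in every saturated subsystem of
index prime to `p`. -/
def G₁ : Subgroup Ω → Set (Ω → Ω) := fun R =>
  {f | F.IsCentric R ∧ Mp F R f ∧ ∀ D : FusionSystem S, D.IsSaturated p → D.HasPrimeToPIndexIn F p → Mp D R f}

variable (F p) in
/-- The residual. -/
def Ep : FusionSystem S := genFus F (G₁ F p) (fun _ _ h => h.2.1)

theorem Ep_le : Ep F p ≤ F := genFus_le

theorem D₀_le_of (hD : D.HasPrimeToPIndexIn F p) : D₀ F p ≤ D := genFus_min D (by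
  rintro R f ⟨hc, a, ⟨k, hk⟩, rfl⟩
  have h1 := hD.2 R hc.1 ⟨a, Subgroup.subset_closure ⟨k, hk⟩, rfl⟩
  exact Mp.of_mem_autGroup hc.1 h1)

theorem Ep_le_of (hDs : D.IsSaturated p) (hD : D.HasPrimeToPIndexIn F p) : Ep F p ≤ D :=
  genFus_min D fun _ _ hf => hf.2.2 D hDs hD

variable [Finite S] [Fact p.Prime]

theorem D₀_le_Ep : D₀ F p ≤ Ep F p := genFus_min _ (by
  rintro R f ⟨hc, a, ha, rfl⟩
  exact gen_mem ⟨hc, Mp.of_mem_autGroup hc.1 a.2, fun D _ hi => (D₀_gen hc a ha).mono (D₀_le_of hi)⟩)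

theorem autGroup_mono (hEF : E ≤ F) (hQ : Q ≤ S) : E.autGroup Q ≤ F.autGroup Q := by
  intro a ha
  exact mem_autGroup_of_mp ((Mp.of_mem_autGroup hQ ha).mono hEF) (fun z => (toFun_aut a z).symm)

theorem fullyAutomized_mono (hEF : E ≤ F) (hFA : F.IsFullyAutomized p Q) : E.IsFullyAutomized p Q := by
  classical
  have hQS := hFA.1
  have : Finite Q := finite_of_le hQS
  obtain ⟨-, R₀, hR₀⟩ := hFA
  have hle := autGroup_mono hEF hQS
  have hU : IsPGroup p (autInducedBy S Q) := by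
    have h1 := R₀.isPGroup'
    rw [hR₀] at h1
    have hle' : autInducedBy S Q ≤ F.autGroup Q := autInducedBy_le hQS
    exact h1.of_injective (Subgroup.subgroupOfEquivOfLe hle').symm.toMonoidHom (MulEquiv.injective _)
  refine ⟨hQS, ⟨(autInducedBy S Q).subgroupOf (E.autGroup Q),
    hU.comap_of_injective _ (Subgroup.subtype_injective _), ?_⟩, rfl⟩
  intro T hT hUT
  let T₂ : Subgroup (F.autGroup Q) := (T.map (E.autGroup Q).subtype).subgroupOf (F.autGroup Q)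
  have hT₂ : IsPGroup p T₂ := (hT.map _).comap_of_injective _ (Subgroup.subtype_injective _)
  have hR₀T₂ : (R₀ : Subgroup (F.autGroup Q)) ≤ T₂ := by
    rw [hR₀]
    intro x hx
    have h1 : (x : MulAut Q) ∈ E.autGroup Q := autInducedBy_le hQS hx
    exact ⟨⟨x, h1⟩, hUT hx, rfl⟩
  have h2 := R₀.is_maximal' hT₂ hR₀T₂
  refine le_antisymm ?_ hUT
  intro t ht
  have h3 : (⟨(t : MulAut Q), hle t.2⟩ : F.autGroup Q) ∈ T₂ := ⟨t, ht, rfl⟩
  have h4 : (⟨(t : MulAut Q), hle t.2⟩ : F.autGroup Q) ∈ (R₀ : Subgroup (F.autGroup Q)) := by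
    have h5 : T₂ = (R₀ : Subgroup (F.autGroup Q)) := h2
    rw [← h5]
    exact h3
  rw [hR₀] at h4
  exact h4

/-- Receptivity in the residual of a subgroup far in `F`. -/
theorem rec_Ep (hS : IsPGroup p S) (hF : F.IsSaturated p) (hQ : Far F p Q) (hc : F.IsCentric Q) :
    (Ep F p).IsReceptive Q := by
  refine ⟨hQ.le, fun P' φ' hφ' hrange => ?_⟩
  have hφF := Ep_le P' hφ'
  obtain ⟨ψ, hψ, hψv⟩ := hQ.recep.2 P' φ' hφF hrange
  have hrange' : ∀ x : P', φ' x ∈ Q := fun x => by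
    rw [← hrange]
    exact ⟨x, rfl⟩
  have hIF : Iso F P' Q (toFun φ') := by
    refine ⟨mp_of_mem hφF, fun x hx => ?_, fun y hy => ?_⟩
    · rw [toFun_coe φ' ⟨x, hx⟩]
      exact hrange' ⟨x, hx⟩
    · rw [← hrange] at hy
      obtain ⟨x, rfl⟩ := hy
      exact ⟨x, x.2, toFun_coe φ' x⟩
  have hc' : F.IsCentric P' := IsCentric.of_conj hc (isConj_symm (isConj_iff.mpr ⟨_, hIF⟩))
  have hP'S := hc'.1
  have hP'K : P' ≤ extender S P' φ' := by
    intro x hx
    refine Subgroup.subset_closure ⟨hP'S hx, (le_normalizerIn hP'S hx).2, φ' ⟨x, hx⟩,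
      (F.le_of_mem hφF).2 _, fun y hy => ?_⟩
    have : (⟨x * y * x⁻¹, hy⟩ : P') = ⟨x, hx⟩ * y * ⟨x, hx⟩⁻¹ := rfl
    rw [this, map_mul, map_mul, map_inv]
  have hKS : extender S P' φ' ≤ S := (mp_of_mem hψ).le
  have hcK : F.IsCentric (extender S P' φ') := IsCentric.of_le hc' hP'K hKS
  have hval : ∀ x ∈ P', toFun φ' x = toFun ψ x := fun x hx => by
    rw [toFun_coe φ' ⟨x, hx⟩, toFun_coe ψ ⟨x, hP'K hx⟩, hψv x hx (hP'K hx)]
  have hmem : Mp (Ep F p) (extender S P' φ') (toFun ψ) := gen_mem ⟨hcK, mp_of_mem hψ, fun D hDs hDi => by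
    have h1 : Mp D P' (toFun ψ) := ((mp_of_mem hφ').mono (Ep_le_of hDs hDi)).congr hval
    exact ext_from_centric hS hF hDs hDi.1 _ P' hc' hP'K rfl (mp_of_mem hψ) h1⟩
  refine ⟨ψ, hmem.mem_hom fun x => rfl |>.trans (toFun_coe ψ x).symm, hψv⟩

/-- **Existence of the `p'`-residual subsystem.** -/
theorem exists_residual (hS : IsPGroup p S) (hF : F.IsSaturated p) : ∃ E : FusionSystem S, F.IsPPrimeResidual p E := by
  refine ⟨Ep F p, ?_, ⟨Ep_le, ?_⟩, fun D hDs hDi => Ep_le_of hDs hDi⟩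
  · refine sat_criterion hS {P | F.IsCentric P} (fun P hP => hP.1) ?_ ?_ ?_ ?_
    · intro P hP Q hQ
      obtain ⟨f, hf⟩ := isConj_iff.mp hQ
      exact IsCentric.of_conj hP (isConj_iff.mpr ⟨f, hf.mono Ep_le⟩)
    · intro P hP
      have hPS : P ≤ S := hP.1
      obtain ⟨Q₀, f₀, hQ₀, hf₀⟩ := exists_far hF hPS
      obtain ⟨δ, δ', ψ, hδ, hψ, hv⟩ := (claim hS hF P hPS).1 f₀ hf₀.mp
      have hIψ := Iso.of_mp hψ
      have hIE : Iso (Ep F p) P hψ.img ψ := hIψ.mono D₀_le_Ep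
      have hIF : Iso F P hψ.img ψ := hIψ.mono D₀_le
      have hQc : F.IsCentric hψ.img := IsCentric.of_conj hP (isConj_iff.mpr ⟨ψ, hIF⟩)
      have hQS : hψ.img ≤ S := hQc.1
      have hJ : Iso F Q₀ hψ.img δ' := by
        refine ⟨hδ.iso'.mp.restrict hQ₀.le, fun y hy => ?_, fun z hz => ?_⟩
        · obtain ⟨x, hx, rfl⟩ := hf₀.surj y hy
          rw [hv x hx, hδ.l _ (hψ.mem hx)]
          exact hIψ.maps x hx
        · obtain ⟨x, hx, rfl⟩ := hIψ.surj z hz
          refine ⟨f₀ x, hf₀.maps x hx, ?_⟩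
          rw [hv x hx, hδ.l _ (hψ.mem hx)]
      have hQ₀FN := far_fullyNormalized hS hQ₀
      have hFN : F.IsFullyNormalized hψ.img := by
        refine ⟨hQS, fun R hR => ?_⟩
        have h1 : F.IsConj Q₀ R := isConj_trans (isConj_iff.mpr ⟨_, hJ⟩) hR
        refine (hQ₀FN.2 R h1).trans ?_
        have hQ₀N := le_normalizerIn hQ₀.le
        have hmaps : ∀ x ∈ normalizerIn S Q₀, δ' x ∈ normalizerIn S hψ.img := fun x hx =>
          maps_normalizer (hδ.iso'.mp.restrict normalizerIn_le) hJ hQ₀N normalizerIn_le_normalizer hx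
        haveI : Finite (normalizerIn S hψ.img) := finite_of_le normalizerIn_le
        exact Nat.card_le_card_of_injective (fun x : normalizerIn S Q₀ => (⟨δ' x, hmaps x x.2⟩ : normalizerIn S hψ.img))
          (fun x y hxy => Subtype.ext (hδ.iso'.mp.inj (normalizerIn_le x.2) (normalizerIn_le y.2) (congrArg Subtype.val hxy)))
      have hQF : Far F p hψ.img := far_of_fullyNormalized hS hF hFN
      exact ⟨hψ.img, isConj_iff.mpr ⟨ψ, hIE⟩, fullyAutomized_mono Ep_le hQF.auto, rec_Ep hS hF hQF hQc⟩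
    · intro E' hE'
      refine genFus_min E' fun R f hf => ?_
      obtain ⟨φ, hφ, hφv⟩ := gen_mem (hG := fun _ _ h => h.2.1) hf
      exact ⟨φ, hE' R hf.1 hφ, hφv⟩
    · intro P hcE hP
      exfalso
      have hPS : P ≤ S := hcE.1
      have : ∃ Q, F.IsConj P Q ∧ ¬ centralizerIn S Q ≤ Q := by
        by_contra hcon
        push Not at hcon
        exact hP ⟨hPS, hcon⟩
      obtain ⟨Q₀, hQ₀, hn⟩ := this
      obtain ⟨f₀, hf₀⟩ := isConj_iff.mp hQ₀
      obtain ⟨δ, δ', ψ, hδ, hψ, hv⟩ := (claim hS hF P hPS).1 f₀ hf₀.mp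
      have hIψ := Iso.of_mp hψ
      have hIE : Iso (Ep F p) P hψ.img ψ := hIψ.mono D₀_le_Ep
      have hQ₀S := Iso.target_le hf₀
      have hJ : Iso F Q₀ hψ.img δ' := by
        refine ⟨hδ.iso'.mp.restrict hQ₀S, fun y hy => ?_, fun z hz => ?_⟩
        · obtain ⟨x, hx, rfl⟩ := hf₀.surj y hy
          rw [hv x hx, hδ.l _ (hψ.mem hx)]
          exact hIψ.maps x hx
        · obtain ⟨x, hx, rfl⟩ := hIψ.surj z hz
          refine ⟨f₀ x, hf₀.maps x hx, ?_⟩
          rw [hv x hx, hδ.l _ (hψ.mem hx)]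
      obtain ⟨c, hcC, hcQ⟩ := SetLike.not_le_iff_exists.mp hn
      have hcS : c ∈ S := hcC.1
      have h1 := maps_centralizer hδ.iso'.mp hJ hQ₀S hcS hcC.2
      have h2 := hcE.2 _ (isConj_iff.mpr ⟨ψ, hIE⟩) h1
      obtain ⟨t, ht, hte⟩ := hJ.surj _ h2
      exact hcQ (hδ.iso'.mp.inj (hQ₀S ht) hcS hte ▸ ht)
  · intro P hP
    rw [Subgroup.map_le_iff_le_comap, Subgroup.closure_le]
    intro a ha
    have h1 := (claim hS hF P hP).2 a ha
    exact mem_autGroup_of_mp (h1.mono D₀_le_Ep) (fun z => (funOf_apply _ z).symm)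

end Cfsg.Agent.H24.PRes
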