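import Cfsg.Agent.Lib.H24.PResC

/-!
Saturated subsystems of index prime to `p` below a given upper bound.
-/

set_option autoImplicit false

namespace Cfsg.Agent.H24.PRes

open Cfsg Cfsg.FusionSystem Cfsg.Agent.H25
open Cfsg.Agent.H24.SatC

variable {Ω : Type*} [Group Ω] {S : Subgroup Ω} {F E D U : FusionSystem S}
variable {P P₀ Q Q' Q'' R K X Y A B C W T T' V : Subgroup Ω} {f g h θ β φ φ' α α' δ δ' : Ω → Ω} {p : ℕ}

/-- The generators: maps on centric subgroups lying in `U`. -/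
def GU (F U : FusionSystem S) : Subgroup Ω → Set (Ω → Ω) := fun R =>
  {f | F.IsCentric R ∧ Mp F R f ∧ Mp U R f}

/-- The subsystem generated. -/
def EU (F U : FusionSystem S) : FusionSystem S := genFus F (GU F U) (fun _ _ h => h.2.1)

theorem EU_le : EU F U ≤ F := genFus_le

theorem EU_le_U : EU F U ≤ U := genFus_min U fun _ _ hf => hf.2.2

variable [Finite S] [Fact p.Prime]

theorem D₀_le_EU (h1 : D₀ F p ≤ U) : D₀ F p ≤ EU F U := genFus_min _ (by
  rintro R f ⟨hc, a, ha, rfl⟩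
  exact gen_mem ⟨hc, Mp.of_mem_autGroup hc.1 a.2, (D₀_gen hc a ha).mono h1⟩)

theorem rec_EU (hF : F.IsSaturated p) (hQ : Far F p Q) (hc : F.IsCentric Q)
    (h2 : ∀ {R K : Subgroup Ω} {ψ : Ω → Ω}, F.IsCentric R → R ≤ K → Mp F K ψ → Mp U R ψ → Mp U K ψ) :
    (EU F U).IsReceptive Q := by
  refine ⟨hQ.le, fun P' φ' hφ' hrange => ?_⟩
  have hφF := EU_le P' hφ'
  obtain ⟨ψ, hψ, hψv⟩ := hQ.recep.2 P' φ' hφF hrange
  have hrange' : ∀ x : P', φ' x ∈ Q := fun x => by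
    rw [← hrange]
    exact ⟨x, rfl⟩
  have hIF : Iso F P' Q (toFun φ') := by
    refine ⟨mp_of_mem hφF, fun x hx => ?_, fun y hy => ?_⟩
    · rw [toFun_coe φ' ⟨x, hx⟩]
      exact hrange' ⟨x, hx⟩
    · rw [← hrange] at hy
      obtain ⟨x, rfl⟩ := hy
      exact ⟨x, x.2, toFun_coe φ' x⟩
  have hc' : F.IsCentric P' := IsCentric.of_conj hc (isConj_symm (isConj_iff.mpr ⟨_, hIF⟩))
  have hP'S := hc'.1
  have hP'K : P' ≤ extender S P' φ' := by
    intro x hx
    refine Subgroup.subset_closure ⟨hP'S hx, (le_normalizerIn hP'S hx).2, φ' ⟨x, hx⟩,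
      (F.le_of_mem hφF).2 _, fun y hy => ?_⟩
    have : (⟨x * y * x⁻¹, hy⟩ : P') = ⟨x, hx⟩ * y * ⟨x, hx⟩⁻¹ := rfl
    rw [this, map_mul, map_mul, map_inv]
  have hKS : extender S P' φ' ≤ S := (mp_of_mem hψ).le
  have hcK : F.IsCentric (extender S P' φ') := IsCentric.of_le hc' hP'K hKS
  have hval : ∀ x ∈ P', toFun φ' x = toFun ψ x := fun x hx => by
    rw [toFun_coe φ' ⟨x, hx⟩, toFun_coe ψ ⟨x, hP'K hx⟩, hψv x hx (hP'K hx)]
  have hmem : Mp (EU F U) (extender S P' φ') (toFun ψ) := gen_mem ⟨hcK, mp_of_mem hψ, by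
    have h1 : Mp U P' (toFun ψ) := ((mp_of_mem hφ').mono EU_le_U).congr hval
    exact h2 hc' hP'K (mp_of_mem hψ) h1⟩
  refine ⟨ψ, hmem.mem_hom fun x => rfl |>.trans (toFun_coe ψ x).symm, hψv⟩

/-- **A saturated subsystem of index prime to `p` below an upper bound.** -/
theorem sat_EU (hS : IsPGroup p S) (hF : F.IsSaturated p) (h1 : D₀ F p ≤ U)
    (h2 : ∀ {R K : Subgroup Ω} {ψ : Ω → Ω}, F.IsCentric R → R ≤ K → Mp F K ψ → Mp U R ψ → Mp U K ψ) :
    (EU F U).IsSaturated p ∧ (EU F U).HasPrimeToPIndexIn F p := by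
  have hD := D₀_le_EU h1
  refine ⟨?_, EU_le, ?_⟩
  · refine sat_criterion hS {P | F.IsCentric P} (fun P hP => hP.1) ?_ ?_ ?_ ?_
    · intro P hP Q hQ
      obtain ⟨f, hf⟩ := isConj_iff.mp hQ
      exact IsCentric.of_conj hP (isConj_iff.mpr ⟨f, hf.mono EU_le⟩)
    · intro P hP
      have hPS : P ≤ S := hP.1
      obtain ⟨Q₀, f₀, hQ₀, hf₀⟩ := exists_far hF hPS
      obtain ⟨δ, δ', ψ, hδ, hψ, hv⟩ := (claim hS hF P hPS).1 f₀ hf₀.mp
      have hIψ := Iso.of_mp hψ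
      have hIE : Iso (EU F U) P hψ.img ψ := hIψ.mono hD
      have hIF : Iso F P hψ.img ψ := hIψ.mono D₀_le
      have hQc : F.IsCentric hψ.img := IsCentric.of_conj hP (isConj_iff.mpr ⟨ψ, hIF⟩)
      have hQS : hψ.img ≤ S := hQc.1
      have hJ : Iso F Q₀ hψ.img δ' := by
        refine ⟨hδ.iso'.mp.restrict hQ₀.le, fun y hy => ?_, fun z hz => ?_⟩
        · obtain ⟨x, hx, rfl⟩ := hf₀.surj y hy
          rw [hv x hx, hδ.l _ (hψ.mem hx)]
          exact hIψ.maps x hx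
        · obtain ⟨x, hx, rfl⟩ := hIψ.surj z hz
          refine ⟨f₀ x, hf₀.maps x hx, ?_⟩
          rw [hv x hx, hδ.l _ (hψ.mem hx)]
      have hQ₀FN := far_fullyNormalized hS hQ₀
      have hFN : F.IsFullyNormalized hψ.img := by
        refine ⟨hQS, fun R hR => ?_⟩
        have h1 : F.IsConj Q₀ R := isConj_trans (isConj_iff.mpr ⟨_, hJ⟩) hR
        refine (hQ₀FN.2 R h1).trans ?_
        have hQ₀N := le_normalizerIn hQ₀.le
        have hmaps : ∀ x ∈ normalizerIn S Q₀, δ' x ∈ normalizerIn S hψ.img := fun x hx =>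
          maps_normalizer (hδ.iso'.mp.restrict normalizerIn_le) hJ hQ₀N normalizerIn_le_normalizer hx
        haveI : Finite (normalizerIn S hψ.img) := finite_of_le normalizerIn_le
        exact Nat.card_le_card_of_injective (fun x : normalizerIn S Q₀ => (⟨δ' x, hmaps x x.2⟩ : normalizerIn S hψ.img))
          (fun x y hxy => Subtype.ext (hδ.iso'.mp.inj (normalizerIn_le x.2) (normalizerIn_le y.2) (congrArg Subtype.val hxy)))
      have hQF : Far F p hψ.img := far_of_fullyNormalized hS hF hFN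
      exact ⟨hψ.img, isConj_iff.mpr ⟨ψ, hIE⟩, fullyAutomized_mono EU_le hQF.auto, rec_EU hF hQF hQc h2⟩
    · intro E' hE'
      refine genFus_min E' fun R f hf => ?_
      obtain ⟨φ, hφ, hφv⟩ := gen_mem (hG := fun _ _ h => h.2.1) hf
      exact ⟨φ, hE' R hf.1 hφ, hφv⟩
    · intro P hcE hP
      exfalso
      have hPS : P ≤ S := hcE.1
      have : ∃ Q, F.IsConj P Q ∧ ¬ centralizerIn S Q ≤ Q := by
        by_contra hcon
        push Not at hcon
        exact hP ⟨hPS, hcon⟩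
      obtain ⟨Q₀, hQ₀, hn⟩ := this
      obtain ⟨f₀, hf₀⟩ := isConj_iff.mp hQ₀
      obtain ⟨δ, δ', ψ, hδ, hψ, hv⟩ := (claim hS hF P hPS).1 f₀ hf₀.mp
      have hIψ := Iso.of_mp hψ
      have hIE : Iso (EU F U) P hψ.img ψ := hIψ.mono hD
      have hQ₀S := Iso.target_le hf₀
      have hJ : Iso F Q₀ hψ.img δ' := by
        refine ⟨hδ.iso'.mp.restrict hQ₀S, fun y hy => ?_, fun z hz => ?_⟩
        · obtain ⟨x, hx, rfl⟩ := hf₀.surj y hy
          rw [hv x hx, hδ.l _ (hψ.mem hx)]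
          exact hIψ.maps x hx
        · obtain ⟨x, hx, rfl⟩ := hIψ.surj z hz
          refine ⟨f₀ x, hf₀.maps x hx, ?_⟩
          rw [hv x hx, hδ.l _ (hψ.mem hx)]
      obtain ⟨c, hcC, hcQ⟩ := SetLike.not_le_iff_exists.mp hn
      have hcS : c ∈ S := hcC.1
      have h1 := maps_centralizer hδ.iso'.mp hJ hQ₀S hcS hcC.2
      have h2 := hcE.2 _ (isConj_iff.mpr ⟨ψ, hIE⟩) h1
      obtain ⟨t, ht, hte⟩ := hJ.surj _ h2
      exact hcQ (hδ.iso'.mp.inj (hQ₀S ht) hcS hte ▸ ht)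
  · intro P hP
    rw [Subgroup.map_le_iff_le_comap, Subgroup.closure_le]
    intro a ha
    have h1 := (claim hS hF P hP).2 a ha
    exact mem_autGroup_of_mp (h1.mono hD) (fun z => (funOf_apply _ z).symm)

end Cfsg.Agent.H24.PRes
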