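import Cfsg.Agent.Lib.H24.PResD
import Cfsg.Agent.Lib.H25.InvA

/-!
For an invariant subsystem `U` of `F` over `T` and a subsystem `E` of `F` over `T`: the fusion system on `T`
generated by `U` and `Aut_E(T)`.
-/

set_option autoImplicit false

namespace Cfsg.Agent.H24.PRes

open Cfsg Cfsg.FusionSystem Cfsg.Agent.H25
open Cfsg.Agent.H24.SatC

variable {Ω : Type*} [Group Ω] {S T : Subgroup Ω} {F : FusionSystem S} {E U : FusionSystem T} {p : ℕ}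
variable {P Q R K Q₁ Q₂ : Subgroup Ω} {f g : Ω → Ω}

theorem tf_one {x : Ω} (hx : x ∈ T) : tf (1 : MulAut T) x = x := by
  rw [tf_apply 1 hx]
  rfl

theorem tf_mul {a b : MulAut T} {x : Ω} (hx : x ∈ T) : tf (a * b) x = tf a (tf b x) := by
  rw [tf_apply _ hx, tf_apply b hx, tf_apply a (Subtype.coe_prop _)]
  rfl

theorem tf_map_mul {a : MulAut T} {x y : Ω} (hx : x ∈ T) (hy : y ∈ T) : tf a (x * y) = tf a x * tf a y := by
  rw [tf_apply _ (T.mul_mem hx hy), tf_apply a hx, tf_apply a hy]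
  have : (⟨x * y, T.mul_mem hx hy⟩ : T) = ⟨x, hx⟩ * ⟨y, hy⟩ := rfl
  rw [this, map_mul]
  rfl

theorem tf_map_inv {a : MulAut T} {x : Ω} (hx : x ∈ T) : tf a x⁻¹ = (tf a x)⁻¹ := by
  rw [tf_apply _ (T.inv_mem hx), tf_apply a hx]
  have : (⟨x⁻¹, T.inv_mem hx⟩ : T) = (⟨x, hx⟩ : T)⁻¹ := rfl
  rw [this, map_inv]
  rfl

theorem tf_inj {a : MulAut T} {x y : Ω} (hx : x ∈ T) (hy : y ∈ T) (h : tf a x = tf a y) : x = y := by
  rw [← tf_inv' (α := a) hx, ← tf_inv' (α := a) hy, h]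

theorem aut_mono (hE : E.IsSubsystemOf F) (hTS : T ≤ S) {n : MulAut T} (hn : n ∈ E.autGroup T) :
    n ∈ F.autGroup T := by
  rw [mem_autGroup_iff hTS]
  exact hE T ((mem_autGroup_iff le_rfl n).1 hn)

/-- The transport of a map by an automorphism of `T`, with the target named. -/
theorem inv_mp' (hI : U.IsInvariantIn F) {α : MulAut T} (hα : α ∈ F.autGroup T) (hf : Mp U P f)
    (h1 : ∀ x ∈ P, tf α x ∈ Q) (h2 : ∀ y ∈ Q, ∃ x ∈ P, tf α x = y) :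
    ∃ g, Mp U Q g ∧ ∀ x ∈ P, g (tf α x) = tf α (f x) := by
  have hP : P ≤ T := hf.le
  obtain ⟨g, hg, he⟩ := inv_mp hI hα hP hf
  have e : imT α P = Q := by
    ext y
    rw [mem_imT hP]
    constructor
    · rintro ⟨x, hx, rfl⟩
      exact h1 x hx
    · intro hy
      exact h2 y hy
  rw [e] at hg
  exact ⟨g, hg, he⟩

/-- A map of the form (element of `Aut_E(T)`) ∘ (map of `U`). -/
def Fm3 (E U : FusionSystem T) (P : Subgroup Ω) (f : Ω → Ω) : Prop :=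
  ∃ n ∈ E.autGroup T, ∃ φ₀, Mp U P φ₀ ∧ ∀ x ∈ P, f x = tf n (φ₀ x)

theorem Fm3.comp (hI : U.IsInvariantIn F) (hE : E.IsSubsystemOf F) (hf : Fm3 E U P f) (hg : Fm3 E U Q g)
    (h : ∀ x ∈ P, f x ∈ Q) : Fm3 E U P (g ∘ f) := by
  obtain ⟨n, hn, φ₀, hφ₀, hv⟩ := hf
  obtain ⟨m, hm, ψ₀, hψ₀, hw⟩ := hg
  have hTS := inv_le hI
  have hQT : Q ≤ T := hψ₀.le
  have hnF : n⁻¹ ∈ F.autGroup T := inv_mem (aut_mono hE hTS hn)
  obtain ⟨G, hG, he⟩ := inv_mp hI hnF hQT hψ₀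
  have hval : ∀ x ∈ P, φ₀ x = tf n⁻¹ (f x) := fun x hx => by
    rw [hv x hx, tf_inv' (hφ₀.mem hx)]
  refine ⟨m * n, mul_mem hm hn, G ∘ φ₀, hφ₀.comp (fun x hx => ?_) hG, fun x hx => ?_⟩
  · rw [hval x hx]
    exact (mem_imT hQT).2 ⟨f x, h x hx, rfl⟩
  · simp only [Function.comp]
    rw [hval x hx, he _ (h x hx), tf_mul (tf_mem (hψ₀.mem (h x hx))), tf_inv (hψ₀.mem (h x hx))]
    exact hw _ (h x hx)

theorem Fm3.inv (hI : U.IsInvariantIn F) (hE : E.IsSubsystemOf F) (hf : Fm3 E U P f) {r : Ω → Ω}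
    (hmaps : ∀ x ∈ P, f x ∈ Q) (hsurj : ∀ y ∈ Q, ∃ x ∈ P, f x = y) (hr : ∀ x ∈ P, r (f x) = x) :
    Fm3 E U Q r := by
  obtain ⟨n, hn, φ₀, hφ₀, hv⟩ := hf
  have hTS := inv_le hI
  have hnF : n ∈ F.autGroup T := aut_mono hE hTS hn
  obtain ⟨k, hk, hk1, hk2⟩ := hφ₀.inv
  have hφ₀img : ∀ x ∈ P, φ₀ x ∈ hφ₀.img := fun x hx => hφ₀.mem_img.mpr ⟨x, hx, rfl⟩
  obtain ⟨G, hG, he⟩ := inv_mp' (Q := Q) hI hnF hk (fun z hz => by
      obtain ⟨x, hx, rfl⟩ := hφ₀.mem_img.mp hz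
      rw [← hv x hx]
      exact hmaps x hx) (fun y hy => by
      obtain ⟨x, hx, rfl⟩ := hsurj y hy
      exact ⟨φ₀ x, hφ₀img x hx, (hv x hx).symm⟩)
  refine ⟨n⁻¹, inv_mem hn, G, hG, fun y hy => ?_⟩
  obtain ⟨x, hx, rfl⟩ := hsurj y hy
  have hxT : x ∈ T := hφ₀.le hx
  have h1 : G (f x) = tf n x := by
    rw [hv x hx, he _ (hφ₀img x hx), hk1 x hx]
  rw [h1, tf_inv' hxT, hr x hx]

/-- The fusion system on `T` generated by `U` and `Aut_E(T)`. -/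
noncomputable def Dpp (hI : U.IsInvariantIn F) (hE : E.IsSubsystemOf F) : FusionSystem T where
  Hom P := {φ | φ ∈ F.Hom P ∧ Fm3 E U P (toFun φ)}
  le_of_mem := by
    rintro P φ ⟨-, n, -, φ₀, hφ₀, hv⟩
    refine ⟨hφ₀.le, fun x => ?_⟩
    have := hv x x.2
    rw [toFun_coe] at this
    rw [this]
    exact tf_mem (hφ₀.mem x.2)
  injective_of_mem h := F.injective_of_mem h.1
  conj_mem := by
    intro P g hP hg
    have hTS := inv_le hI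
    refine ⟨F.conj_mem (hP.trans hTS) (hTS hg), 1, one_mem _, fun x => g * x * g⁻¹, Mp.conj hP hg, fun x hx => ?_⟩
    rw [tf_one (T.mul_mem (T.mul_mem hg (hP hx)) (T.inv_mem hg))]
    rw [toFun_coe (conjHom P g) ⟨x, hx⟩]
    rfl
  comp_mem := by
    rintro P Q φ ψ ⟨h1, h2⟩ ⟨h3, h4⟩ h
    refine ⟨F.comp_mem h1 h3 h, ?_⟩
    have h5 := Fm3.comp hI hE h2 h4 (Q := Q) (fun x hx => by
      rw [toFun_coe φ ⟨x, hx⟩]
      exact h ⟨x, hx⟩)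
    obtain ⟨n, hn, φ₀, hφ₀, hv⟩ := h5
    refine ⟨n, hn, φ₀, hφ₀, fun x hx => ?_⟩
    rw [← hv x hx, toFun_coe _ ⟨x, hx⟩]
    simp only [Function.comp]
    rw [toFun_coe φ ⟨x, hx⟩, toFun_coe ψ ⟨φ ⟨x, hx⟩, h ⟨x, hx⟩⟩]
    rfl
  inv_mem := by
    rintro P φ ⟨h1, h2⟩
    obtain ⟨ψ, hψ, hψv⟩ := F.inv_mem h1
    refine ⟨ψ, ⟨hψ, ?_⟩, hψv⟩
    refine Fm3.inv hI hE h2 (Q := φ.range) (fun x hx => ?_) (fun y hy => ?_) (fun x hx => ?_)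
    · rw [toFun_coe φ ⟨x, hx⟩]
      exact ⟨⟨x, hx⟩, rfl⟩
    · obtain ⟨x, rfl⟩ := hy
      exact ⟨x, x.2, toFun_coe φ x⟩
    · rw [toFun_coe φ ⟨x, hx⟩, toFun_coe ψ ⟨φ ⟨x, hx⟩, ⟨⟨x, hx⟩, rfl⟩⟩]
      exact hψv ⟨x, hx⟩

theorem mp_Dpp {hI : U.IsInvariantIn F} {hE : E.IsSubsystemOf F} :
    Mp (Dpp hI hE) P f ↔ Mp F P f ∧ Fm3 E U P f := by
  constructor
  · rintro ⟨φ, ⟨h1, h2⟩, hv⟩
    refine ⟨⟨φ, h1, hv⟩, ?_⟩
    obtain ⟨n, hn, φ₀, hφ₀, hw⟩ := h2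
    refine ⟨n, hn, φ₀, hφ₀, fun x hx => ?_⟩
    rw [← hw x hx, toFun_coe φ ⟨x, hx⟩, hv ⟨x, hx⟩]
  · rintro ⟨⟨φ, h1, hv⟩, n, hn, φ₀, hφ₀, hw⟩
    refine ⟨φ, ⟨h1, n, hn, φ₀, hφ₀, fun x hx => ?_⟩, hv⟩
    rw [← hw x hx, toFun_coe φ ⟨x, hx⟩, hv ⟨x, hx⟩]

theorem le_Dpp (hI : U.IsInvariantIn F) (hE : E.IsSubsystemOf F) : U ≤ Dpp hI hE := by
  intro P φ hφ
  refine ⟨hI.1 P hφ, 1, one_mem _, toFun φ, mp_of_mem hφ, fun x hx => ?_⟩
  rw [tf_one]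
  exact (mp_of_mem hφ).mem hx

theorem mp_tf_Dpp (hI : U.IsInvariantIn F) (hE : E.IsSubsystemOf F) {n : MulAut T} (hn : n ∈ E.autGroup T)
    (hP : P ≤ T) : Mp (Dpp hI hE) P (tf n) := by
  have hTS := inv_le hI
  refine mp_Dpp.mpr ⟨?_, n, hn, _root_.id, Mp.id hP, fun _ _ => rfl⟩
  have h1 : Mp F T (tf n) := Mp.of_mem_autGroup hTS (aut_mono hE hTS hn)
  exact h1.restrict hP

variable [Finite T] [Fact p.Prime]

/-- `Aut_T(T)` has index prime to `p` in `Aut_E(T)`. -/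
theorem exists_pow_inner (hE : E.IsSaturated p) {n : MulAut T} (hn : n ∈ E.autGroup T) :
    ∃ m, ¬ p ∣ m ∧ n ^ m ∈ autInducedBy T T := by
  classical
  obtain ⟨Q, f₀, hQ, hf₀⟩ := exists_far hE (le_refl T)
  have hQT : Q = T := by
    apply Subgroup.eq_of_le_of_card_ge hQ.le
    exact (Iso.card_eq' hf₀).le
  subst hQT
  obtain ⟨-, P₀, hP₀⟩ := hQ.auto
  have hN : (P₀ : Subgroup (E.autGroup Q)).Normal := by
    rw [hP₀]
    refine ⟨fun a ha b => ?_⟩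
    rw [Subgroup.mem_subgroupOf] at ha ⊢
    obtain ⟨t, ht, hte⟩ := exists_of_mem_autInducedBy ha
    refine mem_autInducedBy_of_conj ((b : MulAut Q) ⟨t, ht⟩).2 (fun x => ?_)
    show (((b : MulAut Q) ((a : MulAut Q) ((b : MulAut Q)⁻¹ x)) : Q) : Ω) = _
    have h1 : (a : MulAut Q) ((b : MulAut Q)⁻¹ x) = ⟨t, ht⟩ * ((b : MulAut Q)⁻¹ x) * (⟨t, ht⟩ : Q)⁻¹ :=
      Subtype.ext (hte _)
    rw [h1, map_mul, map_mul, map_inv]
    simp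
  refine ⟨(P₀ : Subgroup (E.autGroup Q)).index, P₀.not_dvd_index, ?_⟩
  have h1 := Subgroup.pow_index_mem (P₀ : Subgroup (E.autGroup Q)) (⟨n, hn⟩ : E.autGroup Q)
  generalize (P₀ : Subgroup (E.autGroup Q)).index = i at h1 ⊢
  rw [hP₀, Subgroup.mem_subgroupOf] at h1
  exact h1

/-- The `p`-elements of `Aut_{D''}(Q)` lie in `Aut_U(Q)`. -/
theorem pelt_mem (hI : U.IsInvariantIn F) (hE : E.IsSubsystemOf F)
    (hidx : ∀ n ∈ E.autGroup T, ∃ m, ¬ p ∣ m ∧ n ^ m ∈ autInducedBy T T)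
    (hQT : Q ≤ T) {r : MulAut Q} (hr : r ∈ (Dpp hI hE).autGroup Q) {k : ℕ} (hk : r ^ p ^ k = 1) :
    r ∈ U.autGroup Q := by
  have hTS := inv_le hI
  obtain ⟨-, n, hn, φ₀, hφ₀, hv⟩ := mp_Dpp.mp (Mp.of_mem_autGroup hQT hr)
  have hnF : n ∈ F.autGroup T := aut_mono hE hTS hn
  have hpow : ∀ j : ℕ, ∃ φ, Mp U Q φ ∧ ∀ x : Q, (((r ^ j) x : Q) : Ω) = tf (n ^ j) (φ x) := by
    intro j
    induction j with
    | zero =>
      refine ⟨_root_.id, Mp.id hQT, fun x => ?_⟩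
      simp only [pow_zero, MulAut.one_apply, id]
      rw [tf_one (hQT x.2)]
    | succ j ih =>
      obtain ⟨φ, hφ, hφv⟩ := ih
      have hα : (n ^ j)⁻¹ ∈ F.autGroup T := inv_mem (pow_mem hnF j)
      obtain ⟨G, hG, he⟩ := inv_mp hI hα hQT hφ₀
      have hval : ∀ x : Q, φ x = tf (n ^ j)⁻¹ (((r ^ j) x : Q) : Ω) := fun x => by
        rw [hφv x, tf_inv' (hφ.mem x.2)]
      refine ⟨G ∘ φ, hφ.comp (fun x hx => ?_) hG, fun x => ?_⟩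
      · rw [hval ⟨x, hx⟩]
        exact (mem_imT hQT).2 ⟨_, ((r ^ j) ⟨x, hx⟩).2, rfl⟩
      · have h1 : ((r ^ (j + 1)) x : Q) = r ((r ^ j) x) := by
          rw [pow_succ']
          rfl
        simp only [Function.comp]
        rw [h1, hval x, he _ ((r ^ j) x).2, pow_succ', tf_mul (tf_mem (hφ₀.mem ((r ^ j) x).2)),
          tf_inv (hφ₀.mem ((r ^ j) x).2)]
        rw [← hv _ ((r ^ j) x).2, toFun_aut]
  obtain ⟨m, hm, hmi⟩ := hidx n hn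
  obtain ⟨φ, hφ, hφv⟩ := hpow m
  obtain ⟨t, ht, hte⟩ := exists_of_mem_autInducedBy hmi
  have h1 : r ^ m ∈ U.autGroup Q := by
    have hc : Mp U T (fun x => t * x * t⁻¹) := Mp.conj le_rfl ht
    refine mem_autGroup_of_mp ((hφ.comp (fun x hx => hφ.mem hx) hc)) (fun x => ?_)
    simp only [Function.comp]
    rw [hφv x, tf_apply _ (hφ.mem x.2)]
    exact hte _
  have hcop : IsCoprime (m : ℤ) ((p : ℤ) ^ k) := by
    have h2 : Nat.Coprime m (p ^ k) :=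
      Nat.Coprime.pow_right k ((Nat.Coprime.symm ((Nat.Prime.coprime_iff_not_dvd Fact.out).2 hm)))
    have := Nat.isCoprime_iff_coprime.mpr h2
    simpa using this
  obtain ⟨a, b, hab⟩ := hcop
  have h2 : r = (r ^ m) ^ a := by
    have h3 : r ^ ((a * m + b * (p : ℤ) ^ k : ℤ)) = r := by
      rw [hab, zpow_one]
    rw [zpow_add, zpow_mul', zpow_mul'] at h3
    have h4 : r ^ ((p : ℤ) ^ k) = 1 := by
      have : ((p : ℤ) ^ k) = ((p ^ k : ℕ) : ℤ) := by simp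
      rw [this, zpow_natCast, hk]
    rw [h4, one_zpow, mul_one] at h3
    rw [zpow_natCast] at h3
    exact h3.symm
  rw [h2]
  exact zpow_mem h1 a

end Cfsg.Agent.H24.PRes
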