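import Cfsg.Agent.Lib.H24.PResE

/-!
The system generated by an invariant subsystem and `Aut_E(T)` is saturated, and the `p'`-residual lies in
every saturated invariant subsystem over `T`.
-/

set_option autoImplicit false

namespace Cfsg.Agent.H24.PRes

open Cfsg Cfsg.FusionSystem Cfsg.Agent.H25
open Cfsg.Agent.H24.SatC

variable {Ω : Type*} [Group Ω] {S T : Subgroup Ω} {F : FusionSystem S} {E U : FusionSystem T} {p : ℕ}
variable {P Q R K Q₁ Q₂ : Subgroup Ω} {f g : Ω → Ω}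

theorem mp_sub (hE : E.IsSubsystemOf F) (h : Mp E P f) : Mp F P f := by
  obtain ⟨φ, hφ, e⟩ := h
  exact ⟨φ, hE P hφ, e⟩

theorem imT_le {α : MulAut T} : imT α P ≤ T := by
  rintro _ ⟨x, -, rfl⟩
  exact Subtype.coe_prop _

theorem imT_inv_imT {α : MulAut T} (hP : P ≤ T) : imT α⁻¹ (imT α P) = P := by
  ext y
  rw [mem_imT imT_le]
  constructor
  · rintro ⟨x, hx, rfl⟩
    obtain ⟨z, hz, rfl⟩ := (mem_imT hP).1 hx
    rw [tf_inv' (hP hz)]
    exact hz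
  · intro hy
    exact ⟨tf α y, (mem_imT hP).2 ⟨y, hy, rfl⟩, tf_inv' (hP hy)⟩

variable [Finite T] [Fact p.Prime]

theorem card_normalizerIn_imT_le {α : MulAut T} (hP : P ≤ T) :
    Nat.card (normalizerIn T P) ≤ Nat.card (normalizerIn T (imT α P)) := by
  have hmaps : ∀ x ∈ normalizerIn T P, tf α x ∈ normalizerIn T (imT α P) := by
    intro x hx
    have hxT : x ∈ T := Cfsg.Agent.H25.normalizerIn_le hx
    refine mem_normalizerIn.mpr ⟨tf_mem hxT, mem_normalizer_of_conj ?_ ?_⟩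
    · intro y hy
      obtain ⟨z, hz, rfl⟩ := (mem_imT hP).1 hy
      refine (mem_imT hP).2 ⟨x * z * x⁻¹, conj_mem_of_normalizer (normalizerIn_le_normalizer hx) hz, ?_⟩
      rw [tf_map_mul (T.mul_mem hxT (hP hz)) (T.inv_mem hxT), tf_map_mul hxT (hP hz), tf_map_inv hxT]
    · intro y hy
      obtain ⟨z, hz, rfl⟩ := (mem_imT hP).1 hy
      refine (mem_imT hP).2 ⟨x⁻¹ * z * x, conj_inv_mem_of_normalizer (normalizerIn_le_normalizer hx) hz, ?_⟩
      rw [tf_map_mul (T.mul_mem (T.inv_mem hxT) (hP hz)) hxT, tf_map_mul (T.inv_mem hxT) (hP hz), tf_map_inv hxT]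
  haveI : Finite (normalizerIn T (imT α P)) := finite_of_le Cfsg.Agent.H25.normalizerIn_le
  exact Nat.card_le_card_of_injective (fun x : normalizerIn T P => (⟨tf α x, hmaps x x.2⟩ : normalizerIn T (imT α P)))
    (fun x y hxy => Subtype.ext (tf_inj (Cfsg.Agent.H25.normalizerIn_le x.2) (Cfsg.Agent.H25.normalizerIn_le y.2) (congrArg Subtype.val hxy)))

theorem card_normalizerIn_imT {α : MulAut T} (hP : P ≤ T) :
    Nat.card (normalizerIn T (imT α P)) = Nat.card (normalizerIn T P) := by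
  apply le_antisymm _ (card_normalizerIn_imT_le hP)
  have h := card_normalizerIn_imT_le (P := imT α P) (α := α⁻¹) imT_le
  rwa [imT_inv_imT hP] at h

/-- Automorphisms in `Aut_F(T)` carry far subgroups of an invariant subsystem to far subgroups. -/
theorem far_imT (hT : IsPGroup p T) (hU : U.IsSaturated p) (hI : U.IsInvariantIn F) {α : MulAut T}
    (hα : α ∈ F.autGroup T) (hQ : Far U p Q) : Far U p (imT α Q) := by
  have hQT := hQ.le
  apply far_of_fullyNormalized hT hU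
  refine ⟨imT_le, fun Q₂ hQ₂ => ?_⟩
  obtain ⟨f, hf⟩ := isConj_iff.mp hQ₂
  have hQ₂T := Iso.target_le hf
  obtain ⟨G, hG, he⟩ := inv_mp' (Q := Q) hI (inv_mem hα) hf.mp (fun x hx => by
      obtain ⟨z, hz, rfl⟩ := (mem_imT hQT).1 hx
      rw [tf_inv' (hQT hz)]
      exact hz) (fun y hy => ⟨tf α y, (mem_imT hQT).2 ⟨y, hy, rfl⟩, tf_inv' (hQT hy)⟩)
  have hIG : Iso U Q (imT α⁻¹ Q₂) G := by
    refine ⟨hG, fun x hx => ?_, fun y hy => ?_⟩
    · have h1 : tf α x ∈ imT α Q := (mem_imT hQT).2 ⟨x, hx, rfl⟩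
      have h2 := he _ h1
      rw [tf_inv' (hQT hx)] at h2
      rw [h2]
      exact (mem_imT hQ₂T).2 ⟨_, hf.maps _ h1, rfl⟩
    · obtain ⟨z, hz, rfl⟩ := (mem_imT hQ₂T).1 hy
      obtain ⟨w, hw, rfl⟩ := hf.surj z hz
      obtain ⟨v, hv, rfl⟩ := (mem_imT hQT).1 hw
      refine ⟨v, hv, ?_⟩
      have h2 := he _ hw
      rw [tf_inv' (hQT hv)] at h2
      exact h2
  have h3 := (far_fullyNormalized hT hQ).2 _ (isConj_iff.mpr ⟨G, hIG⟩)
  rw [card_normalizerIn_imT hQ₂T] at h3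
  rw [card_normalizerIn_imT hQT]
  exact h3

theorem far_Dpp (hT : IsPGroup p T) (hU : U.IsSaturated p) (hI : U.IsInvariantIn F) (hE : E.IsSubsystemOf F)
    (hidx : ∀ n ∈ E.autGroup T, ∃ m, ¬ p ∣ m ∧ n ^ m ∈ autInducedBy T T) (hQ : Far U p Q) :
    Far (Dpp hI hE) p Q := by
  have hQT := hQ.le
  have hTS := inv_le hI
  haveI : Finite Q := finite_of_le hQT
  refine ⟨fullyAutomized_of_conj hT hQT fun R₀ hR₀ hR₀p => ?_, hQT, fun P' φ' hφ' hrange => ?_⟩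
  · have hle : R₀ ≤ U.autGroup Q := fun r hr => by
      obtain ⟨k, hk⟩ := hR₀p ⟨r, hr⟩
      exact pelt_mem hI hE hidx hQT (hR₀ hr) (k := k) (congrArg Subtype.val hk)
    obtain ⟨a, ha, hac⟩ := Cfsg.Agent.H24.exists_conj_into_autS hQ.auto R₀ hle hR₀p
    exact ⟨a, autGroup_mono (le_Dpp hI hE) hQT ha, hac⟩
  · obtain ⟨-, n, hn, φ₀, hφ₀, hv⟩ := mp_Dpp.mp (mp_of_mem hφ')
    have hnF : n ∈ F.autGroup T := aut_mono hE hTS hn
    have hQ₁ := far_imT hT hU hI (inv_mem hnF) hQ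
    obtain ⟨φh, hφh, hφe⟩ := hφ₀
    have hvalT : ∀ x : P', φ' x ∈ T := ((Dpp hI hE).le_of_mem hφ').2
    have hval : ∀ x : P', φh x = tf n⁻¹ (φ' x) := fun x => by
      have h1 := hv x x.2
      rw [toFun_coe φ' x] at h1
      rw [h1, hφe x, tf_inv']
      rw [← hφe x]
      exact (U.le_of_mem hφh).2 x
    have hrange₁ : φh.range = imT n⁻¹ Q := by
      ext y
      rw [mem_imT hQT]
      constructor
      · rintro ⟨x, rfl⟩
        refine ⟨φ' x, ?_, (hval x).symm⟩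
        rw [← hrange]
        exact ⟨x, rfl⟩
      · rintro ⟨z, hz, rfl⟩
        rw [← hrange] at hz
        obtain ⟨x, rfl⟩ := hz
        exact ⟨x, hval x⟩
    obtain ⟨ψ₀, hψ₀, hψ₀v⟩ := hQ₁.recep.2 P' φh hφh hrange₁
    have hle : extender T P' φ' ≤ extender T P' φh := by
      apply Subgroup.closure_mono
      rintro g ⟨hgT, hgN, s, hs, hse⟩
      refine ⟨hgT, hgN, tf n⁻¹ s, tf_mem hs, fun x hx => ?_⟩
      rw [hval, hval x, hse x hx, tf_map_mul (T.mul_mem hs (hvalT x)) (T.inv_mem hs), tf_map_mul hs (hvalT x),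
        tf_map_inv hs]
    have hm : Mp U (extender T P' φ') (toFun ψ₀) := (mp_of_mem hψ₀).restrict hle
    have hm2 : Mp (Dpp hI hE) (extender T P' φ') (tf n ∘ toFun ψ₀) :=
      (hm.mono (le_Dpp hI hE)).comp (fun x hx => hm.mem hx) (mp_tf_Dpp hI hE hn le_rfl)
    obtain ⟨ψ, hψ, hψv⟩ := hm2
    refine ⟨ψ, hψ, fun x hP hN => ?_⟩
    rw [hψv ⟨x, hN⟩]
    simp only [Function.comp]
    rw [toFun_coe ψ₀ ⟨x, hle hN⟩, hψ₀v x hP (hle hN), hval ⟨x, hP⟩, tf_inv (hvalT _)]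

theorem sat_Dpp (hT : IsPGroup p T) (hU : U.IsSaturated p) (hI : U.IsInvariantIn F) (hE : E.IsSubsystemOf F)
    (hidx : ∀ n ∈ E.autGroup T, ∃ m, ¬ p ∣ m ∧ n ^ m ∈ autInducedBy T T) : (Dpp hI hE).IsSaturated p := by
  intro P hP
  obtain ⟨Q, f₀, hQ, hf₀⟩ := exists_far hU hP
  have h := far_Dpp hT hU hI hE hidx hQ
  exact ⟨Q, isConj_iff.mpr ⟨f₀, hf₀.mono (le_Dpp hI hE)⟩, h.auto, h.recep⟩

omit [Finite T] [Fact p.Prime] in
theorem centric_Dpp (hI : U.IsInvariantIn F) (hE' : E.IsInvariantIn F) (hR : E.IsCentric R) :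
    (Dpp hI hE'.1).IsCentric R := by
  refine ⟨hR.1, fun R' hR' => ?_⟩
  have hRT := hR.1
  have hTS := inv_le hI
  obtain ⟨f, hf⟩ := isConj_iff.mp hR'
  obtain ⟨-, n, hn, φ₀, hφ₀, hv⟩ := mp_Dpp.mp hf.mp
  have hnF := aut_mono hE'.1 hTS hn
  obtain ⟨γ, hγ, f₁, hf₁, hw⟩ := inv_frat hE' hRT (inv_mp_sub hI hφ₀)
  have hfv : ∀ x ∈ R, f x = tf (n * γ) (f₁ x) := fun x hx => by
    rw [hv x hx, hw x hx, tf_mul (hf₁.mem hx)]
  have hR₃ : E.IsConj R hf₁.img := isConj_iff.mpr ⟨f₁, Iso.of_mp hf₁⟩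
  intro c hc
  obtain ⟨hcT, hcc⟩ := mem_centralizerIn.mp hc
  have hc' : tf (n * γ)⁻¹ c ∈ centralizerIn T hf₁.img := by
    refine mem_centralizerIn.mpr ⟨tf_mem hcT, fun y hy => ?_⟩
    obtain ⟨x, hx, rfl⟩ := hf₁.mem_img.mp hy
    have h1 := hcc (f x) (hf.maps x hx)
    have hfT : f x ∈ T := by
      rw [hfv x hx]
      exact tf_mem (hf₁.mem hx)
    have h2 : f₁ x = tf (n * γ)⁻¹ (f x) := by
      rw [hfv x hx, tf_inv' (hf₁.mem hx)]
    rw [h2, ← tf_map_mul hfT hcT, ← tf_map_mul hcT hfT, h1]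
  have h2 := hR.2 _ hR₃ hc'
  obtain ⟨x, hx, hxe⟩ := hf₁.mem_img.mp h2
  have h3 : c = f x := by
    rw [hfv x hx, hxe, tf_inv hcT]
  rw [h3]
  exact hf.maps x hx

/-- `p`-elements of automorphism groups in `E` lie in any invariant subsystem. -/
theorem pelt_in_inv (hT : IsPGroup p T) (hE : E.IsSaturated p) (hEF : E.IsSubsystemOf F) (hI : U.IsInvariantIn F)
    (hRT : R ≤ T) (a : E.autGroup R) {k : ℕ} (hk : orderOf a = p ^ k) : Mp U R (funOf (a : MulAut R)) := by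
  classical
  have hTS := inv_le hI
  obtain ⟨Q, χ, hQ, hχ⟩ := exists_far hE hRT
  have hQT := hQ.le
  haveI : Finite Q := finite_of_le hQT
  obtain ⟨χ', hχ', hl, hr⟩ := hχ.inv
  set Φ := autTransport hRT hχ hχ' hl with hΦ
  have hpow : (Φ a) ^ p ^ k = 1 := by
    rw [← map_pow, ← hk, pow_orderOf_eq_one, map_one]
  have hK : IsPGroup p (Subgroup.zpowers ((Φ a : E.autGroup Q) : MulAut Q)) := by
    rw [IsPGroup.iff_card, Nat.card_zpowers]
    have h1 : ((Φ a : E.autGroup Q) : MulAut Q) ^ p ^ k = 1 := congrArg Subtype.val hpow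
    obtain ⟨j, -, hj⟩ := (Nat.dvd_prime_pow (Fact.out : p.Prime)).mp (orderOf_dvd_of_pow_eq_one h1)
    exact ⟨j, hj⟩
  have hKle : Subgroup.zpowers ((Φ a : E.autGroup Q) : MulAut Q) ≤ E.autGroup Q := by
    rw [Subgroup.zpowers_le]
    exact (Φ a).2
  obtain ⟨b, hb, hbc⟩ := Cfsg.Agent.H24.exists_conj_into_autS hQ.auto _ hKle hK
  obtain ⟨t, ht, hte⟩ := exists_of_mem_autInducedBy (hbc _ (Subgroup.mem_zpowers _))
  -- the map `h = b ∘ χ`
  have hIb := Iso.of_mem_autGroup hQT hb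
  set fb := toFun (Q.subtype.comp b.toMonoidHom) with hfb
  have hh : Iso E R Q (fb ∘ χ) := hχ.comp hIb
  obtain ⟨h', hh', hl', hr'⟩ := hh.inv
  -- the relation `h (a x) = t h(x) t⁻¹`
  have hrel : ∀ x : R, (fb ∘ χ) (((a : MulAut R) x : R) : Ω) = t * (fb ∘ χ) x * t⁻¹ := by
    intro x
    have hχx := hχ.maps x x.2
    have h1 := hte (b ⟨χ x, hχx⟩)
    have h2 : ((((b * (Φ a : E.autGroup Q) * b⁻¹ : MulAut Q)) (b ⟨χ x, hχx⟩) : Q) : Ω) =
        ((b (((Φ a : E.autGroup Q) : MulAut Q) ⟨χ x, hχx⟩) : Q) : Ω) := by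
      show ((b (((Φ a : E.autGroup Q) : MulAut Q) (b⁻¹ (b ⟨χ x, hχx⟩))) : Q) : Ω) = _
      simp
    rw [h2] at h1
    have h3 : ((Φ a : E.autGroup Q) : MulAut Q) ⟨χ x, hχx⟩ = ⟨χ (((a : MulAut R) x : R) : Ω), hχ.maps _ ((a : MulAut R) x).2⟩ := by
      apply Subtype.ext
      rw [autTransport_apply]
      have e : (⟨χ' (χ x), hχ'.maps _ hχx⟩ : R) = x := Subtype.ext (hl x x.2)
      simp only [e]
    rw [h3] at h1
    simp only [Function.comp]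
    rw [hfb, toFun_aut b ⟨χ x, hχx⟩, toFun_aut b ⟨χ _, hχ.maps _ ((a : MulAut R) x).2⟩]
    exact h1
  have hcQ : ∀ y ∈ Q, t * y * t⁻¹ ∈ Q := by
    intro y hy
    obtain ⟨x, hx, rfl⟩ := hh.surj y hy
    rw [← hrel ⟨x, hx⟩]
    exact hh.maps _ ((a : MulAut R) ⟨x, hx⟩).2
  -- Frattini
  have hh'F : Mp F Q h' := mp_sub hEF hh'.mp
  obtain ⟨γ, hγ, h₀, hh₀, hγv⟩ := inv_frat hI hQT hh'F
  obtain ⟨k', hk', hk1, hk2⟩ := hh₀.inv
  have hh₀img : ∀ y ∈ Q, h₀ y ∈ hh₀.img := fun y hy => hh₀.mem_img.mpr ⟨y, hy, rfl⟩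
  -- the map `w = h₀ ∘ c_t ∘ k'`
  have hc : Mp U Q (fun y => t * y * t⁻¹) := Mp.conj hQT ht
  have hw : Mp U hh₀.img (h₀ ∘ (fun y => t * y * t⁻¹) ∘ k') := by
    refine (hk'.comp (fun z hz => ?_) hc).comp (fun z hz => ?_) hh₀
    · obtain ⟨y, hy, rfl⟩ := hh₀.mem_img.mp hz
      rw [hk1 y hy]
      exact hy
    · obtain ⟨y, hy, rfl⟩ := hh₀.mem_img.mp hz
      simp only [Function.comp]
      rw [hk1 y hy]
      exact hcQ y hy
  obtain ⟨G, hG, he⟩ := inv_mp' (Q := R) hI hγ hw (fun z hz => by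
      obtain ⟨y, hy, rfl⟩ := hh₀.mem_img.mp hz
      rw [← hγv y hy]
      exact hh'.maps y hy) (fun x hx => by
      refine ⟨h₀ ((fb ∘ χ) x), hh₀img _ (hh.maps x hx), ?_⟩
      rw [← hγv _ (hh.maps x hx), hl' x hx])
  refine hG.congr fun x hx => ?_
  have hy := hh.maps x hx
  have h1 : x = tf γ (h₀ ((fb ∘ χ) x)) := by
    rw [← hγv _ hy, hl' x hx]
  have h2 := he _ (hh₀img _ hy)
  rw [← h1] at h2
  rw [h2]
  simp only [Function.comp] at hy ⊢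
  rw [hk1 _ hy, ← hγv _ (hcQ _ hy)]
  rw [funOf_apply _ ⟨x, hx⟩]
  have h3 := hrel ⟨x, hx⟩
  simp only [Function.comp] at h3
  rw [← h3]
  exact hl' _ ((a : MulAut R) ⟨x, hx⟩).2

theorem D₀_le_inv (hT : IsPGroup p T) (hE : E.IsSaturated p) (hEF : E.IsSubsystemOf F) (hI : U.IsInvariantIn F) :
    D₀ E p ≤ U := by
  refine genFus_min U ?_
  rintro R f ⟨hc, a, ⟨k, hk⟩, rfl⟩
  exact pelt_in_inv hT hE hEF hI hc.1 a hk

/-- A map of `E` which lies in `U` on a centric subgroup lies in `U`. -/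
theorem ext_inv (hT : IsPGroup p T) (hE : E.IsSaturated p) (hU : U.IsSaturated p) (hI : U.IsInvariantIn F)
    (hE' : E.IsInvariantIn F) {R K : Subgroup Ω} {ψ : Ω → Ω} (hc : E.IsCentric R) (hRK : R ≤ K) (hψ : Mp E K ψ)
    (hψR : Mp U R ψ) : Mp U K ψ := by
  have hKT := hψ.le
  have hD₀ := D₀_le_inv hT hE hE'.1 hI
  obtain ⟨δ, δ', ψ₁, hδ, hψ₁, hv⟩ := (claim hT hE K hKT).1 ψ hψ
  have hidx := fun n (hn : n ∈ E.autGroup T) => exists_pow_inner hE hn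
  have hU₁ : Mp U K ψ₁ := hψ₁.mono hD₀
  have hE₁ : Mp E K ψ₁ := hψ₁.mono D₀_le
  have hm := hU₁.restrict hRK
  obtain ⟨k, hk, hk1, hk2⟩ := hm.inv
  have hδR : Mp U hm.img δ := by
    refine (hk.comp (fun y hy => ?_) hψR).congr fun y hy => ?_
    · obtain ⟨x, hx, rfl⟩ := hm.mem_img.mp hy
      rw [hk1 x hx]
      exact hx
    · obtain ⟨x, hx, rfl⟩ := hm.mem_img.mp hy
      simp only [Function.comp]
      rw [hk1 x hx, hv x (hRK hx)]
  have hRK₂ : hm.img ≤ hU₁.img := by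
    intro y hy
    obtain ⟨x, hx, rfl⟩ := hm.mem_img.mp hy
    exact hU₁.mem_img.mpr ⟨x, hRK hx, rfl⟩
  have hK₂T : hU₁.img ≤ T := by
    intro y hy
    obtain ⟨x, hx, rfl⟩ := hU₁.mem_img.mp hy
    exact hU₁.mem hx
  have hδK : Mp (Dpp hI hE'.1) hU₁.img δ := by
    refine (mp_tf_Dpp hI hE'.1 (autOfIso_mem hδ.iso) hK₂T).congr fun y hy => ?_
    rw [tf_apply _ (hK₂T hy)]
    rfl
  have hIR : Iso E R hm.img ψ₁ := by
    refine ⟨hE₁.restrict hRK, fun x hx => hm.mem_img.mpr ⟨x, hx, rfl⟩, fun y hy => ?_⟩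
    obtain ⟨x, hx, rfl⟩ := hm.mem_img.mp hy
    exact ⟨x, hx, rfl⟩
  have hc₂ : E.IsCentric hm.img := IsCentric.of_conj hc (isConj_iff.mpr ⟨ψ₁, hIR⟩)
  have hc₃ := centric_Dpp hI hE' hc₂
  have h1 := ext_from_centric hT (sat_Dpp hT hU hI hE'.1 hidx) hU (le_Dpp hI hE'.1) _ hm.img hc₃ hRK₂ rfl hδK hδR
  refine (hU₁.comp (fun x hx => hU₁.mem_img.mpr ⟨x, hx, rfl⟩) h1).congr fun x hx => ?_
  simp only [Function.comp]
  exact (hv x hx).symm

/-- **The `p'`-residual of `E` lies in every saturated invariant subsystem over `T`.** -/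
theorem residual_le_inv (hT : IsPGroup p T) (hE : E.IsSaturated p) (hU : U.IsSaturated p) (hI : U.IsInvariantIn F)
    (hE' : E.IsInvariantIn F) {D : FusionSystem T} (hD : E.IsPPrimeResidual p D) : D.IsSubsystemOf U := by
  have h1 := D₀_le_inv hT hE hE'.1 hI
  obtain ⟨hs, hidx⟩ := sat_EU hT hE h1 (fun hc hRK hψ hψ₁ => ext_inv hT hE hU hI hE' hc hRK hψ hψ₁)
  have h2 := hD.2.2 _ hs hidx
  exact fun P => (h2 P).trans (EU_le_U P)

end Cfsg.Agent.H24.PRes
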