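import Mathlib
import Cfsg.Prelude.Def_RootSubgroups

/-!
Quadratic pairs: the subgroup `E(σ)`.
-/

set_option autoImplicit false

namespace Cfsg.Agent.H24

open Cfsg

variable {k : Type*} [Field k] {M : Type*} [AddCommGroup M] [Module k M]

local notation "GLk" => LinearMap.GeneralLinearGroup k M

/-- `τ - 1` as an endomorphism. -/
abbrev minusOne (τ : GLk) : M →ₗ[k] M := (τ : M →ₗ[k] M) - 1

theorem coe_eq_one_add (τ : GLk) : (τ : M →ₗ[k] M) = 1 + minusOne τ := by
  simp [minusOne]

theorem eq_of_minusOne_eq {τ ρ : GLk} (h : minusOne τ = minusOne ρ) : τ = ρ := by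
  apply Units.ext
  rw [coe_eq_one_add τ, coe_eq_one_add ρ, h]

theorem eq_one_of_minusOne_eq_zero {τ : GLk} (h : minusOne τ = 0) : τ = 1 := by
  apply Units.ext
  rw [coe_eq_one_add τ, h]
  simp

theorem minusOne_mul (τ ρ : GLk) :
    minusOne (τ * ρ) = minusOne τ + minusOne ρ + minusOne τ * minusOne ρ := by
  simp only [minusOne, Units.val_mul]
  noncomm_ring

/-- The element `1 + a` of `GL(M)` when `a² = 0`. -/
def unitOfSq (a : M →ₗ[k] M) (ha : a * a = 0) : GLk where
  val := 1 + a
  inv := 1 - a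
  val_inv := by
    rw [mul_sub, add_mul, add_mul]
    simp [ha]
  inv_val := by
    rw [sub_mul, mul_add, mul_add]
    simp [ha]

theorem minusOne_unitOfSq (a : M →ₗ[k] M) (ha : a * a = 0) : minusOne (unitOfSq a ha) = a := by
  simp [minusOne, unitOfSq]

theorem quadratic_sq {τ : GLk} (h : IsQuadraticOn τ) : minusOne τ * minusOne τ = 0 := h.1

variable {G : Subgroup (LinearMap.GeneralLinearGroup k M)} {σ τ ρ : LinearMap.GeneralLinearGroup k M}

theorem scalar_mem {τ : GLk} (h : τ ∈ quadraticElements G) (e : k) :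
    (∃ t : GLk, t ∈ G ∧ minusOne t = e • minusOne τ) := by
  have hs : (e • minusOne τ) * (e • minusOne τ) = 0 := by
    rw [smul_mul_smul_comm, h.2.1.1, smul_zero]
  refine ⟨unitOfSq _ hs, h.2.2 ⟨e, rfl⟩, minusOne_unitOfSq _ _⟩

/-- In `E_σ`, the products of the `minusOne` vanish. -/
theorem minusOne_mul_eq_zero (hτ : τ ∈ sameActionClass G σ) (hρ : ρ ∈ sameActionClass G σ) :
    minusOne τ * minusOne ρ = 0 := by
  have hσ : minusOne τ * minusOne τ = 0 := hτ.1.1.2.1.1
  ext m
  show minusOne τ (minusOne ρ m) = 0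
  have h1 : minusOne ρ m ∈ LinearMap.range (minusOne τ) := by
    rw [show LinearMap.range (minusOne τ) = LinearMap.range (minusOne ρ) from hτ.2.2.trans hρ.2.2.symm]
    exact ⟨m, rfl⟩
  obtain ⟨n, hn⟩ := h1
  rw [← hn]
  exact LinearMap.congr_fun hσ n

variable [FiniteDimensional k M]

/-- The product of two members of `E_σ` is trivial or in `E_σ`. -/
theorem mul_mem_sameActionClass (hσ : σ ∈ minimalQuadraticElements G) (hτ : τ ∈ sameActionClass G σ)
    (hρ : ρ ∈ sameActionClass G σ) (hne : τ * ρ ≠ 1) : τ * ρ ∈ sameActionClass G σ := by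
  have hab := minusOne_mul_eq_zero hτ hρ
  have hba := minusOne_mul_eq_zero hρ hτ
  have haa : minusOne τ * minusOne τ = 0 := hτ.1.1.2.1.1
  have hbb : minusOne ρ * minusOne ρ = 0 := hρ.1.1.2.1.1
  have hc : minusOne (τ * ρ) = minusOne τ + minusOne ρ := by
    rw [minusOne_mul, hab, add_zero]
  have hne' : minusOne (τ * ρ) ≠ 0 := fun h => hne (eq_one_of_minusOne_eq_zero h)
  have hQ : τ * ρ ∈ quadraticElements G := by
    refine ⟨G.mul_mem hτ.1.1.1 hρ.1.1.1, ⟨?_, hne'⟩, ?_⟩
    · show minusOne (τ * ρ) * minusOne (τ * ρ) = 0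
      rw [hc, add_mul, mul_add, mul_add, haa, hab, hba, hbb]
      simp
    · rintro t ⟨e, he⟩
      obtain ⟨t₁, ht₁, h₁⟩ := scalar_mem hτ.1.1 e
      obtain ⟨t₂, ht₂, h₂⟩ := scalar_mem hρ.1.1 e
      have : t = t₁ * t₂ := by
        apply eq_of_minusOne_eq
        have h3 : minusOne t = e • (minusOne (τ * ρ)) := by
          show (t : M →ₗ[k] M) - 1 = _
          rw [he]
          exact add_sub_cancel_left _ _
        rw [h3, minusOne_mul t₁ t₂, h₁, h₂, smul_mul_smul_comm, hab, hc]
        simp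
      rw [this]
      exact G.mul_mem ht₁ ht₂
  have hIτ : LinearMap.range (minusOne τ) = LinearMap.range (minusOne σ) := hτ.2.2
  have hIρ : LinearMap.range (minusOne ρ) = LinearMap.range (minusOne σ) := hρ.2.2
  have hKτ : LinearMap.ker (minusOne τ) = LinearMap.ker (minusOne σ) := hτ.2.1
  have hKρ : LinearMap.ker (minusOne ρ) = LinearMap.ker (minusOne σ) := hρ.2.1
  have hrle : LinearMap.range (minusOne (τ * ρ)) ≤ LinearMap.range (minusOne σ) := by
    rw [hc]
    rintro _ ⟨m, rfl⟩
    have h1 : minusOne τ m ∈ LinearMap.range (minusOne σ) := hIτ ▸ ⟨m, rfl⟩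
    have h2 : minusOne ρ m ∈ LinearMap.range (minusOne σ) := hIρ ▸ ⟨m, rfl⟩
    exact Submodule.add_mem _ h1 h2
  have hrank : Module.finrank k (LinearMap.range (minusOne σ)) ≤
      Module.finrank k (LinearMap.range (minusOne (τ * ρ))) := hσ.2 _ hQ
  have hr : LinearMap.range (minusOne (τ * ρ)) = LinearMap.range (minusOne σ) :=
    Submodule.eq_of_le_of_finrank_le hrle hrank
  have hkle : LinearMap.ker (minusOne σ) ≤ LinearMap.ker (minusOne (τ * ρ)) := by
    rw [hc]
    intro m hm
    have h1 : m ∈ LinearMap.ker (minusOne τ) := hKτ ▸ hm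
    have h2 : m ∈ LinearMap.ker (minusOne ρ) := hKρ ▸ hm
    rw [LinearMap.mem_ker] at h1 h2 ⊢
    rw [LinearMap.add_apply, h1, h2, add_zero]
  have hkrank : Module.finrank k (LinearMap.ker (minusOne (τ * ρ))) ≤
      Module.finrank k (LinearMap.ker (minusOne σ)) := by
    have h1 := LinearMap.finrank_range_add_finrank_ker (minusOne (τ * ρ))
    have h2 := LinearMap.finrank_range_add_finrank_ker (minusOne σ)
    rw [hr] at h1
    omega
  have hk : LinearMap.ker (minusOne σ) = LinearMap.ker (minusOne (τ * ρ)) :=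
    Submodule.eq_of_le_of_finrank_le hkle hkrank
  refine ⟨⟨hQ, fun τ' hτ' => ?_⟩, hk.symm, hr⟩
  have h1 : commutatorRank (τ * ρ) = commutatorRank σ := by
    show Module.finrank k (LinearMap.range (minusOne (τ * ρ))) = _
    rw [hr]
    rfl
  rw [h1]
  exact hσ.2 τ' hτ'

theorem minusOne_inv (hτ : minusOne τ * minusOne τ = 0) : minusOne τ⁻¹ = - minusOne τ := by
  have hs : (- minusOne τ) * (- minusOne τ) = 0 := by
    rw [neg_mul_neg, hτ]
  have : τ⁻¹ = unitOfSq (- minusOne τ) hs := by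
    symm
    apply eq_inv_of_mul_eq_one_left
    apply eq_one_of_minusOne_eq_zero
    rw [minusOne_mul, minusOne_unitOfSq, neg_mul, hτ]
    simp
  rw [this, minusOne_unitOfSq]

theorem inv_mem_sameActionClass (hτ : τ ∈ sameActionClass G σ) : τ⁻¹ ∈ sameActionClass G σ := by
  have haa : minusOne τ * minusOne τ = 0 := hτ.1.1.2.1.1
  have hi := minusOne_inv haa
  have hrange : LinearMap.range (minusOne τ⁻¹) = LinearMap.range (minusOne τ) := by
    rw [hi, LinearMap.range_neg]
  have hker : LinearMap.ker (minusOne τ⁻¹) = LinearMap.ker (minusOne τ) := by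
    rw [hi, LinearMap.ker_neg]
  have hQ : τ⁻¹ ∈ quadraticElements G := by
    refine ⟨G.inv_mem hτ.1.1.1, ⟨?_, ?_⟩, ?_⟩
    · show minusOne τ⁻¹ * minusOne τ⁻¹ = 0
      rw [hi, neg_mul_neg, haa]
    · show minusOne τ⁻¹ ≠ 0
      rw [hi, neg_ne_zero]
      exact hτ.1.1.2.1.2
    · rintro t ⟨e, he⟩
      apply hτ.1.1.2.2
      refine ⟨-e, ?_⟩
      rw [he]
      show 1 + e • minusOne τ⁻¹ = 1 + (-e) • minusOne τ
      rw [hi, smul_neg, neg_smul]
  have hrk : commutatorRank τ⁻¹ = commutatorRank τ := by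
    show Module.finrank k (LinearMap.range (minusOne τ⁻¹)) = _
    rw [hrange]
    rfl
  refine ⟨⟨hQ, fun τ' hτ' => ?_⟩, hker.trans hτ.2.1, hrange.trans hτ.2.2⟩
  rw [hrk]
  exact hτ.1.2 τ' hτ'

/-- The subgroup `E_σ ∪ {1}`. -/
def sameActionSub (hσ : σ ∈ minimalQuadraticElements G) :
    Subgroup (LinearMap.GeneralLinearGroup k M) where
  carrier := sameActionClass G σ ∪ {1}
  mul_mem' := by
    rintro x y (hx | hx) (hy | hy)
    · by_cases h : x * y = 1
      · exact Or.inr h
      · exact Or.inl (mul_mem_sameActionClass hσ hx hy h)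
    · rw [Set.mem_singleton_iff.1 hy, mul_one]
      exact Or.inl hx
    · rw [Set.mem_singleton_iff.1 hx, one_mul]
      exact Or.inl hy
    · rw [Set.mem_singleton_iff.1 hx, Set.mem_singleton_iff.1 hy, one_mul]
      exact Or.inr rfl
  one_mem' := Or.inr rfl
  inv_mem' := by
    rintro x (hx | hx)
    · exact Or.inl (inv_mem_sameActionClass hx)
    · rw [Set.mem_singleton_iff.1 hx, inv_one]
      exact Or.inr rfl

theorem sameActionSubgroup_eq (hσ : σ ∈ minimalQuadraticElements G) :
    sameActionSubgroup G σ = sameActionSub hσ := by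
  apply le_antisymm
  · exact (Subgroup.closure_le _).2 (fun x hx => Or.inl hx)
  · rintro x (hx | hx)
    · exact Subgroup.subset_closure hx
    · rw [Set.mem_singleton_iff.1 hx]
      exact Subgroup.one_mem _

/-- S5059. -/
theorem quadratic_sameAction (hσ : σ ∈ minimalQuadraticElements G) :
    (sameActionSubgroup G σ : Set (LinearMap.GeneralLinearGroup k M)) = sameActionClass G σ ∪ {1} ∧
    IsMulCommutative ↥(sameActionSubgroup G σ) ∧
    (∀ p : ℕ, p.Prime → ringChar k = p → ∀ x ∈ sameActionSubgroup G σ, x ^ p = 1) := by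
  have e := sameActionSubgroup_eq hσ
  refine ⟨by rw [e]; rfl, ⟨⟨?_⟩⟩, ?_⟩
  · rintro ⟨x, hx⟩ ⟨y, hy⟩
    apply Subtype.ext
    show x * y = y * x
    rw [e] at hx hy
    rcases hx with hx | hx
    · rcases hy with hy | hy
      · apply eq_of_minusOne_eq
        rw [minusOne_mul, minusOne_mul, minusOne_mul_eq_zero hx hy, minusOne_mul_eq_zero hy hx,
          add_comm (minusOne x)]
      · rw [Set.mem_singleton_iff.1 hy, mul_one, one_mul]
    · rw [Set.mem_singleton_iff.1 hx, mul_one, one_mul]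
  · intro p _ hp x hx
    rw [e] at hx
    rcases hx with hx | hx
    · have haa : minusOne x * minusOne x = 0 := hx.1.1.2.1.1
      have hpow : ∀ n : ℕ, minusOne (x ^ n) = n • minusOne x := by
        intro n
        induction n with
        | zero => simp [minusOne]
        | succ n ih =>
          rw [pow_succ, minusOne_mul, ih, smul_mul_assoc, haa, smul_zero, add_zero, add_nsmul, one_nsmul]
      apply eq_one_of_minusOne_eq_zero
      rw [hpow, ← Nat.cast_smul_eq_nsmul k, ← hp, ringChar.Nat.cast_ringChar, zero_smul]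
    · rw [Set.mem_singleton_iff.1 hx, one_pow]

end Cfsg.Agent.H24
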