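import Mathlib
import Cfsg.Agent.Lib.H24.RSerA
import Cfsg.Agent.Lib.H24.LabU
import Cfsg.Agent.Lib.H25.FusHypQ
import Cfsg.Agent.Lib.H24.PResC

/-!
Models of the residual subsystems of a system with a model.
-/

set_option autoImplicit false
set_option linter.style.haveILetI false

namespace Cfsg.Agent.H24.RS

open Cfsg Cfsg.FusionSystem Cfsg.Agent.H25

section JF

variable {Ω : Type*} [Group Ω] {S : Subgroup Ω} {G : Type*} [Group G] (ι : S →* G)

/-- The total function attached to `ι`. -/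
noncomputable def jf (x : Ω) : G := by
  classical exact if h : x ∈ S then ι ⟨x, h⟩ else 1

theorem jf_of {x : Ω} (h : x ∈ S) : jf ι x = ι ⟨x, h⟩ := by
  classical
  unfold jf
  rw [dif_pos h]

theorem jf_coe (s : S) : jf ι (s : Ω) = ι s := jf_of ι s.2

theorem jf_mul {x y : Ω} (hx : x ∈ S) (hy : y ∈ S) : jf ι (x * y) = jf ι x * jf ι y := by
  rw [jf_of ι (S.mul_mem hx hy), jf_of ι hx, jf_of ι hy, ← map_mul]
  rfl

theorem jf_inv {x : Ω} (hx : x ∈ S) : jf ι x⁻¹ = (jf ι x)⁻¹ := by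
  rw [jf_of ι (S.inv_mem hx), jf_of ι hx, ← map_inv]
  rfl

theorem jf_one : jf ι (1 : Ω) = 1 := by
  rw [jf_of ι S.one_mem]
  exact map_one ι

theorem jf_mem_range {x : Ω} (hx : x ∈ S) : jf ι x ∈ ι.range := by
  rw [jf_of ι hx]
  exact ⟨_, rfl⟩

variable {ι}

theorem jf_inj (hι : Function.Injective ι) {x y : Ω} (hx : x ∈ S) (hy : y ∈ S) (h : jf ι x = jf ι y) : x = y := by
  rw [jf_of ι hx, jf_of ι hy] at h
  have := congrArg Subtype.val (hι h)
  exact this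

variable (ι)

/-- A section of `ι`. -/
noncomputable def jinv (y : G) : Ω := by
  classical exact if h : y ∈ ι.range then ((Classical.choose h : S) : Ω) else 1

theorem jinv_mem (y : G) : jinv ι y ∈ S := by
  classical
  unfold jinv
  split_ifs with h
  · exact (Classical.choose h).2
  · exact S.one_mem

theorem jf_jinv {y : G} (h : y ∈ ι.range) : jf ι (jinv ι y) = y := by
  classical
  unfold jinv
  rw [dif_pos h, jf_coe]
  exact Classical.choose_spec h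

variable {ι}

theorem jinv_jf (hι : Function.Injective ι) {x : Ω} (hx : x ∈ S) : jinv ι (jf ι x) = x :=
  jf_inj hι (jinv_mem ι _) hx (jf_jinv ι (jf_mem_range ι hx))

end JF

section Mp

variable {Ω : Type*} [Group Ω] {S : Subgroup Ω} {F E : FusionSystem S} {G : Type*} [Group G] {ι : S →* G}
  {P Q : Subgroup Ω} {f : Ω → Ω}

theorem mp_of_conj (hr : F.IsRealizedBy ι) (hP : P ≤ S) (hS' : ∀ x ∈ P, f x ∈ S) {g : G}
    (h : ∀ x ∈ P, jf ι (f x) = g * jf ι x * g⁻¹) : Mp F P f := by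
  have hι := hr.1
  have hc : ∀ y : P, g * ι (Subgroup.inclusion hP y) * g⁻¹ ∈ ι.range := by
    intro y
    have h1 := h y y.2
    rw [jf_of ι (hS' y y.2), jf_of ι (hP y.2)] at h1
    exact ⟨_, h1⟩
  obtain ⟨ψ, hψ, hψv⟩ := Cfsg.Agent.H24.exists_conj_lift hι hP g hc
  refine ⟨ψ, Cfsg.Agent.H24.IsRealizedBy.hom_mem hr hP hψ hψv, fun y => ?_⟩
  apply jf_inj hι (hψ y) (hS' y y.2)
  rw [h y y.2, jf_of ι (hψ y), hψv y, jf_of ι (hP y.2)]
  rfl

theorem exists_conj_of_mp (hr : F.IsRealizedBy ι) (hf : Mp F P f) : ∃ g : G, ∀ x ∈ P, jf ι (f x) = g * jf ι x * g⁻¹ := by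
  obtain ⟨φ, hφ, e⟩ := hf
  obtain ⟨g, hg⟩ := Cfsg.Agent.H24.IsRealizedBy.exists_conj hr hφ
  refine ⟨g, fun x hx => ?_⟩
  have h1 := hg ⟨x, hx⟩
  have hPS := (F.le_of_mem hφ).1
  rw [← e ⟨x, hx⟩, jf_of ι ((F.le_of_mem hφ).2 ⟨x, hx⟩), h1, jf_of ι (hPS hx)]
  rfl

end Mp

section L1

variable {Ω : Type*} [Group Ω] {S : Subgroup Ω} {F E : FusionSystem S} {G : Type*} [Group G] {ι : S →* G}
  {P : Subgroup Ω} {f : Ω → Ω} {p : ℕ} [Fact p.Prime]

/-- Conjugation by `g`, read through `ι`. -/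
noncomputable def cg (ι : S →* G) (g : G) : Ω → Ω := fun x => jinv ι (g * jf ι x * g⁻¹)

theorem jf_cg {g : G} {x : Ω} (h : g * jf ι x * g⁻¹ ∈ ι.range) : jf ι (cg ι g x) = g * jf ι x * g⁻¹ := jf_jinv ι h

theorem cg_mem (g : G) (x : Ω) : cg ι g x ∈ S := jinv_mem ι _

/-- The preimage of `O_p`. -/
def qO (p : ℕ) (ι : S →* G) : Subgroup Ω := ((pCore p G).comap ι).map S.subtype

theorem qO_le : qO p ι ≤ S := Subgroup.map_subtype_le _

theorem mem_qO {x : Ω} : x ∈ qO p ι ↔ x ∈ S ∧ jf ι x ∈ pCore p G := by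
  constructor
  · rintro ⟨y, hy, rfl⟩
    refine ⟨y.2, ?_⟩
    show jf ι (y : Ω) ∈ _
    rw [jf_coe]
    exact hy
  · rintro ⟨hx, h⟩
    rw [jf_of ι hx] at h
    exact ⟨⟨x, hx⟩, h, rfl⟩

theorem le_aut_of_pelt [Finite S] (hG : F.IsModel p G ι) (hE : E.HasPrimeToPIndexIn F p) {g : G} (hg : g ∈ oP p G) :
    ∃ a ∈ E.autGroup (qO p ι), ∀ x : qO p ι, ((a x : qO p ι) : Ω) = cg ι g x := by
  obtain ⟨hfG, hr, ⟨T, hT⟩, hcen⟩ := hG
  have hι := hr.1
  have hOn : (pCore p G).Normal := Cfsg.Agent.H01.pCore_normal (G := G) p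
  have hOT : pCore p G ≤ ι.range := by
    rw [← hT]
    exact Cfsg.Agent.H01.pCore_le_sylow p T
  have hQS : qO p ι ≤ S := qO_le
  haveI : Finite (qO p ι) := finite_of_le hQS
  have hcq : ∀ (g : G) (x : Ω), x ∈ qO p ι → cg ι g x ∈ qO p ι ∧ jf ι (cg ι g x) = g * jf ι x * g⁻¹ := by
    intro g x hx
    have h1 := hOn.conj_mem _ (mem_qO.1 hx).2 g
    have h2 := jf_cg (ι := ι) (g := g) (x := x) (hOT h1)
    refine ⟨mem_qO.2 ⟨cg_mem g x, ?_⟩, h2⟩
    rw [h2]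
    exact h1
  have hinjq : ∀ {x y : Ω}, x ∈ qO p ι → y ∈ qO p ι → jf ι x = jf ι y → x = y := fun hx hy h =>
    jf_inj hι (hQS hx) (hQS hy) h
  -- the case of a `p`-element
  have hgen : ∀ g : G, (∃ k : ℕ, g ^ p ^ k = 1) →
      ∃ a ∈ E.autGroup (qO p ι), ∀ x : qO p ι, ((a x : qO p ι) : Ω) = cg ι g x := by
    rintro g ⟨k, hk⟩
    have hm : Mp F (qO p ι) (cg ι g) :=
      mp_of_conj hr hQS (fun x _ => cg_mem g x) (fun x hx => (hcq g x hx).2)
    have hI : Iso F (qO p ι) (qO p ι) (cg ι g) := Iso.of_maps hm (fun x hx => (hcq g x hx).1)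
    let a := autOfIso hI
    have hamem : a ∈ F.autGroup (qO p ι) := autOfIso_mem hI
    have hav : ∀ x : qO p ι, ((a x : qO p ι) : Ω) = cg ι g x := autOfIso_apply hI
    have hpow : a ^ p ^ k = 1 := by
      ext x
      have h1 := conj_pow_of (ι.comp (Subgroup.inclusion hQS)) a g (fun x => by
        show ι ⟨((a x : qO p ι) : Ω), _⟩ = g * ι ⟨x, _⟩ * g⁻¹
        have h2 := (hcq g x x.2).2
        rw [← hav x, jf_of ι (hQS (a x).2), jf_of ι (hQS x.2)] at h2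
        exact h2) (p ^ k) x
      rw [hk] at h1
      simp only [one_mul, inv_one, mul_one] at h1
      have h3 := hι h1
      have h4 := congrArg Subtype.val h3
      exact h4
    have hord : ∃ j : ℕ, orderOf (⟨a, hamem⟩ : F.autGroup (qO p ι)) = p ^ j := by
      have h1 : orderOf a ∣ p ^ k := orderOf_dvd_of_pow_eq_one hpow
      obtain ⟨j, -, hj⟩ := (Nat.dvd_prime_pow (Fact.out : p.Prime)).1 h1
      refine ⟨j, ?_⟩
      rw [Subgroup.orderOf_mk, hj]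
    have hcl := hE.2 (qO p ι) hQS ⟨⟨a, hamem⟩, Subgroup.subset_closure hord, rfl⟩
    exact ⟨a, hcl, hav⟩
  refine Subgroup.closure_induction (p := fun g _ => ∃ a ∈ E.autGroup (qO p ι), ∀ x : qO p ι, ((a x : qO p ι) : Ω) = cg ι g x)
    (fun g hg => hgen g hg) ?_ ?_ ?_ hg
  · refine ⟨1, Subgroup.one_mem _, fun x => ?_⟩
    show (x : Ω) = jinv ι (1 * jf ι x * 1⁻¹)
    simp only [one_mul, inv_one, mul_one]
    exact (jinv_jf hι (hQS x.2)).symm
  · rintro g h - - ⟨a, ha, hav⟩ ⟨b, hb, hbv⟩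
    refine ⟨a * b, Subgroup.mul_mem _ ha hb, fun x => ?_⟩
    show ((a (b x) : qO p ι) : Ω) = _
    have hb1 : cg ι h x ∈ qO p ι := (hcq h x x.2).1
    rw [hav, hbv]
    apply hinjq (hcq _ _ hb1).1 (hcq _ _ x.2).1
    rw [(hcq g _ hb1).2, (hcq h x x.2).2, (hcq (g * h) x x.2).2]
    group
  · rintro g - ⟨a, ha, hav⟩
    refine ⟨a⁻¹, Subgroup.inv_mem _ ha, fun x => ?_⟩
    have h1 := hav (a⁻¹ x)
    have e : a (a⁻¹ x) = x := by simp
    rw [e] at h1
    apply hinjq (a⁻¹ x).2 (hcq _ _ x.2).1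
    rw [(hcq _ _ x.2).2, h1, (hcq g _ (a⁻¹ x).2).2]
    group

/-- The maps realized by `O^{p'}(G)` lie in the `p'`-residual. -/
theorem real_le_residual [Finite S] (hS : IsPGroup p S) (hG : F.IsModel p G ι) (hE : F.IsPPrimeResidual p E)
    (hP : P ≤ S) (hf : ∀ x ∈ P, f x ∈ S) {g : G} (hg : g ∈ oP p G) (hfg : ∀ x ∈ P, jf ι (f x) = g * jf ι x * g⁻¹) :
    Mp E P f := by
  have hN : F.IsNormal (qO p ι) := Cfsg.Agent.H24.preimage_isNormal hG
  obtain ⟨a, ha, hav⟩ := le_aut_of_pelt hG hE.2.1 hg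
  obtain ⟨hfG, hr, ⟨T, hT⟩, hcen⟩ := hG
  have hι := hr.1
  have hOn : (pCore p G).Normal := Cfsg.Agent.H01.pCore_normal (G := G) p
  have hOT : pCore p G ≤ ι.range := by
    rw [← hT]
    exact Cfsg.Agent.H01.pCore_le_sylow p T
  have hQS : qO p ι ≤ S := qO_le
  haveI : Finite (qO p ι) := finite_of_le hQS
  have hSN : S ≤ Subgroup.normalizer (qO p ι : Set Ω) := Cfsg.Agent.H24.normalizer_of_isNormal hN
  have hfn : E.IsFullyNormalized (qO p ι) := by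
    refine ⟨hQS, fun R _ => ?_⟩
    have e : normalizerIn S (qO p ι) = S := inf_eq_left.2 hSN
    rw [e]
    exact Nat.card_le_card_of_injective (Subgroup.inclusion inf_le_left) (Subgroup.inclusion_injective _)
  have hfar : Far E p (qO p ι) := far_of_fullyNormalized hS hE.1 hfn
  have hI : Iso E (qO p ι) (qO p ι) (toFun ((qO p ι).subtype.comp a.toMonoidHom)) := Iso.of_mem_autGroup hQS ha
  have hsup : P ⊔ qO p ι ≤ S := sup_le hP hQS
  -- `P ⊔ Q` stays in the image under conjugation by `g`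
  have hW : ∀ x ∈ P ⊔ qO p ι, g * jf ι x * g⁻¹ ∈ ι.range := by
    intro x hx
    let W : Subgroup Ω := (ι.range.comap ((MulAut.conj g).toMonoidHom.comp ι)).map S.subtype
    have hWm : ∀ {y : Ω}, y ∈ S → g * jf ι y * g⁻¹ ∈ ι.range → y ∈ W := by
      intro y hy h
      rw [jf_of ι hy] at h
      exact ⟨⟨y, hy⟩, h, rfl⟩
    have hle : P ⊔ qO p ι ≤ W := by
      refine sup_le (fun y hy => hWm (hP hy) ?_) (fun y hy => hWm (hQS hy) ?_)
      · rw [← hfg y hy]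
        exact jf_mem_range ι (hf y hy)
      · exact hOT (hOn.conj_mem _ (mem_qO.1 hy).2 g)
    obtain ⟨s, hs, rfl⟩ := hle hx
    show g * jf ι (s : Ω) * g⁻¹ ∈ _
    rw [jf_coe]
    exact hs
  -- extension
  have hav' : ∀ y ∈ qO p ι, toFun ((qO p ι).subtype.comp a.toMonoidHom) y = cg ι g y := by
    intro y hy
    rw [toFun_aut a ⟨y, hy⟩]
    exact hav ⟨y, hy⟩
  obtain ⟨h, hh, hhv⟩ := recept_ext hfar.recep hI (le_sup_right : qO p ι ≤ P ⊔ qO p ι) (by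
    intro x hx
    refine Subgroup.subset_closure ⟨hsup hx, hSN (hsup hx), cg ι g x, cg_mem g x, fun y hy => ?_⟩
    have hxS := hsup hx
    have hyQ : x * y * x⁻¹ ∈ qO p ι := conj_mem_of_normalizer (hSN hxS) hy
    rw [hav' _ hyQ, hav' y hy]
    have hyS := hQS hy
    apply jf_inj hι (cg_mem _ _) (S.mul_mem (S.mul_mem (cg_mem _ _) (cg_mem _ _)) (S.inv_mem (cg_mem _ _)))
    rw [jf_cg (hOT (hOn.conj_mem _ (mem_qO.1 hyQ).2 g)), jf_mul ι (S.mul_mem (cg_mem _ _) (cg_mem _ _)) (S.inv_mem (cg_mem _ _)),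
      jf_mul ι (cg_mem _ _) (cg_mem _ _), jf_inv ι (cg_mem _ _), jf_cg (hW x hx), jf_cg (hOT (hOn.conj_mem _ (mem_qO.1 hy).2 g)),
      jf_mul ι (S.mul_mem hxS hyS) (S.inv_mem hxS), jf_mul ι hxS hyS, jf_inv ι hxS]
    group)
  have hhF : Mp F (P ⊔ qO p ι) h := hh.mono hE.2.1.1
  obtain ⟨g₁, hg₁⟩ := exists_conj_of_mp hr hhF
  -- `g₁⁻¹ g` centralizes `O_p`
  have hcent : g₁⁻¹ * g ∈ pCore p G := by
    apply hcen
    rw [Subgroup.mem_centralizer_iff]
    intro o ho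
    have ho' : o ∈ pCore p G := ho
    obtain ⟨s, rfl⟩ := hOT ho'
    have hsQ : (s : Ω) ∈ qO p ι := mem_qO.2 ⟨s.2, by rw [jf_coe]; exact ho'⟩
    have h1 := hg₁ s (Subgroup.mem_sup_right hsQ)
    have h2 := hhv s hsQ
    rw [hav' _ hsQ] at h2
    rw [h2, jf_cg (hOT (hOn.conj_mem _ (mem_qO.1 hsQ).2 g)), jf_coe] at h1
    have h3 : g * ι s * g⁻¹ = g₁ * ι s * g₁⁻¹ := h1
    calc ι s * (g₁⁻¹ * g) = g₁⁻¹ * (g₁ * ι s * g₁⁻¹) * g := by group
      _ = g₁⁻¹ * (g * ι s * g⁻¹) * g := by rw [h3]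
      _ = g₁⁻¹ * g * ι s := by group
  obtain ⟨z, hz⟩ := hOT hcent
  have hzQ : (z : Ω) ∈ qO p ι := mem_qO.2 ⟨z.2, by rw [jf_coe, hz]; exact hcent⟩
  have hgz : g = g₁ * ι z := by
    rw [hz]
    group
  have hzS : (z : Ω) ∈ S := z.2
  have hval : ∀ x ∈ P, (z : Ω) * x * (z : Ω)⁻¹ ∈ P ⊔ qO p ι := fun x hx =>
    Subgroup.mul_mem _ (Subgroup.mul_mem _ (Subgroup.mem_sup_right hzQ) (Subgroup.mem_sup_left hx))
      (Subgroup.inv_mem _ (Subgroup.mem_sup_right hzQ))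
  refine ((Mp.conj (F := E) hP hzS).comp hval hh).congr fun x hx => ?_
  have hxS := hP hx
  apply jf_inj hι (hhF.mem (hval x hx)) (hf x hx)
  rw [hg₁ _ (hval x hx), hfg x hx, jf_mul ι (S.mul_mem hzS hxS) (S.inv_mem hzS), jf_mul ι hzS hxS, jf_inv ι hzS, jf_coe, hgz]
  group

/-- **The `p'`-residual of a system with a model `G` has model `O^{p'}(G)`.** -/
theorem model_residual [Finite S] (hS : IsPGroup p S) (hG : F.IsModel p G ι) (hE : F.IsPPrimeResidual p E) :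
    ∃ ι' : S →* oP p G, E.IsModel p (oP p G) ι' := by
  have hG' := hG
  obtain ⟨hfG, hr, ⟨T, hT⟩, hcen⟩ := hG
  have hι := hr.1
  haveI hK : (oP p G).Normal := oP_normal
  have hle : ι.range ≤ oP p G := by
    rw [← hT]
    exact sylow_le_oP T
  have hk : ∀ t : S, ι ⟨t, (le_refl S) t.2⟩ ∈ oP p G := fun t => hle ⟨_, rfl⟩
  have hT' : ∀ s : S, (s : Ω) ∈ S ↔ ι s ∈ oP p G := fun s => ⟨fun _ => hle ⟨_, rfl⟩, fun _ => s.2⟩
  have hinj := subI_inj (le_refl S) (oP p G) hk hι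
  let R : FusionSystem S := realFus (subI (le_refl S) ι (oP p G) hk) hinj
  have hRr : R.IsRealizedBy (subI (le_refl S) ι (oP p G) hk) := realFus_realized _ hinj
  obtain ⟨T', hT''⟩ := exists_sylow_sub (le_refl S) (oP p G) hk hT' T hT
  haveI : Finite (oP p G) := inferInstance
  have hRs : R.IsSaturated p := Cfsg.Agent.H24.saturated_of_realized hRr T' hT''
  have hRF : R.IsSubsystemOf F := by
    rintro P φ ⟨hP, hφ, g, hg⟩
    exact Cfsg.Agent.H24.IsRealizedBy.hom_mem hr hP hφ (g := (g : G)) (fun y => congrArg Subtype.val (hg y))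
  have hRi : R.HasPrimeToPIndexIn F p := by
    refine ⟨hRF, fun P hP => ?_⟩
    rw [Subgroup.map_le_iff_le_comap, Subgroup.closure_le]
    rintro a ⟨k, hk'⟩
    have hm := Mp.of_mem_autGroup hP a.2
    obtain ⟨g, hg⟩ := exists_conj_of_mp hr hm
    have hpow : ((a : MulAut P)) ^ p ^ k = 1 := by
      have h1 : a ^ p ^ k = 1 := by
        rw [← hk']
        exact pow_orderOf_eq_one a
      exact congrArg Subtype.val h1
    obtain ⟨h, ⟨b, hb⟩, hh⟩ := exists_pelt_conj (ι.comp (Subgroup.inclusion hP)) (a : MulAut P) g (fun x => by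
      have h1 := hg x x.2
      rw [toFun_aut, jf_of ι (hP ((a : MulAut P) x).2), jf_of ι (hP x.2)] at h1
      exact h1) hpow
    have hhK : h ∈ oP p G := mem_oP hb
    show (a : MulAut P) ∈ R.autGroup P
    refine (Cfsg.Agent.H25.mem_autGroup_iff hP).2 ⟨P.subtype.comp (a : MulAut P).toMonoidHom,
      ⟨hP, fun x => hP ((a : MulAut P) x).2, ⟨h, hhK⟩, fun x => Subtype.ext (hh x)⟩, fun x => (toFun_coe _ x).symm⟩
  have h1 : E.IsSubsystemOf R := hE.2.2 R hRs hRi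
  have h2 : ∀ P, R.Hom P ⊆ E.Hom P := by
    rintro P φ ⟨hP, hφ, ⟨g, hgK⟩, hg⟩
    have hm : Mp E P (toFun φ) := by
      refine real_le_residual hS hG' hE hP (fun x hx => ?_) hgK (fun x hx => ?_)
      · rw [toFun_coe φ ⟨x, hx⟩]
        exact hφ ⟨x, hx⟩
      · rw [toFun_coe φ ⟨x, hx⟩, jf_of ι (hφ ⟨x, hx⟩), jf_of ι (hP hx)]
        exact congrArg Subtype.val (hg ⟨x, hx⟩)
    exact mem_hom_iff.2 hm
  have hrE : E.IsRealizedBy (subI (le_refl S) ι (oP p G) hk) := by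
    refine ⟨hinj, fun P hP φ hφ => ?_⟩
    rw [← hRr.2 P hP φ hφ]
    exact ⟨fun h => h1 P h, fun h => h2 P h⟩
  exact ⟨_, model_of_sub hG' (le_refl S) (oP p G) hk hT' hrE⟩

end L1

end Cfsg.Agent.H24.RS
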