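import Mathlib
import Cfsg.Agent.Lib.H24.RSerB

/-!
The `p`-residual of a system with a model; a system with a `p`-solvable model has a terminating
residual series.
-/

set_option autoImplicit false
set_option linter.style.haveILetI false

namespace Cfsg.Agent.H24.RS

open Cfsg Cfsg.FusionSystem Cfsg.Agent.H25

section L2

variable {Ω : Type*} [Group Ω] {S : Subgroup Ω} {F E : FusionSystem S} {G : Type*} [Group G] {ι : S →* G}
  {P : Subgroup Ω} {f : Ω → Ω} {p : ℕ} [Fact p.Prime]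

/-- The isomorphism from the group system on the image of `ι` to a realized system. -/
theorem exists_mor [Finite G] (hr : F.IsRealizedBy ι) (T : Sylow p G) (hT : (T : Subgroup G) = ι.range) :
    ∃ α : (T : Subgroup G) →* Ω, (∀ t, α t ∈ S ∧ jf ι (α t) = t) ∧
      (groupFusionSystem (T : Subgroup G)).IsSurjectiveMorphism F α := by
  have hι := hr.1
  let e : S ≃* ι.range := MonoidHom.ofInjective hι
  -- the inverse of `ι`
  let e' : (T : Subgroup G) ≃* S := (MulEquiv.subgroupCongr hT).trans e.symm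
  have he' : ∀ t : (T : Subgroup G), ι (e' t) = t := by
    intro t
    have h1 : ((e (e.symm (MulEquiv.subgroupCongr hT t)) : ι.range) : G) = (t : G) := by
      rw [MulEquiv.apply_symm_apply]
      rfl
    exact h1
  let α : (T : Subgroup G) →* Ω := S.subtype.comp e'.toMonoidHom
  have hαv : ∀ t, α t ∈ S := fun t => (e' t).2
  refine ⟨α, fun t => ⟨hαv t, ?_⟩, ?_⟩
  · have h1 : jf ι (α t) = ι (e' t) := jf_coe ι (e' t)
    rw [h1, he']
  refine ⟨⟨hαv, ?_⟩, ?_, ?_⟩
  · rintro P φ ⟨hP, hφT, g, hg⟩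
    have hP'S : imageAlong α P ≤ S := by
      rintro _ ⟨t, -, rfl⟩
      exact hαv t
    have hιP : ∀ y : imageAlong α P, ι (Subgroup.inclusion hP'S y) ∈ P := by
      rintro ⟨_, t, ht, rfl⟩
      have : ι (Subgroup.inclusion hP'S ⟨α t, ⟨t, ht, rfl⟩⟩) = t := he' t
      rw [this]
      exact ht
    have hconj : ∀ y : imageAlong α P, g * ι (Subgroup.inclusion hP'S y) * g⁻¹ ∈ ι.range := by
      intro y
      rw [← hT, ← hg ⟨_, hιP y⟩]
      exact hφT _
    obtain ⟨ψ, hψ, hψv⟩ := Cfsg.Agent.H24.exists_conj_lift hι hP'S g hconj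
    refine ⟨ψ, Cfsg.Agent.H24.IsRealizedBy.hom_mem hr hP'S hψ hψv, fun x hx => hP hx, fun x => hφT x, fun x => ?_, fun x => ?_⟩
    · exact ⟨⟨x, hP x.2⟩, x.2, rfl⟩
    · have h1 : ι ⟨ψ ⟨α ⟨x, hP x.2⟩, ⟨⟨x, hP x.2⟩, x.2, rfl⟩⟩, hψ _⟩ = _ := hψv _
      have h2 : ι (Subgroup.inclusion hP'S ⟨α ⟨x, hP x.2⟩, ⟨⟨x, hP x.2⟩, x.2, rfl⟩⟩) = (x : G) := he' ⟨x, hP x.2⟩
      rw [h2, ← hg] at h1
      have h3 : ι ⟨α ⟨φ x, hφT x⟩, hαv _⟩ = φ x := he' ⟨φ x, hφT x⟩
      exact congrArg Subtype.val (hι (h1.trans h3.symm))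
  · ext x
    constructor
    · rintro ⟨t, rfl⟩
      exact hαv t
    · intro hx
      exact ⟨e'.symm ⟨x, hx⟩, by simp [α]⟩
  · intro P' hP' φ' hφ'
    obtain ⟨g, hg⟩ := Cfsg.Agent.H24.IsRealizedBy.exists_conj hr hφ'
    have hP₀ : preimageAlong α P' ≤ (T : Subgroup G) := Subgroup.map_subtype_le _
    have hmem : ∀ x : preimageAlong α P', α ⟨x, hP₀ x.2⟩ ∈ P' := by
      rintro ⟨_, t, ht, rfl⟩
      exact ht
    have hv : ∀ x : preimageAlong α P', g * (x : G) * g⁻¹ = ι ⟨φ' ⟨α ⟨x, hP₀ x.2⟩, hmem x⟩, hom_val hφ' _⟩ := by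
      intro x
      rw [hg]
      congr 2
      exact (he' ⟨x, hP₀ x.2⟩).symm
    have hvT : ∀ x : preimageAlong α P', conjHom (preimageAlong α P') g x ∈ (T : Subgroup G) := by
      intro x
      show g * (x : G) * g⁻¹ ∈ (T : Subgroup G)
      rw [hv]
      exact hT.ge ⟨_, rfl⟩
    refine ⟨conjHom (preimageAlong α P') g, ⟨hP₀, hvT, g, fun x => rfl⟩, hP₀, hvT, hmem, fun x => ?_⟩
    have h1 : ι ⟨α ⟨conjHom (preimageAlong α P') g x, hvT x⟩, hαv _⟩ = g * (x : G) * g⁻¹ := he' ⟨_, hvT x⟩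
    exact congrArg Subtype.val (hι ((hv x).symm.trans h1.symm))

/-- The hyperfocal subgroup of a realized system. -/
theorem hyp_iff [Finite G] (hr : F.IsRealizedBy ι) (T : Sylow p G) (hT : (T : Subgroup G) = ι.range) (s : S) :
    (s : Ω) ∈ F.hyperfocalSubgroup p ↔ ι s ∈ pResidual p G := by
  have hι := hr.1
  obtain ⟨α, hα, hmor⟩ := exists_mor hr T hT
  rw [hyp_eq_map T.isPGroup' hmor, Cfsg.Agent.H24.hyperfocal_group_eq T]
  constructor
  · rintro ⟨t, ht, hts⟩
    have h1 := (hα t).2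
    rw [hts, jf_coe] at h1
    rw [h1]
    exact (Subgroup.mem_subgroupOf.1 ht).2
  · intro h
    have hsT : ι s ∈ (T : Subgroup G) := by
      rw [hT]
      exact ⟨_, rfl⟩
    refine ⟨⟨ι s, hsT⟩, Subgroup.mem_subgroupOf.2 ⟨hsT, h⟩, ?_⟩
    apply jf_inj hι (hα _).1 s.2
    rw [(hα _).2, jf_coe]

/-- **The `p`-residual of a system with a model `G` has model `O^p(G)`.** -/
theorem model_presidual [Finite S] (hS : IsPGroup p S) (hG : F.IsModel p G ι) {D : FusionSystem (F.hyperfocalSubgroup p)}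
    (hD : F.IsPResidual p D) : ∃ ι' : F.hyperfocalSubgroup p →* pResidual p G, D.IsModel p (pResidual p G) ι' := by
  have hG' := hG
  obtain ⟨hfG, hr, ⟨T, hT⟩, hcen⟩ := hG
  have hι := hr.1
  have hTS : F.hyperfocalSubgroup p ≤ S := Cfsg.Agent.H24.hyperfocal_le
  haveI hK : (pResidual p G).Normal := Cfsg.Agent.H24.pResidual_normal'
  have hT' : ∀ s : S, (s : Ω) ∈ F.hyperfocalSubgroup p ↔ ι s ∈ pResidual p G := hyp_iff hr T hT
  have hk : ∀ t : F.hyperfocalSubgroup p, ι ⟨t, hTS t.2⟩ ∈ pResidual p G := fun t => (hT' ⟨t, hTS t.2⟩).1 t.2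
  have hinj := subI_inj hTS (pResidual p G) hk hι
  let R : FusionSystem (F.hyperfocalSubgroup p) := realFus (subI hTS ι (pResidual p G) hk) hinj
  have hRr : R.IsRealizedBy (subI hTS ι (pResidual p G) hk) := realFus_realized _ hinj
  obtain ⟨T', hT''⟩ := exists_sylow_sub hTS (pResidual p G) hk hT' T hT
  haveI : Finite (pResidual p G) := inferInstance
  have hRs : R.IsSaturated p := Cfsg.Agent.H24.saturated_of_realized hRr T' hT''
  have hRF : R.IsSubsystemOf F := by
    rintro P φ ⟨hP, hφ, g, hg⟩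
    exact Cfsg.Agent.H24.IsRealizedBy.hom_mem hr (hP.trans hTS) (fun y => hTS (hφ y)) (g := (g : G))
      (fun y => congrArg Subtype.val (hg y))
  have hRi : R.HasPPowerIndexIn F p := by
    refine ⟨hRF, le_rfl, fun P hP => ?_⟩
    rw [Subgroup.map_le_iff_le_comap]
    refine (Subgroup.closure_le _).2 ?_
    intro a ha
    have h1 : Nat.Coprime (orderOf a) p := ha
    rw [← Subgroup.orderOf_coe] at h1
    have hPS := hP.trans hTS
    have hm := Mp.of_mem_autGroup hPS a.2
    obtain ⟨g, hg⟩ := exists_conj_of_mp hr hm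
    obtain ⟨h, hh, hhv⟩ := exists_copr_conj (ι.comp (Subgroup.inclusion hPS)) (a : MulAut P) g (fun x => by
      have h1 := hg x x.2
      rw [toFun_aut, jf_of ι (hPS ((a : MulAut P) x).2), jf_of ι (hPS x.2)] at h1
      exact h1) h1
    have hhK : h ∈ pResidual p G := Cfsg.Agent.H24.mem_pResidual_of_coprime' hh
    show (a : MulAut P) ∈ R.autGroup P
    refine (Cfsg.Agent.H25.mem_autGroup_iff hP).2 ⟨P.subtype.comp (a : MulAut P).toMonoidHom,
      ⟨hP, fun x => hP ((a : MulAut P) x).2, ⟨h, hhK⟩, fun x => Subtype.ext (hhv x)⟩, fun x => (toFun_coe _ x).symm⟩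
  have hTp : IsPGroup p (F.hyperfocalSubgroup p) := hS.to_le hTS
  haveI : Finite (F.hyperfocalSubgroup p) := finite_of_le hTS
  have heq : R = D := Cfsg.Agent.H24.ppower_unique hTp hD.1 hRs hD.2 hRi
  have hrD : D.IsRealizedBy (subI hTS ι (pResidual p G) hk) := by
    rw [← heq]
    exact hRr
  exact ⟨_, model_of_sub hG' hTS (pResidual p G) hk hT' hrD⟩

end L2

section Card

variable {G : Type*} [Group G] {p : ℕ} [Fact p.Prime]

theorem mem_of_pow_of_coprime [Finite G] (M : Subgroup G) [hM : M.Normal] {x : G} {a : ℕ} (hx : x ^ a = 1)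
    (h : Nat.Coprime a M.index) : x ∈ M := by
  rw [← QuotientGroup.eq_one_iff]
  refine eq_one_of_coprime h ?_ ?_
  · rw [← QuotientGroup.mk_pow, hx]
    rfl
  · rw [← QuotientGroup.mk_pow, QuotientGroup.eq_one_iff]
    exact Subgroup.pow_index_mem M x

theorem card_lt [Finite G] [Nontrivial G] (hs : IsPSolvable p G) : Nat.card (pResidual p (oP p G)) < Nat.card G := by
  by_contra hcon
  push Not at hcon
  have hH₁ : (pResidual p (oP p G)).map (oP p G).subtype = ⊤ := by
    apply Subgroup.eq_top_of_le_card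
    have e : Nat.card ((pResidual p (oP p G)).map (oP p G).subtype) = Nat.card (pResidual p (oP p G)) :=
      Nat.card_congr ((pResidual p (oP p G)).equivMapOfInjective _ (Subgroup.subtype_injective _)).toEquiv.symm
    rw [e]
    exact hcon
  have h1 : oP p G = ⊤ := by
    rw [eq_top_iff, ← hH₁]
    exact Subgroup.map_subtype_le _
  have h2 : pResidual p G = ⊤ := by
    rw [eq_top_iff, ← hH₁]
    rintro _ ⟨y, hy, rfl⟩
    exact Cfsg.Agent.H24.pResidual_map_le (oP p G).subtype ⟨y, hy, rfl⟩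
  obtain ⟨M, hMn, hM1, hM⟩ := exists_top_factor hs
  apply hM1
  rw [eq_top_iff]
  rcases hM with ⟨m, hm⟩ | hc
  · rw [← h2]
    refine (Subgroup.closure_le _).2 ?_
    intro x hx
    have hx' : Nat.Coprime (orderOf x) p := hx
    refine mem_of_pow_of_coprime M (pow_orderOf_eq_one x) ?_
    rw [hm]
    exact hx'.pow_right m
  · rw [← h1]
    refine (Subgroup.closure_le _).2 ?_
    rintro x ⟨k, hk⟩
    refine mem_of_pow_of_coprime M hk ?_
    exact Nat.Coprime.pow_left k hc.symm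

end Card

section Back

universe u v

variable {Ω : Type u} [Group Ω] {p : ℕ} [Fact p.Prime]

/-- **A system with a `p`-solvable model has a terminating residual series.** -/
theorem backward (n : ℕ) : ∀ (S : Subgroup Ω) [Finite S] (_ : IsPGroup p S) (F : FusionSystem S) (G : Type v) [Group G]
    (ι : S →* G), F.IsModel p G ι → IsPSolvable p G → Nat.card G = n → F.HasTerminatingResidualSeries p := by
  induction n using Nat.strong_induction_on with
  | _ n ih =>
    intro S _ hS F G _ ι hG hs hn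
    by_cases hS1 : S = ⊥
    · exact .trivial F p hS1
    have hF : F.IsSaturated p := (Cfsg.Agent.H24.constrained_of_model hS hG).1
    obtain ⟨E, hE⟩ := Cfsg.Agent.H24.PRes.exists_residual hS hF
    obtain ⟨ι₁, hG₁⟩ := model_residual hS hG hE
    have hTS : E.hyperfocalSubgroup p ≤ S := Cfsg.Agent.H24.hyperfocal_le
    obtain ⟨D, hDs, hDi⟩ := Cfsg.Agent.H24.exists_ppower _ S E hS hE.1 _ hTS le_rfl rfl
    haveI : Finite (E.hyperfocalSubgroup p) := finite_of_le hTS
    obtain ⟨ι₂, hG₂⟩ := model_presidual hS hG₁ ⟨hDs, hDi⟩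
    haveI hfG : Finite G := hG.1
    haveI : Nontrivial G := by
      obtain ⟨s, hs1⟩ : ∃ s : S, s ≠ 1 := by
        by_contra hcon
        push Not at hcon
        apply hS1
        rw [eq_bot_iff]
        intro x hx
        have := hcon ⟨x, hx⟩
        exact Subgroup.mem_bot.2 (congrArg Subtype.val this)
      refine ⟨⟨ι s, 1, fun h => hs1 (hG.2.1.1 ?_)⟩⟩
      rw [h, map_one]
    have hs₂ : IsPSolvable p (pResidual p (oP p G)) := psolv_subgroup (psolv_subgroup hs _) _
    have hcard : Nat.card (pResidual p (oP p G)) < n := by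
      rw [← hn]
      exact card_lt hs
    exact .step F E p D hE ⟨hDs, hDi⟩ (ih _ hcard _ (hS.to_le hTS) D _ ι₂ hG₂ hs₂ rfl)

end Back

end Cfsg.Agent.H24.RS
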