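import Mathlib
import Cfsg.Prelude.Def_RootSubgroups
import Cfsg.Agent.Lib.H23.RankOne

/-!
Images of sets of abstract root subgroups.
-/

set_option autoImplicit false

namespace Cfsg.Agent.H24

open Cfsg

variable {G H : Type*} [Group G] [Group H]

lemma map_conjBy_eq (f : G →* H) (A : Subgroup G) (g : G) :
    (conjBy A g).map f = conjBy (A.map f) (f g) := by
  ext x
  constructor
  · rintro ⟨_, ⟨a, ha, rfl⟩, rfl⟩
    refine ⟨f a, ⟨a, ha, rfl⟩, ?_⟩
    simp
  · rintro ⟨_, ⟨a, ha, rfl⟩, rfl⟩
    refine ⟨_, ⟨a, ha, rfl⟩, ?_⟩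
    simp

lemma commutative_map (f : G →* H) {A : Subgroup G} (hA : IsMulCommutative A) : IsMulCommutative (A.map f) := by
  constructor
  constructor
  rintro ⟨_, a, ha, rfl⟩ ⟨_, b, hb, rfl⟩
  apply Subtype.ext
  show f a * f b = f b * f a
  rw [← map_mul, ← map_mul]
  have := congrArg Subtype.val (hA.is_comm.comm (⟨a, ha⟩ : A) ⟨b, hb⟩)
  exact congrArg f this

lemma nilpotent_of_comm {K : Type*} [Group K] (h : IsMulCommutative K) : Group.IsNilpotent K := by
  let _ : CommGroup K := { (inferInstance : Group K) with mul_comm := h.is_comm.comm }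
  exact CommGroup.isNilpotent

/-- Images of rank one conditions. -/
lemma rankOneCondition_map (f : G →* H) {A B : Subgroup G} (hne : A.map f ≠ B.map f)
    (hc : RankOneCondition A B) : RankOneCondition (A.map f) (B.map f) := by
  intro a' ha' ha1
  obtain ⟨a, ha, rfl⟩ := ha'
  have ha1' : a ≠ 1 := by
    rintro rfl
    exact ha1 (map_one f)
  obtain ⟨b, hb, hb1, hab⟩ := hc a ha ha1'
  have e := congrArg (Subgroup.map f) hab
  rw [map_conjBy_eq f A b⁻¹, map_conjBy_eq f B a⁻¹, map_inv, map_inv] at e
  refine ⟨f b, ⟨b, hb, rfl⟩, ?_, e⟩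
  intro hb'
  apply hne
  rw [hb', inv_one] at e
  have e2 : conjBy (A.map f) 1 = A.map f := by
    ext x
    simp [Cfsg.Agent.H23.mem_conjBy]
  rw [e2] at e
  have e3 := congrArg (fun K => conjBy K (f a)) e
  simp only [Cfsg.Agent.H23.conjBy_conjBy_inv] at e3
  have ha' : f a ∈ A.map f := ⟨a, ha, rfl⟩
  rw [Cfsg.Agent.H23.conjBy_eq_of_mem ha'] at e3
  exact e3

/-- Images of rank one pairs are either equal or rank one pairs. -/
lemma rop_map (f : G →* H) {A B : Subgroup G} (hA : IsMulCommutative A) (hB : IsMulCommutative B)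
    (hne : A.map f ≠ B.map f) (h : IsRankOnePair A B) : IsRankOnePair (A.map f) (B.map f) :=
  ⟨hne, nilpotent_of_comm (commutative_map f hA), nilpotent_of_comm (commutative_map f hB),
    rankOneCondition_map f hne h.cond_left, rankOneCondition_map f hne.symm h.cond_right⟩

lemma bot_of_rop (f : G →* H) {A B : Subgroup G} (h : IsRankOnePair A B) (hA : A.map f = ⊥) : B.map f = ⊥ := by
  obtain ⟨a, ha, ha1⟩ := Cfsg.Agent.H23.exists_ne_one_of_ne_bot (Cfsg.Agent.H23.rop_left_ne_bot h)
  obtain ⟨b, hb, hb1, hab⟩ := h.cond_left a ha ha1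
  have e := congrArg (Subgroup.map f) hab
  rw [map_conjBy_eq f A b⁻¹, map_conjBy_eq f B a⁻¹, hA, Cfsg.Agent.H23.conjBy_bot] at e
  exact Cfsg.Agent.H23.conjBy_eq_bot.1 e.symm

/-- S5035. -/
theorem root_image {S : Set (Subgroup G)} (hS : IsRootSubgroupSet S)
    (hc : IsConnectedFamily (FAdj S) S) (f : G →* H) (hf : Function.Surjective f) :
    (IsRootSubgroupSet ((fun A : Subgroup G => A.map f) '' S) ∧
      IsConnectedFamily (FAdj ((fun A : Subgroup G => A.map f) '' S)) ((fun A : Subgroup G => A.map f) '' S)) ∨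
    ∃ A ∈ S, A.map f = ⊤ := by
  by_cases hbot : ∃ A ∈ S, A.map f = ⊥
  · right
    obtain ⟨A, hA, hAb⟩ := hbot
    have hall : ∀ B ∈ S, B.map f = ⊥ := by
      intro B hB
      have hpath := hc A hA B hB
      induction hpath with
      | refl => exact hAb
      | tail _ h2 ih => exact bot_of_rop f h2.2.2 (ih h2.1)
    refine ⟨A, hA, ?_⟩
    rw [hAb, eq_comm, ← Subgroup.map_top_of_surjective f hf, ← hS.generates, eq_bot_iff]
    rw [Subgroup.map_le_iff_le_comap]
    refine iSup₂_le ?_
    intro B hB x hx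
    have : f x ∈ B.map f := ⟨x, hx, rfl⟩
    rw [hall B hB] at this
    exact this
  · left
    push Not at hbot
    have hset : IsRootSubgroupSet ((fun A : Subgroup G => A.map f) '' S) := by
      refine ⟨?_, ?_, ?_, ?_, ?_⟩
      · rintro _ ⟨A, hA, rfl⟩
        exact commutative_map f (hS.commutative A hA)
      · rintro _ ⟨A, hA, rfl⟩
        exact hbot A hA
      · rw [eq_top_iff, ← Subgroup.map_top_of_surjective f hf, ← hS.generates, Subgroup.map_le_iff_le_comap]
        refine iSup₂_le ?_
        intro B hB x hx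
        have h1 : f x ∈ B.map f := ⟨x, hx, rfl⟩
        have h2 : B.map f ≤ ⨆ A ∈ (fun A : Subgroup G => A.map f) '' S, A :=
          le_iSup₂_of_le (B.map f) ⟨B, hB, rfl⟩ le_rfl
        exact h2 h1
      · rintro _ ⟨A, hA, rfl⟩ g
        obtain ⟨g', rfl⟩ := hf g
        exact ⟨conjBy A g', hS.conj_mem A hA g', map_conjBy_eq f A g'⟩
      · rintro _ ⟨A, hA, rfl⟩ _ ⟨B, hB, rfl⟩
        rcases hS.pair A hA B hB with h | h | h
        · left
          show ⁅A.map f, B.map f⁆ = ⊥
          rw [← Subgroup.map_commutator, h, Subgroup.map_bot]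
        · by_cases hne : A.map f = B.map f
          · left
            show ⁅A.map f, B.map f⁆ = ⊥
            rw [← hne, Subgroup.commutator_eq_bot_iff_le_centralizer]
            intro x hx
            rw [Subgroup.mem_centralizer_iff]
            intro y hy
            have := commutative_map f (hS.commutative A hA)
            exact congrArg Subtype.val (this.is_comm.comm (⟨y, hy⟩ : A.map f) ⟨x, hx⟩)
          · right; left
            exact rop_map f (hS.commutative A hA) (hS.commutative B hB) hne h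
        · right; right
          obtain ⟨h1, h2, h3, h4⟩ := h
          show ⁅A.map f, B.map f⁆ ∈ _ ∧ _
          refine ⟨?_, ?_, ?_, ?_⟩
          · rw [← Subgroup.map_commutator]
            exact ⟨_, h1, rfl⟩
          · rw [← Subgroup.map_commutator, ← Subgroup.map_sup]
            rintro _ ⟨c, hc', rfl⟩ _ ⟨x, hx, rfl⟩
            rw [← map_mul, ← map_mul, h2 c hc' x hx]
          · rintro _ ⟨a, ha, rfl⟩ ha1
            have ha1' : a ≠ 1 := by
              rintro rfl
              exact ha1 (map_one f)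
            rw [← Subgroup.map_commutator, ← h3 a ha ha1', MonoidHom.map_closure]
            congr 1
            ext y
            constructor
            · rintro ⟨_, ⟨b, hb, rfl⟩, rfl⟩
              exact ⟨_, ⟨b, hb, rfl⟩, by simp⟩
            · rintro ⟨_, ⟨b, hb, rfl⟩, rfl⟩
              exact ⟨_, ⟨b, hb, rfl⟩, by simp⟩
          · rintro _ ⟨b, hb, rfl⟩ hb1
            have hb1' : b ≠ 1 := by
              rintro rfl
              exact hb1 (map_one f)
            rw [← Subgroup.map_commutator, ← h4 b hb hb1', MonoidHom.map_closure]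
            congr 1
            ext y
            constructor
            · rintro ⟨_, ⟨a, ha, rfl⟩, rfl⟩
              exact ⟨_, ⟨a, ha, rfl⟩, by simp⟩
            · rintro ⟨_, ⟨a, ha, rfl⟩, rfl⟩
              exact ⟨_, ⟨a, ha, rfl⟩, by simp⟩
    refine ⟨hset, ?_⟩
    rintro _ ⟨A, hA, rfl⟩ _ ⟨B, hB, rfl⟩
    have hpath := hc A hA B hB
    induction hpath with
    | refl => exact Relation.ReflTransGen.refl
    | @tail C D _ h2 ih =>
      have h3 := ih h2.1
      by_cases hne : C.map f = D.map f
      · show Relation.ReflTransGen _ _ (D.map f)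
        rw [← hne]
        exact h3
      · refine h3.tail ⟨⟨C, h2.1, rfl⟩, ⟨D, h2.2.1, rfl⟩, ?_⟩
        exact rop_map f (hS.commutative C h2.1) (hS.commutative D h2.2.1) hne h2.2.2

end Cfsg.Agent.H24
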