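import Mathlib
import Cfsg.Prelude.Def_RootSubgroups

/-!
Root involutions: the basic relations.
-/

set_option autoImplicit false

namespace Cfsg.Agent.H24

open Cfsg

variable {G : Type*} [Group G] {D : Set G} {a b e x y f : G}

/-- `a` and `b` are different with product of odd order. -/
def OddRel (a b : G) : Prop := a ≠ b ∧ Odd (orderOf (a * b))

namespace RI

lemma sq (hD : IsRootInvolutionSet D) (ha : a ∈ D) : a * a = 1 := by
  have := pow_orderOf_eq_one a
  rw [hD.orderOf_eq a ha, pow_two] at this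
  exact this

lemma inv (hD : IsRootInvolutionSet D) (ha : a ∈ D) : a⁻¹ = a :=
  inv_eq_of_mul_eq_one_left (sq hD ha)

lemma ne_one (hD : IsRootInvolutionSet D) (ha : a ∈ D) : a ≠ 1 := by
  rintro rfl
  have := hD.orderOf_eq _ ha
  simp at this

lemma conj_mem (hD : IsRootInvolutionSet D) (ha : a ∈ D) (hb : b ∈ D) : b * a * b ∈ D := by
  have := hD.conj_mem a ha b
  rwa [inv hD hb] at this

lemma eq_one_of_odd_of_pow {τ : G} (h : Odd (orderOf τ)) {k : ℕ} (hk : τ ^ (2 ^ k) = 1) : τ = 1 := by
  have h1 : orderOf τ ∣ 2 ^ k := orderOf_dvd_of_pow_eq_one hk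
  have h2 : Nat.Coprime (orderOf τ) (2 ^ k) := Nat.Coprime.pow_right k (Nat.coprime_two_right.2 h)
  exact orderOf_eq_one_iff.1 (Nat.Coprime.eq_one_of_dvd h2 h1)

/-- Orders are conjugation invariant. -/
lemma order_conj (g y : G) : orderOf (g * y * g⁻¹) = orderOf y :=
  orderOf_injective (MulAut.conj g).toMonoidHom (MulAut.conj g).injective y

/-- Order of the product in the other order. -/
lemma order_swap (hD : IsRootInvolutionSet D) (ha : a ∈ D) (hb : b ∈ D) :
    orderOf (b * a) = orderOf (a * b) := by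
  have : b * a = (a * b)⁻¹ := by
    rw [mul_inv_rev, inv hD ha, inv hD hb]
  rw [this, orderOf_inv]

lemma oddRel_symm (hD : IsRootInvolutionSet D) (ha : a ∈ D) (hb : b ∈ D) (h : OddRel a b) : OddRel b a :=
  ⟨h.1.symm, by rw [order_swap hD ha hb]; exact h.2⟩

/-- The square is again an involution commuting with both. -/
lemma sq_comm_left (hD : IsRootInvolutionSet D) (ha : a ∈ D) (hb : b ∈ D) :
    (a * b) ^ 2 * a = a * (b * a) ^ 2 := by
  rw [pow_two, pow_two]
  group

lemma mul_ne_one_of_ne (hD : IsRootInvolutionSet D) (ha : a ∈ D) (hab : a ≠ b) : a * b ≠ 1 := by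
  intro h
  apply hab
  have h1 : a⁻¹ = b := inv_eq_of_mul_eq_one_right h
  rwa [inv hD ha] at h1

lemma not_comm_of_oddRel (hD : IsRootInvolutionSet D) (ha : a ∈ D) (hb : b ∈ D) (h : OddRel a b) :
    a * b ≠ b * a := by
  intro hc
  have h1 : (a * b) ^ (2 ^ 1) = 1 := by
    rw [pow_one, pow_two]
    calc a * b * (a * b) = a * b * (b * a) := by rw [hc]
      _ = a * (b * b) * a := by group
      _ = 1 := by rw [sq hD hb, mul_one, sq hD ha]
  exact mul_ne_one_of_ne hD ha h.1 (eq_one_of_odd_of_pow h.2 h1)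

/-- Trichotomy. -/
lemma tri (hD : IsRootInvolutionSet D) (ha : a ∈ D) (hb : b ∈ D) :
    a * b = b * a ∨ OddRel a b ∨ (orderOf (a * b) = 4 ∧ (a * b) ^ 2 ∈ D) := by
  by_cases hab : a = b
  · left
    rw [hab]
  rcases hD.pair a ha b hb with h | h | h
  · exact Or.inl h
  · exact Or.inr (Or.inl ⟨hab, h⟩)
  · exact Or.inr (Or.inr h)

lemma not_odd_of_four (h : orderOf x = 4) : ¬ Odd (orderOf x) := by
  rw [h]
  decide

lemma not_comm_of_four (hD : IsRootInvolutionSet D) (ha : a ∈ D) (hb : b ∈ D) (h : orderOf (a * b) = 4) :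
    a * b ≠ b * a := by
  intro hc
  have h1 : (a * b) ^ 2 = 1 := by
    rw [pow_two]
    calc a * b * (a * b) = a * b * (b * a) := by rw [hc]
      _ = a * (b * b) * a := by group
      _ = 1 := by rw [sq hD hb, mul_one, sq hD ha]
  have := orderOf_dvd_of_pow_eq_one h1
  rw [h] at this
  omega

/-- A central involution kills the possible orders. -/
lemma central_bad {τ : G} (hτ : Odd (orderOf τ)) (hτ1 : τ ≠ 1) (he : e * e = 1) (he1 : e ≠ 1)
    (hc : τ * e = e * τ) :
    (τ * e) * (τ * e) ≠ 1 ∧ ¬ Odd (orderOf (τ * e)) ∧ orderOf (τ * e) ≠ 4 := by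
  have hcomm : Commute τ e := hc
  have hpow : ∀ n : ℕ, (τ * e) ^ n = τ ^ n * e ^ n := fun n => hcomm.mul_pow n
  have he2 : e ^ 2 = 1 := by rw [pow_two, he]
  refine ⟨?_, ?_, ?_⟩
  · intro h
    have h1 : (τ * e) ^ 2 = 1 := by rw [pow_two, h]
    rw [hpow, he2, mul_one] at h1
    exact hτ1 (eq_one_of_odd_of_pow (k := 1) hτ (by simpa using h1))
  · intro h
    obtain ⟨k, hk⟩ := h
    have h1 := pow_orderOf_eq_one (τ * e)
    rw [hpow, hk, pow_succ e, pow_mul e, he2, one_pow, one_mul] at h1
    have h2 : e = (τ ^ (2 * k + 1))⁻¹ := eq_inv_of_mul_eq_one_right h1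
    obtain ⟨l, hl⟩ := hτ
    have h3 : e ^ (orderOf τ) = 1 := by
      rw [h2, inv_pow, ← pow_mul, mul_comm, pow_mul, pow_orderOf_eq_one, one_pow, inv_one]
    rw [hl, pow_succ e, pow_mul e, he2, one_pow, one_mul] at h3
    exact he1 h3
  · intro h
    have h1 := pow_orderOf_eq_one (τ * e)
    rw [h, hpow] at h1
    have h2 : e ^ 4 = 1 := by
      have : (4 : ℕ) = 2 * 2 := rfl
      rw [this, pow_mul, he2, one_pow]
    rw [h2, mul_one] at h1
    exact hτ1 (eq_one_of_odd_of_pow (k := 2) hτ (by simpa using h1))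

/-- A member on a line with `a` is not centralized by an odd partner of `a`. -/
lemma star (hD : IsRootInvolutionSet D) (ha : a ∈ D) (he : e ∈ D) (hu : a * e ∈ D) (hc : a * e = e * a)
    (hx : x ∈ D) (hO : OddRel a x) : x * e ≠ e * x := by
  intro hxe
  have hτ1 : a * x ≠ 1 := mul_ne_one_of_ne hD ha hO.1
  have hcτ : (a * x) * e = e * (a * x) := by
    calc (a * x) * e = a * (x * e) := by group
      _ = a * (e * x) := by rw [hxe]
      _ = (a * e) * x := by group
      _ = (e * a) * x := by rw [hc]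
      _ = e * (a * x) := by group
  obtain ⟨h1, h2, h3⟩ := central_bad hO.2 hτ1 (sq hD he) (ne_one hD he) hcτ
  have e1 : a * e * x = a * x * e := by
    calc a * e * x = a * (e * x) := by group
      _ = a * (x * e) := by rw [hxe]
      _ = a * x * e := by group
  rcases tri hD hu hx with h | h | h
  · apply h1
    rw [← e1]
    calc a * e * x * (a * e * x) = a * e * x * (x * (a * e)) := by rw [h]
      _ = a * e * (x * x) * (a * e) := by group
      _ = (a * e) * (a * e) := by rw [sq hD hx, mul_one]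
      _ = 1 := sq hD hu
  · have := h.2
    rw [e1] at this
    exact h2 this
  · have := h.1
    rw [e1] at this
    exact h3 this

/-- Basic facts on a product of order four. -/
lemma four_facts (hD : IsRootInvolutionSet D) (he : e ∈ D) (hx : x ∈ D) (h4 : orderOf (e * x) = 4) :
    (e * x) ^ 2 * (e * x) ^ 2 = 1 ∧ (x * e) ^ 2 = (e * x) ^ 2 ∧ e * x * e = x * (e * x) ^ 2 ∧
      (e * x) ^ 2 * x = x * (e * x) ^ 2 ∧ (e * x) ^ 2 * e = e * (e * x) ^ 2 := by
  have h1 : (e * x) ^ 2 * (e * x) ^ 2 = 1 := by
    rw [← pow_add]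
    have := pow_orderOf_eq_one (e * x)
    rwa [h4] at this
  have h2 : (x * e) ^ 2 = (e * x) ^ 2 := by
    have e1 : (x * e) ^ 2 = ((e * x) ^ 2)⁻¹ := by
      rw [pow_two, pow_two, mul_inv_rev, mul_inv_rev, inv hD hx, inv hD he]
    rw [e1]
    exact inv_eq_of_mul_eq_one_left h1
  have h3 : e * x * e = x * (e * x) ^ 2 := by
    rw [← h2, pow_two]
    calc e * x * e = (x * x) * e * x * e := by rw [sq hD hx, one_mul]
      _ = x * (x * e * (x * e)) := by group
  refine ⟨h1, h2, h3, ?_, ?_⟩
  · rw [← h2]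
    conv_lhs => rw [h2]
    rw [pow_two, pow_two]
    calc e * x * (e * x) * x = e * x * e * (x * x) := by group
      _ = e * x * e := by rw [sq hD hx, mul_one]
      _ = (x * x) * e * x * e := by rw [sq hD hx, one_mul]
      _ = x * (x * e * (x * e)) := by group
  · rw [pow_two]
    calc e * x * (e * x) * e = e * (x * e * (x * e)) := by group
      _ = e * (x * e) ^ 2 := by rw [pow_two]
      _ = e * (e * x * (e * x)) := by rw [h2, pow_two]

/-- An involution inverting the square of an odd order element inverts the element. -/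
lemma inv_of_inv_sq {τ c : G} (hτ : Odd (orderOf τ)) (hc : c * c = 1) (h : c * (τ * τ) * c = (τ * τ)⁻¹) :
    c * τ * c = τ⁻¹ := by
  obtain ⟨k, hk⟩ := hτ
  have hci : c⁻¹ = c := inv_eq_of_mul_eq_one_left hc
  have h1 : τ = (τ * τ) ^ (k + 1) := by
    have h2 : (τ * τ) ^ (k + 1) = τ ^ (orderOf τ) * τ := by
      rw [hk, ← pow_two, ← pow_mul]
      rw [← pow_succ]
      rfl
    rw [h2, pow_orderOf_eq_one, one_mul]
  have h2 : ∀ n : ℕ, c * (τ * τ) ^ n * c = ((τ * τ)⁻¹) ^ n := by
    intro n
    induction n with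
    | zero => simp [hc]
    | succ n ih =>
      rw [pow_succ, pow_succ, ← ih, ← h]
      calc c * ((τ * τ) ^ n * (τ * τ)) * c = (c * (τ * τ) ^ n) * (τ * τ) * c := by group
        _ = (c * (τ * τ) ^ n) * (c * c) * (τ * τ) * c := by rw [hc]; group
        _ = _ := by group
  have h3 := h2 (k + 1)
  rw [← h1, inv_pow, ← h1] at h3
  exact h3

/-- Not both of `e` and `a e` have product of order four with an odd partner of `a`. -/
lemma no_two_four (hD : IsRootInvolutionSet D) (ha : a ∈ D) (he : e ∈ D) (hu : a * e ∈ D)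
    (hc : a * e = e * a) (hx : x ∈ D) (hO : OddRel a x) (h4 : orderOf (e * x) = 4)
    (h4' : orderOf (a * e * x) = 4) : False := by
  obtain ⟨hf1, hf2, hf3, hf4, hf5⟩ := four_facts hD he hx h4
  obtain ⟨hg1, hg2, hg3, hg4, hg5⟩ := four_facts hD hu hx h4'
  set u := a * e with hudef
  set f := (e * x) ^ 2 with hfdef
  set f' := (u * x) ^ 2 with hfdef'
  set τ := a * x with hτdef
  have hui : u * u = 1 := sq hD hu
  have hxi : x * x = 1 := sq hD hx
  have hai : a * a = 1 := sq hD ha
  have hei : e * e = 1 := sq hD he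
  have hae : u * e = a := by
    rw [hudef, mul_assoc, hei, mul_one]
  have hae' : e * u = a := by
    rw [hc, ← mul_assoc, hei, one_mul]
  have hua : u * a = a * u := by
    calc u * a = (e * a) * a := by rw [hc]
      _ = e := by rw [mul_assoc, hai, mul_one]
      _ = a * (a * e) := by rw [← mul_assoc, hai, one_mul]
      _ = a * u := by rw [hudef]
  have hxa : a * x * a = x * f' * (u * f * u) := by
    calc a * x * a = (u * e) * x * (e * u) := by rw [hae, hae']
      _ = u * (e * x * e) * u := by group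
      _ = u * (x * f) * u := by rw [hf3]
      _ = (u * x * (u * u)) * f * u := by rw [hui]; group
      _ = (u * x * u) * (u * f * u) := by group
      _ = x * f' * (u * f * u) := by rw [hg3]
  have hτ2 : (τ * τ)⁻¹ = f' * (u * f * u) := by
    have h1 : x * (a * x * a) = f' * (u * f * u) := by
      rw [hxa]
      calc x * (x * f' * (u * f * u)) = (x * x) * f' * (u * f * u) := by group
        _ = _ := by rw [hxi, one_mul]
    rw [← h1, hτdef, mul_inv_rev, mul_inv_rev, inv hD ha, inv hD hx]
    group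
  have hg : (u * f * u) * (u * f * u) = 1 := by
    calc (u * f * u) * (u * f * u) = u * f * (u * u) * f * u := by group
      _ = u * (f * f) * u := by rw [hui]; group
      _ = 1 := by rw [hf1, mul_one, hui]
  have hinv : f' * (τ * τ) * f' = (τ * τ)⁻¹ := by
    have h1 : τ * τ = (f' * (u * f * u))⁻¹ := by rw [← hτ2, inv_inv]
    have h2 : (f' * (u * f * u))⁻¹ = (u * f * u) * f' := by
      rw [mul_inv_rev, inv_eq_of_mul_eq_one_left hg1, inv_eq_of_mul_eq_one_left hg]
    rw [hτ2, h1, h2]
    calc f' * (u * f * u * f') * f' = f' * (u * f * u) * (f' * f') := by group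
      _ = _ := by rw [hg1, mul_one]
  have hinv' : f' * τ * f' = τ⁻¹ := inv_of_inv_sq hO.2 hg1 hinv
  have hconj : u * τ * u = τ * f' := by
    rw [hτdef]
    calc u * (a * x) * u = (u * a) * x * u := by group
      _ = (a * u) * x * u := by rw [hua]
      _ = a * (u * x * u) := by group
      _ = a * (x * f') := by rw [hg3]
      _ = a * x * f' := by group
  have h5 : (τ * f') * (τ * f') = 1 := by
    calc (τ * f') * (τ * f') = τ * (f' * τ * f') := by group
      _ = 1 := by rw [hinv', mul_inv_cancel]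
  have h6 : u * (τ * τ) * u = 1 := by
    have : u * (τ * τ) * u = (u * τ * u) * (u * τ * u) := by
      calc u * (τ * τ) * u = u * τ * (u * u) * τ * u := by rw [hui]; group
        _ = _ := by group
    rw [this, hconj, h5]
  have h7 : τ * τ = 1 := by
    calc τ * τ = (u * u) * (τ * τ) * (u * u) := by rw [hui]; group
      _ = u * (u * (τ * τ) * u) * u := by group
      _ = 1 := by rw [h6, mul_one, hui]
  exact mul_ne_one_of_ne hD ha hO.1 (eq_one_of_odd_of_pow (k := 1) hO.2 (by
    rw [pow_one, pow_two]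
    exact h7))

/-- An odd partner of `a` is an odd partner of one of the other two members of a line through `a`. -/
lemma line_odd (hD : IsRootInvolutionSet D) (ha : a ∈ D) (he : e ∈ D) (hu : a * e ∈ D)
    (hc : a * e = e * a) (hx : x ∈ D) (hO : OddRel a x) : OddRel e x ∨ OddRel (a * e) x := by
  rcases tri hD he hx with h | h | h
  · exact absurd h.symm (star hD ha he hu hc hx hO)
  · exact Or.inl h
  · rcases tri hD hu hx with h' | h' | h'
    · have e1 : a * (a * e) = e := by
        rw [← mul_assoc, sq hD ha, one_mul]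
      have hc' : a * (a * e) = (a * e) * a := by
        rw [e1]
        calc e = e * (a * a) := by rw [sq hD ha, mul_one]
          _ = (e * a) * a := by group
          _ = _ := by rw [hc]
      exact absurd h'.symm (star hD ha hu (by rw [e1]; exact he) hc' hx hO)
    · exact Or.inr h'
    · exact (no_two_four hD ha he hu hc hx hO h.1 h'.1).elim

end RI

end Cfsg.Agent.H24
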