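import Mathlib
import Cfsg.Agent.Lib.H24.RootInv
import Cfsg.Agent.Lib.H15.BaerSuzuki

/-!
Root involutions: the isolated members and the components (S5045).
-/

set_option autoImplicit false

namespace Cfsg.Agent.H24

open Cfsg

variable {G : Type*} [Group G] {D : Set G} {a b e x y f : G}

namespace RI

/-- The dihedral form of a group generated by two involutions. -/
lemma dihedral_form {a b : G} (ha : a * a = 1) (hb : b * b = 1) {g : G}
    (hg : g ∈ Subgroup.closure ({a, b} : Set G)) :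
    (∃ n : ℤ, g = (a * b) ^ n) ∨ (∃ n : ℤ, g = (a * b) ^ n * a) := by
  have hai : a⁻¹ = a := inv_eq_of_mul_eq_one_left ha
  have hbi : b⁻¹ = b := inv_eq_of_mul_eq_one_left hb
  have hconj : ∀ n : ℤ, a * (a * b) ^ n * a = (a * b) ^ (-n) := by
    intro n
    have h1 : (MulAut.conj a) (a * b) = (a * b)⁻¹ := by
      rw [MulAut.conj_apply, hai, mul_inv_rev, hai, hbi]
      calc a * (a * b) * a = (a * a) * b * a := by group
        _ = b * a := by rw [ha, one_mul]
    have h2 := map_zpow (MulAut.conj a) (a * b) n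
    rw [h1, MulAut.conj_apply, hai, inv_zpow'] at h2
    exact h2
  have hconj' : ∀ n : ℤ, a * (a * b) ^ n = (a * b) ^ (-n) * a := by
    intro n
    rw [← hconj n, mul_assoc, ha, mul_one]
  induction hg using Subgroup.closure_induction with
  | mem x hx =>
    rcases hx with rfl | hx
    · right
      exact ⟨0, by simp⟩
    · rw [Set.mem_singleton_iff] at hx
      subst hx
      right
      refine ⟨-1, ?_⟩
      rw [zpow_neg_one, mul_inv_rev, hai, hbi, mul_assoc, ha, mul_one]
  | one => exact Or.inl ⟨0, by simp⟩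
  | mul x y _ _ hx hy =>
    rcases hx with ⟨m, rfl⟩ | ⟨m, rfl⟩ <;> rcases hy with ⟨n, rfl⟩ | ⟨n, rfl⟩
    · exact Or.inl ⟨m + n, by rw [zpow_add]⟩
    · exact Or.inr ⟨m + n, by rw [zpow_add, mul_assoc]⟩
    · refine Or.inr ⟨m + -n, ?_⟩
      rw [zpow_add, mul_assoc, hconj', mul_assoc]
    · refine Or.inl ⟨m + -n, ?_⟩
      rw [zpow_add]
      calc (a * b) ^ m * a * ((a * b) ^ n * a) = (a * b) ^ m * (a * (a * b) ^ n * a) := by group
        _ = _ := by rw [hconj]
  | inv x _ hx =>
    rcases hx with ⟨m, rfl⟩ | ⟨m, rfl⟩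
    · exact Or.inl ⟨-m, by rw [zpow_neg]⟩
    · refine Or.inr ⟨m, ?_⟩
      rw [mul_inv_rev, hai, ← zpow_neg, hconj']
      simp

/-- Two involutions with product of order dividing four generate a `2`-group. -/
lemma isPGroup_pair {a b : G} (ha : a * a = 1) (hb : b * b = 1) (h : (a * b) ^ 4 = 1) :
    IsPGroup 2 ↥(Subgroup.closure ({a, b} : Set G)) := by
  have hconj : ∀ n : ℤ, a * (a * b) ^ n * a = (a * b) ^ (-n) := by
    intro n
    have hai : a⁻¹ = a := inv_eq_of_mul_eq_one_left ha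
    have hbi : b⁻¹ = b := inv_eq_of_mul_eq_one_left hb
    have h1 : (MulAut.conj a) (a * b) = (a * b)⁻¹ := by
      rw [MulAut.conj_apply, hai, mul_inv_rev, hai, hbi]
      calc a * (a * b) * a = (a * a) * b * a := by group
        _ = b * a := by rw [ha, one_mul]
    have h2 := map_zpow (MulAut.conj a) (a * b) n
    rw [h1, MulAut.conj_apply, hai, inv_zpow'] at h2
    exact h2
  rintro ⟨g, hg⟩
  refine ⟨2, ?_⟩
  apply Subtype.ext
  show g ^ 2 ^ 2 = 1
  rcases dihedral_form ha hb hg with ⟨n, rfl⟩ | ⟨n, rfl⟩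
  · rw [← zpow_natCast, ← zpow_mul, mul_comm, zpow_mul]
    have : (a * b) ^ ((2 ^ 2 : ℕ) : ℤ) = 1 := by
      rw [zpow_natCast]
      exact h
    rw [this, one_zpow]
  · have h2 : ((a * b) ^ n * a) ^ 2 = 1 := by
      rw [pow_two]
      calc (a * b) ^ n * a * ((a * b) ^ n * a) = (a * b) ^ n * (a * (a * b) ^ n * a) := by group
        _ = 1 := by rw [hconj]; group
    have : (2 : ℕ) ^ 2 = 2 * 2 := rfl
    rw [this, pow_mul, h2, one_pow]

/-- The involutions of a root involution set have product of order dividing four if not odd. -/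
lemma pow_four_of_not_odd (hD : IsRootInvolutionSet D) (ha : a ∈ D) (hb : b ∈ D) (h : ¬ OddRel a b) :
    (a * b) ^ 4 = 1 := by
  rcases tri hD ha hb with h' | h' | h'
  · have h1 : (a * b) ^ 2 = 1 := by
      rw [pow_two]
      calc a * b * (a * b) = a * b * (b * a) := by rw [h']
        _ = a * (b * b) * a := by group
        _ = 1 := by rw [sq hD hb, mul_one, sq hD ha]
    have : (4 : ℕ) = 2 * 2 := rfl
    rw [this, pow_mul, h1, one_pow]
  · exact absurd h' h
  · have := pow_orderOf_eq_one (a * b)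
    rwa [h'.1] at this

/-- The isolated members. -/
def isoSet (D : Set G) : Set G := {w | IsIsolatedElem (OddAdj D) D w}

lemma mem_isoSet (hD : IsRootInvolutionSet D) {w : G} :
    w ∈ isoSet D ↔ w ∈ D ∧ ∀ b ∈ D, ¬ OddRel w b := by
  constructor
  · rintro ⟨h1, h2⟩
    refine ⟨h1, fun b hb h => ?_⟩
    exact (h2 b).1 ⟨h1, hb, h.1, h.2⟩
  · rintro ⟨h1, h2⟩
    refine ⟨h1, fun b => ⟨?_, ?_⟩⟩
    · rintro ⟨-, hb, h3, h4⟩
      exact h2 b hb ⟨h3, h4⟩
    · rintro ⟨hb, -, h3, h4⟩
      exact h2 b hb (oddRel_symm hD hb h1 ⟨h3, h4⟩)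

lemma oddRel_conj (g : G) (h : OddRel a b) : OddRel (g * a * g⁻¹) (g * b * g⁻¹) := by
  refine ⟨fun h' => h.1 ?_, ?_⟩
  · have h1 : g * a = g * b := by
      have := congrArg (· * g) h'
      simpa using this
    exact mul_left_cancel h1
  · have : g * a * g⁻¹ * (g * b * g⁻¹) = g * (a * b) * g⁻¹ := by group
    rw [this, order_conj]
    exact h.2

lemma isoSet_conj (hD : IsRootInvolutionSet D) {w : G} (hw : w ∈ isoSet D) (g : G) :
    g * w * g⁻¹ ∈ isoSet D := by
  rw [mem_isoSet hD] at hw ⊢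
  refine ⟨hD.conj_mem _ hw.1 g, fun b hb h => ?_⟩
  have h1 := oddRel_conj g⁻¹ h
  have e1 : g⁻¹ * (g * w * g⁻¹) * g⁻¹⁻¹ = w := by group
  rw [e1] at h1
  have h2 : g⁻¹ * b * g⁻¹⁻¹ ∈ D := hD.conj_mem b hb g⁻¹
  exact hw.2 _ h2 h1

lemma isoSet_closure_normal (hD : IsRootInvolutionSet D) : (Subgroup.closure (isoSet D)).Normal := by
  constructor
  intro n hn g
  induction hn using Subgroup.closure_induction with
  | mem x hx => exact Subgroup.subset_closure (isoSet_conj hD hx g)
  | one => simp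
  | mul x y _ _ hx hy =>
    have : g * (x * y) * g⁻¹ = (g * x * g⁻¹) * (g * y * g⁻¹) := by group
    rw [this]
    exact Subgroup.mul_mem _ hx hy
  | inv x _ hx =>
    have : g * x⁻¹ * g⁻¹ = (g * x * g⁻¹)⁻¹ := by group
    rw [this]
    exact Subgroup.inv_mem _ hx

lemma isoSet_closure_pGroup [Finite G] (hD : IsRootInvolutionSet D) :
    IsPGroup 2 ↥(Subgroup.closure (isoSet D)) := by
  classical
  let Sg : Set (Subgroup G) := (fun w => Subgroup.zpowers w) '' isoSet D
  have hpair : ∀ w ∈ isoSet D, ∀ w' ∈ isoSet D, IsPGroup 2 ↥(Subgroup.zpowers w ⊔ Subgroup.zpowers w') := by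
    intro w hw w' hw'
    have hw1 := (mem_isoSet hD).1 hw
    have hw2 := (mem_isoSet hD).1 hw'
    have h1 := isPGroup_pair (sq hD hw1.1) (sq hD hw2.1) (pow_four_of_not_odd hD hw1.1 hw2.1 (hw1.2 _ hw2.1))
    refine h1.to_le (sup_le ?_ ?_)
    · exact (Subgroup.zpowers_le).2 (Subgroup.subset_closure (Set.mem_insert _ _))
    · exact (Subgroup.zpowers_le).2 (Subgroup.subset_closure (Set.mem_insert_of_mem _ rfl))
  have hF : H15.PFam 2 Sg := by
    constructor
    · rintro _ ⟨w, hw, rfl⟩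
      exact (hpair w hw w hw).to_le le_sup_left
    · rintro _ ⟨w, hw, rfl⟩ g
      refine ⟨g * w * g⁻¹, isoSet_conj hD hw g, ?_⟩
      show Subgroup.zpowers (g * w * g⁻¹) = _
      rw [MonoidHom.map_zpowers]
      rfl
    · rintro _ ⟨w, hw, rfl⟩ _ ⟨w', hw', rfl⟩
      exact hpair w hw w' hw'
  have h := H15.isPGroup_sSup_of_pFam (Nat.card G) G Sg rfl hF
  have hle : Subgroup.closure (isoSet D) ≤ sSup Sg := by
    rw [Subgroup.closure_le]
    intro w hw
    have : Subgroup.zpowers w ≤ sSup Sg := le_sSup ⟨w, hw, rfl⟩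
    exact this (Subgroup.mem_zpowers w)
  exact h.to_le hle

/-- The closure of the isolated members meets `D` exactly in the isolated members. -/
lemma isoSet_closure_inter [Finite G] (hD : IsRootInvolutionSet D) :
    (Subgroup.closure (isoSet D) : Set G) ∩ D = isoSet D := by
  ext d
  constructor
  · rintro ⟨h1, h2⟩
    rw [mem_isoSet hD]
    refine ⟨h2, fun b hb h => ?_⟩
    have hn := isoSet_closure_normal hD
    have hp := isoSet_closure_pGroup hD
    have h3 : b * d * b⁻¹ ∈ Subgroup.closure (isoSet D) := hn.conj_mem d h1 b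
    rw [inv hD hb] at h3
    have h4 : (d * b) * (d * b) ∈ Subgroup.closure (isoSet D) := by
      have : (d * b) * (d * b) = d * (b * d * b) := by group
      rw [this]
      exact Subgroup.mul_mem _ h1 h3
    obtain ⟨k, hk⟩ := hp ⟨_, h4⟩
    have hk' : ((d * b) * (d * b)) ^ 2 ^ k = 1 := by
      have := congrArg Subtype.val hk
      simpa using this
    have h5 : (d * b) ^ (2 ^ (k + 1)) = 1 := by
      rw [pow_succ, mul_comm, pow_mul, pow_two]
      exact hk'
    exact mul_ne_one_of_ne hD h2 h.1 (eq_one_of_odd_of_pow h.2 h5)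
  · intro h
    exact ⟨Subgroup.subset_closure h, ((mem_isoSet hD).1 h).1⟩

lemma oddAdj_iff (hD : IsRootInvolutionSet D) (ha : a ∈ D) (hb : b ∈ D) : OddAdj D a b ↔ OddRel a b :=
  ⟨fun h => ⟨h.2.2.1, h.2.2.2⟩, fun h => ⟨ha, hb, h.1, h.2⟩⟩

lemma oddAdj_symm (hD : IsRootInvolutionSet D) (h : OddAdj D a b) : OddAdj D b a :=
  ⟨h.2.1, h.1, h.2.2.1.symm, by rw [order_swap hD h.1 h.2.1]; exact h.2.2.2⟩

lemma path_symm (hD : IsRootInvolutionSet D)
    (h : Relation.ReflTransGen (OddAdj D) a b) : Relation.ReflTransGen (OddAdj D) b a := by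
  induction h with
  | refl => exact Relation.ReflTransGen.refl
  | tail _ h2 ih => exact Relation.ReflTransGen.head (oddAdj_symm hD h2) ih

lemma comp_eq_of_path (hD : IsRootInvolutionSet D)
    (h : Relation.ReflTransGen (OddAdj D) a b) :
    elemComponentOf (OddAdj D) D a = elemComponentOf (OddAdj D) D b := by
  ext c
  constructor
  · rintro ⟨h1, h2⟩
    exact ⟨h1, (path_symm hD h).trans h2⟩
  · rintro ⟨h1, h2⟩
    exact ⟨h1, h.trans h2⟩

/-- A non-trivial component has an odd partner. -/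
lemma exists_odd_of_comp (hD : IsRootInvolutionSet D) (ha : a ∈ D)
    (h : ∃ a' ∈ elemComponentOf (OddAdj D) D a, a' ≠ a) : ∃ x ∈ D, OddRel a x := by
  obtain ⟨a', ⟨-, hp⟩, hne⟩ := h
  rcases Relation.ReflTransGen.cases_head hp with h1 | ⟨c, hc, -⟩
  · exact absurd h1.symm hne
  · exact ⟨c, hc.2.1, hc.2.2.1, hc.2.2.2⟩

lemma path_of_odd (ha : a ∈ D) (hb : b ∈ D) (h : OddRel a b) : Relation.ReflTransGen (OddAdj D) a b :=
  Relation.ReflTransGen.single ⟨ha, hb, h.1, h.2⟩

/-- Product partners of a member of a non-trivial component. -/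
lemma productPartners_subset (hD : IsRootInvolutionSet D) (ha : a ∈ D)
    (h : ∃ a' ∈ elemComponentOf (OddAdj D) D a, a' ≠ a) :
    productPartners D a ⊆ elemComponentOf (OddAdj D) D a ∪ isoSet D := by
  classical
  rintro e ⟨⟨he, hc, hne⟩, hu⟩
  obtain ⟨x, hx, hOx⟩ := exists_odd_of_comp hD ha h
  by_cases hW : e ∈ isoSet D
  · exact Or.inr hW
  left
  refine ⟨he, ?_⟩
  have hu' : a * e ∈ D := by rw [← hc]; exact hu
  have hxa := path_of_odd ha hx hOx
  rcases line_odd hD ha he hu' hc.symm hx hOx with h1 | h1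
  · exact hxa.trans (path_symm hD (path_of_odd he hx h1))
  · have hua : Relation.ReflTransGen (OddAdj D) a (a * e) :=
      hxa.trans (path_symm hD (path_of_odd hu' hx h1))
    rw [mem_isoSet hD] at hW
    push Not at hW
    obtain ⟨z, hz, hOz⟩ := hW he
    rcases line_odd hD he ha hu hc hz hOz with h2 | h2
    · exact (path_of_odd ha hz h2).trans (path_symm hD (path_of_odd he hz hOz))
    · have h3 : Relation.ReflTransGen (OddAdj D) (e * a) e :=
        (path_of_odd hu hz h2).trans (path_symm hD (path_of_odd he hz hOz))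
      rw [hc] at h3
      exact hua.trans h3

/-- The square of a product of order four lies on a line with both. -/
lemma sq_partner (hD : IsRootInvolutionSet D) (ha : a ∈ D) (hb : b ∈ D) (h4 : orderOf (a * b) = 4)
    (hs : (a * b) ^ 2 ∈ D) : (a * b) ^ 2 ∈ productPartners D a ∧ (a * b) ^ 2 ∈ productPartners D b := by
  obtain ⟨h1, h2, h3, h5, h6⟩ := four_facts hD ha hb h4
  have hba : b * a * b = a * (a * b) ^ 2 := by
    rw [pow_two]
    calc b * a * b = (a * a) * (b * a * b) := by rw [sq hD ha, one_mul]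
      _ = a * (a * b * (a * b)) := by group
  have hab : a * (a * b) ^ 2 ∈ D := by
    rw [← hba]
    exact conj_mem hD ha hb
  have hbc : b * (a * b) ^ 2 ∈ D := by
    rw [← h3]
    exact conj_mem hD hb ha
  refine ⟨⟨⟨hs, h6, ?_⟩, by rw [h6]; exact hab⟩, ⟨⟨hs, h5, ?_⟩, by rw [h5]; exact hbc⟩⟩
  · intro h
    rw [h, sq hD ha] at hba
    have e1 : a = 1 := by
      have h7 : b * a * b * b = b := by rw [hba, one_mul]
      rw [mul_assoc, sq hD hb, mul_one] at h7
      exact mul_left_cancel (a := b) (by rw [h7, mul_one])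
    exact ne_one hD ha e1
  · intro h
    rw [h, sq hD hb] at h3
    have e1 : b = 1 := by
      have h7 : a * b * a * a = a := by rw [h3, one_mul]
      rw [mul_assoc, sq hD ha, mul_one] at h7
      exact mul_left_cancel (a := a) (by rw [h7, mul_one])
    exact ne_one hD hb e1

/-- The commutator of members of different non-trivial components. -/
lemma comm_mem_of_comp (hD : IsRootInvolutionSet D) (ha : a ∈ D) (hb : b ∈ D)
    (hA : ∃ a' ∈ elemComponentOf (OddAdj D) D a, a' ≠ a)
    (hB : ∃ b' ∈ elemComponentOf (OddAdj D) D b, b' ≠ b)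
    (hne : elemComponentOf (OddAdj D) D a ≠ elemComponentOf (OddAdj D) D b) :
    a * b * a⁻¹ * b⁻¹ ∈ Subgroup.closure (isoSet D) := by
  have e1 : a * b * a⁻¹ * b⁻¹ = (a * b) ^ 2 := by
    rw [inv hD ha, inv hD hb, pow_two]
    group
  rw [e1]
  rcases tri hD ha hb with h | h | h
  · have h1 : (a * b) ^ 2 = 1 := by
      rw [pow_two]
      calc a * b * (a * b) = a * b * (b * a) := by rw [h]
        _ = a * (b * b) * a := by group
        _ = 1 := by rw [sq hD hb, mul_one, sq hD ha]
    rw [h1]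
    exact Subgroup.one_mem _
  · exact absurd (comp_eq_of_path hD (path_of_odd ha hb h)) hne
  · obtain ⟨h1, h2⟩ := sq_partner hD ha hb h.1 h.2
    rcases productPartners_subset hD ha hA h1 with h3 | h3
    · rcases productPartners_subset hD hb hB h2 with h4 | h4
      · exfalso
        apply hne
        rw [comp_eq_of_path hD h3.2, comp_eq_of_path hD h4.2]
      · exact Subgroup.subset_closure h4
    · exact Subgroup.subset_closure h3

/-- The statement on isolated members and components. -/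
theorem isolated_components [Finite G] (hD : IsRootInvolutionSet D) :
    (∀ w ∈ {w | IsIsolatedElem (OddAdj D) D w}, ∀ g : G, g * w * g⁻¹ ∈ {w | IsIsolatedElem (OddAdj D) D w}) ∧
    (Subgroup.closure {w | IsIsolatedElem (OddAdj D) D w}).Normal ∧
    IsPGroup 2 ↥(Subgroup.closure {w | IsIsolatedElem (OddAdj D) D w}) ∧
    (Subgroup.closure {w | IsIsolatedElem (OddAdj D) D w} : Set G) ∩ D = {w | IsIsolatedElem (OddAdj D) D w} ∧
    (∀ a ∈ D, ∀ b ∈ D, (∃ a' ∈ elemComponentOf (OddAdj D) D a, a' ≠ a) →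
      (∃ b' ∈ elemComponentOf (OddAdj D) D b, b' ≠ b) →
      elemComponentOf (OddAdj D) D a ≠ elemComponentOf (OddAdj D) D b →
        a * b * a⁻¹ * b⁻¹ ∈ Subgroup.closure {w | IsIsolatedElem (OddAdj D) D w}) ∧
    (∀ a ∈ D, (∃ a' ∈ elemComponentOf (OddAdj D) D a, a' ≠ a) →
      productPartners D a ⊆ elemComponentOf (OddAdj D) D a ∪ {w | IsIsolatedElem (OddAdj D) D w}) :=
  ⟨fun _ hw g => isoSet_conj hD hw g, isoSet_closure_normal hD, isoSet_closure_pGroup hD,
    isoSet_closure_inter hD, fun _ ha _ hb hA hB hne => comm_mem_of_comp hD ha hb hA hB hne,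
    fun _ ha hA => productPartners_subset hD ha hA⟩

end RI

end Cfsg.Agent.H24
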