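import Mathlib
import Cfsg.Agent.Lib.H24.RootInv2
import Cfsg.Agent.Lib.H12.Subnormal
import Cfsg.Agent.Lib.H01.Fitting
import Cfsg.Prelude.Def_QuasithinSetup

/-!
Root involutions: connected sets and their radical (S5048).
-/

set_option autoImplicit false

namespace Cfsg.Agent.H24

open Cfsg

variable {G : Type*} [Group G] {D : Set G} {a b e x y f : G}

namespace RI

/-- Odd partners are conjugate, by a power of the product. -/
lemma conj_of_oddRel (hD : IsRootInvolutionSet D) (ha : a ∈ D) (hb : b ∈ D) (h : OddRel a b) :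
    ∃ g : G, b = g * a * g⁻¹ := by
  obtain ⟨k, hk⟩ := h.2
  refine ⟨(a * b) ^ k, ?_⟩
  have hai := inv hD ha
  have hbi := inv hD hb
  have hconj : ∀ n : ℤ, a * (a * b) ^ n * a = (a * b) ^ (-n) := by
    intro n
    have h1 : (MulAut.conj a) (a * b) = (a * b)⁻¹ := by
      rw [MulAut.conj_apply, hai, mul_inv_rev, hai, hbi]
      calc a * (a * b) * a = (a * a) * b * a := by group
        _ = b * a := by rw [sq hD ha, one_mul]
    have h2 := map_zpow (MulAut.conj a) (a * b) n
    rw [h1, MulAut.conj_apply, hai, inv_zpow'] at h2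
    exact h2
  have h1 : a * ((a * b) ^ k)⁻¹ = (a * b) ^ k * a := by
    have := hconj (-(k : ℤ))
    rw [neg_neg, zpow_natCast, zpow_neg, zpow_natCast] at this
    calc a * ((a * b) ^ k)⁻¹ = a * ((a * b) ^ k)⁻¹ * (a * a) := by rw [sq hD ha, mul_one]
      _ = (a * ((a * b) ^ k)⁻¹ * a) * a := by group
      _ = _ := by rw [this]
  have h2 : (a * b) ^ k * (a * b) ^ k * (a * b) = 1 := by
    rw [← pow_add, ← pow_succ]
    have := pow_orderOf_eq_one (a * b)
    rw [hk] at this
    rw [← this]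
    congr 1
    ring
  calc b = ((a * b) ^ k * (a * b) ^ k * (a * b)) * b := by rw [h2, one_mul]
    _ = (a * b) ^ k * (a * b) ^ k * a * (b * b) := by group
    _ = (a * b) ^ k * ((a * b) ^ k * a) := by rw [sq hD hb, mul_one, mul_assoc]
    _ = (a * b) ^ k * (a * ((a * b) ^ k)⁻¹) := by rw [h1]
    _ = _ := by group

/-- Members joined by a path are conjugate. -/
lemma conj_of_path (hD : IsRootInvolutionSet D) (h : Relation.ReflTransGen (OddAdj D) a b) :
    ∃ g : G, b = g * a * g⁻¹ := by
  induction h with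
  | refl => exact ⟨1, by simp⟩
  | tail _ h2 ih =>
    obtain ⟨g, rfl⟩ := ih
    obtain ⟨g', hg'⟩ := conj_of_oddRel hD h2.1 h2.2.1 ⟨h2.2.2.1, h2.2.2.2⟩
    refine ⟨g' * g, ?_⟩
    rw [hg']
    group

/-- A line through every member. -/
lemma line_through (hD : IsRootInvolutionSet D) (hc : IsConnectedSet (OddAdj D) D)
    (hDD : (D ∩ commutingProducts D).Nonempty) (ha : a ∈ D) :
    ∃ e ∈ D, a * e ∈ D ∧ a * e = e * a := by
  obtain ⟨c, hcD, a₀, ha₀, b₀, hb₀, hcomm, -, rfl⟩ := hDD
  obtain ⟨g, rfl⟩ := conj_of_path hD (hc _ hcD _ ha)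
  refine ⟨g * a₀ * g⁻¹, hD.conj_mem _ ha₀ g, ?_, ?_⟩
  · have e1 : g * (a₀ * b₀) * g⁻¹ * (g * a₀ * g⁻¹) = g * b₀ * g⁻¹ := by
      calc g * (a₀ * b₀) * g⁻¹ * (g * a₀ * g⁻¹) = g * (b₀ * a₀) * g⁻¹ * (g * a₀ * g⁻¹) := by rw [hcomm]
        _ = g * b₀ * (a₀ * a₀) * g⁻¹ := by group
        _ = _ := by rw [sq hD ha₀, mul_one]
    rw [e1]
    exact hD.conj_mem _ hb₀ g
  · have e1 : a₀ * (a₀ * b₀) = (a₀ * b₀) * a₀ := by
      calc a₀ * (a₀ * b₀) = a₀ * (b₀ * a₀) := by rw [hcomm]
        _ = (a₀ * b₀) * a₀ := by group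
    calc g * (a₀ * b₀) * g⁻¹ * (g * a₀ * g⁻¹) = g * ((a₀ * b₀) * a₀) * g⁻¹ := by group
      _ = g * (a₀ * (a₀ * b₀)) * g⁻¹ := by rw [e1]
      _ = _ := by group

/-- A member congruent to an element of odd order modulo a normal subgroup lies in it. -/
lemma mem_of_congr_odd {N : Subgroup G} [N.Normal] (hD : IsRootInvolutionSet D) {u z : G} (hu : u ∈ D)
    (hz : z * u⁻¹ ∈ N) (h : Odd (orderOf z)) : u ∈ N := by
  have h1 : (QuotientGroup.mk' N) z = (QuotientGroup.mk' N) u := by
    have : (QuotientGroup.mk' N) (z * u⁻¹) = 1 := (QuotientGroup.eq_one_iff _).2 hz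
    rw [map_mul, map_inv] at this
    exact mul_inv_eq_one.1 this
  obtain ⟨k, hk⟩ := h
  have h2 := pow_orderOf_eq_one z
  have h3 := congrArg (QuotientGroup.mk' N) h2
  rw [map_pow, h1, map_one, hk, pow_succ, pow_mul, ← map_pow, pow_two, sq hD hu, map_one, one_pow,
    one_mul] at h3
  exact (QuotientGroup.eq_one_iff _).1 h3

/-- Members conjugate under a normal subgroup avoiding `D` commute. -/
lemma comm_of_normal_avoid {N : Subgroup G} [hN : N.Normal] (hD : IsRootInvolutionSet D)
    (hc : IsConnectedSet (OddAdj D) D) (hDD : (D ∩ commutingProducts D).Nonempty)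
    (hav : ∀ d ∈ D, d ∉ N) (ha : a ∈ D) {n : G} (hn : n ∈ N) :
    a * (n * a * n⁻¹) = (n * a * n⁻¹) * a := by
  set z := n * a * n⁻¹ with hz
  have hzD : z ∈ D := hD.conj_mem a ha n
  have hzN : a * z ∈ N := by
    have : a * z = (a * n * a⁻¹) * n⁻¹ := by rw [hz, inv hD ha]; group
    rw [this]
    exact N.mul_mem (hN.conj_mem n hn a) (N.inv_mem hn)
  rcases tri hD ha hzD with h | h | h
  · exact h
  · exfalso
    obtain ⟨e, he, hu, hcomm⟩ := line_through hD hc hDD ha
    rcases line_odd hD ha he hu hcomm hzD h with h1 | h1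
    · -- `e z ≡ e a`
      have hu' : e * a ∈ D := by rw [← hcomm]; exact hu
      apply hav _ hu'
      apply mem_of_congr_odd hD hu' _ h1.2
      rw [inv hD hu']
      have e1 : e * z * (e * a) = e * ((a * a) * z * e * a) := by rw [sq hD ha, one_mul]; group
      have : e * z * (e * a) = e * (a * (a * z) * e * a) := by rw [e1]; group
      have h2 : e * z * (e * a) = e * a * (a * z) * (e * a) := by rw [this]; group
      rw [h2]
      have h3 := hN.conj_mem _ hzN (e * a)
      rwa [inv hD hu'] at h3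
    · apply hav _ he
      apply mem_of_congr_odd hD he _ h1.2
      rw [inv hD he]
      have e1 : a * e * z * e = a * e * (a * (a * z)) * e := by
        rw [← mul_assoc a a z, sq hD ha, one_mul]
      have e2 : a * e * (a * (a * z)) * e = a * e * a * e * (e * (a * z) * e) := by
        calc a * e * (a * (a * z)) * e = a * e * a * (e * e) * (a * z) * e := by
              rw [sq hD he]; group
          _ = _ := by group
      have e3 : a * e * a * e = 1 := by
        rw [hcomm]
        calc e * a * a * e = e * (a * a) * e := by group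
          _ = 1 := by rw [sq hD ha, mul_one, sq hD he]
      rw [e1, e2, e3, one_mul]
      have h3 := hN.conj_mem _ hzN e
      rwa [inv hD he] at h3
  · exfalso
    apply hav _ h.2
    rw [pow_two]
    exact N.mul_mem hzN hzN

/-- The commutator lies in `O₂`. -/
lemma mem_pCore_of_normal_avoid [Finite G] {N : Subgroup G} [hN : N.Normal] (hD : IsRootInvolutionSet D)
    (hc : IsConnectedSet (OddAdj D) D) (hDD : (D ∩ commutingProducts D).Nonempty)
    (hav : ∀ d ∈ D, d ∉ N) (ha : a ∈ D) {n : G} (hn : n ∈ N) :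
    a * (n * a * n⁻¹) ∈ pCore 2 G := by
  let X : Set G := {z | ∃ m ∈ N, z = m * a * m⁻¹}
  let E : Subgroup G := Subgroup.closure X
  have hXc : ∀ z ∈ X, ∀ w ∈ X, z * w = w * z := by
    rintro _ ⟨m, hm, rfl⟩ _ ⟨m', hm', rfl⟩
    have h1 := comm_of_normal_avoid hD hc hDD hav ha (N.mul_mem (N.inv_mem hm) hm')
    have h2 : m * (a * (m⁻¹ * m' * a * (m⁻¹ * m')⁻¹)) * m⁻¹ = m * (m⁻¹ * m' * a * (m⁻¹ * m')⁻¹ * a) * m⁻¹ := by
      rw [h1]
    calc m * a * m⁻¹ * (m' * a * m'⁻¹)
        = m * (a * (m⁻¹ * m' * a * (m⁻¹ * m')⁻¹)) * m⁻¹ := by group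
      _ = m * (m⁻¹ * m' * a * (m⁻¹ * m')⁻¹ * a) * m⁻¹ := h2
      _ = _ := by group
  have hEX : ∀ t ∈ E, ∀ w ∈ X, t * w = w * t := by
    intro t ht w hw
    induction ht using Subgroup.closure_induction with
    | mem z hz => exact hXc z hz w hw
    | one => simp
    | mul z z' _ _ h1 h2 =>
      rw [mul_assoc, h2, ← mul_assoc, h1, mul_assoc]
    | inv z _ h1 =>
      exact (Commute.inv_left h1 : Commute z⁻¹ w)
  have hEE : ∀ t ∈ E, ∀ s ∈ E, t * s = s * t := by
    intro t ht s hs
    induction hs using Subgroup.closure_induction with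
    | mem z hz => exact hEX t ht z hz
    | one => simp
    | mul z z' _ _ h1 h2 =>
      rw [← mul_assoc, h1, mul_assoc, h2, mul_assoc]
    | inv z _ h1 =>
      exact (Commute.inv_right h1 : Commute t z⁻¹)
  have hsq : ∀ t ∈ E, t * t = 1 := by
    intro t ht
    induction ht using Subgroup.closure_induction with
    | mem z hz =>
      obtain ⟨m, hm, rfl⟩ := hz
      calc m * a * m⁻¹ * (m * a * m⁻¹) = m * (a * a) * m⁻¹ := by group
        _ = 1 := by rw [sq hD ha]; group
    | one => simp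
    | mul z z' hz hz' h1 h2 =>
      calc z * z' * (z * z') = z * (z' * z) * z' := by group
        _ = z * (z * z') * z' := by rw [hEE z' hz' z hz]
        _ = (z * z) * (z' * z') := by group
        _ = 1 := by rw [h1, h2, one_mul]
    | inv z hz h1 =>
      have : z⁻¹ * z⁻¹ = (z * z)⁻¹ := by group
      rw [this, h1, inv_one]
  have hT : (E ⊓ N).IsSubnormal := by
    refine Subgroup.IsSubnormal.step _ N inf_le_right ?_ ?_
    · exact Subgroup.Normal.isSubnormal hN
    · constructor
      rintro ⟨t, ht⟩ ht' ⟨m, hm⟩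
      rw [Subgroup.mem_subgroupOf] at ht' ⊢
      have ht1 : t ∈ E := ht'.1
      refine ⟨?_, N.mul_mem (N.mul_mem hm ht) (N.inv_mem hm)⟩
      show m * t * m⁻¹ ∈ E
      clear ht' ht
      induction ht1 using Subgroup.closure_induction with
      | mem z hz =>
        obtain ⟨m', hm', rfl⟩ := hz
        apply Subgroup.subset_closure
        exact ⟨m * m', N.mul_mem hm hm', by group⟩
      | one => simp
      | mul z z' _ _ h1 h2 =>
        have : m * (z * z') * m⁻¹ = (m * z * m⁻¹) * (m * z' * m⁻¹) := by group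
        rw [this]
        exact E.mul_mem h1 h2
      | inv z _ h1 =>
        have : m * z⁻¹ * m⁻¹ = (m * z * m⁻¹)⁻¹ := by group
        rw [this]
        exact E.inv_mem h1
  have hTp : IsPGroup 2 ↥(E ⊓ N) := by
    rintro ⟨t, ht⟩
    refine ⟨1, ?_⟩
    apply Subtype.ext
    show t ^ 2 ^ 1 = 1
    rw [pow_one, pow_two]
    exact hsq t ht.1
  have hle := H12.le_pCore_of_isSubnormal hT hTp
  apply hle
  refine ⟨E.mul_mem (Subgroup.subset_closure ⟨1, N.one_mem, by simp⟩)
    (Subgroup.subset_closure ⟨n, hn, rfl⟩), ?_⟩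
  have : a * (n * a * n⁻¹) = (a * n * a⁻¹) * n⁻¹ := by rw [inv hD ha]; group
  rw [this]
  exact N.mul_mem (hN.conj_mem n hn a) (N.inv_mem hn)

/-- A normal subgroup avoiding `D` lies in `O_{2,Z}`. -/
lemma le_twoZCore [Finite G] {N : Subgroup G} [hN : N.Normal] (hD : IsRootInvolutionSet D)
    (hc : IsConnectedSet (OddAdj D) D) (hDD : (D ∩ commutingProducts D).Nonempty)
    (hav : ∀ d ∈ D, d ∉ N) : N ≤ twoZCore G := by
  intro n hn
  show QuotientGroup.mk' (pCore 2 G) n ∈ Subgroup.center (G ⧸ pCore 2 G)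
  rw [Subgroup.mem_center_iff]
  intro q
  obtain ⟨g, rfl⟩ := QuotientGroup.mk'_surjective _ q
  have hg : g ∈ Subgroup.closure D := by rw [hD.generates]; trivial
  have key : ∀ g ∈ Subgroup.closure D, (QuotientGroup.mk' (pCore 2 G) g) * (QuotientGroup.mk' (pCore 2 G) n) =
      (QuotientGroup.mk' (pCore 2 G) n) * (QuotientGroup.mk' (pCore 2 G) g) := by
    intro g hg
    induction hg using Subgroup.closure_induction with
    | mem a ha =>
      have h1 := mem_pCore_of_normal_avoid hD hc hDD hav ha hn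
      have h2 : (QuotientGroup.mk' (pCore 2 G)) (a * (n * a * n⁻¹)) = 1 := (QuotientGroup.eq_one_iff _).2 h1
      rw [map_mul, map_mul, map_mul, map_inv] at h2
      have hai : (QuotientGroup.mk' (pCore 2 G) a) * (QuotientGroup.mk' (pCore 2 G) a) = 1 := by
        rw [← map_mul, sq hD ha, map_one]
      set A := QuotientGroup.mk' (pCore 2 G) a
      set M := QuotientGroup.mk' (pCore 2 G) n
      have h3 : M * A * M⁻¹ = A := by
        rw [eq_inv_of_mul_eq_one_right h2, inv_eq_of_mul_eq_one_left hai]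
      calc A * M = (M * A * M⁻¹) * M := by rw [h3]
        _ = M * A := by group
    | one => simp
    | mul x y _ _ h1 h2 =>
      rw [map_mul, mul_assoc, h2, ← mul_assoc, h1, mul_assoc]
    | inv x _ h1 =>
      rw [map_inv]
      exact (Commute.inv_left h1)
  exact key g hg

/-- No member of `D` lies in `O_{2,Z}`. -/
lemma not_mem_twoZCore [Finite G] (hD : IsRootInvolutionSet D)
    (hc : IsConnectedSet (OddAdj D) D) (hDD : (D ∩ commutingProducts D).Nonempty) (ha : a ∈ D) :
    a ∉ twoZCore G := by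
  intro hmem
  obtain ⟨e, he, hu, -⟩ := line_through hD hc hDD ha
  have hne : e ≠ a := by
    rintro rfl
    rw [sq hD he] at hu
    exact ne_one hD hu rfl
  have hp := hc a ha e he
  rcases Relation.ReflTransGen.cases_head hp with h1 | ⟨x, hx, -⟩
  · exact hne h1.symm
  have hxD := hx.2.1
  have hO : OddRel a x := ⟨hx.2.2.1, hx.2.2.2⟩
  have hcen : QuotientGroup.mk' (pCore 2 G) a ∈ Subgroup.center (G ⧸ pCore 2 G) := hmem
  rw [Subgroup.mem_center_iff] at hcen
  have h1 := hcen (QuotientGroup.mk' (pCore 2 G) x)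
  have h2 : (QuotientGroup.mk' (pCore 2 G)) ((a * x) * (a * x)) = 1 := by
    have e1 : (QuotientGroup.mk' (pCore 2 G)) (a * a) = 1 := by rw [sq hD ha, map_one]
    have e2 : (QuotientGroup.mk' (pCore 2 G)) (x * x) = 1 := by rw [sq hD hxD, map_one]
    rw [map_mul] at e1 e2
    rw [map_mul, map_mul]
    calc _ = (QuotientGroup.mk' (pCore 2 G) a) * ((QuotientGroup.mk' (pCore 2 G) x) *
            (QuotientGroup.mk' (pCore 2 G) a)) * (QuotientGroup.mk' (pCore 2 G) x) := by group
      _ = (QuotientGroup.mk' (pCore 2 G) a) * ((QuotientGroup.mk' (pCore 2 G) a) *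
            (QuotientGroup.mk' (pCore 2 G) x)) * (QuotientGroup.mk' (pCore 2 G) x) := by rw [← h1]
      _ = ((QuotientGroup.mk' (pCore 2 G) a) * (QuotientGroup.mk' (pCore 2 G) a)) *
            ((QuotientGroup.mk' (pCore 2 G) x) * (QuotientGroup.mk' (pCore 2 G) x)) := by group
      _ = 1 := by rw [e1, e2, one_mul]
  have h3 : (a * x) * (a * x) ∈ pCore 2 G := (QuotientGroup.eq_one_iff _).1 h2
  obtain ⟨k, hk⟩ := (H01.pCore_isPGroup (G := G) 2) ⟨_, h3⟩
  have hk' : ((a * x) * (a * x)) ^ 2 ^ k = 1 := by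
    have := congrArg Subtype.val hk
    simpa using this
  have h5 : (a * x) ^ (2 ^ (k + 1)) = 1 := by
    rw [pow_succ, mul_comm, pow_mul, pow_two]
    exact hk'
  exact mul_ne_one_of_ne hD ha hO.1 (eq_one_of_odd_of_pow hO.2 h5)

/-- The simple quotient. -/
theorem simple_quotient [Finite G] (hD : IsRootInvolutionSet D)
    (hc : IsConnectedSet (OddAdj D) D) (hDD : (D ∩ commutingProducts D).Nonempty) :
    IsSimpleGroup (G ⧸ twoZCore G) := by
  have hDD' := hDD
  obtain ⟨d₀, hd₀, -⟩ := hDD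
  have hnt : Nontrivial (G ⧸ twoZCore G) := by
    refine ⟨⟨QuotientGroup.mk' _ d₀, 1, fun h => ?_⟩⟩
    exact not_mem_twoZCore hD hc hDD' hd₀ ((QuotientGroup.eq_one_iff _).1 h)
  refine ⟨fun H hH => ?_⟩
  have hN : (H.comap (QuotientGroup.mk' (twoZCore G))).Normal := hH.comap _
  by_cases hex : ∃ d ∈ D, d ∈ H.comap (QuotientGroup.mk' (twoZCore G))
  · right
    obtain ⟨d, hd, hdH⟩ := hex
    have hall : D ⊆ H.comap (QuotientGroup.mk' (twoZCore G)) := by
      intro b hb
      obtain ⟨g, rfl⟩ := conj_of_path hD (hc d hd b hb)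
      exact hN.conj_mem d hdH g
    have htop : H.comap (QuotientGroup.mk' (twoZCore G)) = ⊤ := by
      rw [eq_top_iff, ← hD.generates, Subgroup.closure_le]
      exact hall
    rw [eq_top_iff]
    intro q _
    obtain ⟨g, rfl⟩ := QuotientGroup.mk'_surjective _ q
    have : g ∈ H.comap (QuotientGroup.mk' (twoZCore G)) := by rw [htop]; trivial
    exact this
  · left
    push Not at hex
    have hle := le_twoZCore (N := H.comap (QuotientGroup.mk' (twoZCore G))) hD hc hDD' hex
    rw [eq_bot_iff]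
    intro q hq
    obtain ⟨g, rfl⟩ := QuotientGroup.mk'_surjective _ q
    have : g ∈ H.comap (QuotientGroup.mk' (twoZCore G)) := hq
    have h1 := hle this
    rw [Subgroup.mem_bot]
    exact (QuotientGroup.eq_one_iff _).2 h1

/-- The group is perfect: no proper normal subgroup with abelian quotient contains no member. -/
lemma not_solvable_of_mem [Finite G] (hD : IsRootInvolutionSet D)
    (hc : IsConnectedSet (OddAdj D) D) (hDD : (D ∩ commutingProducts D).Nonempty) (ha : a ∈ D)
    {N : Subgroup G} (hNn : N.Normal) (hNs : Group.IsSolvable N) (haN : a ∈ N) : False := by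
  have hall : D ⊆ N := by
    intro b hb
    obtain ⟨g, rfl⟩ := conj_of_path hD (hc a ha b hb)
    exact hNn.conj_mem a haN g
  have htop : N = ⊤ := by
    rw [eq_top_iff, ← hD.generates, Subgroup.closure_le]
    exact hall
  subst htop
  have hsolv : Group.IsSolvable G := Group.isSolvable_of_surjective (f := (⊤ : Subgroup G).subtype)
    (fun g => ⟨⟨g, trivial⟩, rfl⟩)
  -- `G` is perfect
  have hperf : commutator G = ⊤ := by
    rw [eq_top_iff, ← hD.generates, Subgroup.closure_le]
    intro b hb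
    obtain ⟨e, he, hu, hcomm⟩ := line_through hD hc hDD hb
    obtain ⟨g₁, hg₁⟩ := conj_of_path hD (hc b hb e he)
    obtain ⟨g₂, hg₂⟩ := conj_of_path hD (hc b hb _ hu)
    have h1 : ∀ g : G, g * b * g⁻¹ * b⁻¹ ∈ commutator G := by
      intro g
      rw [commutator_def]
      exact Subgroup.commutator_mem_commutator (Subgroup.mem_top g) (Subgroup.mem_top b)
    have h2 := h1 g₁
    have h3 := h1 g₂
    rw [← hg₁] at h2
    rw [← hg₂] at h3
    have e1 : b * e * b⁻¹ = e := by
      rw [hcomm]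
      group
    rw [e1] at h3
    have h4 : b⁻¹ ∈ commutator G := by
      have := (commutator G).mul_mem ((commutator G).inv_mem h3) h2
      simpa using this
    simpa using (commutator G).inv_mem h4
  have hnt : Nontrivial G := ⟨⟨a, 1, ne_one hD ha⟩⟩
  have := Group.IsSolvable.commutator_lt_top_of_nontrivial (G := G)
  exact absurd hperf this.ne

/-- `O_{2,Z}` is solvable. -/
lemma twoZCore_solvable [Finite G] : Group.IsSolvable (twoZCore G) := by
  have hQZ : pCore 2 G ≤ twoZCore G := by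
    intro q hq
    show QuotientGroup.mk' (pCore 2 G) q ∈ Subgroup.center (G ⧸ pCore 2 G)
    have : QuotientGroup.mk' (pCore 2 G) q = 1 := (QuotientGroup.eq_one_iff _).2 hq
    rw [this]
    exact Subgroup.one_mem _
  have hQ : Group.IsSolvable (pCore 2 G) := by
    have : Group.IsNilpotent (pCore 2 G) := IsPGroup.isNilpotent (H01.pCore_isPGroup (G := G) 2)
    infer_instance
  let g : ↥(twoZCore G) →* ↥(Subgroup.center (G ⧸ pCore 2 G)) :=
    ((QuotientGroup.mk' (pCore 2 G)).comp (twoZCore G).subtype).codRestrict _ (fun x => x.2)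
  have hcc : Group.IsSolvable ↥(Subgroup.center (G ⧸ pCore 2 G)) :=
    Group.isSolvable_of_comm (fun a b => Subtype.ext (Subgroup.mem_center_iff.1 b.2 a.1))
  refine Group.isSolvable_of_ker_le_range (Subgroup.inclusion hQZ) g ?_
  rintro ⟨x, hx⟩ hker
  have h1 : QuotientGroup.mk' (pCore 2 G) x = 1 := congrArg Subtype.val (MonoidHom.mem_ker.1 hker)
  exact ⟨⟨x, (QuotientGroup.eq_one_iff _).1 h1⟩, rfl⟩

/-- The radical of a connected set of root involutions with a line. -/
theorem radical_simple [Finite G] (hD : IsRootInvolutionSet D)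
    (hc : IsConnectedSet (OddAdj D) D) (hDD : (D ∩ commutingProducts D).Nonempty) :
    solvableRadical G = twoZCore G ∧ IsSimpleGroup (G ⧸ twoZCore G) := by
  refine ⟨le_antisymm ?_ ?_, simple_quotient hD hc hDD⟩
  · refine sSup_le ?_
    rintro N ⟨hN, hs⟩
    by_cases hex : ∃ d ∈ D, d ∈ N
    · obtain ⟨d, hd, hdN⟩ := hex
      exact (not_solvable_of_mem hD hc hDD hd hN hs hdN).elim
    · push Not at hex
      exact le_twoZCore hD hc hDD hex
  · exact le_sSup ⟨inferInstance, twoZCore_solvable⟩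

end RI

end Cfsg.Agent.H24
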