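import Mathlib
import Cfsg.Agent.Lib.H24.RootInv3

/-!
Root involutions: squares from lines.
-/

set_option autoImplicit false

namespace Cfsg.Agent.H24

open Cfsg
open scoped commutatorElement

variable {G : Type*} [Group G] {D : Set G} {a b e x y f z v h : G}

namespace RI

/-- The members on a line with `f` having product of order four with `z`. -/
def lineFour (D : Set G) (f z : G) : Set G :=
  {v | v ∈ D ∧ v * f = f * v ∧ f * v ∈ D ∧ orderOf (v * z) = 4}

lemma sq_mem (hD : IsRootInvolutionSet D) (he : e ∈ D) (hy : y ∈ D) (h4 : orderOf (e * y) = 4) :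
    (e * y) ^ 2 ∈ D := by
  rcases hD.pair e he y hy with h | h | h
  · exact absurd h (not_comm_of_four hD he hy h4)
  · exact absurd h (not_odd_of_four h4)
  · exact h.2

/-- The map on lines sends `v` to `(v z)²`. -/
lemma lineFour_sq (hD : IsRootInvolutionSet D) (hf : f ∈ D) (hz : z ∈ D) (hO : OddRel f z)
    (hv : v ∈ lineFour D f z) : (v * z) ^ 2 ∈ lineFour D z f := by
  obtain ⟨hvD, hcomm, hu, h4⟩ := hv
  obtain ⟨h1, h2, h3, h5, h6⟩ := four_facts hD hvD hz h4
  have hh : (v * z) ^ 2 ∈ D := sq_mem hD hvD hz h4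
  set h' := (v * z) ^ 2 with hh'
  refine ⟨hh, h5, ?_, ?_⟩
  · rw [← h3]
    exact conj_mem hD hz hvD
  · rcases tri hD hh hf with h7 | h7 | h7
    · exfalso
      -- `h'` centralizes `f z`
      have hτ1 : f * z ≠ 1 := mul_ne_one_of_ne hD hf hO.1
      have hc : (f * z) * h' = h' * (f * z) := by
        calc (f * z) * h' = f * (z * h') := by group
          _ = f * (h' * z) := by rw [h5]
          _ = (f * h') * z := by group
          _ = (h' * f) * z := by rw [h7]
          _ = h' * (f * z) := by group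
      obtain ⟨-, h8, -⟩ := central_bad hO.2 hτ1 h1 (ne_one hD hh) hc
      apply h8
      have e1 : (f * z) * h' = v * (f * z) * v⁻¹ := by
        rw [inv hD hvD]
        calc (f * z) * h' = f * (z * h') := by group
          _ = f * (v * z * v) := by rw [h3]
          _ = (f * v) * z * v := by group
          _ = (v * f) * z * v := by rw [hcomm]
          _ = _ := by group
      rw [e1, order_conj]
      exact hO.2
    · exfalso
      have hO' : OddRel f h' := oddRel_symm hD hh hf h7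
      exact star hD hf hvD hu hcomm.symm hh hO' h6
    · exact h7.1

/-- The map `v ↦ (v z)²` is injective on the line. -/
lemma lineFour_inj (hD : IsRootInvolutionSet D) (hf : f ∈ D) (hz : z ∈ D) (hO : OddRel f z)
    {v₁ v₂ : G} (h1 : v₁ ∈ lineFour D f z) (h2 : v₂ ∈ lineFour D f z)
    (heq : (v₁ * z) ^ 2 = (v₂ * z) ^ 2) : v₁ = v₂ := by
  obtain ⟨hv₁, hc₁, hu₁, h4₁⟩ := h1
  obtain ⟨hv₂, hc₂, hu₂, h4₂⟩ := h2
  obtain ⟨a1, a2, a3, a4, a5⟩ := four_facts hD hv₁ hz h4₁
  obtain ⟨b1, b2, b3, b4, b5⟩ := four_facts hD hv₂ hz h4₂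
  have h4₁' : orderOf (z * v₁) = 4 := by rw [order_swap hD hv₁ hz]; exact h4₁
  have h4₂' : orderOf (z * v₂) = 4 := by rw [order_swap hD hv₂ hz]; exact h4₂
  obtain ⟨-, -, c3, -, -⟩ := four_facts hD hz hv₁ h4₁'
  obtain ⟨-, -, d3, -, -⟩ := four_facts hD hz hv₂ h4₂'
  rw [a2] at c3
  rw [b2] at d3
  rw [← heq] at b5 b1 d3
  set h' := (v₁ * z) ^ 2 with hh'
  have hzi : z * z = 1 := sq hD hz
  -- `v₁ v₂` centralizes `z`
  have hxz : (v₁ * v₂) * z = z * (v₁ * v₂) := by
    have e1 : z * (v₁ * v₂) * z = (z * v₁ * z) * (z * v₂ * z) := by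
      calc z * (v₁ * v₂) * z = z * v₁ * (z * z) * v₂ * z := by rw [hzi]; group
        _ = _ := by group
    have e2 : z * (v₁ * v₂) * z = v₁ * v₂ := by
      rw [e1, c3, d3]
      calc v₁ * h' * (v₂ * h') = v₁ * (h' * v₂) * h' := by group
        _ = v₁ * (v₂ * h') * h' := by rw [b5]
        _ = v₁ * v₂ * (h' * h') := by group
        _ = _ := by rw [a1, mul_one]
    calc (v₁ * v₂) * z = (z * (v₁ * v₂) * z) * z := by rw [e2]
      _ = z * (v₁ * v₂) * (z * z) := by group
      _ = _ := by rw [hzi, mul_one]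
  have hxf : (v₁ * v₂) * f = f * (v₁ * v₂) := by
    calc (v₁ * v₂) * f = v₁ * (v₂ * f) := by group
      _ = v₁ * (f * v₂) := by rw [hc₂]
      _ = (v₁ * f) * v₂ := by group
      _ = (f * v₁) * v₂ := by rw [hc₁]
      _ = _ := by group
  have hOu₁ : OddRel (f * v₁) z := by
    rcases line_odd hD hf hv₁ hu₁ hc₁.symm hz hO with h | h
    · exact absurd h.2 (not_odd_of_four h4₁)
    · exact h
  have hOu₂ : OddRel (f * v₂) z := by
    rcases line_odd hD hf hv₂ hu₂ hc₂.symm hz hO with h | h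
    · exact absurd h.2 (not_odd_of_four h4₂)
    · exact h
  rcases tri hD hv₁ hv₂ with h | h | h
  · -- commuting
    by_contra hne
    have hx1 : v₁ * v₂ ≠ 1 := mul_ne_one_of_ne hD hv₁ hne
    have hx2 : (v₁ * v₂) * (v₁ * v₂) = 1 := by
      calc (v₁ * v₂) * (v₁ * v₂) = (v₁ * v₂) * (v₂ * v₁) := by rw [h]
        _ = v₁ * (v₂ * v₂) * v₁ := by group
        _ = 1 := by rw [sq hD hv₂, mul_one, sq hD hv₁]
    have hxu : (v₁ * v₂) * (f * v₁) = (f * v₁) * (v₁ * v₂) := by
      calc (v₁ * v₂) * (f * v₁) = ((v₁ * v₂) * f) * v₁ := by group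
        _ = (f * (v₁ * v₂)) * v₁ := by rw [hxf]
        _ = f * (v₁ * (v₂ * v₁)) := by group
        _ = f * (v₁ * (v₁ * v₂)) := by rw [h]
        _ = _ := by group
    have hcσ : ((f * v₁) * z) * (v₁ * v₂) = (v₁ * v₂) * ((f * v₁) * z) := by
      calc ((f * v₁) * z) * (v₁ * v₂) = (f * v₁) * (z * (v₁ * v₂)) := by group
        _ = (f * v₁) * ((v₁ * v₂) * z) := by rw [hxz]
        _ = ((f * v₁) * (v₁ * v₂)) * z := by group
        _ = ((v₁ * v₂) * (f * v₁)) * z := by rw [hxu]
        _ = _ := by group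
    obtain ⟨-, h8, -⟩ := central_bad hOu₁.2 (mul_ne_one_of_ne hD hu₁ hOu₁.1) hx2 hx1 hcσ
    apply h8
    have e1 : (f * v₁) * z * (v₁ * v₂) = (f * v₂) * z := by
      calc (f * v₁) * z * (v₁ * v₂) = (f * v₁) * (z * (v₁ * v₂)) := by group
        _ = (f * v₁) * ((v₁ * v₂) * z) := by rw [hxz]
        _ = f * (v₁ * v₁) * v₂ * z := by group
        _ = _ := by rw [sq hD hv₁, mul_one]
    rw [e1]
    exact hOu₂.2
  · exact absurd hc₂ (star hD hv₁ hf (by rw [hc₁]; exact hu₁) hc₁ hv₂ h)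
  · -- order four
    exfalso
    obtain ⟨k1, k2, k3, k4, k5⟩ := four_facts hD hv₁ hv₂ h.1
    set k := (v₁ * v₂) ^ 2 with hk
    have hkz : k * z = z * k := by
      rw [hk, pow_two]
      calc (v₁ * v₂) * (v₁ * v₂) * z = (v₁ * v₂) * ((v₁ * v₂) * z) := by group
        _ = (v₁ * v₂) * (z * (v₁ * v₂)) := by rw [hxz]
        _ = ((v₁ * v₂) * z) * (v₁ * v₂) := by group
        _ = (z * (v₁ * v₂)) * (v₁ * v₂) := by rw [hxz]
        _ = _ := by group
    have hkf : k * f = f * k := by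
      rw [hk, pow_two]
      calc (v₁ * v₂) * (v₁ * v₂) * f = (v₁ * v₂) * ((v₁ * v₂) * f) := by group
        _ = (v₁ * v₂) * (f * (v₁ * v₂)) := by rw [hxf]
        _ = ((v₁ * v₂) * f) * (v₁ * v₂) := by group
        _ = (f * (v₁ * v₂)) * (v₁ * v₂) := by rw [hxf]
        _ = _ := by group
    have e1 : v₂ * v₁ * v₂ = v₁ * k := by
      have h4' : orderOf (v₂ * v₁) = 4 := by rw [order_swap hD hv₁ hv₂]; exact h.1
      obtain ⟨-, -, m3, -, -⟩ := four_facts hD hv₂ hv₁ h4'
      rw [k2] at m3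
      exact m3
    have hline : (f * v₁) * k ∈ D := by
      have e2 : (f * v₁) * k = v₂ * (f * v₁) * v₂ := by
        calc (f * v₁) * k = f * (v₁ * k) := by group
          _ = f * (v₂ * v₁ * v₂) := by rw [e1]
          _ = (f * v₂) * v₁ * v₂ := by group
          _ = (v₂ * f) * v₁ * v₂ := by rw [hc₂]
          _ = _ := by group
      rw [e2]
      exact conj_mem hD hu₁ hv₂
    have hkD : k ∈ D := h.2
    have hcu : (f * v₁) * k = k * (f * v₁) := by
      calc (f * v₁) * k = f * (v₁ * k) := by group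
        _ = f * (k * v₁) := by rw [k5]
        _ = (f * k) * v₁ := by group
        _ = (k * f) * v₁ := by rw [hkf]
        _ = _ := by group
    exact star hD hu₁ hkD hline hcu hz hOu₁ hkz.symm

/-- Surjectivity of the double step. -/
lemma lineFour_surj [Finite G] (hD : IsRootInvolutionSet D) (hf : f ∈ D) (hz : z ∈ D) (hO : OddRel f z)
    (hy : y ∈ lineFour D f z) : ∃ h ∈ lineFour D z f, (h * f) ^ 2 = y := by
  have hO' : OddRel z f := oddRel_symm hD hf hz hO
  let φ : ↥(lineFour D f z) → ↥(lineFour D f z) := fun v =>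
    ⟨((v.1 * z) ^ 2 * f) ^ 2, lineFour_sq hD hz hf hO' (lineFour_sq hD hf hz hO v.2)⟩
  have hinj : Function.Injective φ := by
    rintro ⟨v₁, h1⟩ ⟨v₂, h2⟩ heq
    have h3 : ((v₁ * z) ^ 2 * f) ^ 2 = ((v₂ * z) ^ 2 * f) ^ 2 := congrArg Subtype.val heq
    have h4 := lineFour_inj hD hz hf hO' (lineFour_sq hD hf hz hO h1) (lineFour_sq hD hf hz hO h2) h3
    exact Subtype.ext (lineFour_inj hD hf hz hO h1 h2 h4)
  obtain ⟨⟨v, hv⟩, hv2⟩ := (Finite.injective_iff_surjective.1 hinj) ⟨y, hy⟩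
  exact ⟨_, lineFour_sq hD hf hz hO hv, congrArg Subtype.val hv2⟩

/-- The action of `e h` on a square configuration. -/
lemma sq_action (hD : IsRootInvolutionSet D) (he : e ∈ D) (hy : y ∈ D) (hh : h ∈ D) (hf : f ∈ D)
    (h4 : orderOf (e * y) = 4) (hef : (e * y) ^ 2 = f) (h4' : orderOf (h * f) = 4) (hhf : (h * f) ^ 2 = y) :
    (e * h) * y * (e * h)⁻¹ = y * f ∧ (e * h) * f * (e * h)⁻¹ = y ∧ (e * h) * (y * f) * (e * h)⁻¹ = f := by
  obtain ⟨a1, a2, a3, a4, a5⟩ := four_facts hD he hy h4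
  obtain ⟨b1, b2, b3, b4, b5⟩ := four_facts hD hh hf h4'
  rw [hef] at a1 a2 a3 a4 a5
  rw [hhf] at b1 b2 b3 b4 b5
  have hi : (e * h)⁻¹ = h * e := by
    rw [mul_inv_rev, inv hD he, inv hD hh]
  have hfi : f * f = 1 := sq hD hf
  have hyi : y * y = 1 := sq hD hy
  have hhi : h * h = 1 := sq hD hh
  have hei : e * e = 1 := sq hD he
  have c1 : (e * h) * y * (e * h)⁻¹ = y * f := by
    rw [hi]
    calc e * h * y * (h * e) = e * (h * y) * h * e := by group
      _ = e * (y * h) * h * e := by rw [b5]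
      _ = e * y * (h * h) * e := by group
      _ = e * y * e := by rw [hhi, mul_one]
      _ = _ := a3
  have c2 : (e * h) * f * (e * h)⁻¹ = y := by
    rw [hi]
    calc e * h * f * (h * e) = e * (h * f * h) * e := by group
      _ = e * (f * y) * e := by rw [b3]
      _ = (e * f) * y * e := by group
      _ = (f * e) * y * e := by rw [a5]
      _ = f * (e * y * e) := by group
      _ = f * (y * f) := by rw [a3]
      _ = (f * y) * f := by group
      _ = (y * f) * f := by rw [b4]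
      _ = y * (f * f) := by group
      _ = y := by rw [hfi, mul_one]
  refine ⟨c1, c2, ?_⟩
  have : (e * h) * (y * f) * (e * h)⁻¹ = ((e * h) * y * (e * h)⁻¹) * ((e * h) * f * (e * h)⁻¹) := by group
  rw [this, c1, c2]
  calc y * f * y = (f * y) * y := by rw [b4]
    _ = f * (y * y) := by group
    _ = f := by rw [hyi, mul_one]

/-- A square configuration gives an odd pair. -/
lemma oddRel_of_square (hD : IsRootInvolutionSet D) (he : e ∈ D) (hy : y ∈ D) (hh : h ∈ D) (hf : f ∈ D)
    (h4 : orderOf (e * y) = 4) (hef : (e * y) ^ 2 = f) (h4' : orderOf (h * f) = 4) (hhf : (h * f) ^ 2 = y) :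
    OddRel e h := by
  by_contra hno
  have h5 := pow_four_of_not_odd hD he hh hno
  obtain ⟨c1, c2, c3⟩ := sq_action hD he hy hh hf h4 hef h4' hhf
  set τ := e * h with hτ
  have h6 : τ * τ * τ * τ = 1 := by
    rw [← h5]
    simp only [pow_succ, pow_zero, one_mul]
  have e1 : y = (τ * τ * τ * τ) * y * (τ * τ * τ * τ)⁻¹ := by
    rw [h6]
    group
  have e2 : (τ * τ * τ * τ) * y * (τ * τ * τ * τ)⁻¹ = τ * (τ * (τ * (τ * y * τ⁻¹) * τ⁻¹) * τ⁻¹) * τ⁻¹ := by
    group
  rw [e2, c1, c3, c2, c1] at e1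
  have : f = 1 := by
    have h7 : y * f = y * 1 := by rw [← e1, mul_one]
    exact mul_left_cancel h7
  exact ne_one hD hf this

/-- Odd partners of a member. -/
def oddSet (D : Set G) (a : G) : Set G := {x | x ∈ D ∧ OddRel a x}

lemma oddSet_conj (hD : IsRootInvolutionSet D) (g a : G) :
    oddSet D (g * a * g⁻¹) = (fun x => g * x * g⁻¹) '' oddSet D a := by
  ext x
  constructor
  · rintro ⟨h1, h2⟩
    refine ⟨g⁻¹ * x * g, ⟨?_, ?_⟩, by group⟩
    · have := hD.conj_mem x h1 g⁻¹
      rwa [inv_inv] at this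
    · have := oddRel_conj g⁻¹ h2
      have e1 : g⁻¹ * (g * a * g⁻¹) * g⁻¹⁻¹ = a := by group
      rw [e1, inv_inv] at this
      exact this
  · rintro ⟨y, ⟨h1, h2⟩, rfl⟩
    exact ⟨hD.conj_mem y h1 g, oddRel_conj g h2⟩

lemma oddSet_conj_congr (hD : IsRootInvolutionSet D) (g : G) {a a' : G} (h : oddSet D a = oddSet D a') :
    oddSet D (g * a * g⁻¹) = oddSet D (g * a' * g⁻¹) := by
  rw [oddSet_conj hD, oddSet_conj hD, h]

lemma ncard_oddSet_conj (hD : IsRootInvolutionSet D) (g a : G) :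
    (oddSet D (g * a * g⁻¹)).ncard = (oddSet D a).ncard := by
  rw [oddSet_conj hD]
  apply Set.ncard_image_of_injective
  intro x y hxy
  have h1 : g * x = g * y := by
    have := congrArg (· * g) hxy
    simpa using this
  exact mul_left_cancel h1

lemma oddSet_eq_of_subset [Finite G] (hD : IsRootInvolutionSet D) (hc : IsConnectedSet (OddAdj D) D)
    (ha : a ∈ D) (hb : b ∈ D) (h : oddSet D a ⊆ oddSet D b) : oddSet D a = oddSet D b := by
  obtain ⟨g, rfl⟩ := conj_of_path hD (hc a ha b hb)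
  exact Set.eq_of_subset_of_ncard_le h (ncard_oddSet_conj hD g a).le (Set.toFinite _)

/-- A normal set of involutions with products of order dividing four generates a `2`-group. -/
lemma isPGroup_closure_invol [Finite G] {A : Set G} (hA : ∀ a ∈ A, a * a = 1)
    (hconj : ∀ a ∈ A, ∀ b ∈ A, b * a * b⁻¹ ∈ A) (hpair : ∀ a ∈ A, ∀ b ∈ A, (a * b) ^ 4 = 1) :
    IsPGroup 2 ↥(Subgroup.closure A) := by
  classical
  have hnorm : ∀ g ∈ Subgroup.closure A, ∀ a ∈ A, g * a * g⁻¹ ∈ A ∧ g⁻¹ * a * g ∈ A := by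
    intro g hg
    induction hg using Subgroup.closure_induction with
    | mem b hb =>
      intro a ha
      refine ⟨hconj a ha b hb, ?_⟩
      have h1 := hconj a ha b hb
      have hbi : b⁻¹ = b := inv_eq_of_mul_eq_one_left (hA b hb)
      rw [hbi] at h1 ⊢
      have : b * a * b = b * a * b⁻¹ := by rw [hbi]
      exact h1
    | one =>
      intro a ha
      simpa using ha
    | mul x y _ _ h1 h2 =>
      intro a ha
      constructor
      · have := (h1 _ (h2 a ha).1).1
        have e : x * y * a * (x * y)⁻¹ = x * (y * a * y⁻¹) * x⁻¹ := by group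
        rw [e]
        exact this
      · have := (h2 _ (h1 a ha).2).2
        have e : (x * y)⁻¹ * a * (x * y) = y⁻¹ * (x⁻¹ * a * x) * y := by group
        rw [e]
        exact this
    | inv x _ h1 =>
      intro a ha
      refine ⟨?_, ?_⟩
      · rw [inv_inv]
        exact (h1 a ha).2
      · rw [inv_inv]
        exact (h1 a ha).1
  let P := Subgroup.closure A
  let A' : Set ↥P := {x | x.1 ∈ A}
  let Sg : Set (Subgroup ↥P) := (fun w => Subgroup.zpowers w) '' A'
  have hpair' : ∀ w ∈ A', ∀ w' ∈ A', IsPGroup 2 ↥(Subgroup.zpowers w ⊔ Subgroup.zpowers w') := by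
    intro w hw w' hw'
    have h1 := isPGroup_pair (a := w) (b := w') (Subtype.ext (hA _ hw)) (Subtype.ext (hA _ hw'))
      (Subtype.ext (hpair _ hw _ hw'))
    refine h1.to_le (sup_le ?_ ?_)
    · exact (Subgroup.zpowers_le).2 (Subgroup.subset_closure (Set.mem_insert _ _))
    · exact (Subgroup.zpowers_le).2 (Subgroup.subset_closure (Set.mem_insert_of_mem _ rfl))
  have hF : H15.PFam 2 Sg := by
    constructor
    · rintro _ ⟨w, hw, rfl⟩
      exact (hpair' w hw w hw).to_le le_sup_left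
    · rintro _ ⟨w, hw, rfl⟩ g
      refine ⟨g * w * g⁻¹, (hnorm g.1 g.2 w.1 hw).1, ?_⟩
      show Subgroup.zpowers (g * w * g⁻¹) = _
      rw [MonoidHom.map_zpowers]
      rfl
    · rintro _ ⟨w, hw, rfl⟩ _ ⟨w', hw', rfl⟩
      exact hpair' w hw w' hw'
  have h := H15.isPGroup_sSup_of_pFam (Nat.card ↥P) ↥P Sg rfl hF
  have htop : ∀ x (hx : x ∈ Subgroup.closure A), (⟨x, hx⟩ : ↥P) ∈ sSup Sg := by
    intro x hx
    induction hx using Subgroup.closure_induction with
    | mem a ha =>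
      have hle : Subgroup.zpowers (⟨a, Subgroup.subset_closure ha⟩ : ↥P) ≤ sSup Sg := le_sSup ⟨_, ha, rfl⟩
      exact hle (Subgroup.mem_zpowers _)
    | one => exact Subgroup.one_mem _
    | mul x y hx hy h1 h2 => exact Subgroup.mul_mem _ h1 h2
    | inv x hx h1 => exact Subgroup.inv_mem _ h1
  rintro ⟨x, hx⟩
  obtain ⟨k, hk⟩ := h ⟨_, htop x hx⟩
  exact ⟨k, congrArg Subtype.val hk⟩

/-- A class cannot contain a square configuration. -/
lemma no_square_in_class [Finite G] (hD : IsRootInvolutionSet D) (hc : IsConnectedSet (OddAdj D) D)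
    (he : e ∈ D) (hy : y ∈ D) (h4 : orderOf (e * y) = 4) (hf : (e * y) ^ 2 = f)
    (h1 : oddSet D e = oddSet D f) (h2 : oddSet D y = oddSet D f) : False := by
  have hfD : f ∈ D := hf ▸ sq_mem hD he hy h4
  let A : Set G := {a | a ∈ D ∧ oddSet D a = oddSet D f}
  have hAconj : ∀ a ∈ A, ∀ b ∈ A, b * a * b⁻¹ ∈ A := by
    intro a ha b hb
    refine ⟨hD.conj_mem a ha.1 b, ?_⟩
    have e1 : oddSet D a = oddSet D b := by rw [ha.2, hb.2]
    rw [oddSet_conj_congr hD b e1]
    have e2 : b * b * b⁻¹ = b := by group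
    rw [e2, hb.2]
  have hAp : ∀ a ∈ A, ∀ b ∈ A, (a * b) ^ 4 = 1 := by
    intro a ha b hb
    apply pow_four_of_not_odd hD ha.1 hb.1
    intro hO
    have : b ∈ oddSet D a := ⟨hb.1, hO⟩
    rw [ha.2, ← hb.2] at this
    exact this.2.1 rfl
  have hP : IsPGroup 2 ↥(Subgroup.closure A) :=
    isPGroup_closure_invol (fun a ha => sq hD ha.1) hAconj hAp
  have hsolv : Group.IsSolvable ↥(Subgroup.closure A) := by
    have : Group.IsNilpotent ↥(Subgroup.closure A) := hP.isNilpotent
    infer_instance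
  have hfA : f ∈ A := ⟨hfD, rfl⟩
  have hnt : Nontrivial ↥(Subgroup.closure A) :=
    ⟨⟨⟨f, Subgroup.subset_closure hfA⟩, 1, fun h => ne_one hD hfD (congrArg Subtype.val h)⟩⟩
  have hlt := Group.IsSolvable.commutator_lt_top_of_nontrivial (G := ↥(Subgroup.closure A))
  apply hlt.ne
  have hmem : ∀ a (ha : a ∈ A), (⟨a, Subgroup.subset_closure ha⟩ : ↥(Subgroup.closure A)) ∈
      commutator ↥(Subgroup.closure A) := by
    intro a ha
    obtain ⟨g, rfl⟩ := conj_of_path hD (hc f hfD a ha.1)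
    have he' : g * e * g⁻¹ ∈ A := ⟨hD.conj_mem e he g, by
      rw [oddSet_conj_congr hD g h1]
      exact ha.2⟩
    have hy' : g * y * g⁻¹ ∈ A := ⟨hD.conj_mem y hy g, by
      rw [oddSet_conj_congr hD g h2]
      exact ha.2⟩
    have e1 : (⟨g * f * g⁻¹, Subgroup.subset_closure ha⟩ : ↥(Subgroup.closure A)) =
        ⁅(⟨g * e * g⁻¹, Subgroup.subset_closure he'⟩ : ↥(Subgroup.closure A)),
          (⟨g * y * g⁻¹, Subgroup.subset_closure hy'⟩ : ↥(Subgroup.closure A))⁆ := by
      apply Subtype.ext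
      show g * f * g⁻¹ = (g * e * g⁻¹) * (g * y * g⁻¹) * (g * e * g⁻¹)⁻¹ * (g * y * g⁻¹)⁻¹
      rw [← hf, pow_two]
      have e2 : (g * e * g⁻¹)⁻¹ = g * e * g⁻¹ := by
        rw [mul_inv_rev, mul_inv_rev, inv_inv, inv hD he]
        group
      have e3 : (g * y * g⁻¹)⁻¹ = g * y * g⁻¹ := by
        rw [mul_inv_rev, mul_inv_rev, inv_inv, inv hD hy]
        group
      rw [e2, e3]
      group
    rw [e1, commutator_def]
    exact Subgroup.commutator_mem_commutator (Subgroup.mem_top _) (Subgroup.mem_top _)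
  rw [eq_top_iff]
  rintro ⟨x, hx⟩ -
  induction hx using Subgroup.closure_induction with
  | mem a ha => exact hmem a ha
  | one => exact Subgroup.one_mem _
  | mul x y hx hy h1 h2 => exact Subgroup.mul_mem _ h1 h2
  | inv x hx h1 => exact Subgroup.inv_mem _ h1

/-- The key lemma: every pair with product of order four extends to a square configuration. -/
theorem exists_square [Finite G] (hD : IsRootInvolutionSet D) (hc : IsConnectedSet (OddAdj D) D)
    (he : e ∈ D) (hy : y ∈ D) (h4 : orderOf (e * y) = 4) :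
    ∃ h ∈ D, orderOf (h * (e * y) ^ 2) = 4 ∧ (h * (e * y) ^ 2) ^ 2 = y ∧ OddRel e h := by
  have hfD := sq_mem hD he hy h4
  obtain ⟨a1, a2, a3, a4, a5⟩ := four_facts hD he hy h4
  set f := (e * y) ^ 2 with hf
  have huy : f * y ∈ D := by
    rw [a4, ← a3]
    exact conj_mem hD hy he
  have hue : f * e ∈ D := by
    have h4' : orderOf (y * e) = 4 := by rw [order_swap hD he hy]; exact h4
    obtain ⟨-, -, c3, -, -⟩ := four_facts hD hy he h4'
    rw [a2] at c3
    rw [a5, ← c3]
    exact conj_mem hD he hy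
  have key : ∃ h ∈ D, orderOf (h * f) = 4 ∧ (h * f) ^ 2 = y := by
    by_contra hno
    push Not at hno
    have hsub1 : oddSet D f ⊆ oddSet D y := by
      rintro z ⟨hz, hO⟩
      refine ⟨hz, ?_⟩
      rcases tri hD hy hz with h | h | h
      · exact absurd h.symm (star hD hfD hy huy a4 hz hO)
      · exact h
      · exfalso
        obtain ⟨h', h1, h2⟩ := lineFour_surj hD hfD hz hO (y := y) ⟨hy, a4.symm, huy, h.1⟩
        exact hno h' h1.1 h1.2.2.2 h2
    have e1 := oddSet_eq_of_subset hD hc hfD hy hsub1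
    have hsub2 : oddSet D f ⊆ oddSet D e := by
      rintro z ⟨hz, hO⟩
      refine ⟨hz, ?_⟩
      rcases tri hD he hz with h | h | h
      · exact absurd h.symm (star hD hfD he hue a5 hz hO)
      · exact h
      · exfalso
        obtain ⟨h', h1, h2⟩ := lineFour_surj hD hfD hz hO (y := e) ⟨he, a5.symm, hue, h.1⟩
        have h4'' : orderOf (y * e) = 4 := by rw [order_swap hD he hy]; exact h4
        have hO' : OddRel y h' := oddRel_of_square hD hy he h1.1 hfD h4'' a2 h1.2.2.2 h2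
        have : h' ∈ oddSet D f := by
          rw [e1]
          exact ⟨h1.1, hO'⟩
        have h5 := this.2.2
        rw [order_swap hD h1.1 hfD, h1.2.2.2] at h5
        exact absurd h5 (by decide)
    have e2 := oddSet_eq_of_subset hD hc hfD he hsub2
    exact no_square_in_class hD hc he hy h4 rfl e2.symm e1.symm
  obtain ⟨h', h1, h2, h3⟩ := key
  exact ⟨h', h1, h2, h3, oddRel_of_square hD he hy h1 hfD h4 rfl h2 h3⟩

end RI

end Cfsg.Agent.H24
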