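import Mathlib
import Cfsg.Agent.Lib.H24.RootInv4

/-!
Root involutions: comparing commuting members and odd partners (S5046, S5047).
-/

set_option autoImplicit false

namespace Cfsg.Agent.H24

open Cfsg

variable {G : Type*} [Group G] {D : Set G} {a b d e x y f z v h : G}

namespace RI

/-- A common centralizer of `d` and its conjugate by `h` centralizes `h`. -/
lemma comm_of_comm_conj (hD : IsRootInvolutionSet D) (hd : d ∈ D) (hh : h ∈ D) (hO : OddRel d h) {c : G}
    (h1 : c * d = d * c) (h2 : c * (h * d * h) = (h * d * h) * c) : c * h = h * c := by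
  have hc1 : Commute c d := h1
  have hc2 : Commute c (h * d * h) := h2
  have hc3 : Commute c (d * (h * d * h)) := hc1.mul_right hc2
  have e1 : d * (h * d * h) = (d * h) * (d * h) := by group
  rw [e1] at hc3
  obtain ⟨k, hk⟩ := hO.2
  have e2 : d * h = ((d * h) * (d * h)) ^ (k + 1) := by
    have h2' : ((d * h) * (d * h)) ^ (k + 1) = (d * h) ^ (orderOf (d * h)) * (d * h) := by
      rw [hk, ← pow_two, ← pow_mul, ← pow_succ]
      rfl
    rw [h2', pow_orderOf_eq_one, one_mul]
  have hc4 : Commute c (d * h) := by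
    rw [e2]
    exact hc3.pow_right _
  have e3 : h = d * (d * h) := by
    rw [← mul_assoc, sq hD hd, one_mul]
  have hc5 : Commute c (d * (d * h)) := hc1.mul_right hc4
  rw [← e3] at hc5
  exact hc5

/-- Same commuting members give same odd partners. -/
lemma odd_of_same (hD : IsRootInvolutionSet D) (hd : d ∈ D) (he : e ∈ D)
    (hs : commutingMembers D d = commutingMembers D e) (hx : x ∈ D) (hO : OddRel d x) : OddRel e x := by
  have hmem : ∀ {t : G}, t ∈ D → t * e = e * t → t * d = d * t := by
    intro t ht hte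
    have : t ∈ commutingMembers D e := ⟨ht, hte⟩
    rw [← hs] at this
    exact this.2
  have hmem' : ∀ {t : G}, t ∈ D → t * d = d * t → t * e = e * t := by
    intro t ht hte
    have : t ∈ commutingMembers D d := ⟨ht, hte⟩
    rw [hs] at this
    exact this.2
  have hde : d * e = e * d := hmem' hd rfl
  rcases tri hD he hx with h | h | h
  · exact absurd (hmem hx h.symm).symm (not_comm_of_oddRel hD hd hx hO)
  · exact h
  · exfalso
    obtain ⟨a1, a2, a3, a4, a5⟩ := four_facts hD he hx h.1
    have hfD : (e * x) ^ 2 ∈ D := h.2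
    set f := (e * x) ^ 2 with hf
    have hfd : f * d = d * f := hmem hfD a5
    have hτ1 : d * x ≠ 1 := mul_ne_one_of_ne hD hd hO.1
    have hc : (d * x) * f = f * (d * x) := by
      calc (d * x) * f = d * (x * f) := by group
        _ = d * (f * x) := by rw [a4]
        _ = (d * f) * x := by group
        _ = (f * d) * x := by rw [hfd]
        _ = _ := by group
    obtain ⟨-, h8, -⟩ := central_bad hO.2 hτ1 a1 (ne_one hD hfD) hc
    apply h8
    have e1 : (d * x) * f = e * (d * x) * e⁻¹ := by
      rw [inv hD he]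
      calc (d * x) * f = d * (x * f) := by group
        _ = d * (e * x * e) := by rw [a3]
        _ = (d * e) * x * e := by group
        _ = (e * d) * x * e := by rw [hde]
        _ = _ := by group
    rw [e1, order_conj]
    exact hO.2

/-- Same odd partners give commuting. -/
lemma comm_of_same_odd [Finite G] (hD : IsRootInvolutionSet D) (hc : IsConnectedSet (OddAdj D) D)
    (hd : d ∈ D) (he : e ∈ D) (hs : ∀ x ∈ D, OddRel d x ↔ OddRel e x) : d * e = e * d := by
  rcases tri hD he hd with h | h | h
  · exact h.symm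
  · exact absurd rfl ((hs d hd).2 h).1
  · exfalso
    obtain ⟨h', h1, h2, h3, h4⟩ := exists_square hD hc he hd h.1
    have hfD := sq_mem hD he hd h.1
    have h5 := (hs h' h1).2 h4
    obtain ⟨-, -, -, -, b5⟩ := four_facts hD h1 hfD h2
    rw [h3] at b5
    exact not_comm_of_oddRel hD hd h1 h5 b5

/-- Same odd partners give same commuting members, one inclusion. -/
lemma comm_sub_of_same_odd [Finite G] (hD : IsRootInvolutionSet D) (hc : IsConnectedSet (OddAdj D) D)
    (hd : d ∈ D) (he : e ∈ D) (hs : ∀ x ∈ D, OddRel d x ↔ OddRel e x) (hy : y ∈ D) (hyd : y * d = d * y) :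
    y * e = e * y := by
  have hde := comm_of_same_odd hD hc hd he hs
  rcases tri hD he hy with h | h | h
  · exact h.symm
  · exact absurd hyd.symm (not_comm_of_oddRel hD hd hy ((hs y hy).2 h))
  · exfalso
    obtain ⟨h', h1, h2, h3, h4⟩ := exists_square hD hc he hy h.1
    have hfD := sq_mem hD he hy h.1
    have hO := (hs h' h1).2 h4
    obtain ⟨b1, b2, b3, b4, b5⟩ := four_facts hD h1 hfD h2
    rw [h3] at b3 b4 b5
    set f := (e * y) ^ 2 with hf
    have hfd : f * d = d * f := by
      have c1 : Commute d e := hde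
      have c2 : Commute d y := hyd.symm
      have c3 : Commute d (e * y) := c1.mul_right c2
      exact (c3.pow_right 2).symm
    -- `f` centralizes `h' d h'`
    have hcd : (f * y) * d = d * (f * y) := by
      calc (f * y) * d = f * (y * d) := by group
        _ = f * (d * y) := by rw [hyd]
        _ = (f * d) * y := by group
        _ = (d * f) * y := by rw [hfd]
        _ = _ := by group
    have hcd2 : (h' * f * h') * d = d * (h' * f * h') := by rw [b3]; exact hcd
    have hff : f * (h' * d * h') = (h' * d * h') * f := by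
      have hi : h' * h' = 1 := sq hD h1
      have e1 : f = h' * (h' * f * h') * h' := by
        calc f = (h' * h') * f * (h' * h') := by rw [hi]; group
          _ = _ := by group
      rw [e1]
      calc h' * (h' * f * h') * h' * (h' * d * h') = h' * (h' * f * h') * (h' * h') * d * h' := by group
        _ = h' * ((h' * f * h') * d) * h' := by rw [hi]; group
        _ = h' * (d * (h' * f * h')) * h' := by rw [hcd2]
        _ = h' * d * (h' * h') * (h' * f * h') * h' := by rw [hi]; group
        _ = _ := by group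
    have hfh := comm_of_comm_conj hD hd h1 hO hfd hff
    exact not_comm_of_four hD h1 hfD h2 hfh.symm

/-- The union of commuting members and partners of order four is the complement of the odd partners. -/
lemma mem_union_iff (hD : IsRootInvolutionSet D) (hd : d ∈ D) (hx : x ∈ D) :
    x ∈ commutingMembers D d ∪ fourPartners D d ↔ ¬ OddRel d x := by
  constructor
  · rintro (⟨-, h⟩ | ⟨-, h⟩) hO
    · exact not_comm_of_oddRel hD hd hx hO h.symm
    · exact not_odd_of_four h hO.2
  · intro hO
    rcases tri hD hd hx with h | h | h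
    · exact Or.inl ⟨hx, h.symm⟩
    · exact absurd h hO
    · exact Or.inr ⟨hx, h.1⟩

/-- The characterization of the members with the same commuting members. -/
theorem sameCommutingClass_eq [Finite G] (hD : IsRootInvolutionSet D) (hc : IsConnectedSet (OddAdj D) D)
    (hd : d ∈ D) :
    sameCommutingClass D d =
      {e | e ∈ D ∧ commutingMembers D d ∪ fourPartners D d = commutingMembers D e ∪ fourPartners D e} := by
  ext e
  constructor
  · rintro ⟨he, hs⟩
    refine ⟨he, ?_⟩
    ext x
    constructor
    · rintro hx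
      have hxD : x ∈ D := by
        rcases hx with h | h
        · exact h.1
        · exact h.1
      rw [mem_union_iff hD hd hxD] at hx
      rw [mem_union_iff hD he hxD]
      exact fun h => hx (odd_of_same hD he hd hs.symm hxD h)
    · rintro hx
      have hxD : x ∈ D := by
        rcases hx with h | h
        · exact h.1
        · exact h.1
      rw [mem_union_iff hD he hxD] at hx
      rw [mem_union_iff hD hd hxD]
      exact fun h => hx (odd_of_same hD hd he hs hxD h)
  · rintro ⟨he, hs⟩
    refine ⟨he, ?_⟩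
    have hodd : ∀ x ∈ D, OddRel d x ↔ OddRel e x := by
      intro x hx
      have h1 := mem_union_iff hD hd hx
      have h2 := mem_union_iff hD he hx
      rw [hs] at h1
      have := h1.symm.trans h2
      exact not_iff_not.1 this
    ext y
    constructor
    · rintro ⟨hy, h⟩
      exact ⟨hy, comm_sub_of_same_odd hD hc hd he hodd hy h⟩
    · rintro ⟨hy, h⟩
      exact ⟨hy, comm_sub_of_same_odd hD hc he hd (fun x hx => (hodd x hx).symm) hy h⟩

/-- The second statement: a product partner outside the class. -/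
theorem exists_four_three [Finite G] (hD : IsRootInvolutionSet D) (hc : IsConnectedSet (OddAdj D) D)
    (ha : a ∈ D) (hb : b ∈ productPartners D a) (hbE : b ∉ sameCommutingClass D a) :
    ∃ x ∈ fourPartners D b, orderOf (a * x) = 3 := by
  obtain ⟨⟨hbD, hcomm, hne⟩, hu⟩ := hb
  have hu' : a * b ∈ D := by rw [← hcomm]; exact hu
  -- odd partner of `a` which is not one of `b`
  have hex : ∃ x ∈ D, OddRel a x ∧ ¬ OddRel b x := by
    by_contra hno
    push Not at hno
    have hsub : oddSet D a ⊆ oddSet D b := fun x hx => ⟨hx.1, hno x hx.1 hx.2⟩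
    have heq := oddSet_eq_of_subset hD hc ha hbD hsub
    have hodd : ∀ x ∈ D, OddRel a x ↔ OddRel b x := by
      intro x hx
      constructor
      · exact fun h => hno x hx h
      · intro h
        have : x ∈ oddSet D b := ⟨hx, h⟩
        rw [← heq] at this
        exact this.2
    apply hbE
    refine ⟨hbD, ?_⟩
    ext y
    constructor
    · rintro ⟨hy, h⟩
      exact ⟨hy, comm_sub_of_same_odd hD hc ha hbD hodd hy h⟩
    · rintro ⟨hy, h⟩
      exact ⟨hy, comm_sub_of_same_odd hD hc hbD ha (fun x hx => (hodd x hx).symm) hy h⟩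
  obtain ⟨x, hx, hOx, hnO⟩ := hex
  have h4 : orderOf (b * x) = 4 := by
    rcases tri hD hbD hx with h | h | h
    · exact absurd h.symm (star hD ha hbD hu' hcomm.symm hx hOx)
    · exact absurd h hnO
    · exact h.1
  obtain ⟨g, hg1, hg2⟩ := lineFour_surj hD ha hx hOx (y := b) ⟨hbD, hcomm, hu', h4⟩
  have hgD := hg1.1
  have hg4 : orderOf (a * g) = 4 := by
    rw [order_swap hD hgD ha]
    exact hg1.2.2.2
  have hgsq : (a * g) ^ 2 = b := by
    obtain ⟨-, e2, -, -, -⟩ := four_facts hD hgD ha hg1.2.2.2
    rw [e2, hg2]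
  obtain ⟨h', h1, h2, h3, h4'⟩ := exists_square hD hc ha hgD hg4
  rw [hgsq] at h2 h3
  refine ⟨h', ⟨h1, by rw [order_swap hD h1 hbD]; exact h2⟩, ?_⟩
  -- the action on the four group
  obtain ⟨c1, c2, c3⟩ := sq_action hD ha hgD h1 hbD hg4 hgsq h2 h3
  set τ := a * h' with hτ
  have hai : a⁻¹ = a := inv hD ha
  have hhi : h'⁻¹ = h' := inv hD h1
  have hτ3b : (τ * τ * τ) * b = b * (τ * τ * τ) := by
    have e1 : (τ * τ * τ) * b * (τ * τ * τ)⁻¹ = τ * (τ * (τ * b * τ⁻¹) * τ⁻¹) * τ⁻¹ := by group
    rw [c2, c1, c3] at e1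
    calc (τ * τ * τ) * b = ((τ * τ * τ) * b * (τ * τ * τ)⁻¹) * (τ * τ * τ) := by group
      _ = _ := by rw [e1]
  -- `a` inverts `τ`
  have hinv : a * τ * a = τ⁻¹ := by
    rw [hτ, mul_inv_rev, hai, hhi]
    calc a * (a * h') * a = (a * a) * h' * a := by group
      _ = h' * a := by rw [sq hD ha, one_mul]
  obtain ⟨k, hk⟩ := h4'.2
  have hk' : orderOf τ = 2 * k + 1 := hk
  have hτn : τ ^ (2 * k + 1) = 1 := by
    rw [← hk']
    exact pow_orderOf_eq_one τ
  have hpow : ∀ n : ℕ, a * τ ^ n * a = (τ⁻¹) ^ n := by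
    intro n
    induction n with
    | zero => simp [sq hD ha]
    | succ n ih =>
      rw [pow_succ, pow_succ, ← ih, ← hinv]
      calc a * (τ ^ n * τ) * a = a * τ ^ n * (a * a) * τ * a := by rw [sq hD ha]; group
        _ = _ := by group
  by_contra hno
  have hκ : τ * τ * τ ≠ 1 := by
    intro hκ
    apply hno
    have hdvd : orderOf τ ∣ 3 := orderOf_dvd_of_pow_eq_one (by
      rw [← hκ]
      simp only [pow_succ, pow_zero, one_mul])
    have hle : orderOf τ = 1 ∨ orderOf τ = 3 := (Nat.dvd_prime Nat.prime_three).1 hdvd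
    rcases hle with h5 | h5
    · exact absurd (orderOf_eq_one_iff.1 h5) (mul_ne_one_of_ne hD ha h4'.1)
    · exact h5
  -- the involution `w = τ⁻³ a`, conjugate to `a`
  set κ := τ * τ * τ with hκdef
  have hk1 : 1 ≤ k := by
    by_contra hk0
    have : k = 0 := by omega
    rw [this] at hk'
    exact mul_ne_one_of_ne hD ha h4'.1 (orderOf_eq_one_iff.1 hk')
  have hconj : ∀ n : ℕ, τ ^ n * a * (τ ^ n)⁻¹ = τ ^ (2 * n) * a := by
    intro n
    have h6 : a * τ ^ n * a = (τ ^ n)⁻¹ := by rw [hpow n, inv_pow]
    have h7 : a * (τ ^ n)⁻¹ * a = τ ^ n := by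
      rw [← h6]
      calc a * (a * τ ^ n * a) * a = (a * a) * τ ^ n * (a * a) := by group
        _ = τ ^ n := by rw [sq hD ha]; group
    have h8 : a * (τ ^ n)⁻¹ = τ ^ n * a := by
      calc a * (τ ^ n)⁻¹ = a * (τ ^ n)⁻¹ * (a * a) := by rw [sq hD ha, mul_one]
        _ = (a * (τ ^ n)⁻¹ * a) * a := by group
        _ = _ := by rw [h7]
    calc τ ^ n * a * (τ ^ n)⁻¹ = τ ^ n * (a * (τ ^ n)⁻¹) := by group
      _ = τ ^ n * (τ ^ n * a) := by rw [h8]
      _ = _ := by rw [two_mul, pow_add, mul_assoc]
  have hκpow : κ = τ ^ 3 := by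
    rw [hκdef]
    simp only [pow_succ, pow_zero, one_mul]
  have hκinv : κ⁻¹ = τ ^ (2 * (k - 1)) := by
    apply inv_eq_of_mul_eq_one_left
    rw [hκpow, ← pow_add]
    have : 2 * (k - 1) + 3 = 2 * k + 1 := by omega
    rw [this, hτn]
  have hwD : κ⁻¹ * a ∈ D := by
    rw [hκinv, ← hconj]
    exact hD.conj_mem a ha _
  have haw : a * (κ⁻¹ * a) = κ := by
    have h6 : a * κ * a = κ⁻¹ := by
      rw [hκpow, hpow 3, inv_pow]
    have h7 : a * κ⁻¹ * a = κ := by
      rw [← h6]
      calc a * (a * κ * a) * a = (a * a) * κ * (a * a) := by group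
        _ = κ := by rw [sq hD ha]; group
    rw [← mul_assoc]
    exact h7
  have hOw : OddRel a (κ⁻¹ * a) := by
    refine ⟨fun h6 => hκ ?_, ?_⟩
    · rw [← haw, ← h6]
      exact sq hD ha
    · rw [haw, hκpow]
      have h6 : orderOf (τ ^ 3) ∣ orderOf τ := orderOf_pow_dvd 3
      exact Odd.of_dvd_nat h4'.2 h6
  have hwb : (κ⁻¹ * a) * b = b * (κ⁻¹ * a) := by
    have c4 : Commute κ b := hτ3b
    have c5 : Commute a b := hcomm.symm
    exact (c4.inv_left.mul_left c5)
  exact star hD ha hbD hu' hcomm.symm hwD hOw hwb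

end RI

end Cfsg.Agent.H24
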