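import Mathlib
import Cfsg.Agent.Lib.H23.RootLine

/-!
Lines of abstract root subgroups.
-/

set_option autoImplicit false

namespace Cfsg.Agent.H24

open Cfsg Cfsg.Agent.H23

variable {G : Type*} [Group G] {S : Set (Subgroup G)} {A B : Subgroup G}

/-- The key formula, with weaker hypotheses on `C`. -/
lemma line_key' {C : Subgroup G} (hS : IsRootSubgroupSet S) (hA : A ∈ S) (hB : B ∈ S)
    (hr : IsRankOnePair A B) (hCS : C ∈ S) (hAC : Cm A C) (hCA : C ≠ A)
    (hroot : ∀ c ∈ C, ∀ a ∈ A, c * a ≠ 1 → c * a ∈ rootElements S)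
    (hCc : RootCommutatorCase S C B)
    {a b : G} (ha : a ∈ A) (ha1 : a ≠ 1) (hb : b ∈ B) (hb1 : b ≠ 1)
    (he : conjBy A b⁻¹ = conjBy B a⁻¹) {c : G} (hc : c ∈ C) :
    a * cmap c b * a⁻¹ * (cmap c b)⁻¹ = c⁻¹ := by
  have hES : ⁅C, B⁆ ∈ S := hCc.1
  set E := ⁅C, B⁆ with hE
  set t := a * b⁻¹ with ht
  have hBt : conjBy A t = B := by
    rw [ht, conjBy_mul, he, conjBy_conjBy_inv]
  have hCt : conjBy C a = C := conjBy_eq_of_commute (fun f hf => hAC a ha f hf)
  set P := conjBy C t with hP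
  have hBP : Cm B P := by
    have := hAC.conj t
    rwa [hBt] at this
  have hCP : Cm C P := by
    have h1 : Cm C (conjBy C b⁻¹) := cm_conj_self hS hCS hCc hb
    have h2 := h1.conj a
    rw [hCt, conjBy_conjBy] at h2
    exact h2
  have hEP : Cm E P := Cm.commutator_left hCP hBP
  have hid : ∀ c' ∈ C, a * cmap c' b * a⁻¹ = c'⁻¹ * (t * c' * t⁻¹) := by
    intro c' hc'
    have h1 : Commute a c'⁻¹ := Commute.inv_right (hAC a ha c' hc')
    calc a * cmap c' b * a⁻¹ = (a * c'⁻¹) * a⁻¹ * (a * b⁻¹ * c' * b * a⁻¹) := by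
          unfold cmap; group
      _ = (c'⁻¹ * a) * a⁻¹ * (a * b⁻¹ * c' * b * a⁻¹) := by rw [h1.eq]
      _ = _ := by rw [ht]; group
  have hEconj : Cm E (conjBy E a) := by
    intro e he y hy
    rw [mem_conjBy] at hy
    obtain ⟨c', hc', hc'e⟩ := rcc_surj_left hCc hb hb1 hy
    have hy' : y = a * cmap c' b * a⁻¹ := by rw [hc'e]; group
    rw [hy', hid c' hc']
    have h1 : Commute e c'⁻¹ := Commute.inv_right (rcc_cm_left hCc e he c' hc')
    have h2 : Commute e (t * c' * t⁻¹) := hEP e he _ (conj_mem_conjBy hc' t)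
    exact h1.mul_right h2
  have hnr : ¬ IsRankOnePair A E := fun h => not_rank_one_of_cm_conj h ha ha1 hEconj
  have hne : ⁅A, E⁆ ≠ ⊥ := by
    intro hbot
    have hAE : Cm A E := Cm.of_bot hbot
    apply hS.ne_bot E hES
    apply Cm.eq_bot
    intro c' hc' b' hb'
    have h1 : t * c' * t⁻¹ = b⁻¹ * c' * b := by
      have h2 := hid c' hc'
      have h3 : a * cmap c' b * a⁻¹ = cmap c' b := by
        rw [hAE a ha _ (cmap_mem hc' hb)]; group
      rw [h3] at h2
      have h4 : t * c' * t⁻¹ = c' * cmap c' b := by rw [h2]; group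
      rw [h4, conj_eq_mul_cmap]
    have hbb : Commute b b' := cm_self_of_root hS hB b hb b' hb'
    have h5 : Commute (b⁻¹ * c' * b) b' := by
      rw [← h1]
      exact (hBP b' hb' _ (conj_mem_conjBy hc' t)).symm
    have e1 : b * b' * b⁻¹ = b' := by
      rw [hbb.eq]; group
    have h6 := congrArg (fun w => b * w * b⁻¹) h5.eq
    calc c' * b' = c' * (b * b' * b⁻¹) := by rw [e1]
      _ = b * (b⁻¹ * c' * b * b') * b⁻¹ := by group
      _ = b * (b' * (b⁻¹ * c' * b)) * b⁻¹ := h6
      _ = (b * b' * b⁻¹) * c' := by group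
      _ = b' * c' := by rw [e1]
  have h0 : RootCommutatorCase S A E := by
    rcases hS.pair A hA E hES with h | h | h
    · exact absurd h hne
    · exact absurd h hnr
    · exact h
  set e := cmap c b with he'
  have hem : e ∈ E := cmap_mem hc hb
  set q := a * e * a⁻¹ * e⁻¹ with hqd
  have hq : q ∈ ⁅A, E⁆ := comm_mem_commutator ha hem
  suffices hy : c * q = 1 from eq_inv_of_mul_eq_one_right hy
  by_contra hy1
  set y := c * q with hyd
  have hyA : ∀ x ∈ A, Commute y x := fun x hx =>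
    Commute.mul_left (hAC x hx c hc : Commute x c).symm (rcc_cm_left h0 q hq x hx)
  have hyeq : t * c * t⁻¹ = y * e := by
    have h2 := hid c hc
    rw [← he'] at h2
    calc t * c * t⁻¹ = c * (c⁻¹ * (t * c * t⁻¹)) := by group
      _ = c * (a * e * a⁻¹) := by rw [← h2]
      _ = y * e := by rw [hyd, hqd]; group
  have hyB : ∀ x ∈ B, Commute y x := by
    intro x hx
    have h1 : Commute (t * c * t⁻¹) x := (hBP x hx _ (conj_mem_conjBy hc t)).symm
    have h2 : Commute e x := rcc_cm_right hCc e hem x hx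
    have h3 : y = (t * c * t⁻¹) * e⁻¹ := by rw [hyeq]; group
    rw [h3]
    exact h1.mul_left h2.inv_left
  have hzc : y ∈ Subgroup.centralizer ((A ⊔ B : Subgroup G) : Set G) := by
    have hle : A ⊔ B ≤ Subgroup.centralizer ({y} : Set G) := by
      refine sup_le ?_ ?_
      · intro x hx
        rw [Subgroup.mem_centralizer_iff]
        rintro _ rfl
        exact hyA x hx
      · intro x hx
        rw [Subgroup.mem_centralizer_iff]
        rintro _ rfl
        exact hyB x hx
    rw [Subgroup.mem_centralizer_iff]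
    intro x hx
    exact ((Subgroup.mem_centralizer_iff.1 (hle hx)) y rfl).symm
  apply root_z_mul_not_mem hS hA ⟨hB, hr⟩ hzc hy1 a ha ha1
  obtain ⟨s, hs, hss⟩ := rcc_mul_eq_conj h0 ha ha1 hq
  have hsc : Commute s c := rcc_cm_left hCc s hs c hc
  have e2 : y * a = s * (c * a) * s⁻¹ := by
    calc y * a = c * (q * a) := by rw [hyd]; group
      _ = c * (a * q) := by rw [rcc_cm_left h0 q hq a ha]
      _ = (c * s) * a * s⁻¹ := by rw [hss]; group
      _ = (s * c) * a * s⁻¹ := by rw [hsc.eq]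
      _ = _ := by group
  rw [e2]
  have hca1 : c * a ≠ 1 := by
    intro h1
    have hca : c = a⁻¹ := eq_inv_of_mul_eq_one_left h1
    have hinf : A ⊓ C = ⊥ := by
      rcases root_inf_or_eq hS hA hB hr hCS with h3 | h3
      · exact h3
      · exact absurd h3.symm hCA
    have hcA : c ∈ A := by rw [hca]; exact A.inv_mem ha
    have : c ∈ A ⊓ C := ⟨hcA, hc⟩
    rw [hinf] at this
    have hc1 : c = 1 := by simpa using this
    apply ha1
    rw [hc1] at h1
    simpa using h1
  obtain ⟨hne', D, hD, hmem⟩ := hroot c hc a ha hca1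
  exact root_mem_ne_one_conj hmem hne' s (hS.conj_mem D hD s)

/-- Elements of the two members of a rank one pair do not commute. -/
lemma rop_elem_not_comm {P Q : Subgroup G} (h : IsRankOnePair P Q) {p q : G} (hp : p ∈ P) (hp1 : p ≠ 1)
    (hq : q ∈ Q) (hq1 : q ≠ 1) : p * q ≠ q * p := by
  intro hc
  have hm : conjBy Q p ∈ unipotentSubgroups P Q :=
    conj_mem_unipotentSubgroups (rop_right_mem h) (Subgroup.mem_sup_left hp)
  have hne := rop_conj_ne_right h hp hp1
  have h0 := rop_inf_eq_bot_of_mem h hm (rop_right_mem h) hne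
  have h1 : q ∈ conjBy Q p := by
    rw [mem_conjBy]
    have : p⁻¹ * q * p = q := by
      rw [mul_assoc, ← hc]
      group
    rwa [this]
  have h2 : q ∈ conjBy Q p ⊓ Q := ⟨h1, hq⟩
  rw [h0] at h2
  exact hq1 (by simpa using h2)

/-- `⁅A, ⁅C, E⁆⁆ = C`. -/
lemma comm_comm {C E : Subgroup G} (hS : IsRootSubgroupSet S) (hA : A ∈ S) (hE : E ∈ S)
    (hr : IsRankOnePair A E) (hCS : C ∈ S) (hAC : Cm A C) (hCA : C ≠ A)
    (hroot : ∀ c ∈ C, ∀ a ∈ A, c * a ≠ 1 → c * a ∈ rootElements S)
    (hCc : RootCommutatorCase S C E) : ⁅A, ⁅C, E⁆⁆ = C := by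
  apply le_antisymm
  · rw [Subgroup.commutator_le]
    intro a ha f hf
    by_cases ha1 : a = 1
    · subst ha1
      simp [commutatorElement_def]
    obtain ⟨e, he, he1, hrel⟩ := hr.cond_left a ha ha1
    obtain ⟨c, hc, rfl⟩ := rcc_surj_left hCc he he1 hf
    have := line_key' hS hA hE hr hCS hAC hCA hroot hCc ha ha1 he he1 hrel hc
    rw [commutatorElement_def, this]
    exact C.inv_mem hc
  · intro c hc
    obtain ⟨a, ha, ha1⟩ := exists_ne_one_of_ne_bot (rop_left_ne_bot hr)
    obtain ⟨e, he, he1, hrel⟩ := hr.cond_left a ha ha1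
    have := line_key' hS hA hE hr hCS hAC hCA hroot hCc ha ha1 he he1 hrel (C.inv_mem hc)
    rw [inv_inv] at this
    rw [← this]
    exact Subgroup.commutator_mem_commutator ha (cmap_mem (C.inv_mem hc) he)

end Cfsg.Agent.H24
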