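import Mathlib
import Cfsg.Agent.Lib.H24.RootLine2

/-!
Lines of abstract root subgroups: the step.
-/

set_option autoImplicit false

namespace Cfsg.Agent.H24

open Cfsg Cfsg.Agent.H23

variable {G : Type*} [Group G] {S : Set (Subgroup G)} {A B E Z W : Subgroup G}

lemma comm_of_cmap {a b : G} (h : cmap a b = 1) : a * b = b * a := by
  unfold cmap at h
  calc a * b = b * a * (a⁻¹ * b⁻¹ * a * b) := by group
    _ = b * a := by rw [h, mul_one]

lemma cmap_of_comm {a b : G} (h : a * b = b * a) : cmap a b = 1 := by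
  unfold cmap
  rw [mul_assoc, h]
  group

lemma comm_of_cmap_eq {a b f : G} (h : cmap b f = cmap a f) : (b * a⁻¹) * f = f * (b * a⁻¹) := by
  unfold cmap at h
  have h1 : f⁻¹ * b * f = b * (a⁻¹ * f⁻¹ * a * f) := by
    rw [← h]
    group
  calc (b * a⁻¹) * f = f * (f⁻¹ * b * f) * (f⁻¹ * a⁻¹ * f) := by group
    _ = f * (b * (a⁻¹ * f⁻¹ * a * f)) * (f⁻¹ * a⁻¹ * f) := by rw [h1]
    _ = f * (b * a⁻¹) := by group

lemma cmap_eq_of_comm {a b f : G} (h : (b * a⁻¹) * f = f * (b * a⁻¹)) : cmap b f = cmap a f := by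
  unfold cmap
  have h1 : f⁻¹ * (b * a⁻¹) * f = b * a⁻¹ := by
    rw [mul_assoc, h]
    group
  calc b⁻¹ * f⁻¹ * b * f = b⁻¹ * (f⁻¹ * (b * a⁻¹) * f) * (f⁻¹ * a * f) := by group
    _ = b⁻¹ * (b * a⁻¹) * (f⁻¹ * a * f) := by rw [h1]
    _ = a⁻¹ * f⁻¹ * a * f := by group

/-- Context for lines. -/
structure LineCtx (S : Set (Subgroup G)) (A B E : Subgroup G) : Prop where
  hS : IsRootSubgroupSet S
  hall : ∀ X ∈ S, ∃ Y ∈ S, IsRankOnePair X Y
  hA : A ∈ S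
  hE : E ∈ S
  hr : IsRankOnePair A E
  hB : B ∈ linePartners S A

namespace LineCtx

lemma hBS (T : LineCtx S A B E) : B ∈ S := T.hB.1.1

lemma cmAB (T : LineCtx S A B E) : Cm A B := Cm.of_bot T.hB.1.2.2

lemma hp (T : LineCtx S A B E) : IsSubgroupPartition (A ⊔ B) (membersIn S (A ⊔ B)) := T.hB.2

lemma cmM (T : LineCtx S A B E) : Cm (A ⊔ B) (A ⊔ B) :=
  Cm.sup_left (Cm.sup_right (cm_self_of_root T.hS T.hA) T.cmAB)
    (Cm.sup_right T.cmAB.symm (cm_self_of_root T.hS T.hBS))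

lemma eq_of_mem (T : LineCtx S A B E) {P Q : Subgroup G} (hP : P ∈ S) (hQ : Q ∈ S) {x : G}
    (hxP : x ∈ P) (hxQ : x ∈ Q) (hx1 : x ≠ 1) : P = Q := by
  obtain ⟨Y, hY, hr⟩ := T.hall P hP
  rcases root_inf_or_eq T.hS hP hY hr hQ with h | h
  · exfalso
    have : x ∈ P ⊓ Q := ⟨hxP, hxQ⟩
    rw [h] at this
    exact hx1 (by simpa using this)
  · exact h

lemma inf_AB (T : LineCtx S A B E) {x : G} (hxA : x ∈ A) (hxB : x ∈ B) : x = 1 := by
  by_contra hx1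
  exact T.hB.1.2.1 (T.eq_of_mem T.hA T.hBS hxA hxB hx1).symm

lemma root_of_le (T : LineCtx S A B E) {C : Subgroup G} (hC : C ≤ A ⊔ B) :
    ∀ c ∈ C, ∀ a ∈ A, c * a ≠ 1 → c * a ∈ rootElements S := by
  intro c hc a ha h
  exact line_root_element T.hp ((A ⊔ B).mul_mem (hC hc) (Subgroup.mem_sup_left ha)) h

lemma not_comm_E (T : LineCtx S A B E) {z : G} (hz : z ∈ A ⊔ B) (hzA : z ∉ A) :
    ¬ ∀ e ∈ E, z * e = e * z :=
  fun h => line_not_central T.hS T.hA T.hE T.hr T.hp T.cmAB hz hzA h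

lemma inj (T : LineCtx S A B E) {P Q : Subgroup G} (hP : P ∈ S) (h : RootCommutatorCase S P Q)
    {p q : G} (hp : p ∈ P) (hp1 : p ≠ 1) (hq : q ∈ Q) (hpq : p * q = q * p) : q = 1 := by
  obtain ⟨Y, hY, hr⟩ := T.hall P hP
  exact rcc_inj T.hS h hP hY hr hp hp1 hq hpq

lemma comm_of_elem (T : LineCtx S A B E) {P Q : Subgroup G} (hP : P ∈ S) (hQ : Q ∈ S)
    {p q : G} (hp : p ∈ P) (hp1 : p ≠ 1) (hq : q ∈ Q) (hq1 : q ≠ 1) (hpq : p * q = q * p) : Cm P Q := by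
  rcases T.hS.pair P hP Q hQ with h | h | h
  · exact Cm.of_bot h
  · exact absurd hpq (rop_elem_not_comm h hp hp1 hq hq1)
  · exact absurd (T.inj hP h hp hp1 hq hpq) hq1

lemma comm_of_member (T : LineCtx S A B E) (hZ : Z ∈ S) (hZle : Z ≤ A ⊔ B)
    (hZc : RootCommutatorCase S Z E) : RootCommutatorCase S A ⁅Z, E⁆ ∧ ⁅A, ⁅Z, E⁆⁆ = Z := by
  have hZA : Z ≠ A := by
    rintro rfl
    exact not_rank_one_of_comm_mem T.hS hZ T.hE T.hr hZc.1
  have hAC : Cm A Z := (Cm.mono T.cmM le_sup_left hZle)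
  have h1 := comm_comm T.hS T.hA T.hE T.hr hZ hAC hZA (T.root_of_le hZle) hZc
  refine ⟨rcc_of_mem T.hS T.hA hZc.1 (by rw [h1]; exact hZ), h1⟩

/-- The second commutator. -/
lemma B_comm (T : LineCtx S A B E) (hZ : Z ∈ S) (hZle : Z ≤ A ⊔ B) (hZc : RootCommutatorCase S Z E)
    {a b : G} (ha : a ∈ A) (ha1 : a ≠ 1) (hb : b ∈ B) (hb1 : b ≠ 1) (hx : b * a⁻¹ ∈ Z) :
    RootCommutatorCase S B ⁅Z, E⁆ ∧ ⁅B, ⁅Z, E⁆⁆ = Z := by
  obtain ⟨hAF, hAFeq⟩ := T.comm_of_member hZ hZle hZc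
  have hFS : ⁅Z, E⁆ ∈ S := hZc.1
  have hcmZF : Cm ⁅Z, E⁆ Z := rcc_cm_left hZc
  have key : ∀ f ∈ ⁅Z, E⁆, cmap b f = cmap a f := fun f hf =>
    cmap_eq_of_comm (hcmZF f hf _ hx).symm
  have hbM : b ∈ A ⊔ B := Subgroup.mem_sup_right hb
  obtain ⟨f₁, hf₁, hf₁1⟩ := exists_ne_one_of_ne_bot (T.hS.ne_bot _ hFS)
  rcases T.hS.pair B T.hBS _ hFS with h | h | h
  · exfalso
    have h1 : cmap b f₁ = 1 := cmap_of_comm (Cm.of_bot h b hb f₁ hf₁)
    rw [key f₁ hf₁] at h1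
    exact hf₁1 (T.inj T.hA hAF ha ha1 hf₁ (comm_of_cmap h1))
  · exfalso
    obtain ⟨f, hf, hf1, hrel⟩ := h.cond_left b hb hb1
    have h1 : f⁻¹ * b * f ∈ conjBy B f⁻¹ := conj_inv_mem hb f
    rw [hrel] at h1
    have h2 := mem_conj_inv.1 h1
    have hζ : cmap a f ∈ Z := by
      have := cmap_mem (A := A) (B := ⁅Z, E⁆) ha hf
      rwa [hAFeq] at this
    have e1 : f⁻¹ * b * f = b * cmap a f := by
      rw [← key f hf]
      exact conj_eq_mul_cmap b f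
    rw [e1] at h2
    have h3 : b * (b * cmap a f) * b⁻¹ = b * cmap a f := by
      have hc : b * cmap a f = cmap a f * b := T.cmM b hbM _ (hZle hζ)
      calc b * (b * cmap a f) * b⁻¹ = b * (cmap a f * b) * b⁻¹ := by rw [hc]
        _ = b * cmap a f := by group
    rw [h3] at h2
    have h4 := cm_self_of_root T.hS hFS _ h2 f hf
    have h5 := hcmZF f hf _ hζ
    have h6 : b * f = f * b := by
      have : b * f * cmap a f = f * b * cmap a f := by
        calc b * f * cmap a f = b * (f * cmap a f) := by group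
          _ = b * (cmap a f * f) := by rw [h5]
          _ = b * cmap a f * f := by group
          _ = f * (b * cmap a f) := h4
          _ = f * b * cmap a f := by group
      exact mul_right_cancel this
    exact rop_elem_not_comm h hb hb1 hf hf1 h6
  · refine ⟨h, ?_⟩
    have hle : ⁅B, ⁅Z, E⁆⁆ ≤ Z := by
      rw [← h.2.2.1 b hb hb1, Subgroup.closure_le]
      rintro _ ⟨f, hf, rfl⟩
      have e1 : b * f * b⁻¹ * f⁻¹ = (cmap b f⁻¹)⁻¹ := by
        rw [← cmap_inv_left h hb (Subgroup.inv_mem _ hf)]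
        unfold cmap
        group
      show b * f * b⁻¹ * f⁻¹ ∈ Z
      rw [e1, key _ (Subgroup.inv_mem _ hf)]
      apply Z.inv_mem
      have := cmap_mem (A := A) (B := ⁅Z, E⁆) ha (Subgroup.inv_mem _ hf)
      rwa [hAFeq] at this
    obtain ⟨y, hy, hy1⟩ := exists_ne_one_of_ne_bot (T.hS.ne_bot _ h.1)
    exact (T.eq_of_mem hZ h.1 (hle hy) hy hy1).symm

/-- Non-commuting members of a line are in the commutator case with `E`, provided a commuting
member exists. -/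
lemma rcc_of_comm_member (T : LineCtx S A B E) (hZ : Z ∈ S) (hZle : Z ≤ A ⊔ B)
    (hZc : RootCommutatorCase S Z E) (hW : W ∈ S) (hWle : W ≤ A ⊔ B) (hWF : Cm W ⁅Z, E⁆)
    {w e₀ : G} (hw : w ∈ W) (hwA : w ∉ A) (he₀ : e₀ ∈ E) (he₀1 : e₀ ≠ 1) :
    RootCommutatorCase S W E := by
  rcases T.hS.pair W hW E T.hE with h | h | h
  · exact absurd (fun e he => Cm.of_bot h w hw e he) (T.not_comm_E (hWle hw) hwA)
  · exfalso
    have hZW : Cm Z W := Cm.mono T.cmM hZle hWle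
    have hM : W ⊔ conjBy W e₀⁻¹ = W ⊔ E := by
      have hne : conjBy W e₀⁻¹ ≠ W := rop_conj_ne_right (rop_symm h) (E.inv_mem he₀) (inv_ne_one.2 he₀1)
      have hm : conjBy W e₀⁻¹ ∈ unipotentSubgroups W E :=
        conj_mem_unipotentSubgroups (left_mem_unipotentSubgroups W E)
          (Subgroup.mem_sup_right (E.inv_mem he₀))
      exact (rop_of_mem h (left_mem_unipotentSubgroups W E) hm hne.symm).2.1
    have hZW' : Cm Z (conjBy W e₀⁻¹) := by
      intro z hz y hy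
      obtain ⟨w₁, hw₁, rfl⟩ := exists_of_mem_conj_inv hy
      have h1 : e₀ * z * e₀⁻¹ = z * cmap z e₀⁻¹ := by
        have := conj_eq_mul_cmap z e₀⁻¹
        rwa [inv_inv] at this
      have h2 : cmap z e₀⁻¹ ∈ ⁅Z, E⁆ := cmap_mem hz (E.inv_mem he₀)
      have h3 : (e₀ * z * e₀⁻¹) * w₁ = w₁ * (e₀ * z * e₀⁻¹) := by
        rw [h1]
        calc z * cmap z e₀⁻¹ * w₁ = z * (cmap z e₀⁻¹ * w₁) := by group
          _ = z * (w₁ * cmap z e₀⁻¹) := by rw [hWF w₁ hw₁ _ h2]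
          _ = (z * w₁) * cmap z e₀⁻¹ := by group
          _ = (w₁ * z) * cmap z e₀⁻¹ := by rw [hZW z hz w₁ hw₁]
          _ = _ := by group
      calc z * (e₀⁻¹ * w₁ * e₀) = e₀⁻¹ * ((e₀ * z * e₀⁻¹) * w₁) * e₀ := by group
        _ = e₀⁻¹ * (w₁ * (e₀ * z * e₀⁻¹)) * e₀ := by rw [h3]
        _ = _ := by group
    have hZE : Cm Z E := by
      have h1 : Cm Z (W ⊔ conjBy W e₀⁻¹) := Cm.sup_right hZW hZW'
      rw [hM] at h1
      exact h1.mono le_rfl le_sup_right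
    exact T.hS.ne_bot _ hZc.1 hZE.eq_bot
  · exact h

end LineCtx

end Cfsg.Agent.H24
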