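import Mathlib
import Cfsg.Agent.Lib.H24.RootLine3

/-!
Lines of abstract root subgroups: two members in the commutator case with `E` cannot occur.
-/

set_option autoImplicit false

namespace Cfsg.Agent.H24

open Cfsg Cfsg.Agent.H23

variable {G : Type*} [Group G] {S : Set (Subgroup G)} {A B E Z W : Subgroup G}

namespace LineCtx

/-- Relation between the commutators with `E`. -/
lemma star_rel (T : LineCtx S A B E) (hZle : Z ≤ A ⊔ B) (hWle : W ≤ A ⊔ B)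
    (hZc : RootCommutatorCase S Z E) (hWF : Cm W ⁅Z, E⁆)
    (hWcomm : ⁅A, ⁅W, E⁆⁆ = W) (hBcomm : ⁅B, ⁅W, E⁆⁆ = W)
    {z w₁ e : G} (hz : z ∈ Z) (hw₁ : w₁ ∈ W) (he : e ∈ E) :
    (cmap z e) * (cmap w₁ e) =
      ((cmap w₁ e) * z * (cmap w₁ e)⁻¹ * z⁻¹) * (cmap w₁ e) * (cmap z e) ∧
    ((cmap w₁ e) * z * (cmap w₁ e)⁻¹ * z⁻¹) ∈ W := by
  have hφ : cmap z e ∈ ⁅Z, E⁆ := cmap_mem hz he
  have hZW : Cm Z W := Cm.mono T.cmM hZle hWle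
  set φ := cmap z e with hφd
  set φ₂ := cmap w₁ e with hφ₂d
  have hφ₂ : φ₂ ∈ ⁅W, E⁆ := cmap_mem hw₁ he
  -- `τ ∈ W`
  have hτ : φ₂ * z * φ₂⁻¹ * z⁻¹ ∈ W := by
    obtain ⟨a₁, ha₁, b₁, hb₁, hm⟩ := mem_sup_of_commute T.cmAB (hZle hz)
    have hu : φ₂ * a₁ * φ₂⁻¹ * a₁⁻¹ ∈ W := by
      have := comm_mem_commutator' (A := A) (B := ⁅W, E⁆) ha₁ hφ₂
      rwa [hWcomm] at this
    have hv : φ₂ * b₁ * φ₂⁻¹ * b₁⁻¹ ∈ W := by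
      have := comm_mem_commutator' (A := B) (B := ⁅W, E⁆) hb₁ hφ₂
      rwa [hBcomm] at this
    have hc : a₁ * (φ₂ * b₁ * φ₂⁻¹ * b₁⁻¹) = (φ₂ * b₁ * φ₂⁻¹ * b₁⁻¹) * a₁ :=
      T.cmM a₁ (Subgroup.mem_sup_left ha₁) _ (hWle hv)
    have e1 : φ₂ * z * φ₂⁻¹ * z⁻¹ = (φ₂ * a₁ * φ₂⁻¹ * a₁⁻¹) * (φ₂ * b₁ * φ₂⁻¹ * b₁⁻¹) := by
      rw [hm]
      calc φ₂ * (a₁ * b₁) * φ₂⁻¹ * (a₁ * b₁)⁻¹
          = (φ₂ * a₁ * φ₂⁻¹ * a₁⁻¹) * (a₁ * (φ₂ * b₁ * φ₂⁻¹ * b₁⁻¹)) * a₁⁻¹ := by group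
        _ = (φ₂ * a₁ * φ₂⁻¹ * a₁⁻¹) * ((φ₂ * b₁ * φ₂⁻¹ * b₁⁻¹) * a₁) * a₁⁻¹ := by rw [hc]
        _ = _ := by group
    rw [e1]
    exact W.mul_mem hu hv
  refine ⟨?_, hτ⟩
  set τ := φ₂ * z * φ₂⁻¹ * z⁻¹ with hτd
  have h1 : e⁻¹ * z * e = z * φ := conj_eq_mul_cmap z e
  have h2 : e⁻¹ * w₁ * e = w₁ * φ₂ := conj_eq_mul_cmap w₁ e
  have h3 : (z * φ) * (w₁ * φ₂) = (w₁ * φ₂) * (z * φ) := by
    rw [← h1, ← h2]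
    calc e⁻¹ * z * e * (e⁻¹ * w₁ * e) = e⁻¹ * (z * w₁) * e := by group
      _ = e⁻¹ * (w₁ * z) * e := by rw [hZW z hz w₁ hw₁]
      _ = _ := by group
  have hφw : φ * w₁ = w₁ * φ := (hWF w₁ hw₁ φ hφ).symm
  have hzw : z * w₁ = w₁ * z := hZW z hz w₁ hw₁
  have hzτ : z * τ = τ * z := hZW z hz τ hτ
  have h4 : φ₂ * z = τ * z * φ₂ := by
    rw [hτd]
    group
  have h5 : w₁ * (z * (φ * φ₂)) = w₁ * (z * (τ * φ₂ * φ)) := by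
    calc w₁ * (z * (φ * φ₂)) = (w₁ * z) * φ * φ₂ := by group
      _ = (z * w₁) * φ * φ₂ := by rw [hzw]
      _ = z * (w₁ * φ) * φ₂ := by group
      _ = z * (φ * w₁) * φ₂ := by rw [hφw]
      _ = (z * φ) * (w₁ * φ₂) := by group
      _ = (w₁ * φ₂) * (z * φ) := h3
      _ = w₁ * (φ₂ * z) * φ := by group
      _ = w₁ * (τ * z * φ₂) * φ := by rw [h4]
      _ = w₁ * ((τ * z) * φ₂ * φ) := by group
      _ = w₁ * ((z * τ) * φ₂ * φ) := by rw [hzτ]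
      _ = w₁ * (z * (τ * φ₂ * φ)) := by group
  exact mul_left_cancel (mul_left_cancel h5)

/-- The commuting relations. -/
lemma cross_comm (T : LineCtx S A B E) (hZle : Z ≤ A ⊔ B) (hWle : W ≤ A ⊔ B)
    (hZc : RootCommutatorCase S Z E) (hWc : RootCommutatorCase S W E) (hWF : Cm W ⁅Z, E⁆)
    (hAF : RootCommutatorCase S A ⁅Z, E⁆) (hAFeq : ⁅A, ⁅Z, E⁆⁆ = Z)
    (hWcomm : ⁅A, ⁅W, E⁆⁆ = W) (hBcomm : ⁅B, ⁅W, E⁆⁆ = W)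
    {a₀ e₀ : G} (ha₀ : a₀ ∈ A) (ha₀1 : a₀ ≠ 1) (he₀ : e₀ ∈ E) (he₀1 : e₀ ≠ 1) :
    Cm Z ⁅W, E⁆ ∧ Cm ⁅Z, E⁆ ⁅W, E⁆ := by
  have hZW : Cm Z W := Cm.mono T.cmM hZle hWle
  have hAW : Cm A W := Cm.mono T.cmM le_sup_left hWle
  have hWW : Cm W W := Cm.mono T.cmM hWle hWle
  have h1 : Cm Z ⁅W, E⁆ := by
    intro z₁ hz₁ φ₂ hφ₂
    obtain ⟨φ', hφ', hz⟩ := rcc_surj hAF ha₀ ha₀1 (hAFeq.symm ▸ hz₁)
    have hψ : φ'⁻¹ ∈ ⁅Z, E⁆ := Subgroup.inv_mem _ hφ'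
    obtain ⟨z, hz', hzψ⟩ := rcc_surj_left hZc he₀ he₀1 hψ
    obtain ⟨w₁, hw₁, hw₁φ⟩ := rcc_surj_left hWc he₀ he₀1 hφ₂
    obtain ⟨hS₀, hτ⟩ := T.star_rel hZle hWle hZc hWF hWcomm hBcomm hz' hw₁ he₀
    rw [hzψ, hw₁φ] at hS₀
    rw [hw₁φ] at hτ
    set ψ := φ'⁻¹ with hψd
    set τ := φ₂ * z * φ₂⁻¹ * z⁻¹ with hτd
    have ha₀i : a₀⁻¹ ∈ A := A.inv_mem ha₀
    have h3 : a₀⁻¹ * ψ * a₀ = z₁ * ψ := by
      rw [hψd, ← hz]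
      unfold cmap
      group
    have hw₂ : a₀⁻¹ * φ₂ * a₀ * φ₂⁻¹ ∈ W := by
      have := comm_mem_commutator (A := A) (B := ⁅W, E⁆) ha₀i hφ₂
      rw [hWcomm, inv_inv] at this
      exact this
    set w₂ := a₀⁻¹ * φ₂ * a₀ * φ₂⁻¹ with hw₂d
    have h4 : a₀⁻¹ * φ₂ * a₀ = w₂ * φ₂ := by
      rw [hw₂d]
      group
    have h5 : a₀⁻¹ * τ * a₀ = τ := by
      have := hAW a₀⁻¹ ha₀i τ hτ
      rw [this]
      group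
    have e2 : z₁ * ψ * (w₂ * φ₂) = τ * (w₂ * φ₂) * (z₁ * ψ) := by
      calc z₁ * ψ * (w₂ * φ₂) = (a₀⁻¹ * ψ * a₀) * (a₀⁻¹ * φ₂ * a₀) := by rw [h3, h4]
        _ = a₀⁻¹ * (ψ * φ₂) * a₀ := by group
        _ = a₀⁻¹ * (τ * φ₂ * ψ) * a₀ := by rw [hS₀]
        _ = (a₀⁻¹ * τ * a₀) * (a₀⁻¹ * φ₂ * a₀) * (a₀⁻¹ * ψ * a₀) := by group
        _ = τ * (w₂ * φ₂) * (z₁ * ψ) := by rw [h5, h4, h3]
    have c1 : ψ * w₂ = w₂ * ψ := (hWF w₂ hw₂ ψ hψ).symm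
    have c2 : z₁ * w₂ = w₂ * z₁ := hZW z₁ hz₁ w₂ hw₂
    have c3 : τ * w₂ = w₂ * τ := hWW τ hτ w₂ hw₂
    have c4 : z₁ * τ = τ * z₁ := hZW z₁ hz₁ τ hτ
    have e3 : (w₂ * τ) * (z₁ * φ₂) * ψ = (w₂ * τ) * (φ₂ * z₁) * ψ := by
      calc (w₂ * τ) * (z₁ * φ₂) * ψ = w₂ * (τ * z₁) * φ₂ * ψ := by group
        _ = w₂ * (z₁ * τ) * φ₂ * ψ := by rw [c4]
        _ = (w₂ * z₁) * (τ * φ₂ * ψ) := by group
        _ = (z₁ * w₂) * (ψ * φ₂) := by rw [c2, hS₀]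
        _ = z₁ * (w₂ * ψ) * φ₂ := by group
        _ = z₁ * (ψ * w₂) * φ₂ := by rw [c1]
        _ = z₁ * ψ * (w₂ * φ₂) := by group
        _ = τ * (w₂ * φ₂) * (z₁ * ψ) := e2
        _ = (τ * w₂) * φ₂ * z₁ * ψ := by group
        _ = (w₂ * τ) * φ₂ * z₁ * ψ := by rw [c3]
        _ = _ := by group
    exact mul_left_cancel (mul_right_cancel e3)
  refine ⟨h1, ?_⟩
  intro φ hφ φ₂ hφ₂
  obtain ⟨z, hz', hzψ⟩ := rcc_surj_left hZc he₀ he₀1 hφ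
  obtain ⟨w₁, hw₁, hw₁φ⟩ := rcc_surj_left hWc he₀ he₀1 hφ₂
  obtain ⟨hS₀, -⟩ := T.star_rel hZle hWle hZc hWF hWcomm hBcomm hz' hw₁ he₀
  rw [hzψ, hw₁φ] at hS₀
  have h2 : φ₂ * z * φ₂⁻¹ * z⁻¹ = 1 := by
    have := h1 z hz' φ₂ hφ₂
    rw [← this]
    group
  rw [h2, one_mul] at hS₀
  exact hS₀

/-- Two different members in the commutator case with `E` cannot occur in the situation of `B`. -/
theorem two_members_false (T : LineCtx S A B E) (hZ : Z ∈ S) (hZle : Z ≤ A ⊔ B) (hW : W ∈ S)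
    (hWle : W ≤ A ⊔ B) (hZc : RootCommutatorCase S Z E) (hWc : RootCommutatorCase S W E)
    (hWF : Cm W ⁅Z, E⁆) (hne : W ≠ Z)
    {e₀ a₀ b₀ a' b' : G} (he₀ : e₀ ∈ E) (he₀1 : e₀ ≠ 1) (ha₀ : a₀ ∈ A) (ha₀1 : a₀ ≠ 1) (hb₀ : b₀ ∈ B)
    (h1 : conjBy E a₀⁻¹ = conjBy A e₀⁻¹) (h2 : conjBy E b₀⁻¹ = conjBy B e₀⁻¹)
    (hx : b₀ * a₀⁻¹ ∈ Z) (ha' : a' ∈ A) (ha'1 : a' ≠ 1) (hb' : b' ∈ B) (hb'1 : b' ≠ 1)
    (hw : b' * a'⁻¹ ∈ W) (hw1 : b' * a'⁻¹ ≠ 1) : False := by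
  obtain ⟨hAF, hAFeq⟩ := T.comm_of_member hZ hZle hZc
  obtain ⟨hAF₂, hAF₂eq⟩ := T.comm_of_member hW hWle hWc
  obtain ⟨hBF₂, hBF₂eq⟩ := T.B_comm hW hWle hWc ha' ha'1 hb' hb'1 hw
  obtain ⟨cmZF₂, cmFF₂⟩ := T.cross_comm hZle hWle hZc hWc hWF hAF hAFeq hAF₂eq hBF₂eq ha₀ ha₀1 he₀ he₀1
  have hZW : Cm Z W := Cm.mono T.cmM hZle hWle
  have hAW : Cm A W := Cm.mono T.cmM le_sup_left hWle
  have hAZ : Cm A Z := Cm.mono T.cmM le_sup_left hZle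
  have hWW : Cm W W := Cm.mono T.cmM hWle hWle
  have hZZ : Cm Z Z := Cm.mono T.cmM hZle hZle
  have hFZ : Cm ⁅Z, E⁆ Z := rcc_cm_left hZc
  have hF₂W : Cm ⁅W, E⁆ W := rcc_cm_left hWc
  have hFE : Cm ⁅Z, E⁆ E := rcc_cm_right hZc
  have hFF : Cm ⁅Z, E⁆ ⁅Z, E⁆ := cm_self_of_root T.hS hZc.1
  have hF₂F₂ : Cm ⁅W, E⁆ ⁅W, E⁆ := cm_self_of_root T.hS hWc.1
  set w := b' * a'⁻¹ with hwd
  have hb'w : b' = w * a' := by rw [hwd]; group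
  have hm1 : e₀⁻¹ * b' * e₀ ∈ conjBy E b₀⁻¹ := h2 ▸ conj_inv_mem hb' e₀
  obtain ⟨e₁, he₁, h6⟩ := exists_of_mem_conj_inv hm1
  have hm2 : e₀⁻¹ * a' * e₀ ∈ conjBy E a₀⁻¹ := h1 ▸ conj_inv_mem ha' e₀
  obtain ⟨e₂, he₂, h7⟩ := exists_of_mem_conj_inv hm2
  set x := b₀ * a₀⁻¹ with hxd
  have hb₀x : b₀ = x * a₀ := by rw [hxd]; group
  have hφ₁ : cmap e₁ x ∈ ⁅Z, E⁆ := by
    have := cmap_mem he₁ hx
    rwa [Subgroup.commutator_comm] at this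
  have h8 : x⁻¹ * e₁ * x = e₁ * cmap e₁ x := conj_eq_mul_cmap e₁ x
  have hφ₂' : cmap w e₀ ∈ ⁅W, E⁆ := cmap_mem hw he₀
  have h9 : e₀⁻¹ * w * e₀ = w * cmap w e₀ := conj_eq_mul_cmap w e₀
  set φ₁ := cmap e₁ x with hφ₁d
  set φ₂ := cmap w e₀ with hφ₂d
  have h10 : w * φ₂ * (a₀⁻¹ * e₂ * a₀) = a₀⁻¹ * (e₁ * φ₁) * a₀ := by
    rw [← h7, ← h9, ← h8]
    calc e₀⁻¹ * w * e₀ * (e₀⁻¹ * a' * e₀) = e₀⁻¹ * (w * a') * e₀ := by group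
      _ = e₀⁻¹ * b' * e₀ := by rw [← hb'w]
      _ = b₀⁻¹ * e₁ * b₀ := h6
      _ = (x * a₀)⁻¹ * e₁ * (x * a₀) := by rw [← hb₀x]
      _ = _ := by group
  have h11 : a₀ * (w * φ₂) * a₀⁻¹ = e₁ * φ₁ * e₂⁻¹ := by
    have : w * φ₂ = a₀⁻¹ * (e₁ * φ₁) * a₀ * (a₀⁻¹ * e₂ * a₀)⁻¹ := by
      rw [← h10]
      group
    rw [this]
    group
  have h12 : e₁ * φ₁ * e₂⁻¹ = (e₁ * e₂⁻¹) * φ₁ := by
    have := hFE φ₁ hφ₁ e₂⁻¹ (E.inv_mem he₂)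
    rw [mul_assoc, this, mul_assoc]
  have hw3 : a₀ * φ₂ * a₀⁻¹ * φ₂⁻¹ ∈ W := by
    have := comm_mem_commutator (A := A) (B := ⁅W, E⁆) ha₀ hφ₂'
    rwa [hAF₂eq] at this
  set w₃ := a₀ * φ₂ * a₀⁻¹ * φ₂⁻¹ with hw₃d
  have h13 : a₀ * φ₂ * a₀⁻¹ = w₃ * φ₂ := by rw [hw₃d]; group
  have hwa : a₀ * w * a₀⁻¹ = w := by
    rw [hAW a₀ ha₀ w hw]
    group
  have h14 : (e₁ * e₂⁻¹) * φ₁ = w * (w₃ * φ₂) := by
    rw [← h12, ← h11, ← h13]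
    calc a₀ * (w * φ₂) * a₀⁻¹ = (a₀ * w * a₀⁻¹) * (a₀ * φ₂ * a₀⁻¹) := by group
      _ = w * (a₀ * φ₂ * a₀⁻¹) := by rw [hwa]
  set e₃ := e₁ * e₂⁻¹ with he₃d
  have he₃E : e₃ ∈ E := E.mul_mem he₁ (E.inv_mem he₂)
  have he₃eq : e₃ = w * (w₃ * φ₂) * φ₁⁻¹ := by
    rw [← h14]
    group
  have hz5 : a₀ * φ₁ * a₀⁻¹ * φ₁⁻¹ ∈ Z := by
    have := comm_mem_commutator (A := A) (B := ⁅Z, E⁆) ha₀ hφ₁
    rwa [hAFeq] at this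
  set z₅ := a₀ * φ₁ * a₀⁻¹ * φ₁⁻¹ with hz₅d
  have h15 : a₀ * φ₁ * a₀⁻¹ = z₅ * φ₁ := by rw [hz₅d]; group
  have hw3a : a₀ * w₃ * a₀⁻¹ = w₃ := by
    rw [hAW a₀ ha₀ w₃ hw3]
    group
  -- the abelian group
  let P : Subgroup G := W ⊔ Z
  let Q : Subgroup G := ⁅W, E⁆ ⊔ ⁅Z, E⁆
  have hPP : Cm P P := Cm.sup_left (Cm.sup_right hWW hZW.symm) (Cm.sup_right hZW hZZ)
  have hPQ : Cm P Q := Cm.sup_left (Cm.sup_right hF₂W.symm hWF) (Cm.sup_right cmZF₂ hFZ.symm)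
  have hQQ : Cm Q Q := Cm.sup_left (Cm.sup_right hF₂F₂ cmFF₂.symm) (Cm.sup_right cmFF₂ hFF)
  have hTT : Cm (P ⊔ Q) (P ⊔ Q) := Cm.sup_left (Cm.sup_right hPP hPQ) (Cm.sup_right hPQ.symm hQQ)
  have hwT : ∀ u ∈ W, u ∈ P ⊔ Q := fun u hu =>
    Subgroup.mem_sup_left (Subgroup.mem_sup_left hu)
  have hzT : ∀ u ∈ Z, u ∈ P ⊔ Q := fun u hu =>
    Subgroup.mem_sup_left (Subgroup.mem_sup_right hu)
  have hf₂T : ∀ u ∈ ⁅W, E⁆, u ∈ P ⊔ Q := fun u hu =>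
    Subgroup.mem_sup_right (Subgroup.mem_sup_left hu)
  have hfT : ∀ u ∈ ⁅Z, E⁆, u ∈ P ⊔ Q := fun u hu =>
    Subgroup.mem_sup_right (Subgroup.mem_sup_right hu)
  have he₃one : e₃ = 1 := by
    by_contra he₃1
    have he₃T : e₃ ∈ P ⊔ Q := by
      rw [he₃eq]
      exact Subgroup.mul_mem _ (Subgroup.mul_mem _ (hwT w hw)
        (Subgroup.mul_mem _ (hwT w₃ hw3) (hf₂T φ₂ hφ₂'))) (Subgroup.inv_mem _ (hfT φ₁ hφ₁))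
    have hyeq : a₀ * e₃ * a₀⁻¹ = w * (w₃ * (w₃ * φ₂)) * (z₅ * φ₁)⁻¹ := by
      rw [he₃eq]
      calc a₀ * (w * (w₃ * φ₂) * φ₁⁻¹) * a₀⁻¹
          = (a₀ * w * a₀⁻¹) * ((a₀ * w₃ * a₀⁻¹) * (a₀ * φ₂ * a₀⁻¹)) * (a₀ * φ₁ * a₀⁻¹)⁻¹ := by group
        _ = _ := by rw [hwa, hw3a, h13, h15]
    have hyT : a₀ * e₃ * a₀⁻¹ ∈ P ⊔ Q := by
      rw [hyeq]
      exact Subgroup.mul_mem _ (Subgroup.mul_mem _ (hwT w hw) (Subgroup.mul_mem _ (hwT w₃ hw3)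
        (Subgroup.mul_mem _ (hwT w₃ hw3) (hf₂T φ₂ hφ₂')))) (Subgroup.inv_mem _
          (Subgroup.mul_mem _ (hzT z₅ hz5) (hfT φ₁ hφ₁)))
    have hcomm := hTT e₃ he₃T _ hyT
    have hEE' : IsRankOnePair E (conjBy E a₀) := by
      have hm : conjBy E a₀ ∈ unipotentSubgroups A E :=
        conj_mem_unipotentSubgroups (rop_right_mem T.hr) (Subgroup.mem_sup_left ha₀)
      exact (rop_of_mem T.hr (rop_right_mem T.hr) hm (rop_conj_ne_right T.hr ha₀ ha₀1).symm).1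
    refine rop_elem_not_comm hEE' he₃E he₃1 (conj_mem_conjBy he₃E a₀) ?_ hcomm
    intro h
    apply he₃1
    have : e₃ = a₀⁻¹ * (a₀ * e₃ * a₀⁻¹) * a₀ := by group
    rw [this, h]
    group
  rw [he₃one, one_mul] at h14
  -- `φ₁ = w w₃ φ₂`
  have hfin : a₀ * φ₁ * a₀⁻¹ * φ₁⁻¹ = w₃ := by
    have c1 : w * w₃ = w₃ * w := hWW w hw w₃ hw3
    rw [h14]
    calc a₀ * (w * (w₃ * φ₂)) * a₀⁻¹ * (w * (w₃ * φ₂))⁻¹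
        = (a₀ * w * a₀⁻¹) * ((a₀ * w₃ * a₀⁻¹) * (a₀ * φ₂ * a₀⁻¹)) * (w * (w₃ * φ₂))⁻¹ := by group
      _ = w * (w₃ * (w₃ * φ₂)) * (w * (w₃ * φ₂))⁻¹ := by rw [hwa, hw3a, h13]
      _ = w * w₃ * w⁻¹ := by group
      _ = w₃ * w * w⁻¹ := by rw [c1]
      _ = w₃ := by group
  have hw₃Z : w₃ ∈ Z := by
    rw [← hfin]
    exact hz5
  have hw₃1 : w₃ = 1 := by
    by_contra h
    exact hne (T.eq_of_mem hW hZ hw3 hw₃Z h)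
  have hcφ : a₀ * φ₂ = φ₂ * a₀ := by
    have : a₀ * φ₂ * a₀⁻¹ = φ₂ := by rw [h13, hw₃1, one_mul]
    exact mul_inv_eq_iff_eq_mul.1 this
  have hφ₂1 : φ₂ = 1 := T.inj T.hA hAF₂ ha₀ ha₀1 hφ₂' hcφ
  exact he₀1 (T.inj hW hWc hw hw1 he₀ (comm_of_cmap hφ₂1))

/-- Case 2: `B ≤ A ⊔ Z`. -/
theorem le_sup_case2 (T : LineCtx S A B E) (hBE : IsRankOnePair B E) (hZ : Z ∈ S) (hZle : Z ≤ A ⊔ B)
    (hZc : RootCommutatorCase S Z E)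
    {e₀ a₀ b₀ : G} (he₀ : e₀ ∈ E) (he₀1 : e₀ ≠ 1) (ha₀ : a₀ ∈ A) (ha₀1 : a₀ ≠ 1) (hb₀ : b₀ ∈ B)
    (hb₀1 : b₀ ≠ 1)
    (h1 : conjBy E a₀⁻¹ = conjBy A e₀⁻¹) (h2 : conjBy E b₀⁻¹ = conjBy B e₀⁻¹)
    (hx : b₀ * a₀⁻¹ ∈ Z) : B ≤ A ⊔ Z := by
  obtain ⟨hAF, hAFeq⟩ := T.comm_of_member hZ hZle hZc
  obtain ⟨hBF, hBFeq⟩ := T.B_comm hZ hZle hZc ha₀ ha₀1 hb₀ hb₀1 hx
  intro b' hb'
  by_cases hb'1 : b' = 1
  · rw [hb'1]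
    exact Subgroup.one_mem _
  obtain ⟨f₀, hf₀, hf₀1⟩ := exists_ne_one_of_ne_bot (T.hS.ne_bot _ hZc.1)
  have hζ : cmap b' f₀ ∈ ⁅A, ⁅Z, E⁆⁆ := by
    have := cmap_mem hb' hf₀
    rwa [hBFeq, ← hAFeq] at this
  obtain ⟨a', ha', ha'eq⟩ := rcc_surj_left hAF hf₀ hf₀1 hζ
  have hcomm : (b' * a'⁻¹) * f₀ = f₀ * (b' * a'⁻¹) := comm_of_cmap_eq ha'eq.symm
  have hb'A : b' ∉ A := fun h => hb'1 (T.inf_AB h hb')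
  have hw1 : b' * a'⁻¹ ≠ 1 := by
    intro h
    apply hb'A
    have : b' = a' := by
      have := mul_inv_eq_one.1 h
      exact this
    rw [this]
    exact ha'
  have hwM : b' * a'⁻¹ ∈ A ⊔ B :=
    Subgroup.mul_mem _ (Subgroup.mem_sup_right hb') (Subgroup.inv_mem _ (Subgroup.mem_sup_left ha'))
  have hwA : b' * a'⁻¹ ∉ A := by
    intro h
    apply hb'A
    have := A.mul_mem h ha'
    simpa using this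
  obtain ⟨W', hW', hwW⟩ := T.hp.2.1 _ hwM hw1
  have hWS : W' ∈ S := hW'.1
  have hWle : W' ≤ A ⊔ B := hW'.2
  have hWF : Cm W' ⁅Z, E⁆ := T.comm_of_elem hWS hZc.1 hwW hw1 hf₀ hf₀1 hcomm
  have hWc := T.rcc_of_comm_member hZ hZle hZc hWS hWle hWF hwW hwA he₀ he₀1
  have ha'1 : a' ≠ 1 := by
    rintro rfl
    have h3 : W' = B := by
      have e0 : b' * (1 : G)⁻¹ = b' := by group
      rw [e0] at hwW hw1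
      exact T.eq_of_mem hWS T.hBS hwW hb' hw1
    rw [h3] at hWc
    exact not_rank_one_of_comm_mem T.hS T.hBS T.hE hBE hWc.1
  have hWZ : W' = Z := by
    by_contra hne
    exact T.two_members_false hZ hZle hWS hWle hZc hWc hWF hne he₀ he₀1 ha₀ ha₀1 hb₀ h1 h2 hx ha' ha'1 hb' hb'1 hwW hw1
  rw [hWZ] at hwW
  have e0 : b' = (b' * a'⁻¹) * a' := by group
  rw [e0]
  have hcm : (b' * a'⁻¹) * a' = a' * (b' * a'⁻¹) :=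
    (T.cmM a' (Subgroup.mem_sup_left ha') _ hwM).symm
  rw [hcm]
  exact Subgroup.mul_mem _ (Subgroup.mem_sup_left ha') (Subgroup.mem_sup_right hwW)

/-- The step: a line partner gives a member with the commutator relation. -/
theorem line_step (T : LineCtx S A B E) :
    ∃ Z ∈ S, Z ≤ A ⊔ B ∧ ∃ F ∈ S, RootCommutatorCase S A F ∧ ⁅A, F⁆ = Z ∧ A ⊔ Z = A ⊔ B := by
  obtain ⟨b, hb, hb1⟩ := exists_ne_one_of_ne_bot (T.hS.ne_bot B T.hBS)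
  have hbA : b ∉ A := fun h => hb1 (T.inf_AB h hb)
  rcases T.hS.pair B T.hBS E T.hE with h | h | h
  · exact absurd (fun e he => Cm.of_bot h b hb e he) (T.not_comm_E (Subgroup.mem_sup_right hb) hbA)
  · -- rank one
    obtain ⟨e₀, he₀, he₀1⟩ := exists_ne_one_of_ne_bot (rop_right_ne_bot h)
    obtain ⟨a₀, ha₀, ha₀1, h1⟩ := T.hr.cond_right e₀ he₀ he₀1
    obtain ⟨b₀, hb₀, hb₀1, h2⟩ := h.cond_right e₀ he₀ he₀1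
    have hb₀A : b₀ ∉ A := fun h => hb₀1 (T.inf_AB h hb₀)
    have hxM : b₀ * a₀⁻¹ ∈ A ⊔ B :=
      Subgroup.mul_mem _ (Subgroup.mem_sup_right hb₀) (Subgroup.inv_mem _ (Subgroup.mem_sup_left ha₀))
    have hx1 : b₀ * a₀⁻¹ ≠ 1 := by
      intro h'
      apply hb₀A
      have : b₀ = a₀ := mul_inv_eq_one.1 h'
      rw [this]
      exact ha₀
    have hxA : b₀ * a₀⁻¹ ∉ A := by
      intro h'
      apply hb₀A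
      have := A.mul_mem h' ha₀
      simpa using this
    -- `E^x` commutes with `E`
    have hcm : Cm (conjBy E (b₀ * a₀⁻¹)) E := by
      have h3 := Cm.conj (T.cmAB) e₀⁻¹
      rw [← h1, ← h2] at h3
      have h4 := Cm.conj h3 b₀
      rw [conjBy_conjBy, conjBy_conjBy] at h4
      have e0 : b₀ * b₀⁻¹ = 1 := by group
      rw [e0] at h4
      have e1 : conjBy E 1 = E := by
        ext y
        simp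
      rwa [e1] at h4
    obtain ⟨Z, hZ', hxZ⟩ := T.hp.2.1 _ hxM hx1
    have hZ : Z ∈ S := hZ'.1
    have hZle : Z ≤ A ⊔ B := hZ'.2
    have hZc : RootCommutatorCase S Z E := by
      rcases T.hS.pair Z hZ E T.hE with h3 | h3 | h3
      · exact absurd (fun e he => Cm.of_bot h3 _ hxZ e he) (T.not_comm_E hxM hxA)
      · exfalso
        have hm : conjBy E (b₀ * a₀⁻¹) ∈ unipotentSubgroups Z E :=
          conj_mem_unipotentSubgroups (rop_right_mem h3) (Subgroup.mem_sup_left hxZ)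
        have h5 := (rop_of_mem h3 hm (rop_right_mem h3) (rop_conj_ne_right h3 hxZ hx1)).1
        exact rop_not_cm h5 hcm
      · exact h3
    obtain ⟨hAF, hAFeq⟩ := T.comm_of_member hZ hZle hZc
    refine ⟨Z, hZ, hZle, _, hZc.1, hAF, hAFeq, ?_⟩
    refine le_antisymm (sup_le le_sup_left hZle) (sup_le le_sup_left ?_)
    exact T.le_sup_case2 h hZ hZle hZc he₀ he₀1 ha₀ ha₀1 hb₀ hb₀1 h1 h2 hxZ
  · obtain ⟨hAF, hAFeq⟩ := T.comm_of_member T.hBS le_sup_right h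
    exact ⟨B, T.hBS, le_sup_right, _, h.1, hAF, hAFeq, rfl⟩

end LineCtx

end Cfsg.Agent.H24
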