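import Mathlib
import Cfsg.Agent.Lib.H24.RootLine4

/-!
Double transitivity on lines of abstract root subgroups (S5038).
-/

set_option autoImplicit false

namespace Cfsg.Agent.H24

open Cfsg Cfsg.Agent.H23

variable {G : Type*} [Group G] {S : Set (Subgroup G)}

/-- An element of `F` fixing `P` in the commutator case is trivial. -/
lemma rcc_conj_ne {P F : Subgroup G} (hS : IsRootSubgroupSet S) (hP : P ∈ S) {E : Subgroup G} (hE : E ∈ S)
    (hr : IsRankOnePair P E) (h : RootCommutatorCase S P F) {f : G} (hf : f ∈ F) (hf1 : f ≠ 1) :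
    conjBy P f ≠ P := by
  intro hc
  obtain ⟨a, ha, ha1⟩ := exists_ne_one_of_ne_bot (hS.ne_bot P hP)
  have h1 : f⁻¹ * a * f ∈ P := by
    have h2 : f⁻¹ * a * f ∈ conjBy P f⁻¹ := conj_inv_mem ha f
    have h3 : conjBy P f⁻¹ = P := by
      conv_lhs => rw [← hc]
      exact conjBy_inv_conjBy P f
    rwa [h3] at h2
  have h2 : cmap a f ∈ P := by
    have := P.mul_mem (P.inv_mem ha) h1
    have e : a⁻¹ * (f⁻¹ * a * f) = cmap a f := by
      unfold cmap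
      group
    rwa [e] at this
  have h3 : cmap a f ∈ ⁅P, F⁆ := cmap_mem ha hf
  have h4 : cmap a f = 1 := by
    by_contra hne
    rcases root_inf_or_eq hS hP hE hr h.1 with h5 | h5
    · have : cmap a f ∈ P ⊓ ⁅P, F⁆ := ⟨h2, h3⟩
      rw [h5] at this
      exact hne (by simpa using this)
    · exact rcc_left_ne hS h h5
  exact hf1 (rcc_inj hS h hP hE hr ha ha1 hf (comm_of_cmap h4))

/-- The data attached to a commutator relation inside a line. -/
structure LineData (S : Set (Subgroup G)) (M P F Q : Subgroup G) : Prop where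
  hS : IsRootSubgroupSet S
  hP : P ∈ S
  hF : F ∈ S
  hQ : Q ∈ S
  hc : RootCommutatorCase S P F
  heq : ⁅P, F⁆ = Q
  hsup : P ⊔ Q = M
  hpart : ∃ E ∈ S, IsRankOnePair P E

namespace LineData

variable {M P F Q : Subgroup G}

lemma fix (T : LineData S M P F Q) {f : G} (hf : f ∈ F) : conjBy Q f = Q := by
  refine conjBy_eq_of_commute (fun c hc => ?_)
  have h := rcc_central T.hc (T.heq.symm ▸ hc) (Subgroup.mem_sup_right hf)
  exact h.symm

lemma normal (T : LineData S M P F Q) : F ≤ Subgroup.normalizer (M : Set G) := by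
  have hle : ∀ f ∈ F, conjBy M f ≤ M := by
    intro f hf
    rw [← T.hsup, conjBy_sup, T.fix hf]
    refine sup_le ?_ le_sup_right
    have := conj_le_sup_comm (A := P) (B := F) hf
    rwa [T.heq] at this
  intro f hf
  rw [mem_normalizer_iff_conjBy]
  apply le_antisymm (hle f hf)
  have h1 := conjBy_le (hle f⁻¹ (F.inv_mem hf)) f
  rwa [conjBy_conjBy_inv] at h1

lemma members (T : LineData S M P F Q) : membersIn S M = (fun b : G => conjBy P b) '' (F : Set G) ∪ {Q} := by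
  obtain ⟨E, hE, hr⟩ := T.hpart
  have := rcc_members T.hS T.hc T.hP hE hr
  rwa [T.heq, T.hsup] at this

lemma moves (T : LineData S M P F Q) {f : G} (hf : f ∈ F) (hf1 : f ≠ 1) {f₁ : G} (hf₁ : f₁ ∈ F) :
    conjBy (conjBy P f₁) f ≠ conjBy P f₁ := by
  intro hc
  obtain ⟨E, hE, hr⟩ := T.hpart
  apply rcc_conj_ne T.hS T.hP hE hr T.hc hf hf1
  have hab : f * f₁ = f₁ * f := cm_self_of_root T.hS T.hF f hf f₁ hf₁
  rw [conjBy_conjBy, hab, conjBy_mul] at hc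
  exact conjBy_injective f₁ hc

end LineData

/-- S5038. -/
theorem root_line_two_trans (hS : IsRootSubgroupSet S)
    (hF : ∀ A ∈ S, ¬ IsIsolatedIn (FAdj S) S A) {A B : Subgroup G} (hA : A ∈ S) (hB : B ∈ linePartners S A) :
    ∀ C₁ ∈ membersIn S (A ⊔ B), ∀ C₂ ∈ membersIn S (A ⊔ B), ∀ D₁ ∈ membersIn S (A ⊔ B),
      ∀ D₂ ∈ membersIn S (A ⊔ B), C₁ ≠ C₂ → D₁ ≠ D₂ →
        ∃ x ∈ ⨆ E ∈ normalizingMembers S (A ⊔ B), E, conjBy C₁ x = D₁ ∧ conjBy C₂ x = D₂ := by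
  have hall : ∀ X ∈ S, ∃ Y ∈ S, IsRankOnePair X Y := fun X hX => exists_partner hX (hF X hX)
  obtain ⟨E, hE, hr⟩ := hall A hA
  have T : LineCtx S A B E := ⟨hS, hall, hA, hE, hr, hB⟩
  obtain ⟨Z, hZS, hZle, F, hFS, hAF, hAFeq, hsup⟩ := T.line_step
  have hZA : Z ≠ A := by
    intro h
    apply rcc_left_ne hS hAF
    rw [hAFeq, h]
  have hAZ : Cm Z A := Cm.mono T.cmM hZle le_sup_left
  have hsup' : Z ⊔ A = A ⊔ B := by rw [sup_comm, hsup]
  have hLine : A ∈ linePartners S Z := by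
    refine ⟨⟨hA, hZA.symm, hAZ.eq_bot⟩, ?_⟩
    rw [hsup']
    exact T.hp
  obtain ⟨E', hE', hr'⟩ := hall Z hZS
  have T2 : LineCtx S Z A E' := ⟨hS, hall, hZS, hE', hr', hLine⟩
  obtain ⟨Z', hZ'S, hZ'le, F', hF'S, hZF', hZF'eq, hsup2⟩ := T2.line_step
  have hZ'Z : Z' ≠ Z := by
    intro h
    apply rcc_left_ne hS hZF'
    rw [hZF'eq, h]
  have D1 : LineData S (A ⊔ B) A F Z := ⟨hS, hA, hFS, hZS, hAF, hAFeq, hsup, ⟨E, hE, hr⟩⟩
  have D2 : LineData S (A ⊔ B) Z F' Z' := ⟨hS, hZS, hF'S, hZ'S, hZF', hZF'eq, hsup2.trans hsup', ⟨E', hE', hr'⟩⟩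
  set H : Subgroup G := ⨆ E ∈ normalizingMembers S (A ⊔ B), E with hH
  have hFH : F ≤ H := le_iSup₂_of_le F ⟨hFS, D1.normal⟩ le_rfl
  have hF'H : F' ≤ H := le_iSup₂_of_le F' ⟨hF'S, D2.normal⟩ le_rfl
  have hHM : H ≤ Subgroup.normalizer ((A ⊔ B : Subgroup G) : Set G) := iSup₂_le (fun E hE => hE.2)
  have hmem : ∀ x ∈ H, ∀ C ∈ membersIn S (A ⊔ B), conjBy C x ∈ membersIn S (A ⊔ B) := by
    intro x hx C hC
    refine ⟨hS.conj_mem C hC.1 x, ?_⟩
    have h1 := conjBy_le hC.2 x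
    rwa [mem_normalizer_iff_conjBy.1 (hHM hx)] at h1
  -- every member can be moved to `Z`
  have hmove : ∀ C ∈ membersIn S (A ⊔ B), ∃ h ∈ H, conjBy C h = Z := by
    intro C hC
    have hC' := hC
    rw [D2.members] at hC'
    rcases hC' with ⟨f', hf', rfl⟩ | hC'
    · exact ⟨f'⁻¹, H.inv_mem (hF'H hf'), conjBy_inv_conjBy _ _⟩
    · rw [Set.mem_singleton_iff] at hC'
      subst hC'
      have hC2 := hC
      rw [D1.members] at hC2
      rcases hC2 with ⟨f₁, hf₁, hf₁eq⟩ | hC2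
      · simp only at hf₁eq
        obtain ⟨f, hf, hf1⟩ := exists_ne_one_of_ne_bot (hS.ne_bot F hFS)
        have hne : conjBy C f ≠ C := by
          rw [← hf₁eq]
          exact D1.moves hf hf1 hf₁
        have hm : conjBy C f ∈ membersIn S (A ⊔ B) := hmem f (hFH hf) C hC
        rw [D2.members] at hm
        rcases hm with ⟨f', hf', hfeq⟩ | hm
        · simp only at hfeq
          refine ⟨f'⁻¹ * f, H.mul_mem (H.inv_mem (hF'H hf')) (hFH hf), ?_⟩
          rw [conjBy_mul, ← hfeq, conjBy_inv_conjBy]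
        · exact absurd hm hne
      · exact absurd hC2 hZ'Z
  intro C₁ hC₁ C₂ hC₂ D₁ hD₁ D₂ hD₂ hC hD
  obtain ⟨h₁, hh₁, he₁⟩ := hmove C₁ hC₁
  obtain ⟨h₂, hh₂, he₂⟩ := hmove D₁ hD₁
  have hPm := hmem h₁ hh₁ C₂ hC₂
  have hQm := hmem h₂ hh₂ D₂ hD₂
  have hPne : conjBy C₂ h₁ ≠ Z := by
    rw [← he₁]
    exact fun h => hC (conjBy_injective h₁ h).symm
  have hQne : conjBy D₂ h₂ ≠ Z := by
    rw [← he₂]
    exact fun h => hD (conjBy_injective h₂ h).symm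
  rw [D1.members] at hPm hQm
  obtain ⟨fP, hfP, hfPe⟩ := hPm.resolve_right hPne
  obtain ⟨fQ, hfQ, hfQe⟩ := hQm.resolve_right hQne
  simp only at hfPe hfQe
  refine ⟨h₂⁻¹ * (fQ * fP⁻¹) * h₁, H.mul_mem (H.mul_mem (H.inv_mem hh₂)
    (H.mul_mem (hFH hfQ) (H.inv_mem (hFH hfP)))) hh₁, ?_, ?_⟩
  · rw [conjBy_mul, conjBy_mul, he₁, D1.fix (F.mul_mem hfQ (F.inv_mem hfP)), ← he₂, conjBy_inv_conjBy]
  · rw [conjBy_mul, ← hfPe, conjBy_mul, conjBy_conjBy A (fQ * fP⁻¹) fP]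
    have e : fQ * fP⁻¹ * fP = fQ := by group
    rw [e, hfQe, conjBy_inv_conjBy]

end Cfsg.Agent.H24
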