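import Mathlib
import Cfsg.Agent.Lib.H23.RootTriple
import Cfsg.Agent.Lib.H23.RootLine

/-!
Configurations `⁅A, B⁆ = C`, `⁅C, D⁆ = A` of abstract root subgroups.
-/

set_option autoImplicit false

namespace Cfsg.Agent.H24

open Cfsg Cfsg.Agent.H23

variable {G : Type*} [Group G] {S : Set (Subgroup G)} {A B C D : Subgroup G}

/-- The configuration: `⁅A, B⁆ = C`, `⁅C, D⁆ = A`. -/
structure RootSq (S : Set (Subgroup G)) (A B C D : Subgroup G) : Prop where
  hS : IsRootSubgroupSet S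
  hA : A ∈ S
  hB : B ∈ S
  hC : C ∈ S
  hD : D ∈ S
  h1 : RootCommutatorCase S A B
  h2 : RootCommutatorCase S C D
  e1 : ⁅A, B⁆ = C
  e2 : ⁅C, D⁆ = A

namespace RootSq

lemma swap (T : RootSq S A B C D) : RootSq S C D A B :=
  ⟨T.hS, T.hC, T.hD, T.hA, T.hB, T.h2, T.h1, T.e2, T.e1⟩

lemma cm_AC (T : RootSq S A B C D) : Cm A C := by
  intro a ha c hc
  exact rcc_left_comm T.h1 ha (T.e1.symm ▸ hc)

lemma cm_CB (T : RootSq S A B C D) : Cm C B := by
  intro c hc b hb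
  have h := rcc_central T.h1 (T.e1.symm ▸ hc) (Subgroup.mem_sup_right hb)
  exact h

lemma cm_AD (T : RootSq S A B C D) : Cm A D := T.swap.cm_CB

lemma eq_one_of_forall (T : RootSq S A B C D) {a : G} (ha : a ∈ A) (hc : ∀ b ∈ B, a * b = b * a) : a = 1 := by
  by_contra ha1
  have h3 := T.h1.2.2.1 a ha ha1
  have h4 : Subgroup.closure ((fun b : G => a * b * a⁻¹ * b⁻¹) '' (B : Set G)) = ⊥ := by
    rw [Subgroup.closure_eq_bot_iff]
    rintro _ ⟨b, hb, rfl⟩
    show a * b * a⁻¹ * b⁻¹ = 1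
    rw [hc b hb]
    group
  rw [h4, T.e1] at h3
  exact T.hS.ne_bot C T.hC h3.symm

lemma inf_eq (T : RootSq S A B C D) : A ⊓ C = ⊥ := by
  rw [eq_bot_iff]
  rintro x ⟨hxA, hxC⟩
  exact T.eq_one_of_forall hxA (fun b hb => T.cm_CB x hxC b hb)

lemma not_nilpotent (T : RootSq S A B C D) : ¬ Group.IsNilpotent ↥(A ⊔ B ⊔ D) := by
  intro hnil
  set Y : Subgroup G := A ⊔ B ⊔ D with hY
  have hAY : A ≤ Y := le_sup_left.trans le_sup_left
  have hBY : B ≤ Y := le_sup_right.trans le_sup_left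
  have hDY : D ≤ Y := le_sup_right
  have hCY : C ≤ Y := by
    rw [← T.e1]
    exact (commutator_le_sup).trans (sup_le hAY hBY)
  have hlcs : ∀ n, A ≤ Y.lowerCentralSeries n ∧ C ≤ Y.lowerCentralSeries n := by
    intro n
    induction n with
    | zero => exact ⟨hAY, hCY⟩
    | succ n ih =>
      rw [Subgroup.lowerCentralSeries_succ]
      constructor
      · conv_lhs => rw [← T.e2]
        exact Subgroup.commutator_mono ih.2 hDY
      · conv_lhs => rw [← T.e1]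
        exact Subgroup.commutator_mono ih.1 hBY
  obtain ⟨n, hn⟩ := (Subgroup.isNilpotent_iff_lowerCentralSeries Y).1 hnil
  have h3 := (hlcs n).1
  rw [hn] at h3
  exact T.hS.ne_bot A T.hA (le_bot_iff.1 h3)

/-- `B, D` is a rank one pair. -/
lemma rop (T : RootSq S A B C D) : IsRankOnePair B D := by
  rcases T.hS.pair B T.hB D T.hD with h | h | h
  · exfalso
    have h1 : Cm C D := by
      rw [← T.e1]
      exact Cm.commutator_left T.cm_AD (Cm.of_bot h)
    have h2 := h1.eq_bot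
    rw [T.e2] at h2
    exact T.hS.ne_bot A T.hA h2
  · exact h
  · exfalso
    obtain ⟨b, hb, hb1⟩ := exists_ne_one_of_ne_bot (T.hS.ne_bot B T.hB)
    have hDB : RootCommutatorCase S D B :=
      rcc_of_mem T.hS T.hD T.hB (by rw [Subgroup.commutator_comm]; exact h.1)
    have T' : RootTriple S A B D := ⟨T.hS, T.hA, T.hB, T.hD, T.h1, hDB, T.cm_AD⟩
    exact T.not_nilpotent (T'.nilpotent hb hb1)

/-- The key identity of the configuration. -/
lemma key (T : RootSq S A B C D) {b d a : G} (hb : b ∈ B) (hd : d ∈ D)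
    (hbd : conjBy B d⁻¹ = conjBy D b⁻¹) (ha : a ∈ A) : cmap (cmap a b) d⁻¹ = a⁻¹ := by
  have hc : cmap a b ∈ C := T.e1 ▸ cmap_mem ha hb
  have hdi : d⁻¹ ∈ D := D.inv_mem hd
  have he : cmap (cmap a b) d⁻¹ ∈ A := T.e2 ▸ cmap_mem hc hdi
  set c := cmap a b with hcdef
  set e := cmap c d⁻¹ with hedef
  have hy : a * e ∈ A := A.mul_mem ha he
  have hone := T.eq_one_of_forall hy ?_
  · exact eq_inv_of_mul_eq_one_right hone
  intro b₁ hb₁
  -- `x = m⁻¹ a m`, `m = b d⁻¹`.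
  have hδ : b * (d⁻¹ * b₁ * d) * b⁻¹ ∈ D := by
    have h1 : d⁻¹ * b₁ * d ∈ conjBy B d⁻¹ := conj_inv_mem hb₁ d
    rw [hbd] at h1
    exact mem_conj_inv.1 h1
  have hcomm := T.cm_AD a ha _ hδ
  have hx : d * (b⁻¹ * a * b) * d⁻¹ = (a * e) * c := by
    have h1 : b⁻¹ * a * b = a * c := conj_eq_mul_cmap a b
    have h2 : d⁻¹⁻¹ * c * d⁻¹ = c * e := conj_eq_mul_cmap c d⁻¹
    rw [inv_inv] at h2
    have h3 : d * a = a * d := (T.cm_AD a ha d hd).symm
    rw [h1]
    calc d * (a * c) * d⁻¹ = (d * a) * c * d⁻¹ := by group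
      _ = a * (d * c * d⁻¹) := by rw [h3]; group
      _ = a * (c * e) := by rw [h2]
      _ = a * e * c := by rw [← T.cm_AC e he c hc, mul_assoc]
  have hxb : (a * e) * c * b₁ = b₁ * ((a * e) * c) := by
    rw [← hx]
    calc d * (b⁻¹ * a * b) * d⁻¹ * b₁ = d * b⁻¹ * (a * (b * (d⁻¹ * b₁ * d) * b⁻¹)) * b * d⁻¹ := by group
      _ = d * b⁻¹ * ((b * (d⁻¹ * b₁ * d) * b⁻¹) * a) * b * d⁻¹ := by rw [hcomm]
      _ = _ := by group
  have hcb := T.cm_CB c hc b₁ hb₁
  calc a * e * b₁ = (a * e) * c * b₁ * c⁻¹ := by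
        rw [mul_assoc (a * e) c b₁, hcb]
        group
    _ = b₁ * ((a * e) * c) * c⁻¹ := by rw [hxb]
    _ = b₁ * (a * e) := by group

/-- A conjugate of `A` by `b ≠ 1` is a conjugate of `C` by an element of `D`. -/
lemma conj_eq (T : RootSq S A B C D) {b d : G} (hb : b ∈ B) (hb1 : b ≠ 1) (hd : d ∈ D)
    (hbd : conjBy B d⁻¹ = conjBy D b⁻¹) : conjBy A b = conjBy C d := by
  have hform : ∀ a ∈ A, b * a⁻¹ * b⁻¹ = d * cmap a b * d⁻¹ := by
    intro a ha
    have hc : cmap a b ∈ C := T.e1 ▸ cmap_mem ha hb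
    have h1 : (b⁻¹)⁻¹ * a⁻¹ * b⁻¹ = a⁻¹ * cmap a⁻¹ b⁻¹ := conj_eq_mul_cmap a⁻¹ b⁻¹
    rw [inv_inv] at h1
    have h2 : cmap a⁻¹ b⁻¹ = cmap a b := by
      rw [cmap_inv_left T.h1 ha (B.inv_mem hb), cmap_inv T.h1 ha hb, inv_inv]
    have h3 : (d⁻¹)⁻¹ * cmap a b * d⁻¹ = cmap a b * cmap (cmap a b) d⁻¹ := conj_eq_mul_cmap _ d⁻¹
    rw [inv_inv, T.key hb hd hbd ha] at h3
    rw [h1, h2, h3, T.cm_AC a⁻¹ (A.inv_mem ha) _ hc]
  ext x
  constructor
  · intro hx
    rw [mem_conjBy] at hx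
    set a := b⁻¹ * x * b with ha
    have e : x = b * a * b⁻¹ := by rw [ha]; group
    have h := hform a⁻¹ (A.inv_mem hx)
    rw [inv_inv] at h
    rw [e, h]
    exact conj_mem_conjBy (T.e1 ▸ cmap_mem (A.inv_mem hx) hb) d
  · intro hx
    rw [mem_conjBy] at hx
    set c := d⁻¹ * x * d with hc
    have e : x = d * c * d⁻¹ := by rw [hc]; group
    obtain ⟨a, ha, hac⟩ := rcc_surj_left T.h1 hb hb1 (T.e1.symm ▸ hx)
    rw [e, ← hac, ← hform a ha]
    exact conj_mem_conjBy (A.inv_mem ha) b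

/-- `cmap` has no kernel. -/
lemma cmap_ne_one (T : RootSq S A B C D) {a b : G} (ha : a ∈ A) (ha1 : a ≠ 1) (hb : b ∈ B) (hb1 : b ≠ 1) :
    cmap a b ≠ 1 := by
  intro h
  obtain ⟨d, hd, -, hbd⟩ := T.rop.cond_left b hb hb1
  have h2 := T.key hb hd hbd ha
  rw [h, cmap_one_left] at h2
  exact ha1 (inv_eq_one.1 h2.symm)

lemma conj_A_le (T : RootSq S A B C D) {b : G} (hb : b ∈ B) : conjBy A b ≤ A ⊔ C := by
  have := conj_le_sup_comm (A := A) (B := B) hb
  rwa [T.e1] at this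

/-- The family `Ω₁`. -/
def omegaOne (A B C : Subgroup G) : Set (Subgroup G) := (fun b : G => conjBy A b) '' (B : Set G) ∪ {C}

lemma omegaOne_B (T : RootSq S A B C D) {b : G} (hb : b ∈ B) {E : Subgroup G} (hE : E ∈ omegaOne A B C) :
    conjBy E b ∈ omegaOne A B C := by
  rcases hE with ⟨b', hb', rfl⟩ | hE
  · left
    exact ⟨b * b', B.mul_mem hb hb', (conjBy_conjBy A b b').symm⟩
  · right
    rw [Set.mem_singleton_iff] at hE ⊢
    subst hE
    exact conjBy_eq_of_commute (fun c hc => (T.cm_CB c hc b hb).symm)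

lemma omegaOne_subset (T : RootSq S A B C D) : omegaOne A B C ⊆ omegaOne C D A := by
  rintro E (⟨b, hb, rfl⟩ | hE)
  · by_cases hb1 : b = 1
    · right
      rw [Set.mem_singleton_iff, hb1]
      show conjBy A 1 = A
      ext x
      simp
    · obtain ⟨d, hd, -, hbd⟩ := T.rop.cond_left b hb hb1
      left
      exact ⟨d, hd, (T.conj_eq hb hb1 hd hbd).symm⟩
  · left
    rw [Set.mem_singleton_iff] at hE
    subst hE
    refine ⟨1, D.one_mem, ?_⟩
    show conjBy E 1 = E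
    ext x
    simp

lemma omegaOne_eq (T : RootSq S A B C D) : omegaOne A B C = omegaOne C D A :=
  Set.Subset.antisymm T.omegaOne_subset T.swap.omegaOne_subset

lemma omegaOne_inv (T : RootSq S A B C D) {x : G} (hx : x ∈ B ⊔ D) {E : Subgroup G} (hE : E ∈ omegaOne A B C) :
    conjBy E x ∈ omegaOne A B C := by
  refine conj_invariant_sup (fun b hb E hE => T.omegaOne_B hb hE) (fun d hd E hE => ?_) hx E hE
  rw [T.omegaOne_eq] at hE ⊢
  exact T.swap.omegaOne_B hd hE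

lemma left_mem_omegaOne (A B C : Subgroup G) : A ∈ omegaOne A B C := by
  left
  refine ⟨1, B.one_mem, ?_⟩
  show conjBy A 1 = A
  ext x
  simp

lemma right_mem_omegaOne (A B C : Subgroup G) : C ∈ omegaOne A B C := Or.inr rfl

lemma orbit_eq (T : RootSq S A B C D) : {E | ∃ x ∈ B ⊔ D, E = conjBy A x} = omegaOne A B C := by
  ext E
  constructor
  · rintro ⟨x, hx, rfl⟩
    exact T.omegaOne_inv hx (left_mem_omegaOne A B C)
  · rintro (⟨b, hb, rfl⟩ | hE)
    · exact ⟨b, Subgroup.mem_sup_left hb, rfl⟩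
    · rw [Set.mem_singleton_iff] at hE
      subst hE
      obtain ⟨b, hb, hb1⟩ := exists_ne_one_of_ne_bot (T.hS.ne_bot B T.hB)
      obtain ⟨d, hd, -, hbd⟩ := T.rop.cond_left b hb hb1
      refine ⟨d⁻¹ * b, (B ⊔ D).mul_mem ((B ⊔ D).inv_mem (Subgroup.mem_sup_right hd)) (Subgroup.mem_sup_left hb), ?_⟩
      rw [conjBy_mul, T.conj_eq hb hb1 hd hbd, conjBy_conjBy]
      ext x
      simp

lemma member_le (T : RootSq S A B C D) {E : Subgroup G} (hE : E ∈ omegaOne A B C) : E ≤ A ⊔ C := by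
  rcases hE with ⟨b, hb, rfl⟩ | hE
  · exact T.conj_A_le hb
  · rw [Set.mem_singleton_iff] at hE
    rw [hE]
    exact le_sup_right

lemma partition (T : RootSq S A B C D) : IsSubgroupPartition (A ⊔ C) (omegaOne A B C) := by
  refine ⟨fun E hE => T.member_le hE, ?_, ?_⟩
  · intro x hx _
    have hx' : x ∈ A ⊔ ⁅A, B⁆ := by rwa [T.e1]
    rcases rcc_mem_cases T.h1 hx' with h1 | ⟨b, hb, hdb⟩
    · exact ⟨C, Or.inr rfl, T.e1 ▸ h1⟩
    · exact ⟨_, Or.inl ⟨b, hb, rfl⟩, hdb⟩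
  · have key1 : ∀ b ∈ B, conjBy A b ⊓ C = ⊥ := by
      intro b hb
      rw [eq_bot_iff]
      intro x hx
      have hx1 : x ∈ conjBy A b := hx.1
      have hx2 : x ∈ C := hx.2
      rw [mem_conjBy] at hx1
      have h3 : b⁻¹ * x * b = x := by
        have := T.cm_CB x hx2 b hb
        calc b⁻¹ * x * b = b⁻¹ * (x * b) := by group
          _ = b⁻¹ * (b * x) := by rw [this]
          _ = x := by group
      rw [h3] at hx1
      have : x ∈ A ⊓ C := ⟨hx1, hx2⟩
      rwa [T.inf_eq] at this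
    have key2 : ∀ b ∈ B, ∀ b' ∈ B, conjBy A b ≠ conjBy A b' → conjBy A b ⊓ conjBy A b' = ⊥ := by
      intro b hb b' hb' hne
      rw [eq_bot_iff]
      intro x hx
      have hx1 : x ∈ conjBy A b := hx.1
      have hx2 : x ∈ conjBy A b' := hx.2
      rw [mem_conjBy] at hx1 hx2
      set a := b⁻¹ * x * b with ha
      set a' := b'⁻¹ * x * b' with ha'
      set u := b⁻¹ * b' with hu
      have huB : u ∈ B := B.mul_mem (B.inv_mem hb) hb'
      have hu1 : u ≠ 1 := by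
        intro h1
        apply hne
        have : b' = b := by
          rw [hu] at h1
          have := inv_mul_eq_one.1 h1
          exact this.symm
        rw [this]
      have e1 : u * a' * u⁻¹ = a := by
        rw [ha, ha', hu]
        group
      by_contra hx1'
      have ha1 : a' ≠ 1 := by
        intro h
        rw [ha'] at h
        apply hx1'
        have : x = b' * (b'⁻¹ * x * b') * b'⁻¹ := by group
        rw [this, h]
        simp
      have e2 : (u⁻¹)⁻¹ * a' * u⁻¹ = a' * cmap a' u⁻¹ := conj_eq_mul_cmap a' u⁻¹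
      rw [inv_inv, e1] at e2
      have h3 : cmap a' u⁻¹ = a'⁻¹ * a := by
        rw [e2]
        group
      have h4 : cmap a' u⁻¹ ∈ A ⊓ C :=
        ⟨by rw [h3]; exact A.mul_mem (A.inv_mem hx2) hx1, T.e1 ▸ cmap_mem hx2 (B.inv_mem huB)⟩
      rw [T.inf_eq] at h4
      exact T.cmap_ne_one hx2 ha1 (B.inv_mem huB) (inv_ne_one.2 hu1) h4
    rintro E (⟨b, hb, rfl⟩ | hE) F (⟨b', hb', rfl⟩ | hF) hne
    · exact key2 b hb b' hb' hne
    · rw [Set.mem_singleton_iff] at hF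
      subst hF
      exact key1 b hb
    · rw [Set.mem_singleton_iff] at hE
      subst hE
      rw [inf_comm]
      exact key1 b' hb'
    · rw [Set.mem_singleton_iff] at hE hF
      exact absurd (hE.trans hF.symm) hne

lemma orbit_le (T : RootSq S A B C D) {w : G} (hw : w ∈ B ⊔ D) : conjBy C w ≤ A ⊔ C :=
  T.member_le (T.omegaOne_inv hw (right_mem_omegaOne A B C))

lemma central (T : RootSq S A B C D) {x y : G} (hx : x ∈ B ⊔ D)
    (hxc : x ∈ Subgroup.centralizer ((A ⊔ C : Subgroup G) : Set G)) (hy : y ∈ B ⊔ D) : x * y = y * x := by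
  refine rop_kernel_commute T.rop ?_ hy
  intro E hE
  by_contra hne
  have hE' : conjBy E x ∈ unipotentSubgroups B D := conj_mem_unipotentSubgroups hE hx
  obtain ⟨w, hw, hw1, hw2⟩ := rop_two_trans T.rop (left_mem_unipotentSubgroups B D) (rop_right_mem T.rop)
    hE hE' T.rop.ne (Ne.symm hne)
  -- `C^w` commutes with `E`, and with `x`, hence with `E^x = D^w`.
  have hcm : Cm (conjBy C w) (conjBy D w) := by
    intro z hz e' he'
    rw [hw2] at he'
    rw [mem_conjBy] at he'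
    have hz1 : z ∈ A ⊔ C := T.orbit_le hw hz
    have hxz : x * z * x⁻¹ = z := by
      have := (Subgroup.mem_centralizer_iff.1 hxc) z hz1
      rw [← this]
      group
    have hzE : ∀ e ∈ E, z * e = e * z := by
      intro e he
      rw [← hw1] at he
      exact (Cm.conj T.cm_CB w) z hz e he
    have h1 := hzE _ he'
    calc z * e' = (x * z * x⁻¹) * e' := by rw [hxz]
      _ = x * (z * (x⁻¹ * e' * x)) * x⁻¹ := by group
      _ = x * ((x⁻¹ * e' * x) * z) * x⁻¹ := by rw [h1]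
      _ = e' * (x * z * x⁻¹) := by group
      _ = e' * z := by rw [hxz]
  have h2 := Cm.conj hcm w⁻¹
  rw [conjBy_inv_conjBy, conjBy_inv_conjBy] at h2
  have h3 := h2.eq_bot
  rw [T.e2] at h3
  exact T.hS.ne_bot A T.hA h3

/-- S5036. -/
theorem root_square {A B D : Subgroup G} (hS : IsRootSubgroupSet S)
    (hA : A ∈ S) (hB : B ∈ S) (hC : ⁅A, B⁆ ∈ S) (hD : D ∈ S) (hDC : ⁅D, ⁅A, B⁆⁆ = A) :
    IsRankOnePair B D ∧
    {E | ∃ x ∈ B ⊔ D, E = conjBy A x} = {E | ∃ x ∈ B ⊔ D, E = conjBy ⁅A, B⁆ x} ∧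
    {E | ∃ x ∈ B ⊔ D, E = conjBy A x} = (fun b : G => conjBy A b) '' (B : Set G) ∪ {⁅A, B⁆} ∧
    {E | ∃ x ∈ B ⊔ D, E = conjBy A x} = (fun d : G => conjBy ⁅A, B⁆ d) '' (D : Set G) ∪ {A} ∧
    IsSubgroupPartition (A ⊔ ⁅A, B⁆) {E | ∃ x ∈ B ⊔ D, E = conjBy A x} ∧
    ∀ x ∈ (B ⊔ D) ⊓ Subgroup.centralizer ((A ⊔ ⁅A, B⁆ : Subgroup G) : Set G), ∀ y ∈ B ⊔ D, x * y = y * x := by
  have e2 : ⁅⁅A, B⁆, D⁆ = A := by rw [Subgroup.commutator_comm]; exact hDC
  have T : RootSq S A B ⁅A, B⁆ D :=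
    ⟨hS, hA, hB, hC, hD, rcc_of_mem hS hA hB hC, rcc_of_mem hS hC hD (by rw [e2]; exact hA), rfl, e2⟩
  have h1 := T.orbit_eq
  have h2 := T.swap.orbit_eq
  rw [sup_comm] at h2
  refine ⟨T.rop, ?_, h1, ?_, ?_, fun x hx y hy => T.central hx.1 hx.2 hy⟩
  · rw [h1, h2]
    exact T.omegaOne_eq
  · rw [h1]
    exact T.omegaOne_eq
  · rw [h1]
    exact T.partition

end RootSq

end Cfsg.Agent.H24
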