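import Mathlib
import Cfsg.Agent.Lib.H24.RootLine5
import Cfsg.Agent.Lib.H24.RootSq
import Cfsg.Agent.Lib.H23.RankOne2

/-!
Non-degenerate classes of abstract root subgroups: connectivity (S5041), generation (S5042),
weak TI-subsets (S5040).
-/

set_option autoImplicit false

namespace Cfsg.Agent.H24

open Cfsg Cfsg.Agent.H23

variable {G : Type*} [Group G] {S : Set (Subgroup G)} {A B C D E : Subgroup G}

namespace LineCtx

/-- The step, with the explicit form of `F`. -/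
theorem line_step' (T : LineCtx S A B E) :
    ∃ Z ∈ S, Z ≤ A ⊔ B ∧ ⁅Z, E⁆ ∈ S ∧ RootCommutatorCase S Z E ∧ RootCommutatorCase S A ⁅Z, E⁆ ∧
      ⁅A, ⁅Z, E⁆⁆ = Z ∧ A ⊔ Z = A ⊔ B := by
  obtain ⟨b, hb, hb1⟩ := exists_ne_one_of_ne_bot (T.hS.ne_bot B T.hBS)
  have hbA : b ∉ A := fun h => hb1 (T.inf_AB h hb)
  rcases T.hS.pair B T.hBS E T.hE with h | h | h
  · exact absurd (fun e he => Cm.of_bot h b hb e he) (T.not_comm_E (Subgroup.mem_sup_right hb) hbA)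
  · -- rank one
    obtain ⟨e₀, he₀, he₀1⟩ := exists_ne_one_of_ne_bot (rop_right_ne_bot h)
    obtain ⟨a₀, ha₀, ha₀1, h1⟩ := T.hr.cond_right e₀ he₀ he₀1
    obtain ⟨b₀, hb₀, hb₀1, h2⟩ := h.cond_right e₀ he₀ he₀1
    have hb₀A : b₀ ∉ A := fun h => hb₀1 (T.inf_AB h hb₀)
    have hxM : b₀ * a₀⁻¹ ∈ A ⊔ B :=
      Subgroup.mul_mem _ (Subgroup.mem_sup_right hb₀) (Subgroup.inv_mem _ (Subgroup.mem_sup_left ha₀))
    have hx1 : b₀ * a₀⁻¹ ≠ 1 := by
      intro h'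
      apply hb₀A
      have : b₀ = a₀ := mul_inv_eq_one.1 h'
      rw [this]
      exact ha₀
    have hxA : b₀ * a₀⁻¹ ∉ A := by
      intro h'
      apply hb₀A
      have := A.mul_mem h' ha₀
      simpa using this
    have hcm : Cm (conjBy E (b₀ * a₀⁻¹)) E := by
      have h3 := Cm.conj (T.cmAB) e₀⁻¹
      rw [← h1, ← h2] at h3
      have h4 := Cm.conj h3 b₀
      rw [conjBy_conjBy, conjBy_conjBy] at h4
      have e0 : b₀ * b₀⁻¹ = 1 := by group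
      rw [e0] at h4
      have e1 : conjBy E 1 = E := by
        ext y
        simp
      rwa [e1] at h4
    obtain ⟨Z, hZ', hxZ⟩ := T.hp.2.1 _ hxM hx1
    have hZ : Z ∈ S := hZ'.1
    have hZle : Z ≤ A ⊔ B := hZ'.2
    have hZc : RootCommutatorCase S Z E := by
      rcases T.hS.pair Z hZ E T.hE with h3 | h3 | h3
      · exact absurd (fun e he => Cm.of_bot h3 _ hxZ e he) (T.not_comm_E hxM hxA)
      · exfalso
        have hm : conjBy E (b₀ * a₀⁻¹) ∈ unipotentSubgroups Z E :=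
          conj_mem_unipotentSubgroups (rop_right_mem h3) (Subgroup.mem_sup_left hxZ)
        have h5 := (rop_of_mem h3 hm (rop_right_mem h3) (rop_conj_ne_right h3 hxZ hx1)).1
        exact rop_not_cm h5 hcm
      · exact h3
    obtain ⟨hAF, hAFeq⟩ := T.comm_of_member hZ hZle hZc
    refine ⟨Z, hZ, hZle, hZc.1, hZc, hAF, hAFeq, ?_⟩
    refine le_antisymm (sup_le le_sup_left hZle) (sup_le le_sup_left ?_)
    exact T.le_sup_case2 h hZ hZle hZc he₀ he₀1 ha₀ ha₀1 hb₀ hb₀1 h1 h2 hxZ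
  · obtain ⟨hAF, hAFeq⟩ := T.comm_of_member T.hBS le_sup_right h
    exact ⟨B, T.hBS, le_sup_right, h.1, h, hAF, hAFeq, rfl⟩

end LineCtx

/-- A commutator gives a line. -/
lemma comm_line (hS : IsRootSubgroupSet S) (hall : ∀ X ∈ S, ∃ Y ∈ S, IsRankOnePair X Y)
    (hP : A ∈ S) (h : RootCommutatorCase S A B) :
    ⁅A, B⁆ ∈ linePartners S A ∧ A ∈ linePartners S ⁅A, B⁆ := by
  obtain ⟨Y, hY, hr⟩ := hall A hP
  have hpart := rcc_partition hS h hP hY hr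
  have hne := rcc_left_ne hS h
  have hcm : Cm A ⁅A, B⁆ := (rcc_cm_left h).symm
  refine ⟨⟨⟨h.1, hne.symm, hcm.eq_bot⟩, hpart⟩, ⟨⟨hP, hne, hcm.symm.eq_bot⟩, ?_⟩⟩
  rw [sup_comm]
  exact hpart

/-- Line partners are symmetric. -/
lemma line_symm (hC : C ∈ linePartners S A) (hA : A ∈ S) : A ∈ linePartners S C := by
  refine ⟨⟨hA, hC.1.2.1.symm, (Cm.of_bot hC.1.2.2).symm.eq_bot⟩, ?_⟩
  rw [sup_comm]
  exact hC.2

/-- Line partners are invariant under conjugation. -/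
lemma line_conj (hS : IsRootSubgroupSet S) (hC : C ∈ linePartners S A) (x : G) :
    conjBy C x ∈ linePartners S (conjBy A x) := by
  have hA' : conjBy C x ≠ conjBy A x := fun h => hC.1.2.1 (conjBy_injective x h)
  refine ⟨⟨hS.conj_mem C hC.1.1 x, hA', (Cm.conj (Cm.of_bot hC.1.2.2) x).eq_bot⟩, ?_⟩
  rw [← conjBy_sup]
  obtain ⟨h1, h2, h3⟩ := hC.2
  refine ⟨fun E hE => hE.2, ?_, ?_⟩
  · intro y hy hy1
    have hy' : x⁻¹ * y * x ∈ A ⊔ C := mem_conjBy.1 hy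
    have hy1' : x⁻¹ * y * x ≠ 1 := by
      intro h
      apply hy1
      have e : y = x * (x⁻¹ * y * x) * x⁻¹ := by group
      rw [e, h]
      group
    obtain ⟨E, hE, hyE⟩ := h2 _ hy' hy1'
    exact ⟨conjBy E x, ⟨hS.conj_mem E hE.1 x, conjBy_le hE.2 x⟩, mem_conjBy.2 hyE⟩
  · intro E₁ hE₁ E₂ hE₂ hne
    have hm : ∀ E ∈ membersIn S (conjBy (A ⊔ C) x), conjBy E x⁻¹ ∈ membersIn S (A ⊔ C) := by
      intro E hE
      refine ⟨hS.conj_mem E hE.1 x⁻¹, ?_⟩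
      have := conjBy_le hE.2 x⁻¹
      rwa [conjBy_inv_conjBy] at this
    have hne' : conjBy E₁ x⁻¹ ≠ conjBy E₂ x⁻¹ := fun h => hne (conjBy_injective x⁻¹ h)
    have h4 := h3 _ (hm E₁ hE₁) _ (hm E₂ hE₂) hne'
    rw [← conjBy_inf] at h4
    exact conjBy_eq_bot.1 h4

lemma isolated_of_partner (hall : ∀ X ∈ S, ∃ Y ∈ S, IsRankOnePair X Y) :
    ∀ X ∈ S, ¬ IsIsolatedIn (FAdj S) S X := by
  intro X hX hiso
  obtain ⟨Y, hY, hr⟩ := hall X hX
  exact (hiso.2 Y).1 ⟨hX, hY, hr⟩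

lemma class_all_partner (hS : IsRootSubgroupClass S) (hnd : IsNondegenerateRootSet S) :
    ∀ X ∈ S, ∃ Y ∈ S, IsRankOnePair X Y := by
  obtain ⟨A₀, hA₀, B₀, hB₀, hr⟩ := hnd.2.1
  intro X hX
  obtain ⟨g, rfl⟩ := hS.2.2 A₀ hA₀ X hX
  exact ⟨conjBy B₀ g, hS.1.conj_mem B₀ hB₀ g, rop_conj hr g⟩

/-- Rank one partners are joined by a path of line partners. -/
lemma line_path (hS : IsRootSubgroupClass S) (hnd : IsNondegenerateRootSet S) (hA : A ∈ S) (hB : B ∈ S)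
    (hr : IsRankOnePair A B) : Relation.ReflTransGen (EAdj S S) A B := by
  have hall := class_all_partner hS hnd
  obtain ⟨⟨C, hC, hC2⟩, -⟩ := nondegenerate_rank_one_special hS hnd hA ⟨hB, hr⟩
  have hCS : C ∈ S := hC.1.1
  have hBC : RootCommutatorCase S B C := rcc_of_mem hS.1 hB hCS hC2.2
  have hCB : RootCommutatorCase S C B := rcc_of_mem hS.1 hCS hB (by rw [Subgroup.commutator_comm]; exact hC2.2)
  have h1 : EAdj S S A C := ⟨hA, hCS, hC⟩
  have h2 : EAdj S S C ⁅C, B⁆ := ⟨hCS, hCB.1, (comm_line hS.1 hall hCS hCB).1⟩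
  have h3 : EAdj S S ⁅C, B⁆ B := by
    refine ⟨hCB.1, hB, ?_⟩
    rw [Subgroup.commutator_comm]
    exact (comm_line hS.1 hall hB hBC).2
  exact ((Relation.ReflTransGen.single h1).tail h2).tail h3

/-- S5041, first part. -/
lemma line_connected (hS : IsRootSubgroupClass S) (hnd : IsNondegenerateRootSet S) :
    IsConnectedFamily (EAdj S S) S := by
  obtain ⟨A₀, hA₀, B₀, hB₀, hr⟩ := hnd.2.1
  have hF : IsConnectedFamily (FAdj S) S :=
    (root_connected_iff hS.1 ⟨A₀, hA₀, B₀, hB₀, hr.ne⟩).2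
      ⟨hS.2, A₀, hA₀, isolated_of_partner (class_all_partner hS hnd) A₀ hA₀⟩
  intro X hX Y hY
  have hp := hF X hX Y hY
  induction hp with
  | refl => exact Relation.ReflTransGen.refl
  | @tail U V _ h2 ih =>
    exact (ih h2.1).trans (line_path hS hnd h2.1 h2.2.1 h2.2.2)

/-- S5041. -/
theorem root_connected (hS : IsRootSubgroupClass S) (hnd : IsNondegenerateRootSet S) :
    IsConnectedFamily (EAdj S S) S ∧ IsConnectedFamily (DAdj S) S := by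
  have h := line_connected hS hnd
  refine ⟨h, fun X hX Y hY => ?_⟩
  have hp := h X hX Y hY
  induction hp with
  | refl => exact Relation.ReflTransGen.refl
  | tail _ h2 ih => exact (ih h2.1).tail ⟨h2.1, h2.2.1, h2.2.2.1.2.1.symm, h2.2.2.1.2.2⟩

/-- The key lemma on commutator pairs. -/
lemma exists_line_rop (hS : IsRootSubgroupSet S) (hall : ∀ X ∈ S, ∃ Y ∈ S, IsRankOnePair X Y)
    (hC : C ∈ S) (hB : B ∈ S) (h : RootCommutatorCase S C B) :
    ∃ D ∈ linePartners S B, IsRankOnePair C D := by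
  have hBC : RootCommutatorCase S B C :=
    rcc_of_mem hS hB hC (by rw [Subgroup.commutator_comm]; exact h.1)
  obtain ⟨hL1, hL2⟩ := comm_line hS hall hB hBC
  have hFS : ⁅B, C⁆ ∈ S := hBC.1
  obtain ⟨F', hF', hrF⟩ := hall _ hFS
  have T : LineCtx S ⁅B, C⁆ B F' := ⟨hS, hall, hFS, hF', hrF, hL2⟩
  obtain ⟨Z, hZS, hZle, E₁, hE₁S, hc, heq, hsup⟩ := T.line_step
  have hZF : ⁅B, C⁆ ≠ Z := by
    rw [← heq]
    exact rcc_left_ne hS hc
  have hFB : ⁅B, C⁆ ≠ B := hL2.1.2.1.symm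
  have hm1 : ⁅B, C⁆ ∈ membersIn S (⁅B, C⁆ ⊔ B) := ⟨hFS, le_sup_left⟩
  have hm2 : Z ∈ membersIn S (⁅B, C⁆ ⊔ B) := ⟨hZS, hZle⟩
  have hm3 : B ∈ membersIn S (⁅B, C⁆ ⊔ B) := ⟨hB, le_sup_right⟩
  obtain ⟨x, -, hx1, hx2⟩ := root_line_two_trans hS (isolated_of_partner hall) hFS hL2 _ hm1 _ hm2 _ hm1 _ hm3 hZF hFB
  have hD : conjBy E₁ x ∈ S := hS.conj_mem E₁ hE₁S x
  have e : ⁅⁅B, C⁆, conjBy E₁ x⁆ = B := by
    conv_lhs => rw [← hx1]
    rw [← Subgroup.map_commutator, heq]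
    exact hx2
  have hFD : RootCommutatorCase S ⁅B, C⁆ (conjBy E₁ x) := rcc_of_mem hS hFS hD (by rw [e]; exact hB)
  have T2 : RootSq S B C ⁅B, C⁆ (conjBy E₁ x) := ⟨hS, hB, hC, hFS, hD, hBC, hFD, rfl, e⟩
  refine ⟨conjBy E₁ x, ?_, T2.rop⟩
  have hDF : RootCommutatorCase S (conjBy E₁ x) ⁅B, C⁆ :=
    rcc_of_mem hS hD hFS (by rw [Subgroup.commutator_comm, e]; exact hB)
  have h3 := (comm_line hS hall hD hDF).2
  rw [Subgroup.commutator_comm, e] at h3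
  exact h3

end Cfsg.Agent.H24
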