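import Mathlib
import Cfsg.Agent.Lib.H24.RootNondeg

/-!
Non-degenerate classes of abstract root subgroups: generation (S5042), weak TI-subsets (S5040).
-/

set_option autoImplicit false

namespace Cfsg.Agent.H24

open Cfsg Cfsg.Agent.H23

variable {G : Type*} [Group G] {S : Set (Subgroup G)} {A B C D E : Subgroup G}

/-- A line partner in the commutator case with a rank one partner. -/
lemma line_data (hS : IsRootSubgroupSet S) (hA : A ∈ S) (hB : B ∈ S) (hr : IsRankOnePair A B)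
    (hC : C ∈ linePartners S A) (hCc : RootCommutatorCase S C B) : LineData S (A ⊔ C) A ⁅C, B⁆ C := by
  have hCS : C ∈ S := hC.1.1
  have hAC : Cm A C := Cm.of_bot hC.1.2.2
  have heq : ⁅A, ⁅C, B⁆⁆ = C := comm_comm hS hA hB hr hCS hAC hC.1.2.1
    (fun c hc a ha h => line_root_element hC.2
      ((A ⊔ C).mul_mem (Subgroup.mem_sup_right hc) (Subgroup.mem_sup_left ha)) h) hCc
  exact ⟨hS, hA, hCc.1, hCS, rcc_of_mem hS hA hCc.1 (by rw [heq]; exact hCS), heq, rfl, ⟨B, hB, hr⟩⟩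

/-- A non-identity element of a line partner is not in `A`. -/
lemma line_not_mem (hS : IsRootSubgroupSet S) (hA : A ∈ S) (hB : B ∈ S) (hr : IsRankOnePair A B)
    (hC : C ∈ linePartners S A) {c : G} (hc : c ∈ C) (hc1 : c ≠ 1) : c ∉ A := by
  intro hcA
  rcases root_inf_or_eq hS hA hB hr hC.1.1 with h | h
  · have : c ∈ A ⊓ C := ⟨hcA, hc⟩
    rw [h] at this
    exact hc1 (by simpa using this)
  · exact hC.1.2.1 h.symm

/-- A line partner does not commute with a rank one partner. -/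
lemma line_not_bot (hS : IsRootSubgroupSet S) (hA : A ∈ S) (hB : B ∈ S) (hr : IsRankOnePair A B)
    (hC : C ∈ linePartners S A) (h : ⁅C, B⁆ = ⊥) : False := by
  obtain ⟨c, hc, hc1⟩ := exists_ne_one_of_ne_bot (hS.ne_bot C hC.1.1)
  exact line_not_central hS hA hB hr hC.2 (Cm.of_bot hC.1.2.2) (Subgroup.mem_sup_right hc)
    (line_not_mem hS hA hB hr hC hc hc1) (fun b hb => Cm.of_bot h c hc b hb)

/-- S5042. -/
theorem root_gen (hS : IsRootSubgroupClass S) (hnd : IsNondegenerateRootSet S) (hA : A ∈ S)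
    (hB : B ∈ rankOnePartners S A) : (⨆ C ∈ linePartners S A, C) ⊔ B = ⊤ := by
  have hss := hS.1
  have hall := class_all_partner hS hnd
  obtain ⟨hBS, hr⟩ := hB
  set K : Subgroup G := (⨆ C ∈ linePartners S A, C) ⊔ B with hK
  have hCK : ∀ C ∈ linePartners S A, C ≤ K := fun C hC => le_sup_of_le_left (le_iSup₂_of_le C hC le_rfl)
  have hBK : B ≤ K := le_sup_right
  -- `A ≤ K`
  have hAK : A ≤ K := by
    obtain ⟨⟨C₀, hC₀, hC₀2⟩, -⟩ := nondegenerate_rank_one_special hS hnd hA ⟨hBS, hr⟩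
    have hCc : RootCommutatorCase S C₀ B :=
      rcc_of_mem hss hC₀.1.1 hBS (by rw [Subgroup.commutator_comm]; exact hC₀2.2)
    have L := line_data hss hA hBS hr hC₀ hCc
    obtain ⟨f, hf, hf1⟩ := exists_ne_one_of_ne_bot (hss.ne_bot _ hCc.1)
    have hZne : conjBy A f ≠ A := rcc_conj_ne hss hA hBS hr L.hc hf hf1
    have hZle : conjBy A f ≤ A ⊔ C₀ := by
      have := conj_le_sup_comm (A := A) (B := ⁅C₀, B⁆) hf
      rwa [L.heq] at this
    have hZm : conjBy A f ∈ membersIn S (A ⊔ ⁅A, ⁅C₀, B⁆⁆) := by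
      rw [L.heq]
      exact ⟨hss.conj_mem A hA f, hZle⟩
    have hsup : A ⊔ conjBy A f = A ⊔ C₀ := by
      have := rcc_sup_eq hss L.hc hA hBS hr hZm hZne
      rwa [L.heq] at this
    have hZL : conjBy A f ∈ linePartners S A := by
      refine ⟨⟨hss.conj_mem A hA f, hZne, ?_⟩, ?_⟩
      · have h1 : Cm A (A ⊔ C₀) := Cm.sup_right (cm_self_of_root hss hA) (Cm.of_bot hC₀.1.2.2)
        exact (h1.mono le_rfl hZle).eq_bot
      · rw [hsup]
        exact hC₀.2
    have h2 : conjBy (A ⊔ C₀) f = A ⊔ C₀ := mem_normalizer_iff_conjBy.1 (L.normal hf)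
    rw [conjBy_sup, L.fix hf] at h2
    have h3 : A ≤ conjBy A f ⊔ C₀ := by
      rw [h2]
      exact le_sup_left
    exact h3.trans (sup_le (hCK _ hZL) (hCK _ hC₀))
  have hXK : A ⊔ B ≤ K := sup_le hAK hBK
  obtain ⟨x₀, hx₀, hx₀e⟩ := rop_exists_conj_right hr
  have hx₀K : x₀ ∈ K := hXK hx₀
  -- line partners of `B` lie in `K`
  have hLB : ∀ D ∈ linePartners S B, D ≤ K := by
    intro D hD
    have h1 : conjBy D x₀⁻¹ ∈ linePartners S (conjBy B x₀⁻¹) := line_conj hss hD x₀⁻¹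
    have h2 : conjBy B x₀⁻¹ = A := by rw [hx₀e, conjBy_inv_conjBy]
    rw [h2] at h1
    have h3 := conjBy_le_of_mem (hCK _ h1) hx₀K
    rwa [conjBy_conjBy_inv] at h3
  -- line partners of `A` are `K`-conjugate to `A`
  have hconj : ∀ C ∈ linePartners S A, ∃ y ∈ K, C = conjBy A y := by
    intro C hC
    have hCS : C ∈ S := hC.1.1
    rcases hss.pair C hCS B hBS with h | h | h
    · exact absurd h (fun h' => line_not_bot hss hA hBS hr hC h')
    · obtain ⟨x, hx, hxe⟩ := rop_exists_conj_right (rop_symm h)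
      refine ⟨x * x₀, K.mul_mem ((sup_le hBK (hCK C hC)) hx) hx₀K, ?_⟩
      rw [conjBy_mul, ← hx₀e]
      exact hxe
    · obtain ⟨D', hD', hrD⟩ := exists_line_rop hss hall hCS hBS h
      have hD'K := hLB D' hD'
      have L := line_data hss hA hBS hr hC h
      have hFK : ⁅C, B⁆ ≤ K := commutator_le_sup.trans (sup_le (hCK C hC) hBK)
      have hLine : A ∈ linePartners S C := line_symm hC hA
      have T : LineCtx S C A D' := ⟨hss, hall, hCS, hD'.1.1, hrD, hLine⟩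
      obtain ⟨Z, hZS, hZle, hF₁S, hZc, hCF, hCFeq, hsup⟩ := T.line_step'
      have hsup' : C ⊔ A = A ⊔ C := sup_comm _ _
      have hZne : Z ≠ C := by
        rw [← hCFeq]
        exact (rcc_left_ne hss hCF).symm
      have hZm : Z ∈ membersIn S (A ⊔ C) := ⟨hZS, hsup' ▸ hZle⟩
      rw [L.members] at hZm
      obtain ⟨f₁, hf₁, hf₁e⟩ := hZm.resolve_right hZne
      simp only at hf₁e
      have hZK : Z ≤ K := by
        rw [← hf₁e]
        exact conjBy_le_of_mem hAK (hFK hf₁)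
      have hF₁K : ⁅Z, D'⁆ ≤ K := commutator_le_sup.trans (sup_le hZK hD'K)
      obtain ⟨f₀, hf₀, hf₀1⟩ := exists_ne_one_of_ne_bot (hss.ne_bot _ hF₁S)
      obtain ⟨Y', hY', hrY⟩ := hall C hCS
      have hYne : conjBy C f₀ ≠ C := rcc_conj_ne hss hCS hY' hrY hCF hf₀ hf₀1
      have hYle : conjBy C f₀ ≤ A ⊔ C := by
        have h1 := conj_le_sup_comm (A := C) (B := ⁅Z, D'⁆) hf₀
        rw [hCFeq, hsup, hsup'] at h1
        exact h1
      have hYm : conjBy C f₀ ∈ membersIn S (A ⊔ C) := ⟨hss.conj_mem C hCS f₀, hYle⟩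
      rw [L.members] at hYm
      obtain ⟨f₂, hf₂, hf₂e⟩ := hYm.resolve_right hYne
      simp only at hf₂e
      refine ⟨f₀⁻¹ * f₂, K.mul_mem (K.inv_mem (hF₁K hf₀)) (hFK hf₂), ?_⟩
      rw [conjBy_mul, hf₂e, conjBy_inv_conjBy]
  -- the orbit is everything
  have hall' : ∀ X ∈ S, ∃ y ∈ K, X = conjBy A y := by
    intro X hX
    have hp := line_connected hS hnd A hA X hX
    induction hp with
    | refl =>
      refine ⟨1, K.one_mem, ?_⟩
      ext z
      simp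
    | @tail U V _ h2 ih =>
      obtain ⟨y, hy, rfl⟩ := ih h2.1
      have h3 : conjBy V y⁻¹ ∈ linePartners S (conjBy (conjBy A y) y⁻¹) := line_conj hss h2.2.2 y⁻¹
      rw [conjBy_inv_conjBy] at h3
      obtain ⟨y', hy', hy'e⟩ := hconj _ h3
      refine ⟨y * y', K.mul_mem hy hy', ?_⟩
      rw [conjBy_mul, ← hy'e, conjBy_conjBy_inv]
  rw [eq_top_iff, ← hss.generates]
  refine iSup₂_le ?_
  intro X hX
  obtain ⟨y, hy, rfl⟩ := hall' X hX
  exact conjBy_le_of_mem hAK hy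

/-- A member with a fixed member of `Δ` stabilizes `Δ`. -/
lemma ti_of_fix {Δ : Set (Subgroup G)} (hΔ : IsWeakTISubset S Δ) {T : Subgroup G} (hT : T ∈ Δ)
    (hD : D ∈ S) (hfix : ∀ d ∈ D, conjBy T d = T) : ∀ d ∈ D, ∀ U ∈ Δ, conjBy U d ∈ Δ := by
  intro d hd U hU
  by_cases hd1 : d = 1
  · have : conjBy U d = U := by
      rw [hd1]
      ext z
      simp
    rwa [this]
  have hd' : d ∈ rootElements S := ⟨hd1, D, hD, hd⟩
  rcases hΔ.2.2.2 d hd' with h | h
  · rw [← h]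
    exact ⟨U, hU, rfl⟩
  · exfalso
    have h1 : T ∈ (fun A => conjBy A d) '' Δ := ⟨T, hT, hfix d hd⟩
    exact (Set.disjoint_left.1 h h1) hT

lemma ti_of_mem {Δ : Set (Subgroup G)} (hΔ : IsWeakTISubset S Δ) (hD : D ∈ Δ) :
    ∀ d ∈ D, ∀ U ∈ Δ, conjBy U d ∈ Δ :=
  ti_of_fix hΔ hD (hΔ.1 hD) (fun _ hd => conjBy_eq_of_mem hd)

/-- Closure of the weak TI-subset under line partners. -/
lemma ti_closed (hS : IsRootSubgroupSet S) (hall : ∀ X ∈ S, ∃ Y ∈ S, IsRankOnePair X Y)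
    {Δ : Set (Subgroup G)} (hΔ : IsWeakTISubset S Δ) (hA : A ∈ Δ) (hB : B ∈ Δ) (hr : IsRankOnePair A B)
    (hC : C ∈ linePartners S A) : C ∈ Δ ∧ ∃ B' ∈ Δ, IsRankOnePair C B' := by
  have hAS : A ∈ S := hΔ.1 hA
  have hBS : B ∈ S := hΔ.1 hB
  have hCS : C ∈ S := hC.1.1
  have hAC : Cm A C := Cm.of_bot hC.1.2.2
  have hCstab := ti_of_fix hΔ hA hCS (fun c hc => conjBy_eq_of_commute (fun a ha => (hAC a ha c hc).symm))
  rcases hS.pair C hCS B hBS with h | h | h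
  · exact absurd h (fun h' => line_not_bot hS hAS hBS hr hC h')
  · obtain ⟨c, hc, hc1⟩ := exists_ne_one_of_ne_bot (rop_left_ne_bot h)
    have hB' : conjBy B c ∈ Δ := hCstab c hc B hB
    have hne : conjBy B c ≠ B := rop_conj_ne_right h hc hc1
    have hm : conjBy B c ∈ unipotentSubgroups C B :=
      conj_mem_unipotentSubgroups (rop_right_mem h) (Subgroup.mem_sup_left hc)
    obtain ⟨-, -, hΩ⟩ := rop_of_mem h (rop_right_mem h) hm hne.symm
    have hCm : C ∈ unipotentSubgroups B (conjBy B c) := by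
      rw [hΩ]
      exact left_mem_unipotentSubgroups C B
    obtain ⟨x, hx, rfl⟩ := hCm
    have hinv := conj_invariant_sup (Λ := Δ) (ti_of_mem hΔ hB) (ti_of_mem hΔ hB') hx
    have hCΔ := hinv B hB
    exact ⟨hCΔ, B, hB, h⟩
  · have L := line_data hS hAS hBS hr hC h
    have hFS : ⁅C, B⁆ ∈ S := h.1
    have hFstab := ti_of_fix hΔ hB hFS (fun f hf => conjBy_eq_of_commute
      (fun b hb => rcc_cm_right h f hf b hb))
    have hmem : ∀ Z ∈ membersIn S (A ⊔ C), Z ≠ C → ∃ f ∈ ⁅C, B⁆, Z = conjBy A f := by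
      intro Z hZ hne
      rw [L.members] at hZ
      obtain ⟨f, hf, hfe⟩ := hZ.resolve_right hne
      exact ⟨f, hf, hfe.symm⟩
    obtain ⟨Cs, hCs, hrC⟩ := hall C hCS
    have T : LineCtx S C A Cs := ⟨hS, hall, hCS, hCs, hrC, line_symm hC hAS⟩
    obtain ⟨Z, hZS, hZle, F₀, hF₀S, hCF, hCFeq, hsup⟩ := T.line_step
    have hsup' : C ⊔ A = A ⊔ C := sup_comm _ _
    have hZne : Z ≠ C := by
      rw [← hCFeq]
      exact (rcc_left_ne hS hCF).symm
    obtain ⟨f₁, hf₁, rfl⟩ := hmem Z ⟨hZS, hsup' ▸ hZle⟩ hZne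
    have hZΔ : conjBy A f₁ ∈ Δ := hFstab f₁ hf₁ A hA
    have L2 : LineData S (C ⊔ A) C F₀ (conjBy A f₁) := ⟨hS, hCS, hF₀S, hZS, hCF, hCFeq, hsup, ⟨Cs, hCs, hrC⟩⟩
    have hF₀stab := ti_of_fix hΔ hZΔ hF₀S (fun f hf => L2.fix hf)
    obtain ⟨f₀, hf₀, hf₀1⟩ := exists_ne_one_of_ne_bot (hS.ne_bot F₀ hF₀S)
    have hYne : conjBy C f₀ ≠ C := rcc_conj_ne hS hCS hCs hrC hCF hf₀ hf₀1
    have hYle : conjBy C f₀ ≤ A ⊔ C := by
      have h1 := conj_le_sup_comm (A := C) (B := F₀) hf₀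
      rw [hCFeq, hsup, hsup'] at h1
      exact h1
    obtain ⟨f₂, hf₂, hf₂e⟩ := hmem _ ⟨hS.conj_mem C hCS f₀, hYle⟩ hYne
    have hYΔ : conjBy C f₀ ∈ Δ := by
      rw [hf₂e]
      exact hFstab f₂ hf₂ A hA
    have hCΔ : C ∈ Δ := by
      have := hF₀stab f₀⁻¹ (F₀.inv_mem hf₀) _ hYΔ
      rwa [conjBy_inv_conjBy] at this
    refine ⟨hCΔ, conjBy B f₀⁻¹, hF₀stab f₀⁻¹ (F₀.inv_mem hf₀) B hB, ?_⟩
    -- `(Y, B)` is a rank one pair
    have h1 := rop_conj hr f₂
    have hBf : conjBy B f₂ = B := conjBy_eq_of_commute (fun b hb => rcc_cm_right h f₂ hf₂ b hb)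
    rw [hBf, ← hf₂e] at h1
    have h2 := rop_conj h1 f₀⁻¹
    rwa [conjBy_inv_conjBy] at h2

/-- S5040. -/
theorem weak_ti_abelian (hS : IsRootSubgroupClass S) (hnd : IsNondegenerateRootSet S)
    {Δ : Set (Subgroup G)} (hΔ : IsWeakTISubset S Δ) : IsAbelianFamily Δ := by
  have hss := hS.1
  have hall := class_all_partner hS hnd
  by_contra hcon
  unfold IsAbelianFamily at hcon
  push Not at hcon
  obtain ⟨X, hX, Y, hY, x, hx, y, hy, hxy⟩ := hcon
  have hXS := hΔ.1 hX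
  have hYS := hΔ.1 hY
  -- a rank one pair in `Δ`
  obtain ⟨P, hP, Q, hQ, hPQ⟩ : ∃ P ∈ Δ, ∃ Q ∈ Δ, IsRankOnePair P Q := by
    rcases hss.pair X hXS Y hYS with h | h | h
    · exact absurd (Cm.of_bot h x hx y hy) hxy
    · exact ⟨X, hX, Y, hY, h⟩
    · obtain ⟨D', hD', hrD⟩ := exists_line_rop hss hall hXS hYS h
      have hYD : Cm Y D' := Cm.of_bot hD'.1.2.2
      have hstab := ti_of_fix hΔ hY hD'.1.1 (fun d hd => conjBy_eq_of_commute (fun a ha => (hYD a ha d hd).symm))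
      obtain ⟨d, hd, hd1⟩ := exists_ne_one_of_ne_bot (hss.ne_bot D' hD'.1.1)
      refine ⟨X, hX, conjBy X d, hstab d hd X hX, ?_⟩
      have hne : conjBy X d ≠ X := rop_conj_ne_right (rop_symm hrD) hd hd1
      have hm : conjBy X d ∈ unipotentSubgroups X D' :=
        conj_mem_unipotentSubgroups (left_mem_unipotentSubgroups X D') (Subgroup.mem_sup_right hd)
      exact (rop_of_mem hrD (left_mem_unipotentSubgroups X D') hm hne.symm).1
  apply hΔ.2.2.1
  apply Set.Subset.antisymm hΔ.1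
  intro W hW
  have hp := line_connected hS hnd P (hΔ.1 hP) W hW
  have key : W ∈ Δ ∧ ∃ B' ∈ Δ, IsRankOnePair W B' := by
    induction hp with
    | refl => exact ⟨hP, Q, hQ, hPQ⟩
    | @tail U V _ h2 ih =>
      obtain ⟨hUΔ, B', hB', hr'⟩ := ih h2.1
      exact ti_closed hss hall hΔ hUΔ hB' hr' h2.2.2
  exact key.1

end Cfsg.Agent.H24
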