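import Mathlib
import Cfsg.Agent.Lib.H24.RootNondeg2

/-!
Comparing commuting members of abstract root subgroups (S5037).
-/

set_option autoImplicit false

namespace Cfsg.Agent.H24

open Cfsg Cfsg.Agent.H23

variable {G : Type*} [Group G] {S : Set (Subgroup G)} {A B C D E : Subgroup G}

/-- The key lemma on commutator pairs, with the square. -/
lemma exists_rootSq (hS : IsRootSubgroupSet S) (hall : ∀ X ∈ S, ∃ Y ∈ S, IsRankOnePair X Y)
    (hC : C ∈ S) (hB : B ∈ S) (h : RootCommutatorCase S B C) :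
    ∃ D ∈ linePartners S B, RootSq S B C ⁅B, C⁆ D := by
  have hBC : RootCommutatorCase S B C := h
  obtain ⟨hL1, hL2⟩ := comm_line hS hall hB hBC
  have hFS : ⁅B, C⁆ ∈ S := hBC.1
  obtain ⟨F', hF', hrF⟩ := hall _ hFS
  have T : LineCtx S ⁅B, C⁆ B F' := ⟨hS, hall, hFS, hF', hrF, hL2⟩
  obtain ⟨Z, hZS, hZle, E₁, hE₁S, hc, heq, hsup⟩ := T.line_step
  have hZF : ⁅B, C⁆ ≠ Z := by
    rw [← heq]
    exact rcc_left_ne hS hc
  have hFB : ⁅B, C⁆ ≠ B := hL2.1.2.1.symm
  have hm1 : ⁅B, C⁆ ∈ membersIn S (⁅B, C⁆ ⊔ B) := ⟨hFS, le_sup_left⟩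
  have hm2 : Z ∈ membersIn S (⁅B, C⁆ ⊔ B) := ⟨hZS, hZle⟩
  have hm3 : B ∈ membersIn S (⁅B, C⁆ ⊔ B) := ⟨hB, le_sup_right⟩
  obtain ⟨x, -, hx1, hx2⟩ := root_line_two_trans hS (isolated_of_partner hall) hFS hL2 _ hm1 _ hm2 _ hm1 _ hm3 hZF hFB
  have hD : conjBy E₁ x ∈ S := hS.conj_mem E₁ hE₁S x
  have e : ⁅⁅B, C⁆, conjBy E₁ x⁆ = B := by
    conv_lhs => rw [← hx1]
    rw [← Subgroup.map_commutator, heq]
    exact hx2
  have hFD : RootCommutatorCase S ⁅B, C⁆ (conjBy E₁ x) := rcc_of_mem hS hFS hD (by rw [e]; exact hB)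
  have T2 : RootSq S B C ⁅B, C⁆ (conjBy E₁ x) := ⟨hS, hB, hC, hFS, hD, hBC, hFD, rfl, e⟩
  refine ⟨conjBy E₁ x, ?_, T2⟩
  have hDF : RootCommutatorCase S (conjBy E₁ x) ⁅B, C⁆ :=
    rcc_of_mem hS hD hFS (by rw [Subgroup.commutator_comm, e]; exact hB)
  have h3 := (comm_line hS hall hD hDF).2
  rw [Subgroup.commutator_comm, e] at h3
  exact h3

lemma mem_centralizingMembers {T U : Subgroup G} :
    T ∈ centralizingMembers S U ↔ T ∈ S ∧ Cm T U := by
  constructor
  · rintro ⟨h1, h2⟩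
    refine ⟨h1, fun t ht u hu => ?_⟩
    exact (Subgroup.mem_centralizer_iff.1 (h2 ht) u hu).symm
  · rintro ⟨h1, h2⟩
    refine ⟨h1, fun t ht => ?_⟩
    rw [Subgroup.mem_centralizer_iff]
    intro u hu
    exact (h2 t ht u hu).symm

/-- `C` is above `A`: members commuting with `A` commute with `C`. -/
def LeC (S : Set (Subgroup G)) (A C : Subgroup G) : Prop := ∀ T ∈ S, Cm T A → Cm T C

lemma LeC.conj (h : LeC S A C) (hS : IsRootSubgroupSet S) (x : G) : LeC S (conjBy A x) (conjBy C x) := by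
  intro T hT hc
  have h1 := Cm.conj hc x⁻¹
  rw [conjBy_inv_conjBy] at h1
  have h2 := h _ (hS.conj_mem T hT x⁻¹) h1
  have h3 := Cm.conj h2 x
  rwa [conjBy_conjBy_inv] at h3

lemma conj_self_of_cm {x : G} {U V : Subgroup G} (h : Cm U V) (hx : x ∈ U) : conjBy V x = V :=
  conjBy_eq_of_commute (fun f hf => h x hx f hf)

lemma cm_conj_left_of_cm {U V : Subgroup G} {x : G} (h : Cm V U) (hx : x ∈ U) : conjBy V x = V :=
  conj_self_of_cm h.symm hx

/-- A member below `C` has the rank one partners of `C`. -/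
lemma sub_rank_one (hS : IsRootSubgroupSet S) (hAS : A ∈ S) (hE : E ∈ S) (hle : LeC S A C) (hAC : Cm A C)
    (hr : IsRankOnePair C E) : IsRankOnePair A E := by
  rcases hS.pair A hAS E hE with h | h | h
  · exact absurd (hle E hE (Cm.of_bot h).symm) (fun h' => rop_not_cm hr h'.symm)
  · exact h
  · exfalso
    have hY : ⁅A, E⁆ ∈ S := h.1
    have hYA : Cm ⁅A, E⁆ A := rcc_cm_left h
    have hYE : Cm ⁅A, E⁆ E := rcc_cm_right h
    have hYC : Cm ⁅A, E⁆ C := hle _ hY hYA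
    obtain ⟨e, he, he1⟩ := exists_ne_one_of_ne_bot (rop_right_ne_bot hr)
    have hAC' : Cm A (conjBy C e) := by
      intro a ha c' hc'
      rw [mem_conjBy] at hc'
      set c := e⁻¹ * c' * e with hc
      have hc'e : c' = e * c * e⁻¹ := by rw [hc]; group
      have hy : cmap a e⁻¹ ∈ ⁅A, E⁆ := cmap_mem ha (E.inv_mem he)
      have h1 : e * a * e⁻¹ = a * cmap a e⁻¹ := by
        have := conj_eq_mul_cmap a e⁻¹
        rwa [inv_inv] at this
      have h2 : (e * a * e⁻¹) * c' = c' * (e * a * e⁻¹) := by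
        rw [hc'e]
        exact commute_of_conj (hAC a ha c hc')
      have h3 : cmap a e⁻¹ * c' = c' * cmap a e⁻¹ := by
        rw [hc'e]
        have c1 := hYE _ hy e he
        have c2 := hYC _ hy c hc'
        have c3 : cmap a e⁻¹ * e⁻¹ = e⁻¹ * cmap a e⁻¹ := hYE _ hy _ (E.inv_mem he)
        calc cmap a e⁻¹ * (e * c * e⁻¹) = (cmap a e⁻¹ * e) * c * e⁻¹ := by group
          _ = (e * cmap a e⁻¹) * c * e⁻¹ := by rw [c1]
          _ = e * (cmap a e⁻¹ * c) * e⁻¹ := by group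
          _ = e * (c * cmap a e⁻¹) * e⁻¹ := by rw [c2]
          _ = e * c * (cmap a e⁻¹ * e⁻¹) := by group
          _ = e * c * (e⁻¹ * cmap a e⁻¹) := by rw [c3]
          _ = _ := by group
      rw [h1] at h2
      have h4 : a * c' * cmap a e⁻¹ = c' * a * cmap a e⁻¹ := by
        calc a * c' * cmap a e⁻¹ = a * (c' * cmap a e⁻¹) := by group
          _ = a * (cmap a e⁻¹ * c') := by rw [h3]
          _ = a * cmap a e⁻¹ * c' := by group
          _ = c' * (a * cmap a e⁻¹) := h2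
          _ = _ := by group
      exact mul_right_cancel h4
    have hne : conjBy C e ≠ C := rop_conj_ne_right (rop_symm hr) he he1
    have hm : conjBy C e ∈ unipotentSubgroups C E :=
      conj_mem_unipotentSubgroups (left_mem_unipotentSubgroups C E) (Subgroup.mem_sup_right he)
    obtain ⟨-, hsup, -⟩ := rop_of_mem hr (left_mem_unipotentSubgroups C E) hm hne.symm
    have h5 : Cm A (C ⊔ conjBy C e) := Cm.sup_right hAC hAC'
    rw [hsup] at h5
    exact hS.ne_bot _ hY (h5.mono le_rfl le_sup_right).eq_bot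

/-- The main contradiction for rank one pairs below `C`. -/
lemma le_rank_one_false (hS : IsRootSubgroupSet S) (hA : A ∈ S) (hB : B ∈ S) (hC : C ∈ S)
    (hle : LeC S A C) (hAC : Cm A C) (hBC : Cm B C) (hAB : IsRankOnePair A B)
    (hCE : IsRankOnePair C E) (hAE : IsRankOnePair A E) (hBE : IsRankOnePair B E) : False := by
  obtain ⟨e, he, he1⟩ := exists_ne_one_of_ne_bot (rop_right_ne_bot hCE)
  obtain ⟨a, ha, ha1, hae⟩ := hAE.cond_right e he he1
  obtain ⟨b, hb, hb1, hbe⟩ := hBE.cond_right e he he1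
  obtain ⟨c, hc, hc1, hce⟩ := hCE.cond_right e he he1
  -- `B` is below `C`
  have hleB : LeC S B C := by
    obtain ⟨x, hx, hxe⟩ := rop_exists_conj_right hAB
    have hXC : Cm (A ⊔ B) C := Cm.sup_left hAC hBC
    have h1 := hle.conj hS x
    rwa [← hxe, conj_self_of_cm hXC hx] at h1
  have hA' : conjBy A (a * e⁻¹) = E := by
    rw [conjBy_mul, ← hae, conjBy_conjBy_inv]
  have hB' : conjBy B (b * e⁻¹) = E := by
    rw [conjBy_mul, ← hbe, conjBy_conjBy_inv]
  have h1 : Cm E (conjBy C (a * e⁻¹)) := by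
    have := Cm.conj hAC (a * e⁻¹)
    rwa [hA'] at this
  have h2 : LeC S E (conjBy C (b * e⁻¹)) := by
    have := hleB.conj hS (b * e⁻¹)
    rwa [hB'] at this
  have hW : conjBy C (a * e⁻¹) ∈ S := hS.conj_mem C hC _
  have h3 : Cm (conjBy C (a * e⁻¹)) (conjBy C (b * e⁻¹)) := h2 _ hW h1.symm
  have hform : ∀ u ∈ A ⊔ B, conjBy C (u * e⁻¹) = conjBy (conjBy E u) c⁻¹ := by
    intro u hu
    have hcom : u * c⁻¹ = c⁻¹ * u := by
      have := Cm.sup_left hAC hBC u hu c⁻¹ (C.inv_mem hc)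
      exact this
    rw [conjBy_mul, ← hce, conjBy_conjBy, hcom, conjBy_mul]
  rw [hform a (Subgroup.mem_sup_left ha), hform b (Subgroup.mem_sup_right hb)] at h3
  have h4 := Cm.conj h3 c
  have e0 : ∀ X : Subgroup G, conjBy (conjBy X c⁻¹) c = X := conjBy_conjBy_inv (g := c)
  rw [e0, e0] at h4
  obtain ⟨ea, hea, -, hea2⟩ := hAE.cond_left a⁻¹ (A.inv_mem ha) (inv_ne_one.2 ha1)
  obtain ⟨eb, heb, -, heb2⟩ := hBE.cond_left b⁻¹ (B.inv_mem hb) (inv_ne_one.2 hb1)
  rw [inv_inv] at hea2 heb2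
  rw [← hea2, ← heb2] at h4
  have h5 := Cm.conj h4 ea
  rw [conjBy_conjBy_inv, conjBy_conjBy] at h5
  by_cases h6 : ea * eb⁻¹ = 1
  · rw [h6] at h5
    have e1 : conjBy B 1 = B := by
      ext y
      simp
    rw [e1] at h5
    exact rop_not_cm hAB h5
  · have hBS' : conjBy B (ea * eb⁻¹) ∈ S := hS.conj_mem B hB _
    have h7 := hle _ hBS' h5.symm
    have hmem : ea * eb⁻¹ ∈ E := E.mul_mem hea (E.inv_mem heb)
    have h8 := Cm.conj h7 (ea * eb⁻¹)⁻¹
    rw [conjBy_inv_conjBy] at h8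
    have hne : conjBy C (ea * eb⁻¹)⁻¹ ≠ C :=
      rop_conj_ne_right (rop_symm hCE) (E.inv_mem hmem) (inv_ne_one.2 h6)
    have hm : conjBy C (ea * eb⁻¹)⁻¹ ∈ unipotentSubgroups C E :=
      conj_mem_unipotentSubgroups (left_mem_unipotentSubgroups C E) (Subgroup.mem_sup_right (E.inv_mem hmem))
    obtain ⟨-, hsup, -⟩ := rop_of_mem hCE (left_mem_unipotentSubgroups C E) hm hne.symm
    have h9 : Cm B (C ⊔ conjBy C (ea * eb⁻¹)⁻¹) := Cm.sup_right hBC h8
    rw [hsup] at h9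
    exact rop_not_cm hBE (h9.mono le_rfl le_sup_right)

/-- The commutator case below `C` cannot occur. -/
lemma le_comm_false (hS : IsRootSubgroupSet S) (hall : ∀ X ∈ S, ∃ Y ∈ S, IsRankOnePair X Y) (hA : A ∈ S)
    (hB : B ∈ S) (hC : C ∈ S) (hle : LeC S A C) (hAC : Cm A C) (hBC : Cm B C)
    (hAB : RootCommutatorCase S A B) : False := by
  obtain ⟨D', hD', T⟩ := exists_rootSq hS hall hB hA hAB
  obtain ⟨E, hE, hCE⟩ := hall C hC
  have hDC : Cm D' C := hle _ T.hD T.cm_AD.symm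
  have hXC : Cm (B ⊔ D') C := Cm.sup_left hBC hDC
  have hAE : IsRankOnePair A E := sub_rank_one hS hA hE hle hAC hCE
  have hL := comm_line hS hall hA hAB
  have T' : LineCtx S A ⁅A, B⁆ E := ⟨hS, hall, hA, hE, hAE, hL.1⟩
  obtain ⟨Z, hZ, hZle, -, hc, -, -, -⟩ := T'.line_step'
  have hSm : ∀ P ∈ RootSq.omegaOne A B ⁅A, B⁆, P ∈ S := by
    intro P hP
    rw [← T.orbit_eq] at hP
    obtain ⟨x, -, rfl⟩ := hP
    exact hS.conj_mem A hA x
  have hZm : Z ∈ RootSq.omegaOne A B ⁅A, B⁆ := by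
    obtain ⟨z, hz, hz1⟩ := exists_ne_one_of_ne_bot (hS.ne_bot Z hZ)
    obtain ⟨P, hP, hzP⟩ := T.partition.2.1 z (hZle hz) hz1
    have := T'.eq_of_mem hZ (hSm P hP) hz hzP hz1
    rw [this]
    exact hP
  rw [← T.orbit_eq] at hZm
  obtain ⟨x, hx, rfl⟩ := hZm
  have hfix : conjBy C x = C := conj_self_of_cm hXC hx
  have h1 : LeC S (conjBy A x) C := by
    have := hle.conj hS x
    rwa [hfix] at this
  have h2 : Cm (conjBy A x) C := by
    have := Cm.conj hAC x
    rwa [hfix] at this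
  exact not_rank_one_of_comm_mem hS hZ hE (sub_rank_one hS hZ hE h1 h2 hCE) hc.1

/-- The second member of a rank one pair below `C` is below `C`. -/
lemma leC_of_rop (hS : IsRootSubgroupSet S) (hle : LeC S A C) (hAC : Cm A C) (hBC : Cm B C)
    (hAB : IsRankOnePair A B) : LeC S B C := by
  obtain ⟨x, hx, hxe⟩ := rop_exists_conj_right hAB
  have hXC : Cm (A ⊔ B) C := Cm.sup_left hAC hBC
  have h1 := hle.conj hS x
  rwa [← hxe, conj_self_of_cm hXC hx] at h1

/-- The first part: the order is symmetric. -/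
lemma leC_symm (hS : IsRootSubgroupSet S) (hall : ∀ X ∈ S, ∃ Y ∈ S, IsRankOnePair X Y) (hA : A ∈ S)
    (hC : C ∈ S) (hle : LeC S A C) : LeC S C A := by
  have hAC : Cm A C := hle A hA (cm_self_of_root hS hA)
  intro B hB hBC
  rcases hS.pair A hA B hB with h | h | h
  · exact (Cm.of_bot h).symm
  · exfalso
    obtain ⟨E, hE, hCE⟩ := hall C hC
    exact le_rank_one_false hS hA hB hC hle hAC hBC h hCE (sub_rank_one hS hA hE hle hAC hCE)
      (sub_rank_one hS hB hE (leC_of_rop hS hle hAC hBC h) hBC hCE)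
  · exact (le_comm_false hS hall hA hB hC hle hAC hBC h).elim

/-- From partners to the order. -/
lemma leC_of_partners (hS : IsRootSubgroupSet S) (hall : ∀ X ∈ S, ∃ Y ∈ S, IsRankOnePair X Y) (hA : A ∈ S)
    (hC : C ∈ S) (hAC : Cm A C) (hsub : rankOnePartners S A ⊆ rankOnePartners S C) : LeC S C A := by
  intro X hX hXC
  rcases hS.pair X hX A hA with h | h | h
  · exact Cm.of_bot h
  · exact absurd hXC.symm (rop_not_cm (hsub ⟨hX, rop_symm h⟩).2)
  · exfalso
    obtain ⟨D, hD, T⟩ := exists_rootSq hS hall hA hX h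
    have hCD : IsRankOnePair C D := (hsub ⟨T.hD, T.rop⟩).2
    have hYC : Cm ⁅X, A⁆ C := Cm.commutator_left hXC hAC
    obtain ⟨d, hd, hd1⟩ := exists_ne_one_of_ne_bot (rop_right_ne_bot hCD)
    have hle : conjBy ⁅X, A⁆ d ≤ ⁅X, A⁆ ⊔ X := by
      have := conj_le_sup_comm (A := ⁅X, A⁆) (B := D) hd
      rwa [T.e2] at this
    have h1 : Cm (conjBy ⁅X, A⁆ d) C := (Cm.sup_left hYC hXC).mono hle le_rfl
    have h2 : Cm ⁅X, A⁆ (conjBy C d⁻¹) := by
      have := Cm.conj h1 d⁻¹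
      rwa [conjBy_inv_conjBy] at this
    have hne : conjBy C d⁻¹ ≠ C :=
      rop_conj_ne_right (rop_symm hCD) (D.inv_mem hd) (inv_ne_one.2 hd1)
    have hm : conjBy C d⁻¹ ∈ unipotentSubgroups C D :=
      conj_mem_unipotentSubgroups (left_mem_unipotentSubgroups C D)
        (Subgroup.mem_sup_right (D.inv_mem hd))
    obtain ⟨-, hsup, -⟩ := rop_of_mem hCD (left_mem_unipotentSubgroups C D) hm hne.symm
    have h3 : Cm ⁅X, A⁆ (C ⊔ conjBy C d⁻¹) := Cm.sup_right hYC h2
    rw [hsup] at h3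
    have h4 : Cm ⁅X, A⁆ D := h3.mono le_rfl le_sup_right
    have h5 := h4.eq_bot
    rw [T.e2] at h5
    exact hS.ne_bot X hX h5

/-- The comparison of members of a class of abstract root subgroups. -/
theorem root_order (hS : IsRootSubgroupClass S) (hdn : IsDegenerateRootSet S ∨ IsNondegenerateRootSet S)
    (hA : A ∈ S) (hC : C ∈ S) :
    (centralizingMembers S A ⊆ centralizingMembers S C →
      centralizingMembers S A = centralizingMembers S C) ∧
    (rankOnePartners S A ⊆ rankOnePartners S C →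
      ⁅A, C⁆ = ⊥ ∧ rankOnePartners S A = rankOnePartners S C) := by
  have hcase : (∀ X ∈ S, ∃ Y ∈ S, IsRankOnePair X Y) ∨ (∀ X ∈ S, ∀ Y ∈ S, Cm X Y) := by
    by_cases hex : ∃ X ∈ S, ∃ Y ∈ S, IsRankOnePair X Y
    · obtain ⟨A₀, hA₀, B₀, hB₀, hr⟩ := hex
      left
      intro X hX
      obtain ⟨g, rfl⟩ := hS.2.2 A₀ hA₀ X hX
      exact ⟨conjBy B₀ g, hS.1.conj_mem B₀ hB₀ g, rop_conj hr g⟩
    · rcases hdn with hd | hn
      · right
        intro X hX Y hY
        rcases hS.1.pair X hX Y hY with h | h | h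
        · exact Cm.of_bot h
        · exact absurd ⟨X, hX, Y, hY, h⟩ hex
        · exact absurd h (hd X hX Y hY)
      · exact absurd hn.2.1 hex
  have hS1 := hS.1
  have hconv : ∀ {U V : Subgroup G}, centralizingMembers S U ⊆ centralizingMembers S V → LeC S U V := by
    intro U V h T hT hc
    exact (mem_centralizingMembers.1 (h (mem_centralizingMembers.2 ⟨hT, hc⟩))).2
  have hback : ∀ {U V : Subgroup G}, LeC S U V → centralizingMembers S U ⊆ centralizingMembers S V := by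
    intro U V h T hT
    have := mem_centralizingMembers.1 hT
    exact mem_centralizingMembers.2 ⟨this.1, h T this.1 this.2⟩
  rcases hcase with hall | hcm
  · refine ⟨fun h => ?_, fun h => ?_⟩
    · exact Set.Subset.antisymm h (hback (leC_symm hS1 hall hA hC (hconv h)))
    · have hAC : Cm A C := by
        rcases hS1.pair A hA C hC with h' | h' | h'
        · exact Cm.of_bot h'
        · exact ((h ⟨hC, h'⟩).2.ne rfl).elim
        · obtain ⟨D, hD, hr⟩ := exists_line_rop hS1 hall hA hC h'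
          have := (h ⟨hD.1.1, hr⟩).2
          exact absurd (Cm.of_bot hD.1.2.2) (rop_not_cm this)
      refine ⟨hAC.eq_bot, Set.Subset.antisymm h ?_⟩
      have h1 := leC_of_partners hS1 hall hA hC hAC h
      have h2 := leC_symm hS1 hall hC hA h1
      rintro E ⟨hE, hr⟩
      exact ⟨hE, sub_rank_one hS1 hA hE h2 hAC hr⟩
  · refine ⟨fun h => ?_, fun h => ?_⟩
    · refine Set.Subset.antisymm h (hback ?_)
      intro T hT _
      exact hcm T hT A hA
    · refine ⟨(hcm A hA C hC).eq_bot, ?_⟩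
      ext E
      constructor
      · rintro ⟨hE, hr⟩
        exact absurd (hcm A hA E hE) (rop_not_cm hr)
      · rintro ⟨hE, hr⟩
        exact absurd (hcm C hC E hE) (rop_not_cm hr)

end Cfsg.Agent.H24
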