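import Mathlib
import Cfsg.Prelude.Def_RootSubgroups

/-!
Passing a family of root subgroups of `G` to the subgroup it generates.
-/

set_option autoImplicit false

namespace Cfsg.Agent.H24.RootSub

open Cfsg

variable {G : Type*} [Group G] {A B H : Subgroup G}

theorem map_sub (hA : A ≤ H) : (A.subgroupOf H).map H.subtype = A :=
  Subgroup.map_subgroupOf_eq_of_le hA

theorem sub_inj {X Y : Subgroup G} (hX : X ≤ H) (hY : Y ≤ H) (h : X.subgroupOf H = Y.subgroupOf H) : X = Y := by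
  rw [← map_sub hX, ← map_sub hY, h]

theorem conj_sub (g : H) : conjBy (A.subgroupOf H) g = (conjBy A (g : G)).subgroupOf H := by
  ext x
  constructor
  · rintro ⟨y, hy, rfl⟩
    exact ⟨y.1, hy, rfl⟩
  · rintro ⟨y, hy, hyx⟩
    have hyH : y ∈ H := by
      have h0 : (g : G) * y * (g : G)⁻¹ = x := hyx
      have h1 : y = (g : G)⁻¹ * (x : G) * (g : G) := by
        rw [← h0]
        group
      rw [h1]
      exact H.mul_mem (H.mul_mem (H.inv_mem g.2) x.2) g.2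
    exact ⟨⟨y, hyH⟩, hy, Subtype.ext hyx⟩

theorem conj_le {X : Subgroup G} {g : G} (hX : X ≤ H) (hg : g ∈ H) : conjBy X g ≤ H := by
  rintro _ ⟨y, hy, rfl⟩
  exact H.mul_mem (H.mul_mem hg (hX hy)) (H.inv_mem hg)

theorem conj_conj (X : Subgroup G) (u v : G) : conjBy (conjBy X u) v = conjBy X (v * u) := by
  ext x
  constructor
  · rintro ⟨_, ⟨y, hy, rfl⟩, rfl⟩
    refine ⟨y, hy, ?_⟩
    simp [mul_assoc]
  · rintro ⟨y, hy, rfl⟩
    refine ⟨_, ⟨y, hy, rfl⟩, ?_⟩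
    simp [mul_assoc]

theorem rankCond_down (hB : B ≤ H) (h : RankOneCondition A B) :
    RankOneCondition (A.subgroupOf H) (B.subgroupOf H) := by
  intro a ha ha1
  obtain ⟨b, hb, hb1, hb2⟩ := h a.1 (Subgroup.mem_subgroupOf.1 ha) (fun h' => ha1 (Subtype.ext h'))
  refine ⟨⟨b, hB hb⟩, Subgroup.mem_subgroupOf.2 hb, fun h' => hb1 (congrArg Subtype.val h'), ?_⟩
  rw [conj_sub, conj_sub]
  exact congrArg (fun X : Subgroup G => X.subgroupOf H) hb2

theorem rankCond_up (hA : A ≤ H) (hB : B ≤ H) (h : RankOneCondition (A.subgroupOf H) (B.subgroupOf H)) :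
    RankOneCondition A B := by
  intro a ha ha1
  obtain ⟨b, hb, hb1, hb2⟩ := h ⟨a, hA ha⟩ (Subgroup.mem_subgroupOf.2 ha)
    (fun h' => ha1 (congrArg Subtype.val h'))
  refine ⟨b.1, Subgroup.mem_subgroupOf.1 hb, fun h' => hb1 (Subtype.ext h'), ?_⟩
  rw [conj_sub, conj_sub] at hb2
  exact sub_inj (conj_le hA (H.inv_mem b.2)) (conj_le hB (H.inv_mem (hA ha))) hb2

theorem nilpotent_of_comm' {X : Subgroup G} (h : ∀ a ∈ X, ∀ b ∈ X, a * b = b * a) : Group.IsNilpotent X := by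
  letI : CommGroup X := { (inferInstance : Group X) with
    mul_comm := fun a b => Subtype.ext (h a.1 a.2 b.1 b.2) }
  infer_instance

theorem nilpotent_sub {X : Subgroup G} (h : ∀ a ∈ X, ∀ b ∈ X, a * b = b * a) : Group.IsNilpotent (X.subgroupOf H) := by
  letI : CommGroup (X.subgroupOf H) := { (inferInstance : Group (X.subgroupOf H)) with
    mul_comm := fun a b => Subtype.ext (Subtype.ext (h a.1.1 (Subgroup.mem_subgroupOf.1 a.2) b.1.1 (Subgroup.mem_subgroupOf.1 b.2))) }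
  infer_instance

theorem comm_down (hA : A ≤ H) (hB : B ≤ H) (h : ⁅A, B⁆ = ⊥) : ⁅A.subgroupOf H, B.subgroupOf H⁆ = ⊥ := by
  apply Subgroup.map_injective H.subtype_injective
  rw [Subgroup.map_commutator, map_sub hA, map_sub hB, h, Subgroup.map_bot]

theorem commCase_down {S : Set (Subgroup G)} (hS : ∀ X ∈ S, X ≤ H) (hA : A ≤ H) (hB : B ≤ H)
    (h : RootCommutatorCase ((fun X : Subgroup G => X.subgroupOf H) '' S) (A.subgroupOf H) (B.subgroupOf H)) :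
    ⁅A, B⁆ ∈ S ∧ ∀ c ∈ ⁅A, B⁆, ∀ x ∈ A ⊔ B, c * x = x * c := by
  obtain ⟨⟨C, hC, hCe⟩, h2, -, -⟩ := h
  have hmap : ⁅A, B⁆ = ⁅A.subgroupOf H, B.subgroupOf H⁆.map H.subtype := by
    rw [Subgroup.map_commutator, map_sub hA, map_sub hB]
  constructor
  · have h3 : ⁅A, B⁆ = C := by
      rw [hmap, ← hCe]
      exact map_sub (hS C hC)
    rw [h3]
    exact hC
  · intro c hc x hx
    rw [hmap] at hc
    obtain ⟨c', hc', rfl⟩ := hc
    have hx' : x ∈ (A.subgroupOf H ⊔ B.subgroupOf H).map H.subtype := by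
      rw [Subgroup.map_sup, map_sub hA, map_sub hB]
      exact hx
    obtain ⟨x', hx', rfl⟩ := hx'
    exact congrArg Subtype.val (h2 c' hc' x' hx')

theorem psl2_down {k : Type*} [Field k] (hA : A ≤ H) (hB : B ≤ H) (h : IsPSL2PairOver k A B) :
    IsPSL2PairOver k (A.subgroupOf H) (B.subgroupOf H) := by
  obtain ⟨φ, h1, h2, h3, h4⟩ := h
  have hφ : ∀ x, φ x ∈ H := fun x => (sup_le hA hB) (h1 ▸ (⟨x, rfl⟩ : φ x ∈ φ.range))
  have hcomp : H.subtype.comp (φ.codRestrict H hφ) = φ := MonoidHom.ext fun _ => rfl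
  have hmapm : ∀ U : Subgroup (Matrix.SpecialLinearGroup (Fin 2) k),
      (U.map (φ.codRestrict H hφ)).map H.subtype = U.map φ := fun U => by
    rw [Subgroup.map_map, hcomp]
  refine ⟨φ.codRestrict H hφ, ?_, ?_, ?_, ?_⟩
  · apply Subgroup.map_injective H.subtype_injective
    rw [Subgroup.map_sup, map_sub hA, map_sub hB, MonoidHom.range_eq_map, hmapm, ← MonoidHom.range_eq_map, h1]
  · intro x hx
    apply h2
    rw [MonoidHom.mem_ker] at hx ⊢
    exact congrArg Subtype.val hx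
  · apply Subgroup.map_injective H.subtype_injective
    rw [hmapm, map_sub hA, h3]
  · apply Subgroup.map_injective H.subtype_injective
    rw [hmapm, map_sub hB, h4]

section Family

variable (S : Set (Subgroup G))

/-- The subgroup generated by the family. -/
abbrev Gen : Subgroup G := ⨆ B ∈ S, B

/-- The family, inside the subgroup it generates. -/
abbrev Sub : Set (Subgroup (Gen S)) := (fun A : Subgroup G => A.subgroupOf (Gen S)) '' S

variable {S}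

theorem le_gen {A : Subgroup G} (hA : A ∈ S) : A ≤ Gen S := le_iSup₂_of_le A hA le_rfl

theorem gen_top : (⨆ A ∈ Sub S, A) = ⊤ := by
  rw [eq_top_iff]
  rintro x -
  have h : Gen S ≤ (⨆ A ∈ Sub S, A).map (Gen S).subtype := by
    refine iSup₂_le fun B hB y hy => ?_
    refine ⟨⟨y, le_gen hB hy⟩, ?_, rfl⟩
    exact (le_iSup₂_of_le (f := fun (A : Subgroup (Gen S)) (_ : A ∈ Sub S) => A) _ ⟨B, hB, rfl⟩ le_rfl)
      (Subgroup.mem_subgroupOf.2 hy)
  obtain ⟨x', hx', hxe⟩ := h x.2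
  have h3 : x' = x := Subtype.ext hxe
  rwa [← h3]

theorem isRootSet (hcomm : ∀ A ∈ S, ∀ a ∈ A, ∀ b ∈ A, a * b = b * a) (hne : ∀ A ∈ S, A ≠ ⊥)
    (hconj : ∀ A ∈ S, ∀ g : G, conjBy A g ∈ S)
    (hpair : ∀ A ∈ S, ∀ B ∈ S, ⁅A, B⁆ = ⊥ ∨ IsRankOnePair A B) : IsRootSubgroupSet (Sub S) where
  commutative := by
    rintro _ ⟨A, hA, rfl⟩
    exact ⟨⟨fun a b => Subtype.ext (Subtype.ext (hcomm A hA a.1.1 (Subgroup.mem_subgroupOf.1 a.2) b.1.1 (Subgroup.mem_subgroupOf.1 b.2)))⟩⟩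
  ne_bot := by
    rintro _ ⟨A, hA, rfl⟩ h
    apply hne A hA
    have h1 := map_sub (le_gen hA)
    rw [← h1]
    change (A.subgroupOf (Gen S)).map _ = ⊥
    rw [show A.subgroupOf (Gen S) = ⊥ from h, Subgroup.map_bot]
  generates := gen_top
  conj_mem := by
    rintro _ ⟨A, hA, rfl⟩ g
    refine ⟨conjBy A g.1, hconj A hA g.1, ?_⟩
    exact (conj_sub g).symm
  pair := by
    rintro _ ⟨A, hA, rfl⟩ _ ⟨B, hB, rfl⟩
    rcases hpair A hA B hB with h | h
    · exact Or.inl (comm_down (le_gen hA) (le_gen hB) h)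
    · exact Or.inr (Or.inl ⟨fun he => h.ne (sub_inj (le_gen hA) (le_gen hB) he),
        nilpotent_sub (hcomm A hA), nilpotent_sub (hcomm B hB),
        rankCond_down (le_gen hB) h.cond_left, rankCond_down (le_gen hA) h.cond_right⟩)

theorem conj_of_fadj (hne : ∀ A ∈ S, A ≠ ⊥) {A B : Subgroup G} (h : FAdj S A B) :
    ∃ g ∈ Gen S, B = conjBy A g := by
  obtain ⟨hA, hB, h⟩ := h
  obtain ⟨a, ha, ha1⟩ := (Subgroup.ne_bot_iff_exists_ne_one (H := A)).1 (hne A hA) |>.imp (fun a h => h) |> fun ⟨a, h⟩ =>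
    (⟨a.1, a.2, fun h' => h (Subtype.ext h')⟩ : ∃ a : G, a ∈ A ∧ a ≠ 1)
  obtain ⟨b, hb, -, hb2⟩ := h.cond_left a ha ha1
  refine ⟨a * b⁻¹, (Gen S).mul_mem (le_gen hA ha) ((Gen S).inv_mem (le_gen hB hb)), ?_⟩
  rw [← conj_conj, hb2, conj_conj]
  simp only [mul_inv_cancel]
  ext x
  simp

theorem isClass (hne : ∀ A ∈ S, A ≠ ⊥) (hS : S.Nonempty) (hconn : IsConnectedFamily (FAdj S) S) :
    IsConjClassOfSubgroups (Sub S) := by
  refine ⟨hS.image _, ?_⟩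
  rintro _ ⟨A, hA, rfl⟩ _ ⟨B, hB, rfl⟩
  have key : ∃ g ∈ Gen S, B = conjBy A g := by
    have h := hconn A hA B hB
    clear hB
    induction h with
    | refl =>
      refine ⟨1, (Gen S).one_mem, ?_⟩
      ext x
      simp
    | tail _ hbc ih =>
      obtain ⟨g, hg, rfl⟩ := ih
      obtain ⟨g', hg', rfl⟩ := conj_of_fadj hne hbc
      exact ⟨g' * g, (Gen S).mul_mem hg' hg, conj_conj _ _ _⟩
  obtain ⟨g, hg, rfl⟩ := key
  exact ⟨⟨g, hg⟩, (conj_sub ⟨g, hg⟩).symm⟩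

theorem isDegenerate (hnot : ∀ A ∈ S, ∀ B ∈ S, ⁅A, B⁆ ∈ S → (∀ c ∈ ⁅A, B⁆, ∀ x ∈ A ⊔ B, c * x = x * c) → False) :
    IsDegenerateRootSet (Sub S) := by
  rintro _ ⟨A, hA, rfl⟩ _ ⟨B, hB, rfl⟩ h
  obtain ⟨h1, h2⟩ := commCase_down (fun X hX => le_gen hX) (le_gen hA) (le_gen hB) h
  exact hnot A hA B hB h1 h2

theorem rank_up (hcomm : ∀ A ∈ S, ∀ a ∈ A, ∀ b ∈ A, a * b = b * a) {A B : Subgroup G} (hA : A ∈ S) (hB : B ∈ S)
    (h : IsRankOnePair (A.subgroupOf (Gen S)) (B.subgroupOf (Gen S))) : IsRankOnePair A B :=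
  ⟨fun he => h.ne (by rw [he]), nilpotent_of_comm' (hcomm A hA), nilpotent_of_comm' (hcomm B hB),
    rankCond_up (le_gen hA) (le_gen hB) h.cond_left, rankCond_up (le_gen hB) (le_gen hA) h.cond_right⟩

theorem isKRoot (k : Type*) [Field k] (hcomm : ∀ A ∈ S, ∀ a ∈ A, ∀ b ∈ A, a * b = b * a)
    (hroot : IsRootSubgroupSet (Sub S))
    (hpsl : ∀ A ∈ S, ∀ B ∈ S, IsRankOnePair A B → IsPSL2PairOver k A B) : IsKRootSubgroupSet k (Sub S) := by
  refine ⟨hroot, ?_⟩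
  rintro _ ⟨A, hA, rfl⟩ _ ⟨B, hB, rfl⟩ h
  exact psl2_down (le_gen hA) (le_gen hB) (hpsl A hA B hB (rank_up hcomm hA hB h))

theorem isConn (hcomm : ∀ A ∈ S, ∀ a ∈ A, ∀ b ∈ A, a * b = b * a) (hconn : IsConnectedFamily (FAdj S) S) :
    IsConnectedFamily (FAdj (Sub S)) (Sub S) := by
  rintro _ ⟨A, hA, rfl⟩ _ ⟨B, hB, rfl⟩
  refine (Relation.ReflTransGen.lift (fun X : Subgroup G => X.subgroupOf (Gen S)) ?_) A B (hconn A hA B hB)
  rintro X Y ⟨hX, hY, h⟩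
  exact ⟨⟨X, hX, rfl⟩, ⟨Y, hY, rfl⟩, ⟨fun he => h.ne (sub_inj (le_gen hX) (le_gen hY) he),
    nilpotent_sub (hcomm X hX), nilpotent_sub (hcomm Y hY),
    rankCond_down (le_gen hY) h.cond_left, rankCond_down (le_gen hX) h.cond_right⟩⟩

end Family

end Cfsg.Agent.H24.RootSub
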