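import Cfsg.Agent.Lib.H25.Fus4
import Cfsg.Agent.Lib.H24.FusSat

/-!
The saturation criterion of Broto-Castellana-Grodal-Levi-Oliver: finite group lemmas, the pair
conjugation property and the extension of pair isomorphisms.
-/

set_option autoImplicit false

namespace Cfsg.Agent.H24.SatC

open Cfsg Cfsg.FusionSystem Cfsg.Agent.H25
open scoped Pointwise

section Groups

variable {G : Type*} [Group G] [Finite G] {p : ℕ} [Fact p.Prime]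

/-- Sylow in a subgroup, in element form. -/
theorem sylow_sub (H : Subgroup G) : ∃ V : Subgroup G, V ≤ H ∧ IsPGroup p V ∧
    ∀ R : Subgroup G, R ≤ H → IsPGroup p R → ∃ n ∈ H, ∀ r ∈ R, n * r * n⁻¹ ∈ V := by
  classical
  obtain ⟨T⟩ : Nonempty (Sylow p H) := inferInstance
  refine ⟨(T : Subgroup H).map H.subtype, ?_, T.isPGroup'.map _, ?_⟩
  · rintro _ ⟨x, -, rfl⟩
    exact x.2
  · intro R hRH hR
    have hR' : IsPGroup p (R.subgroupOf H) :=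
      hR.of_injective (Subgroup.subgroupOfEquivOfLe hRH).toMonoidHom (MulEquiv.injective _)
    obtain ⟨T', hT'⟩ := hR'.exists_le_sylow
    obtain ⟨b, hb⟩ := MulAction.exists_smul_eq H T T'
    refine ⟨(b⁻¹ : H), (b⁻¹ : H).2, fun r hr => ?_⟩
    have h1 : (⟨r, hRH hr⟩ : H) ∈ (T' : Subgroup H) := hT' hr
    rw [← hb, Sylow.coe_subgroup_smul, Subgroup.mem_pointwise_smul_iff_inv_smul_mem] at h1
    refine ⟨_, h1, ?_⟩
    simp [MulAut.smul_def, MulAut.conj_apply]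

/-- Comparison of two subgroups conjugate into each other. -/
theorem exists_preimage_of_conj_into {V W : Subgroup G} {n g : G} (h1 : ∀ v ∈ V, n * v * n⁻¹ ∈ W)
    (h2 : ∀ w ∈ W, g * w * g⁻¹ ∈ V) : ∀ w ∈ W, ∃ v ∈ V, n * v * n⁻¹ = w := by
  classical
  haveI : Finite V := inferInstance
  haveI : Finite W := inferInstance
  let m1 : V → W := fun v => ⟨n * v * n⁻¹, h1 v v.2⟩
  let m2 : W → V := fun w => ⟨g * w * g⁻¹, h2 w w.2⟩
  have hm1 : Function.Injective m1 := by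
    intro x y hxy
    have := congrArg Subtype.val hxy
    simp only [m1, mul_left_inj, mul_right_inj] at this
    exact Subtype.ext this
  have hm2 : Function.Injective m2 := by
    intro x y hxy
    have := congrArg Subtype.val hxy
    simp only [m2, mul_left_inj, mul_right_inj] at this
    exact Subtype.ext this
  have hb := (Nat.bijective_iff_injective_and_card m1).mpr
    ⟨hm1, le_antisymm (Nat.card_le_card_of_injective m1 hm1) (Nat.card_le_card_of_injective m2 hm2)⟩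
  intro w hw
  obtain ⟨v, hv⟩ := hb.2 ⟨w, hw⟩
  exact ⟨v, v.2, congrArg Subtype.val hv⟩

/-- A `p`-subgroup into which all `p`-subgroups conjugate stays Sylow in subgroups containing it. -/
theorem exists_conj_in_sub (V H R : Subgroup G) (hVp : IsPGroup p V)
    (hVmax : ∀ T : Subgroup G, IsPGroup p T → ∃ g : G, ∀ t ∈ T, g * t * g⁻¹ ∈ V)
    (hVH : V ≤ H) (hRH : R ≤ H) (hRp : IsPGroup p R) : ∃ h ∈ H, ∀ r ∈ R, h * r * h⁻¹ ∈ V := by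
  obtain ⟨V₁, hV₁, hV₁p, hV₁s⟩ := sylow_sub (p := p) H
  obtain ⟨n, hn, hnV⟩ := hV₁s V hVH hVp
  obtain ⟨g, hg⟩ := hVmax V₁ hV₁p
  obtain ⟨m, hm, hmR⟩ := hV₁s R hRH hRp
  have hsurj := exists_preimage_of_conj_into hnV hg
  refine ⟨n⁻¹ * m, H.mul_mem (H.inv_mem hn) hm, fun r hr => ?_⟩
  obtain ⟨v, hv, hvr⟩ := hsurj _ (hmR r hr)
  have : n⁻¹ * m * r * (n⁻¹ * m)⁻¹ = n⁻¹ * (m * r * m⁻¹) * n := by group
  rw [this, ← hvr]
  convert hv using 1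
  group

/-- The Frattini decomposition used in the proof. -/
theorem frattini_decomp (V N D : Subgroup G) [hN : N.Normal] [hD : D.Normal] (hVp : IsPGroup p V)
    (hVmax : ∀ T : Subgroup G, IsPGroup p T → ∃ g : G, ∀ t ∈ T, g * t * g⁻¹ ∈ V)
    (hND : ∀ x ∈ N, ∃ k : ℕ, x ^ (p ^ k) ∈ D) (g : G) :
    ∃ d ∈ D, ∃ v ∈ V ⊓ N, ∃ γ, g = d * v * γ ∧ ∀ u ∈ V ⊓ N, γ * u * γ⁻¹ ∈ V ⊓ N := by
  classical
  have hQp : IsPGroup p ↥(V ⊓ N) := hVp.to_le inf_le_left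
  -- every p-subgroup of N is N-conjugate into Q₁
  have hconjN : ∀ T : Subgroup G, T ≤ N → IsPGroup p T → ∃ m ∈ N, ∀ t ∈ T, m * t * m⁻¹ ∈ V ⊓ N := by
    obtain ⟨V₁, hV₁, hV₁p, hV₁s⟩ := sylow_sub (p := p) N
    obtain ⟨n, hn, hnV⟩ := hV₁s (V ⊓ N) inf_le_right hQp
    obtain ⟨g₁, hg₁⟩ := hVmax V₁ hV₁p
    have hg₁' : ∀ w ∈ V₁, g₁ * w * g₁⁻¹ ∈ V ⊓ N := fun w hw =>
      ⟨hg₁ w hw, hN.conj_mem _ (hV₁ hw) _⟩
    have hsurj := exists_preimage_of_conj_into hnV hg₁'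
    intro T hTN hTp
    obtain ⟨m, hm, hmT⟩ := hV₁s T hTN hTp
    refine ⟨n⁻¹ * m, N.mul_mem (N.inv_mem hn) hm, fun r hr => ?_⟩
    obtain ⟨v, hv, hvr⟩ := hsurj _ (hmT r hr)
    have : n⁻¹ * m * r * (n⁻¹ * m)⁻¹ = n⁻¹ * (m * r * m⁻¹) * n := by group
    rw [this, ← hvr]
    convert hv using 1
    group
  -- N = D Q₁
  have hdec : ∀ o ∈ N, ∃ d ∈ D, ∃ v ∈ V ⊓ N, o = d * v := by
    obtain ⟨T⟩ : Nonempty (Sylow p N) := inferInstance
    let q : N →* N ⧸ D.subgroupOf N := QuotientGroup.mk' _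
    have hq : Function.Surjective q := QuotientGroup.mk'_surjective _
    have hqp : IsPGroup p (N ⧸ D.subgroupOf N) := by
      intro x
      obtain ⟨y, rfl⟩ := QuotientGroup.mk'_surjective _ x
      obtain ⟨k, hk⟩ := hND y y.2
      refine ⟨k, ?_⟩
      rw [← map_pow]
      show ((y ^ (p ^ k) : N) : N ⧸ D.subgroupOf N) = 1
      rw [QuotientGroup.eq_one_iff]
      exact hk
    have htop : ((T.mapSurjective hq : Sylow p (N ⧸ D.subgroupOf N)) : Subgroup (N ⧸ D.subgroupOf N)) = ⊤ :=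
      ((T.mapSurjective hq).is_maximal' (hqp.to_subgroup ⊤) le_top).symm
    rw [Sylow.coe_mapSurjective] at htop
    obtain ⟨m, hm, hmT⟩ := hconjN ((T : Subgroup N).map N.subtype) (by
      rintro _ ⟨x, -, rfl⟩
      exact x.2) (T.isPGroup'.map _)
    intro o ho
    have ho' : m⁻¹ * o * m ∈ N := by
      have := hN.conj_mem o ho m⁻¹
      simpa using this
    have h1 : q ⟨_, ho'⟩ ∈ (T : Subgroup N).map q := by rw [htop]; trivial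
    obtain ⟨t, ht, hqt⟩ := h1
    have h2 : (⟨_, ho'⟩ : N) * t⁻¹ ∈ D.subgroupOf N := by
      rw [← QuotientGroup.eq_one_iff (N := D.subgroupOf N)]
      show q _ = 1
      rw [map_mul, map_inv, ← hqt]
      simp
    have h3 : m⁻¹ * o * m * (t : G)⁻¹ ∈ D := h2
    refine ⟨m * (m⁻¹ * o * m * (t : G)⁻¹) * m⁻¹, hD.conj_mem _ h3 m, m * t * m⁻¹,
      hmT _ ⟨t, ht, rfl⟩, ?_⟩
    group
  -- Frattini
  have hconjg : ∃ m ∈ N, ∀ t ∈ V ⊓ N, m * (g * t * g⁻¹) * m⁻¹ ∈ V ⊓ N := by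
    let T : Subgroup G := (V ⊓ N).map (MulAut.conj g).toMonoidHom
    have hTN : T ≤ N := by
      rintro _ ⟨x, hx, rfl⟩
      exact hN.conj_mem _ hx.2 g
    have hTp : IsPGroup p T := hQp.map _ |>.to_le (le_refl _)
    obtain ⟨m, hm, hmT⟩ := hconjN T hTN hTp
    refine ⟨m, hm, fun t ht => hmT _ ⟨t, ht, ?_⟩⟩
    simp [MulAut.conj_apply]
  obtain ⟨m, hm, hmg⟩ := hconjg
  obtain ⟨d, hd, v, hv, hmi⟩ := hdec m⁻¹ (N.inv_mem hm)
  refine ⟨d, hd, v, hv, m * g, ?_, fun u hu => ?_⟩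
  · rw [← hmi]; group
  · have := hmg u hu
    convert this using 1
    group

end Groups

section Pair

variable {Ω : Type*} [Group Ω] {S : Subgroup Ω} {F : FusionSystem S}
variable {P Q R K X Y A B W : Subgroup Ω} {f g h θ β : Ω → Ω} {p : ℕ}

/-- The stabilizer of `B` in `Aut_F(Y)`. -/
def Gam (F : FusionSystem S) (Y B : Subgroup Ω) : Subgroup (MulAut Y) where
  carrier := {α | α ∈ F.autGroup Y ∧ ∀ y : Y, (y : Ω) ∈ B ↔ ((α y : Y) : Ω) ∈ B}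
  mul_mem' := by
    rintro a b ⟨ha, ha'⟩ ⟨hb, hb'⟩
    refine ⟨Subgroup.mul_mem _ ha hb, fun y => ?_⟩
    rw [hb' y, ha' (b y)]
    rfl
  one_mem' := ⟨Subgroup.one_mem _, fun y => Iff.rfl⟩
  inv_mem' := by
    rintro a ⟨ha, ha'⟩
    refine ⟨Subgroup.inv_mem _ ha, fun y => ?_⟩
    have := ha' (a⁻¹ y)
    have e : a (a⁻¹ y) = y := by simp
    rw [e] at this
    exact this.symm

theorem Gam_le : Gam F Y B ≤ F.autGroup Y := fun _ h => h.1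

theorem mem_Gam {α : MulAut Y} : α ∈ Gam F Y B ↔
    α ∈ F.autGroup Y ∧ ∀ y : Y, (y : Ω) ∈ B ↔ ((α y : Y) : Ω) ∈ B := Iff.rfl

variable (F p) in
/-- Every `p`-subgroup of the stabilizer can be conjugated inside the stabilizer to `Aut_S(Y)`. -/
def PairConj (Y B : Subgroup Ω) : Prop :=
  ∀ R : Subgroup (MulAut Y), IsPGroup p R → R ≤ Gam F Y B →
    ∃ β ∈ Gam F Y B, ∀ r ∈ R, β * r * β⁻¹ ∈ autInducedBy S Y

variable (F p) in
/-- A far pair. -/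
structure FarPair (Y B : Subgroup Ω) : Prop where
  far : Far F p Y
  le : B ≤ Y
  conj : PairConj F p Y B

variable [Finite S] [Fact p.Prime]

theorem exists_pairConj (hY : Far F p Y) (B₀ : Subgroup Ω) :
    ∃ g, Iso F Y Y g ∧ ∀ B : Subgroup Ω, (∀ y ∈ Y, y ∈ B₀ ↔ g y ∈ B) → PairConj F p Y B := by
  haveI : Finite Y := finite_of_le hY.le
  obtain ⟨V₁, hV₁, hV₁p, hV₁s⟩ := sylow_sub (p := p) (Gam F Y B₀)
  obtain ⟨g₀, hg₀, hg₀V⟩ := Cfsg.Agent.H24.exists_conj_into_autS hY.auto V₁ (hV₁.trans Gam_le) hV₁p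
  refine ⟨toFun (Y.subtype.comp g₀.toMonoidHom), Iso.of_mem_autGroup hY.le hg₀, fun B hB R hRp hRG => ?_⟩
  have hB' : ∀ y : Y, (y : Ω) ∈ B₀ ↔ ((g₀ y : Y) : Ω) ∈ B := fun y => by
    have := hB y y.2
    rwa [toFun_aut] at this
  have h1 : ∀ α, α ∈ Gam F Y B₀ → g₀ * α * g₀⁻¹ ∈ Gam F Y B := by
    rintro α ⟨hα, hα'⟩
    refine ⟨Subgroup.mul_mem _ (Subgroup.mul_mem _ hg₀ hα) (Subgroup.inv_mem _ hg₀), fun y => ?_⟩
    have e : g₀ (g₀⁻¹ y) = y := by simp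
    have h3 := hB' (g₀⁻¹ y)
    rw [e] at h3
    rw [← h3, hα' (g₀⁻¹ y), hB' (α (g₀⁻¹ y))]
    rfl
  have h2 : ∀ α, α ∈ Gam F Y B → g₀⁻¹ * α * g₀ ∈ Gam F Y B₀ := by
    rintro α ⟨hα, hα'⟩
    refine ⟨Subgroup.mul_mem _ (Subgroup.mul_mem _ (Subgroup.inv_mem _ hg₀) hα) hg₀, fun y => ?_⟩
    rw [hB' y, hα' (g₀ y)]
    have h3 := hB' (g₀⁻¹ (α (g₀ y)))
    have e : g₀ (g₀⁻¹ (α (g₀ y))) = α (g₀ y) := by simp
    rw [e] at h3
    exact h3.symm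
  let R₀ : Subgroup (MulAut Y) := R.map (MulAut.conj g₀⁻¹).toMonoidHom
  obtain ⟨n, hn, hnR⟩ := hV₁s R₀ (by
    rintro _ ⟨r, hr, rfl⟩
    have := h2 r (hRG hr)
    simpa [MulAut.conj_apply] using this) (hRp.map _)
  refine ⟨g₀ * n * g₀⁻¹, h1 n hn, fun r hr => ?_⟩
  have := hg₀V _ (hnR (g₀⁻¹ * r * g₀) ⟨r, hr, by simp [MulAut.conj_apply]⟩)
  convert this using 1
  group

omit [Finite S] [Fact p.Prime] in
theorem iso_of_iff (hB : B ≤ Y) (hβ : Iso F Y Y β) (hβB : ∀ y ∈ Y, y ∈ B ↔ β y ∈ B) : Iso F B B β := by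
  refine ⟨hβ.mp.restrict hB, fun x hx => (hβB x (hB hx)).mp hx, fun y hy => ?_⟩
  obtain ⟨x, hx, rfl⟩ := hβ.surj y (hB hy)
  exact ⟨x, (hβB x hx).mpr hy, rfl⟩

omit [Finite S] [Fact p.Prime] in
theorem iff_of_iso (hX : Iso F X Y θ) (hA : Iso F A B θ) (hAX : A ≤ X) : ∀ x ∈ X, x ∈ A ↔ θ x ∈ B := by
  intro x hx
  refine ⟨hA.maps x, fun h => ?_⟩
  obtain ⟨a, ha, hax⟩ := hA.surj _ h
  rwa [← hX.mp.inj (hAX ha) hx hax]

/-- The main extension lemma for far pairs. -/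
theorem pair_ext (hS : IsPGroup p S) (hPC : FarPair F p Y B) (hθ : Iso F X Y θ)
    (hθA : ∀ x ∈ X, x ∈ A ↔ θ x ∈ B) (hKS : K ≤ S) (hXK : X ≤ K)
    (hKX : K ≤ Subgroup.normalizer (X : Set Ω)) (hKA : K ≤ Subgroup.normalizer (A : Set Ω)) :
    ∃ β, Iso F Y Y β ∧ (∀ y ∈ Y, y ∈ B ↔ β y ∈ B) ∧ ∃ h, Mp F K h ∧ ∀ x ∈ X, h x = β (θ x) := by
  classical
  have hY := hPC.far
  have hYS := hY.le
  have hXS : X ≤ S := hθ.mp.le
  haveI : Finite Y := finite_of_le hYS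
  obtain ⟨θ', hθ', h1, h2⟩ := hθ.inv
  have hc : ∀ g : K, Iso F Y Y (θ ∘ (fun x => (g : Ω) * x * (g : Ω)⁻¹) ∘ θ') := fun g =>
    (hθ'.comp (Iso.conj_normalizer hXS (hKS g.2) (hKX g.2))).comp hθ
  let T : K →* MulAut Y := MonoidHom.mk' (fun g => autOfIso (hc g)) (by
    intro g₁ g₂
    apply MulEquiv.ext
    intro y
    apply Subtype.ext
    have hy' := hθ'.maps y y.2
    have hgx : (g₂ : Ω) * θ' y * (g₂ : Ω)⁻¹ ∈ X := conj_mem_of_normalizer (hKX g₂.2) hy'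
    show θ ((↑(g₁ * g₂) : Ω) * θ' y * (↑(g₁ * g₂) : Ω)⁻¹) =
      θ ((g₁ : Ω) * θ' (θ ((g₂ : Ω) * θ' y * (g₂ : Ω)⁻¹)) * (g₁ : Ω)⁻¹)
    rw [h1 _ hgx]
    congr 1
    simp only [Subgroup.coe_mul]
    group)
  have hTapply : ∀ (g : K) (y : Y), ((T g y : Y) : Ω) = θ ((g : Ω) * θ' y * (g : Ω)⁻¹) := fun _ _ => rfl
  have hTG : T.range ≤ Gam F Y B := by
    rintro _ ⟨g, rfl⟩
    refine ⟨autOfIso_mem (hc g), fun y => ?_⟩
    rw [hTapply]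
    have hy' := hθ'.maps y y.2
    have hgx : (g : Ω) * θ' y * (g : Ω)⁻¹ ∈ X := conj_mem_of_normalizer (hKX g.2) hy'
    rw [← hθA _ hgx]
    have e : θ (θ' y) = y := h2 y y.2
    have h3 := hθA _ hy'
    rw [e] at h3
    rw [← h3]
    exact (Subgroup.mem_normalizer_iff.mp (hKA g.2) _)
  have hTp : IsPGroup p T.range := ((hS.to_le hKS).of_surjective T.rangeRestrict T.rangeRestrict_surjective)
  obtain ⟨β₀, hβ₀, hβ₀T⟩ := hPC.conj T.range hTp hTG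
  have hIa := Iso.of_mem_autGroup hYS hβ₀.1
  have hβB : ∀ y ∈ Y, y ∈ B ↔ toFun (Y.subtype.comp β₀.toMonoidHom) y ∈ B := by
    intro y hy
    rw [toFun_aut β₀ ⟨y, hy⟩]
    exact hβ₀.2 ⟨y, hy⟩
  refine ⟨_, hIa, hβB, ?_⟩
  have hgood : ∀ g ∈ K, ∃ s ∈ S, ∀ x ∈ X, (toFun (Y.subtype.comp β₀.toMonoidHom) ∘ θ) (g * x * g⁻¹) =
      s * (toFun (Y.subtype.comp β₀.toMonoidHom) ∘ θ) x * s⁻¹ := by
    intro g hg
    obtain ⟨s, hs, hsx⟩ := exists_of_mem_autInducedBy (hβ₀T (T ⟨g, hg⟩) ⟨⟨g, hg⟩, rfl⟩)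
    refine ⟨s, hs, fun x hx => ?_⟩
    have hgx : g * x * g⁻¹ ∈ X := conj_mem_of_normalizer (hKX hg) hx
    have h3 := hsx (β₀ ⟨θ x, hθ.maps x hx⟩)
    have h4 : (β₀ * T ⟨g, hg⟩ * β₀⁻¹) (β₀ ⟨θ x, hθ.maps x hx⟩) = β₀ ⟨θ (g * x * g⁻¹), hθ.maps _ hgx⟩ := by
      show β₀ (T ⟨g, hg⟩ (β₀⁻¹ (β₀ ⟨θ x, hθ.maps x hx⟩))) = _
      rw [MulAut.inv_apply_self]
      congr 1
      apply Subtype.ext
      rw [hTapply]
      simp only [h1 x hx]
    rw [h4] at h3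
    simp only [Function.comp]
    rw [toFun_aut β₀ ⟨θ (g * x * g⁻¹), hθ.maps _ hgx⟩, toFun_aut β₀ ⟨θ x, hθ.maps x hx⟩]
    exact h3
  obtain ⟨h, hh, hhf⟩ := recept_ext hY.recep (hθ.comp hIa) hXK (by
    intro g hg
    exact Subgroup.subset_closure ⟨hKS hg, hKX hg, hgood g hg⟩)
  exact ⟨h, hh, hhf⟩

/-- The packaged form of the extension lemma. -/
theorem pair_ext' (hS : IsPGroup p S) (hPC : FarPair F p Y B) (hX : Iso F X Y θ) (hA : Iso F A B θ)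
    (hAX : A ≤ X) (hKS : K ≤ S) (hXK : X ≤ K)
    (hKX : K ≤ Subgroup.normalizer (X : Set Ω)) (hKA : K ≤ Subgroup.normalizer (A : Set Ω)) :
    ∃ β h, Iso F Y Y β ∧ Iso F B B β ∧ Mp F K h ∧ (∀ x ∈ X, h x = β (θ x)) ∧ Iso F X Y h ∧ Iso F A B h := by
  obtain ⟨β, hβ, hβB, h, hh, hhx⟩ := pair_ext hS hPC hX (iff_of_iso hX hA hAX) hKS hXK hKX hKA
  have hβ' := iso_of_iff hPC.le hβ hβB
  exact ⟨β, h, hβ, hβ', hh, hhx, (hX.comp hβ).congr fun x hx => (hhx x hx).symm,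
    (hA.comp hβ').congr fun x hx => (hhx x (hAX hx)).symm⟩

end Pair

end Cfsg.Agent.H24.SatC
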