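import Cfsg.Agent.Lib.H24.SatCA

/-!
The generation principle: a groupoid of isomorphisms on a conjugacy class containing the restrictions
of the maps from the generating family contains everything.
-/

set_option autoImplicit false

namespace Cfsg.Agent.H24.SatC

open Cfsg Cfsg.FusionSystem Cfsg.Agent.H25

variable {Ω : Type*} [Group Ω] {S : Subgroup Ω} {F : FusionSystem S}
variable {P Q Q' Q'' R K X Y A B W : Subgroup Ω} {f g h θ β : Ω → Ω} {p : ℕ}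

/-- The closure hypotheses of a groupoid on a conjugacy class. -/
structure Groupoid (F : FusionSystem S) (P : Subgroup Ω)
    (G : Subgroup Ω → Subgroup Ω → (Ω → Ω) → Prop) : Prop where
  congr : ∀ {Q Q' a b}, Iso F Q Q' a → G Q Q' a → (∀ x ∈ Q, a x = b x) → G Q Q' b
  comp : ∀ {Q Q' Q'' a b}, F.IsConj P Q → Iso F Q Q' a → Iso F Q' Q'' b → G Q Q' a → G Q' Q'' b →
    G Q Q'' (b ∘ a)
  inv : ∀ {Q Q' a a'}, F.IsConj P Q → Iso F Q Q' a → Iso F Q' Q a' → (∀ x ∈ Q, a' (a x) = x) →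
    (∀ y ∈ Q', a (a' y) = y) → G Q Q' a → G Q' Q a'

/-- The fusion system of the maps whose restrictions to the class lie in the groupoid. -/
def genSys (F : FusionSystem S) (P : Subgroup Ω) (G : Subgroup Ω → Subgroup Ω → (Ω → Ω) → Prop)
    (hG : Groupoid F P G)
    (hconj : ∀ {Q Q' s}, F.IsConj P Q → s ∈ S → Iso F Q Q' (fun x => s * x * s⁻¹) →
      G Q Q' (fun x => s * x * s⁻¹)) : FusionSystem S where
  Hom R := {φ | φ ∈ F.Hom R ∧ ∀ Q Q', Q ≤ R → F.IsConj P Q → Iso F Q Q' (toFun φ) → G Q Q' (toFun φ)}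
  le_of_mem h := F.le_of_mem h.1
  injective_of_mem h := F.injective_of_mem h.1
  conj_mem := by
    intro R s hR hs
    refine ⟨F.conj_mem hR hs, fun Q Q' hQR hQ hI => ?_⟩
    have e : ∀ x ∈ Q, toFun (conjHom R s) x = s * x * s⁻¹ := fun x hx => by
      rw [toFun_coe (conjHom R s) ⟨x, hQR hx⟩]
      rfl
    have hI' : Iso F Q Q' (fun x => s * x * s⁻¹) := hI.congr e
    exact hG.congr hI' (hconj hQ hs hI') (fun x hx => (e x hx).symm)
  comp_mem := by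
    intro R R' φ ψ hφ hψ hx
    refine ⟨F.comp_mem hφ.1 hψ.1 hx, fun Q Q' hQR hQ hI => ?_⟩
    have e : ∀ x ∈ Q, toFun (ψ.comp (φ.codRestrict R' hx)) x = toFun ψ (toFun φ x) := fun x hx' => by
      have h1 : toFun φ x = φ ⟨x, hQR hx'⟩ := toFun_coe φ ⟨x, hQR hx'⟩
      rw [toFun_coe (ψ.comp (φ.codRestrict R' hx)) ⟨x, hQR hx'⟩, h1, toFun_coe ψ ⟨_, hx ⟨x, hQR hx'⟩⟩]
      rfl
    have hm1 : Mp F Q (toFun φ) := (mp_of_mem hφ.1).restrict hQR
    have hI1 := Iso.of_mp hm1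
    have hle : hm1.img ≤ R' := by
      intro y hy
      obtain ⟨x, hx', rfl⟩ := hm1.mem_img.mp hy
      rw [toFun_coe φ ⟨x, hQR hx'⟩]
      exact hx ⟨x, hQR hx'⟩
    have hI2 : Iso F hm1.img Q' (toFun ψ) := by
      refine ⟨(mp_of_mem hψ.1).restrict hle, fun y hy => ?_, fun y hy => ?_⟩
      · obtain ⟨x, hx', rfl⟩ := hm1.mem_img.mp hy
        rw [← e x hx']
        exact hI.maps x hx'
      · obtain ⟨x, hx', rfl⟩ := hI.surj y hy
        exact ⟨toFun φ x, hm1.mem_img.mpr ⟨x, hx', rfl⟩, (e x hx').symm⟩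
    have hQ2 : F.IsConj P hm1.img := isConj_trans hQ (isConj_iff.mpr ⟨_, hI1⟩)
    have h3 := hG.comp hQ hI1 hI2 (hφ.2 Q _ hQR hQ hI1) (hψ.2 _ Q' hle hQ2 hI2)
    exact hG.congr (hI1.comp hI2) h3 (fun x hx' => (e x hx').symm)
  inv_mem := by
    intro R φ hφ
    obtain ⟨ψ, hψ, hψφ⟩ := F.inv_mem hφ.1
    refine ⟨ψ, ⟨hψ, fun Q Q' hQR hQ hI => ?_⟩, hψφ⟩
    have hrangeval : ∀ x : R, toFun ψ (φ x) = x := fun x => by
      have h1 := toFun_coe ψ ⟨φ x, ⟨x, rfl⟩⟩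
      rw [hψφ x] at h1
      exact h1
    have hφval : ∀ x : R, toFun φ x = φ x := fun x => toFun_coe φ x
    have hQ'R : Q' ≤ R := by
      intro y hy
      obtain ⟨z, hz, rfl⟩ := hI.surj y hy
      obtain ⟨x, hx⟩ := hQR hz
      rw [← hx, hrangeval x]
      exact x.2
    have h2 : ∀ y ∈ Q', toFun ψ (toFun φ y) = y := fun y hy => by
      rw [hφval ⟨y, hQ'R hy⟩]
      exact hrangeval ⟨y, hQ'R hy⟩
    have h3 : ∀ z ∈ Q, toFun φ (toFun ψ z) = z := fun z hz => by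
      obtain ⟨x, hx⟩ := hQR hz
      rw [← hx, hrangeval x, hφval x]
    have hJ : Iso F Q' Q (toFun φ) := by
      refine ⟨(mp_of_mem hφ.1).restrict hQ'R, fun y hy => ?_, fun z hz => ?_⟩
      · obtain ⟨z, hz, rfl⟩ := hI.surj y hy
        rw [h3 z hz]
        exact hz
      · exact ⟨toFun ψ z, hI.maps z hz, h3 z hz⟩
    have hQ2 : F.IsConj P Q' := isConj_trans hQ (isConj_iff.mpr ⟨_, hI⟩)
    exact hG.inv hQ2 hJ hI h2 h3 (hφ.2 Q' Q hQ'R hQ2 hJ)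

/-- **The generation principle.** -/
theorem gen_principle {ℋ : Set (Subgroup Ω)}
    (hgen : ∀ E : FusionSystem S, (∀ R ∈ ℋ, F.Hom R ⊆ E.Hom R) → F ≤ E)
    {G : Subgroup Ω → Subgroup Ω → (Ω → Ω) → Prop} (hG : Groupoid F P G)
    (hconj : ∀ {Q Q' s}, F.IsConj P Q → s ∈ S → Iso F Q Q' (fun x => s * x * s⁻¹) →
      G Q Q' (fun x => s * x * s⁻¹))
    (hℋ : ∀ R ∈ ℋ, ∀ f, Mp F R f → ∀ Q Q', Q ≤ R → F.IsConj P Q → Iso F Q Q' f → G Q Q' f) :
    ∀ {Q Q' a}, F.IsConj P Q → Iso F Q Q' a → G Q Q' a := by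
  intro Q Q' a hQ hI
  have hle := hgen (genSys F P G hG hconj) (fun R hR φ hφ =>
    ⟨hφ, fun Q₁ Q₂ hQ₁R hQ₁ hI₁ => hℋ R hR _ (mp_of_mem hφ) Q₁ Q₂ hQ₁R hQ₁ hI₁⟩)
  obtain ⟨φ, hφ, hφa⟩ := hI.mp
  have e : ∀ x ∈ Q, toFun φ x = a x := fun x hx => by
    rw [toFun_coe φ ⟨x, hx⟩]
    exact hφa ⟨x, hx⟩
  have h1 := (hle Q hφ).2 Q Q' le_rfl hQ (hI.congr fun x hx => (e x hx).symm)
  exact hG.congr (hI.congr fun x hx => (e x hx).symm) h1 e

end Cfsg.Agent.H24.SatC
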