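import Cfsg.Agent.Lib.H24.SatCB

/-!
The preorder on a conjugacy class and confluence: a member to which all the others map on their
normalizers.
-/

set_option autoImplicit false

namespace Cfsg.Agent.H24.SatC

open Cfsg Cfsg.FusionSystem Cfsg.Agent.H25

variable {Ω : Type*} [Group Ω] {S : Subgroup Ω} {F : FusionSystem S}
variable {P Q Q' Q'' R K X Y A B W T T' U V : Subgroup Ω} {f g h θ β : Ω → Ω} {p : ℕ}

theorem card_lt {A B : Subgroup Ω} [Finite B] (h : A < B) : Nat.card A < Nat.card B := by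
  have h1 : (A : Set Ω) ⊂ (B : Set Ω) := h
  have h2 := Set.ncard_lt_ncard h1 (Set.toFinite _)
  rwa [← Nat.card_coe_set_eq, ← Nat.card_coe_set_eq] at h2

theorem card_le {A B : Subgroup Ω} [Finite B] (h : A ≤ B) : Nat.card A ≤ Nat.card B :=
  Nat.card_le_card_of_injective (Subgroup.inclusion h) (Subgroup.inclusion_injective h)

theorem Iso.card_eq' (h : Iso F P Q f) : Nat.card P = Nat.card Q :=
  Nat.card_congr (Equiv.ofBijective (fun x : P => (⟨f x, h.maps x x.2⟩ : Q))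
    ⟨fun x y hxy => Subtype.ext (h.mp.inj x.2 y.2 (congrArg Subtype.val hxy)), fun y => by
      obtain ⟨x, hx, hxy⟩ := h.surj y y.2
      exact ⟨⟨x, hx⟩, Subtype.ext hxy⟩⟩)

variable (F) in
/-- `Q ≼ U`: an isomorphism `Q → U` extending to `N_S(Q)`. -/
def Up (Q U : Subgroup Ω) : Prop := ∃ f, Mp F (normalizerIn S Q) f ∧ Iso F Q U f

theorem Up.refl (hQ : Q ≤ S) : Up F Q Q := ⟨_root_.id, Mp.id normalizerIn_le, Iso.refl hQ⟩

theorem Up.trans (h1 : Up F Q U) (h2 : Up F U V) : Up F Q V := by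
  obtain ⟨f, hf, hfI⟩ := h1
  obtain ⟨g, hg, hgI⟩ := h2
  have hQS := hfI.mp.le
  exact ⟨g ∘ f, hf.comp (fun x hx => maps_normalizer hf hfI (le_normalizerIn hQS)
    normalizerIn_le_normalizer hx) hg, hfI.comp hgI⟩

/-- A bound is a target. -/
theorem Up.conj (h : Up F Q U) : F.IsConj Q U := by
  obtain ⟨f, -, hI⟩ := h
  exact isConj_iff.mpr ⟨f, hI⟩

variable (F) in
/-- Common upper bounds. -/
def Bd (Q Q' : Subgroup Ω) : Prop := ∃ U, Up F Q U ∧ Up F Q' U

variable (F p) in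
/-- All subgroups larger than `n` have far conjugates. -/
def GoodAbove (n : ℕ) : Prop := ∀ X, X ≤ S → n < Nat.card X → ∃ Y f, Far F p Y ∧ Iso F X Y f

variable [Finite S] [Fact p.Prime]

theorem exists_farPair {n : ℕ} (hg : GoodAbove F p n) (hXS : X ≤ S) (hX : n < Nat.card X) (hAX : A ≤ X) :
    ∃ Y B θ, FarPair F p Y B ∧ Iso F X Y θ ∧ Iso F A B θ := by
  obtain ⟨Y, f, hY, hf⟩ := hg X hXS hX
  have hm0 : Mp F A f := hf.mp.restrict hAX
  obtain ⟨g, hgI, hgB⟩ := exists_pairConj hY hm0.img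
  have hθ := hf.comp hgI
  have hm : Mp F A (g ∘ f) := hθ.mp.restrict hAX
  have hIA := Iso.of_mp hm
  refine ⟨Y, hm.img, g ∘ f, ⟨hY, ?_, hgB _ ?_⟩, hθ, hIA⟩
  · intro y hy
    obtain ⟨x, hx, rfl⟩ := hm.mem_img.mp hy
    exact hθ.maps x (hAX hx)
  · intro y hy
    constructor
    · intro hy0
      obtain ⟨x, hx, rfl⟩ := hm0.mem_img.mp hy0
      exact hm.mem_img.mpr ⟨x, hx, rfl⟩
    · intro hy0
      obtain ⟨x, hx, hxy⟩ := hm.mem_img.mp hy0
      rw [← hgI.mp.inj (hf.maps x (hAX hx)) hy hxy]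
      exact hm0.mem_img.mpr ⟨x, hx, rfl⟩

omit [Finite S] [Fact p.Prime] in
theorem le_inter_normalizer (hTS : T ≤ S) (hTN : T ≤ normalizerIn S Q) :
    T ≤ normalizerIn S T ⊓ normalizerIn S Q := le_inf (le_normalizerIn hTS) hTN

theorem up_of_self_norm (hS : IsPGroup p S) (hQT : Q ≤ T) (hTN : T ≤ normalizerIn S Q)
    (hh : Mp F (normalizerIn S T ⊓ normalizerIn S Q) h) (hIQ : Iso F Q B h)
    (hKT : normalizerIn S T ⊓ normalizerIn S Q ≤ T) : Up F Q B := by
  have hNS : normalizerIn S Q ≤ S := normalizerIn_le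
  have hTS : T ≤ S := hTN.trans hNS
  have heq : normalizerIn S Q ≤ T := by
    by_contra hcon
    have hlt : T < normalizerIn S Q := lt_of_le_of_ne hTN (fun e => hcon e.ge)
    haveI : Finite (normalizerIn S Q) := finite_of_le hNS
    obtain ⟨g, hg, hgT⟩ := exists_normalizer_not_mem
      (S := normalizerIn S Q) (hS.to_le hNS) hlt.le hlt.ne
    obtain ⟨hg1, hg2⟩ := mem_normalizerIn.mp hg
    exact hgT (hKT ⟨mem_normalizerIn.mpr ⟨hNS hg1, hg2⟩, hg1⟩)
  exact ⟨h, hh.restrict (le_inf (heq.trans (le_normalizerIn hTS)) le_rfl), hIQ⟩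

/-- The step from a pair extension to common bounds. -/
theorem step_sub (hS : IsPGroup p S)
    (IH : ∀ Q₂ Q₂' T₂ T₂' θ₂, Q₂ ≤ T₂ → T₂ ≤ normalizerIn S Q₂ → T₂' ≤ normalizerIn S Q₂' →
      Iso F T₂ T₂' θ₂ → Iso F Q₂ Q₂' θ₂ → Nat.card T < Nat.card T₂ → Bd F Q₂ Q₂')
    (hQT : Q ≤ T) (hTN : T ≤ normalizerIn S Q)
    (hh : Mp F (normalizerIn S T ⊓ normalizerIn S Q) h) (hIQ : Iso F Q B h) : Bd F Q B := by
  have hQS := hIQ.mp.le
  have hBS : B ≤ S := by
    obtain ⟨h', hh', -, -⟩ := hIQ.inv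
    exact hh'.mp.le
  have hTS : T ≤ S := hTN.trans normalizerIn_le
  by_cases hKT : normalizerIn S T ⊓ normalizerIn S Q ≤ T
  · exact ⟨B, up_of_self_norm hS hQT hTN hh hIQ hKT, Up.refl hBS⟩
  · have hle := le_inter_normalizer hTS hTN
    have hlt : T < normalizerIn S T ⊓ normalizerIn S Q := lt_of_le_of_ne hle (fun e => hKT e.ge)
    have hKS : normalizerIn S T ⊓ normalizerIn S Q ≤ S := inf_le_left.trans normalizerIn_le
    haveI : Finite ↥(normalizerIn S T ⊓ normalizerIn S Q) := finite_of_le hKS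
    refine IH Q B _ hh.img h (hQT.trans hle) inf_le_right ?_ (Iso.of_mp hh) hIQ (card_lt hlt)
    intro y hy
    obtain ⟨x, hx, rfl⟩ := hh.mem_img.mp hy
    exact maps_normalizer hh hIQ (hQT.trans hle) (inf_le_right.trans normalizerIn_le_normalizer) hx

/-- **Confluence.** -/
theorem confluence (hS : IsPGroup p S) {n : ℕ} (hg : GoodAbove F p n) :
    ∀ k, ∀ Q Q' T T' θ, Q ≤ T → T ≤ normalizerIn S Q → T' ≤ normalizerIn S Q' → Iso F T T' θ →
      Iso F Q Q' θ → n < Nat.card T → Nat.card S - Nat.card T = k → Bd F Q Q' := by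
  intro k
  induction k using Nat.strong_induction_on with
  | _ k ih =>
    intro Q Q' T T' θ hQT hTN hT'N hIT hIQ hnT hk
    have hTS : T ≤ S := hTN.trans normalizerIn_le
    have hT'S : T' ≤ S := hT'N.trans normalizerIn_le
    have hQ'T' : Q' ≤ T' := by
      intro y hy
      obtain ⟨x, hx, rfl⟩ := hIQ.surj y hy
      exact hIT.maps x (hQT hx)
    have hcard : Nat.card T = Nat.card T' := Iso.card_eq' hIT
    have hcardS : Nat.card T ≤ Nat.card S := card_le hTS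
    have IH : ∀ Q₂ Q₂' T₂ T₂' θ₂, Q₂ ≤ T₂ → T₂ ≤ normalizerIn S Q₂ → T₂' ≤ normalizerIn S Q₂' →
        Iso F T₂ T₂' θ₂ → Iso F Q₂ Q₂' θ₂ → Nat.card T < Nat.card T₂ → Bd F Q₂ Q₂' := by
      intro Q₂ Q₂' T₂ T₂' θ₂ h1 h2 h3 h4 h5 h6
      have hS2 : Nat.card T₂ ≤ Nat.card S := card_le (h2.trans normalizerIn_le)
      exact ih (Nat.card S - Nat.card T₂) (by omega) Q₂ Q₂' T₂ T₂' θ₂ h1 h2 h3 h4 h5 (by omega) rfl
    have IH' : ∀ Q₂ Q₂' T₂ T₂' θ₂, Q₂ ≤ T₂ → T₂ ≤ normalizerIn S Q₂ → T₂' ≤ normalizerIn S Q₂' →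
        Iso F T₂ T₂' θ₂ → Iso F Q₂ Q₂' θ₂ → Nat.card T' < Nat.card T₂ → Bd F Q₂ Q₂' := by
      intro Q₂ Q₂' T₂ T₂' θ₂ h1 h2 h3 h4 h5 h6
      exact IH Q₂ Q₂' T₂ T₂' θ₂ h1 h2 h3 h4 h5 (by omega)
    obtain ⟨Y, B, ψ, hFP, hψT, hψQ⟩ := exists_farPair hg hT'S (by omega : n < Nat.card T') hQ'T'
    have hKS₁ : normalizerIn S T ⊓ normalizerIn S Q ≤ S := inf_le_left.trans normalizerIn_le
    have hKS₂ : normalizerIn S T' ⊓ normalizerIn S Q' ≤ S := inf_le_left.trans normalizerIn_le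
    obtain ⟨β₁, h₁, -, -, hh₁, -, hI₁, hJ₁⟩ := pair_ext' hS hFP (hIT.comp hψT) (hIQ.comp hψQ) hQT hKS₁
      (le_inter_normalizer hTS hTN) (inf_le_left.trans normalizerIn_le_normalizer)
      (inf_le_right.trans normalizerIn_le_normalizer)
    obtain ⟨β₂, h₂, -, -, hh₂, -, hI₂, hJ₂⟩ := pair_ext' hS hFP hψT hψQ hQ'T' hKS₂
      (le_inter_normalizer hT'S hT'N) (inf_le_left.trans normalizerIn_le_normalizer)
      (inf_le_right.trans normalizerIn_le_normalizer)
    have hYS := hFP.far.le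
    have hBS : B ≤ S := hFP.le.trans hYS
    by_cases hbig : Nat.card T < Nat.card (normalizerIn S B)
    · obtain ⟨U₁, hQU₁, hBU₁⟩ := step_sub hS IH hQT hTN hh₁ hJ₁
      obtain ⟨U₂, hQU₂, hBU₂⟩ := step_sub hS IH' hQ'T' hT'N hh₂ hJ₂
      obtain ⟨φ₁, hφ₁, hφI₁⟩ := id hBU₁
      obtain ⟨φ₂, hφ₂, hφI₂⟩ := id hBU₂
      obtain ⟨φ₁', hφ₁', hl, hr⟩ := (Iso.of_mp hφ₁).inv
      have hBN : B ≤ normalizerIn S B := le_normalizerIn hBS
      have hU₁ : U₁ ≤ hφ₁.img := by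
        intro y hy
        obtain ⟨x, hx, rfl⟩ := hφI₁.surj y hy
        exact hφ₁.mem_img.mpr ⟨x, hBN hx, rfl⟩
      have hIφ := hφ₁'.comp (Iso.of_mp hφ₂)
      obtain ⟨U, hU₁U, hU₂U⟩ := IH U₁ U₂ hφ₁.img hφ₂.img (φ₂ ∘ φ₁') hU₁ (by
        intro y hy
        obtain ⟨x, hx, rfl⟩ := hφ₁.mem_img.mp hy
        exact maps_normalizer hφ₁ hφI₁ hBN normalizerIn_le_normalizer hx) (by
        intro y hy
        obtain ⟨x, hx, rfl⟩ := hφ₂.mem_img.mp hy
        exact maps_normalizer hφ₂ hφI₂ hBN normalizerIn_le_normalizer hx) hIφ (by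
        refine ⟨hIφ.mp.restrict hU₁, fun y hy => ?_, fun y hy => ?_⟩
        · obtain ⟨x, hx, rfl⟩ := hφI₁.surj y hy
          simp only [Function.comp]
          rw [hl x (hBN hx)]
          exact hφI₂.maps x hx
        · obtain ⟨x, hx, rfl⟩ := hφI₂.surj y hy
          refine ⟨φ₁ x, hφI₁.maps x hx, ?_⟩
          simp only [Function.comp]
          rw [hl x (hBN hx)]) (by
        rw [← Iso.card_eq' (Iso.of_mp hφ₁)]
        exact hbig)
      exact ⟨U, hQU₁.trans hU₁U, hQU₂.trans hU₂U⟩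
    · -- `Y = N_S(B)`
      have hYN : Y ≤ normalizerIn S B := by
        intro y hy
        obtain ⟨x, hx, rfl⟩ := hI₂.surj y hy
        exact maps_normalizer hh₂ hJ₂ (hQ'T'.trans (le_inter_normalizer hT'S hT'N))
          (inf_le_right.trans normalizerIn_le_normalizer) (le_inter_normalizer hT'S hT'N hx)
      have hcY : Nat.card Y = Nat.card T := (Iso.card_eq' hI₁).symm
      haveI : Finite (normalizerIn S B) := finite_of_le normalizerIn_le
      haveI : Finite Y := finite_of_le hYS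
      have hNY : normalizerIn S B ≤ Y := by
        by_contra hcon
        have hlt : Y < normalizerIn S B := lt_of_le_of_ne hYN (fun e => hcon e.ge)
        have := card_lt hlt
        omega
      have hK₁ : normalizerIn S T ⊓ normalizerIn S Q ≤ T := by
        intro x hx
        have h1 := maps_normalizer hh₁ hJ₁ (hQT.trans (le_inter_normalizer hTS hTN))
          (inf_le_right.trans normalizerIn_le_normalizer) hx
        obtain ⟨t, ht, hte⟩ := hI₁.surj _ (hNY h1)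
        rw [← hh₁.inj (le_inter_normalizer hTS hTN ht) hx hte]
        exact ht
      have hK₂ : normalizerIn S T' ⊓ normalizerIn S Q' ≤ T' := by
        intro x hx
        have h1 := maps_normalizer hh₂ hJ₂ (hQ'T'.trans (le_inter_normalizer hT'S hT'N))
          (inf_le_right.trans normalizerIn_le_normalizer) hx
        obtain ⟨t, ht, hte⟩ := hI₂.surj _ (hNY h1)
        rw [← hh₂.inj (le_inter_normalizer hT'S hT'N ht) hx hte]
        exact ht
      exact ⟨B, up_of_self_norm hS hQT hTN hh₁ hJ₁ hK₁, up_of_self_norm hS hQ'T' hT'N hh₂ hJ₂ hK₂⟩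

end Cfsg.Agent.H24.SatC
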