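import Cfsg.Agent.Lib.H24.SatCC

/-!
Existence of a top member of the conjugacy class.
-/

set_option autoImplicit false

namespace Cfsg.Agent.H24.SatC

open Cfsg Cfsg.FusionSystem Cfsg.Agent.H25

variable {Ω : Type*} [Group Ω] {S : Subgroup Ω} {F : FusionSystem S}
variable {P Q Q' Q'' R K X Y A B W T T' U V : Subgroup Ω} {f g h θ β : Ω → Ω} {p : ℕ}

variable [Finite S] [Fact p.Prime]

theorem Iso.target_le (h : Iso F P Q f) : Q ≤ S := by
  obtain ⟨h', hh', -, -⟩ := h.inv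
  exact hh'.mp.le

theorem bd_of_pair (hS : IsPGroup p S) {n : ℕ} (hg : GoodAbove F p n) (hnQ : n = Nat.card Q)
    (hQT : Q < T) (hTN : T ≤ normalizerIn S Q) (hf : Mp F T f) (hI : Iso F Q Q' f) : Bd F Q Q' := by
  have hTS : T ≤ S := hTN.trans normalizerIn_le
  haveI : Finite T := finite_of_le hTS
  refine confluence hS hg _ Q Q' T hf.img f hQT.le hTN ?_ (Iso.of_mp hf) hI (by
    rw [hnQ]; exact card_lt hQT) rfl
  intro y hy
  obtain ⟨x, hx, rfl⟩ := hf.mem_img.mp hy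
  exact maps_normalizer hf hI hQT.le (hTN.trans normalizerIn_le_normalizer) hx

theorem bd_merge (hS : IsPGroup p S) {n : ℕ} (hg : GoodAbove F p n) (hnQ : n = Nat.card B)
    (hBS : B ≤ S) (hne : B ≠ S) (h1 : Up F B U) (h2 : Up F B V) : Bd F U V := by
  obtain ⟨φ₁, hφ₁, hφI₁⟩ := h1
  obtain ⟨φ₂, hφ₂, hφI₂⟩ := h2
  obtain ⟨φ₁', hφ₁', hl, hr⟩ := (Iso.of_mp hφ₁).inv
  have hBN : B ≤ normalizerIn S B := le_normalizerIn hBS
  have hU₁ : U ≤ hφ₁.img := by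
    intro y hy
    obtain ⟨x, hx, rfl⟩ := hφI₁.surj y hy
    exact hφ₁.mem_img.mpr ⟨x, hBN hx, rfl⟩
  have hIφ := hφ₁'.comp (Iso.of_mp hφ₂)
  obtain ⟨g', hg', hg'B⟩ := exists_normalizer_not_mem hS hBS hne
  have hlt : B < normalizerIn S B := lt_of_le_of_ne hBN (fun e => hg'B (e.ge hg'))
  haveI : Finite (normalizerIn S B) := finite_of_le normalizerIn_le
  refine confluence hS hg _ U V hφ₁.img hφ₂.img (φ₂ ∘ φ₁') hU₁ ?_ ?_ hIφ ?_ ?_ rfl
  · intro y hy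
    obtain ⟨x, hx, rfl⟩ := hφ₁.mem_img.mp hy
    exact maps_normalizer hφ₁ hφI₁ hBN normalizerIn_le_normalizer hx
  · intro y hy
    obtain ⟨x, hx, rfl⟩ := hφ₂.mem_img.mp hy
    exact maps_normalizer hφ₂ hφI₂ hBN normalizerIn_le_normalizer hx
  · refine ⟨hIφ.mp.restrict hU₁, fun y hy => ?_, fun y hy => ?_⟩
    · obtain ⟨x, hx, rfl⟩ := hφI₁.surj y hy
      simp only [Function.comp]
      rw [hl x (hBN hx)]
      exact hφI₂.maps x hx
    · obtain ⟨x, hx, rfl⟩ := hφI₂.surj y hy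
      refine ⟨φ₁ x, hφI₁.maps x hx, ?_⟩
      simp only [Function.comp]
      rw [hl x (hBN hx)]
  · rw [← Iso.card_eq' (Iso.of_mp hφ₁), hnQ]
    exact card_lt hlt

/-- Any two members of the class have a common bound. -/
theorem bd_all {ℋ : Set (Subgroup Ω)} (hS : IsPGroup p S)
    (hℋS : ∀ R ∈ ℋ, R ≤ S)
    (hgen : ∀ E : FusionSystem S, (∀ R ∈ ℋ, F.Hom R ⊆ E.Hom R) → F ≤ E)
    (hnotH : ∀ Q, F.IsConj P Q → Q ∉ ℋ) (hneS : ∀ Q, F.IsConj P Q → Q ≠ S)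
    (hg : GoodAbove F p (Nat.card P)) :
    ∀ {Q Q' a}, F.IsConj P Q → Iso F Q Q' a → Bd F Q Q' := by
  have hcard : ∀ {Q}, F.IsConj P Q → Nat.card P = Nat.card Q := fun {Q} hQ => by
    obtain ⟨f, hf⟩ := isConj_iff.mp hQ
    exact Iso.card_eq' hf
  have hG : Groupoid F P (fun Q Q' _ => Bd F Q Q') := by
    refine ⟨fun _ h _ => h, ?_, ?_⟩
    · intro Q Q' Q'' a b hQ ha hb h1 h2
      obtain ⟨U₁, h11, h12⟩ := h1
      obtain ⟨U₂, h21, h22⟩ := h2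
      have hQ' : F.IsConj P Q' := isConj_trans hQ (isConj_iff.mpr ⟨a, ha⟩)
      obtain ⟨U, hU1, hU2⟩ := bd_merge hS hg (hcard hQ') (Iso.target_le ha) (hneS _ hQ') h12 h21
      exact ⟨U, h11.trans hU1, h22.trans hU2⟩
    · rintro Q Q' a a' - - - - - ⟨U, h1, h2⟩
      exact ⟨U, h2, h1⟩
  intro Q₀ Q₀' a₀ hQ₀ hI₀
  refine gen_principle (ℋ := ℋ) (G := fun Q Q' _ => Bd F Q Q') (a := a₀) hgen hG (fun {Q Q' s} hQ hs hI => ?_) (fun R hR f hf Q Q' hQR hQ hI => ?_) hQ₀ hI₀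
  · exact ⟨Q', ⟨_, Mp.conj normalizerIn_le hs, hI⟩, Up.refl (Iso.target_le hI)⟩
  · have hRS := hℋS R hR
    have hne : Q ≠ R := fun e => hnotH Q hQ (e ▸ hR)
    haveI : Finite R := finite_of_le hRS
    obtain ⟨g', hg', hg'Q⟩ := exists_normalizer_not_mem (hS.to_le hRS) hQR hne
    have hQT : Q ≤ normalizerIn R Q := le_normalizerIn hQR
    have hlt : Q < normalizerIn R Q := lt_of_le_of_ne hQT (fun e => hg'Q (e.ge hg'))
    refine bd_of_pair hS hg (hcard hQ) hlt ?_ (hf.restrict normalizerIn_le) hI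
    intro x hx
    obtain ⟨hx1, hx2⟩ := mem_normalizerIn.mp hx
    exact mem_normalizerIn.mpr ⟨hRS hx1, hx2⟩

omit [Fact p.Prime] in
theorem Up.symm_of_card (h : Up F Q U) (hc : Nat.card (normalizerIn S U) ≤ Nat.card (normalizerIn S Q)) :
    Up F U Q := by
  obtain ⟨g, hg, hI⟩ := h
  have hQS := hI.mp.le
  have hUS := Iso.target_le hI
  have hQN := le_normalizerIn hQS
  have hUN := le_normalizerIn hUS
  haveI : Finite (normalizerIn S U) := finite_of_le normalizerIn_le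
  haveI : Finite (normalizerIn S Q) := finite_of_le normalizerIn_le
  have hmaps : ∀ x ∈ normalizerIn S Q, g x ∈ normalizerIn S U := fun x hx =>
    maps_normalizer hg hI hQN normalizerIn_le_normalizer hx
  let m : normalizerIn S Q → normalizerIn S U := fun x => ⟨g x, hmaps x x.2⟩
  have hm : Function.Injective m := fun x y hxy =>
    Subtype.ext (hg.inj x.2 y.2 (congrArg Subtype.val hxy))
  have hb := (Nat.bijective_iff_injective_and_card m).mpr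
    ⟨hm, le_antisymm (Nat.card_le_card_of_injective m hm) hc⟩
  have hJ : Iso F (normalizerIn S Q) (normalizerIn S U) g := ⟨hg, hmaps, fun y hy => by
    obtain ⟨x, hx⟩ := hb.2 ⟨y, hy⟩
    exact ⟨x, x.2, congrArg Subtype.val hx⟩⟩
  obtain ⟨g', hg', hl, hr⟩ := hJ.inv
  refine ⟨g', hg'.mp, hg'.mp.restrict hUN, fun y hy => ?_, fun x hx => ⟨g x, hI.maps x hx, hl x (hQN hx)⟩⟩
  obtain ⟨x, hx, rfl⟩ := hI.surj y hy
  rw [hl x (hQN hx)]
  exact hx

/-- The top member of the class. -/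
theorem top_exists {ℋ : Set (Subgroup Ω)} (hS : IsPGroup p S) (hPS : P ≤ S)
    (hℋS : ∀ R ∈ ℋ, R ≤ S)
    (hgen : ∀ E : FusionSystem S, (∀ R ∈ ℋ, F.Hom R ⊆ E.Hom R) → F ≤ E)
    (hnotH : ∀ Q, F.IsConj P Q → Q ∉ ℋ) (hneS : ∀ Q, F.IsConj P Q → Q ≠ S)
    (hg : GoodAbove F p (Nat.card P)) :
    ∃ P₀, F.IsConj P P₀ ∧ ∀ Q, F.IsConj P Q → Up F Q P₀ := by
  classical
  let A : Set ℕ := {m | ∃ Q, F.IsConj P Q ∧ Nat.card (normalizerIn S Q) = m}
  have hne : A.Nonempty := ⟨_, P, isConj_refl hPS, rfl⟩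
  have hbdd : BddAbove A := ⟨Nat.card S, by
    rintro _ ⟨Q, -, rfl⟩
    exact card_le normalizerIn_le⟩
  obtain ⟨P₀, hP₀, hm⟩ := Nat.sSup_mem hne hbdd
  have hmax : ∀ Q, F.IsConj P Q → Nat.card (normalizerIn S Q) ≤ Nat.card (normalizerIn S P₀) := by
    intro Q hQ
    rw [hm]
    exact le_csSup hbdd ⟨Q, hQ, rfl⟩
  refine ⟨P₀, hP₀, fun Q hQ => ?_⟩
  obtain ⟨a, ha⟩ := isConj_iff.mp (isConj_trans (isConj_symm hQ) hP₀)
  obtain ⟨U, h1, h2⟩ := bd_all hS hℋS hgen hnotH hneS hg hQ ha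
  exact h1.trans (h2.symm_of_card (hmax U (isConj_trans hP₀ h2.conj)))

end Cfsg.Agent.H24.SatC
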