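import Cfsg.Agent.Lib.H24.SatCD

/-!
The preimage `M` of a normal `p`-subgroup of the automorphism group, restriction homomorphisms and the
Frattini decomposition of the stabilizer.
-/

set_option autoImplicit false

namespace Cfsg.Agent.H24.SatC

open Cfsg Cfsg.FusionSystem Cfsg.Agent.H25

variable {Ω : Type*} [Group Ω] {S : Subgroup Ω} {F : FusionSystem S}
variable {P P₀ Q Q' Q'' R K X Y A B C W T T' U V : Subgroup Ω} {f g h θ β φ φ' : Ω → Ω} {p : ℕ}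

/-- The preimage in `N_S(P₀)` of a subgroup of automorphisms. -/
def Mof (S P₀ : Subgroup Ω) (O : Subgroup (MulAut P₀)) : Subgroup Ω where
  carrier := {x | x ∈ normalizerIn S P₀ ∧ ∃ α ∈ O, ∀ y : P₀, ((α y : P₀) : Ω) = x * y * x⁻¹}
  mul_mem' := by
    rintro a b ⟨ha, α, hα, hαa⟩ ⟨hb, β, hβ, hβb⟩
    refine ⟨Subgroup.mul_mem _ ha hb, α * β, O.mul_mem hα hβ, fun y => ?_⟩
    show ((α (β y) : P₀) : Ω) = _
    rw [hαa, hβb]
    group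
  one_mem' := ⟨Subgroup.one_mem _, 1, O.one_mem, fun y => by simp⟩
  inv_mem' := by
    rintro a ⟨ha, α, hα, hαa⟩
    refine ⟨Subgroup.inv_mem _ ha, α⁻¹, O.inv_mem hα, fun y => ?_⟩
    have h1 := hαa (α⁻¹ y)
    have e : α (α⁻¹ y) = y := by simp
    rw [e] at h1
    rw [h1]
    group

theorem mem_Mof {O : Subgroup (MulAut P₀)} {x : Ω} : x ∈ Mof S P₀ O ↔
    x ∈ normalizerIn S P₀ ∧ ∃ α ∈ O, ∀ y : P₀, ((α y : P₀) : Ω) = x * y * x⁻¹ := Iff.rfl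

theorem Mof_le {O : Subgroup (MulAut P₀)} : Mof S P₀ O ≤ normalizerIn S P₀ := fun _ h => h.1

variable (F p) in
/-- The properties of the subgroup `O`. -/
structure OData (P₀ : Subgroup Ω) (O : Subgroup (MulAut P₀)) : Prop where
  le : O ≤ F.autGroup P₀
  norm : ∀ a ∈ F.autGroup P₀, ∀ o ∈ O, a * o * a⁻¹ ∈ O
  isP : IsPGroup p O
  inn : ∀ x ∈ P₀, ∀ α : MulAut P₀, (∀ y : P₀, ((α y : P₀) : Ω) = x * y * x⁻¹) → α ∈ O

section M

variable {O : Subgroup (MulAut P₀)}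

theorem OData.le_M (hO : OData F p P₀ O) (hP₀ : P₀ ≤ S) : P₀ ≤ Mof S P₀ O := fun x hx =>
  ⟨le_normalizerIn hP₀ hx, MulAut.conj (⟨x, hx⟩ : P₀), hO.inn x hx _ (fun y => rfl), fun y => rfl⟩

theorem OData.M_inv (hO : OData F p P₀ O) {a : Ω → Ω} (ha : Iso F P₀ P₀ a) {x y : Ω} (hx : x ∈ Mof S P₀ O)
    (hy : y ∈ normalizerIn S P₀) (hr : ∀ z ∈ P₀, a (x * z * x⁻¹) = y * a z * y⁻¹) : y ∈ Mof S P₀ O := by
  obtain ⟨hxN, α, hα, hαx⟩ := hx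
  refine ⟨hy, autOfIso ha * α * (autOfIso ha)⁻¹, hO.norm _ (autOfIso_mem ha) _ hα, fun w => ?_⟩
  show ((autOfIso ha (α ((autOfIso ha)⁻¹ w)) : P₀) : Ω) = _
  rw [autOfIso_apply, hαx, hr _ ((autOfIso ha)⁻¹ w).2]
  have e : a (((autOfIso ha)⁻¹ w : P₀) : Ω) = w := by
    rw [← autOfIso_apply ha]
    simp
  rw [e]

theorem OData.M_norm [Finite S] (hO : OData F p P₀ O) (hP₀ : P₀ ≤ S) {x s : Ω} (hx : x ∈ Mof S P₀ O)
    (hs : s ∈ normalizerIn S P₀) : s * x * s⁻¹ ∈ Mof S P₀ O := by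
  refine hO.M_inv (a := fun z => s * z * s⁻¹) (Iso.conj_normalizer hP₀ hs.1 hs.2) hx
    (Subgroup.mul_mem _ (Subgroup.mul_mem _ hs hx.1) (Subgroup.inv_mem _ hs)) (fun z _ => ?_)
  group

theorem OData.k_maps (hO : OData F p P₀ O) (hP₀ : P₀ ≤ S) {k : Ω → Ω} (hk : Mp F (Mof S P₀ O) k)
    (hI : Iso F P₀ P₀ k) : ∀ x ∈ Mof S P₀ O, k x ∈ Mof S P₀ O := by
  intro x hx
  have hle := hO.le_M hP₀
  refine hO.M_inv hI hx (maps_normalizer hk hI hle (Mof_le.trans normalizerIn_le_normalizer) hx) fun z hz => ?_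
  have hzM := hle hz
  rw [hk.map_mul ((Mof S P₀ O).mul_mem hx hzM) ((Mof S P₀ O).inv_mem hx), hk.map_mul hx hzM, hk.map_inv hx]

theorem OData.k_iso [Finite S] (hO : OData F p P₀ O) (hP₀ : P₀ ≤ S) {k : Ω → Ω} (hk : Mp F (Mof S P₀ O) k)
    (hI : Iso F P₀ P₀ k) : Iso F (Mof S P₀ O) (Mof S P₀ O) k := by
  haveI : Finite (Mof S P₀ O) := finite_of_le (Mof_le.trans normalizerIn_le)
  exact Iso.of_maps hk (hO.k_maps hP₀ hk hI)

end M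

section Rho

/-- The function of an automorphism. -/
noncomputable abbrev funOf (α : MulAut Y) : Ω → Ω := toFun (Y.subtype.comp α.toMonoidHom)

theorem funOf_apply (α : MulAut Y) (y : Y) : funOf α y = ((α y : Y) : Ω) := toFun_aut α y

theorem iso_funOf_gam (hBY : B ≤ Y) (hYS : Y ≤ S) {α : MulAut Y} (hα : α ∈ Gam F Y B) : Iso F B B (funOf α) := by
  refine iso_of_iff hBY (Iso.of_mem_autGroup hYS hα.1) fun y hy => ?_
  rw [funOf_apply α ⟨y, hy⟩]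
  exact hα.2 ⟨y, hy⟩

/-- The restriction homomorphism from the stabilizer, transported through an isomorphism. -/
noncomputable def rhoHom (hBY : B ≤ Y) (hYS : Y ≤ S) (hφ : Iso F B C φ) (hφ' : Iso F C B φ')
    (l : ∀ z ∈ B, φ' (φ z) = z) : Gam F Y B →* MulAut C :=
  MonoidHom.mk' (fun γ => autOfIso ((hφ'.comp (iso_funOf_gam hBY hYS γ.2)).comp hφ)) (by
    intro γ₁ γ₂
    apply MulEquiv.ext
    intro y
    apply Subtype.ext
    have hy := hφ'.maps y y.2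
    have h2 := (iso_funOf_gam (F := F) hBY hYS γ₂.2).maps _ hy
    show φ (funOf ((γ₁ * γ₂ : Gam F Y B) : MulAut Y) (φ' y)) =
      φ (funOf (γ₁ : MulAut Y) (φ' (φ (funOf (γ₂ : MulAut Y) (φ' y)))))
    rw [l _ h2, funOf_apply _ ⟨_, hBY hy⟩, funOf_apply _ ⟨_, hBY hy⟩, funOf_apply _ ((γ₂ : MulAut Y) ⟨_, hBY hy⟩)]
    rfl)

theorem rhoHom_apply (hBY : B ≤ Y) (hYS : Y ≤ S) (hφ : Iso F B C φ) (hφ' : Iso F C B φ')
    (l : ∀ z ∈ B, φ' (φ z) = z) (γ : Gam F Y B) (y : C) :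
    ((rhoHom hBY hYS hφ hφ' l γ y : C) : Ω) = φ (((γ : MulAut Y) ⟨φ' y, hBY (hφ'.maps y y.2)⟩ : Y) : Ω) := by
  show φ (funOf (γ : MulAut Y) (φ' y)) = _
  rw [funOf_apply _ ⟨_, hBY (hφ'.maps y y.2)⟩]

theorem rhoHom_apply' (hBY : B ≤ Y) (hYS : Y ≤ S) (hφ : Iso F B C φ) (hφ' : Iso F C B φ')
    (l : ∀ z ∈ B, φ' (φ z) = z) (γ : Gam F Y B) {z : Ω} (hz : z ∈ B) :
    ((rhoHom hBY hYS hφ hφ' l γ ⟨φ z, hφ.maps z hz⟩ : C) : Ω) = φ (((γ : MulAut Y) ⟨z, hBY hz⟩ : Y) : Ω) := by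
  rw [rhoHom_apply]
  congr 3
  exact Subtype.ext (l z hz)

theorem rhoHom_mem (hBY : B ≤ Y) (hYS : Y ≤ S) (hφ : Iso F B C φ) (hφ' : Iso F C B φ')
    (l : ∀ z ∈ B, φ' (φ z) = z) (γ : Gam F Y B) : rhoHom hBY hYS hφ hφ' l γ ∈ F.autGroup C :=
  autOfIso_mem ((hφ'.comp (iso_funOf_gam hBY hYS γ.2)).comp hφ)

/-- An element of the stabilizer from an isomorphism. -/
noncomputable def gamOf (hβ : Iso F Y Y β) (hβB : Iso F B B β) (hBY : B ≤ Y) : Gam F Y B :=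
  ⟨autOfIso hβ, autOfIso_mem hβ, fun y => by
    rw [autOfIso_apply]
    exact iff_of_iso hβ hβB hBY y y.2⟩

theorem gamOf_apply (hβ : Iso F Y Y β) (hβB : Iso F B B β) (hBY : B ≤ Y) (y : Y) :
    (((gamOf hβ hβB hBY : Gam F Y B) : MulAut Y) y : Ω) = β y := rfl

theorem normalizer_of_gam (hBY : B ≤ Y) {α : MulAut Y} (hα : α ∈ Gam F Y B) {g : Ω}
    (hg : ∀ x : Y, ((α x : Y) : Ω) = g * x * g⁻¹) : g ∈ Subgroup.normalizer (B : Set Ω) := by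
  apply mem_normalizer_of_conj
  · intro y hy
    rw [← hg ⟨y, hBY hy⟩]
    exact (hα.2 ⟨y, hBY hy⟩).mp hy
  · intro y hy
    have hgY : g ∈ Subgroup.normalizer (Y : Set Ω) := normalizer_of_aut hg
    have h1 : g⁻¹ * y * g ∈ Y := conj_inv_mem_of_normalizer hgY (hBY hy)
    refine (hα.2 ⟨_, h1⟩).mpr ?_
    rw [hg ⟨_, h1⟩]
    convert hy using 1
    show g * (g⁻¹ * y * g) * g⁻¹ = y
    group

end Rho

section Decomp

variable [Finite S] [Fact p.Prime]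
variable {O : Subgroup (MulAut P₀)}

/-- The elements of `S` normalizing `Y` and `B` give elements of the stabilizer. -/
noncomputable def gamConj (hBY : B ≤ Y) (hYS : Y ≤ S) {x : Ω} (hxY : x ∈ normalizerIn S Y) (hxB : x ∈ normalizerIn S B) :
    Gam F Y B :=
  gamOf (β := fun y => x * y * x⁻¹) (Iso.conj_normalizer hYS hxY.1 hxY.2)
    (Iso.conj_normalizer (hBY.trans hYS) hxB.1 hxB.2) hBY

theorem gam_isP (hS : IsPGroup p S) : IsPGroup p ↥((autInducedBy S Y).subgroupOf (Gam F Y B)) :=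
  (Cfsg.Agent.H24.isPGroup_autInducedBy hS Y).comap_of_injective _ (Subgroup.subtype_injective _)

/-- The Frattini decomposition in the stabilizer. -/
theorem decomp (hS : IsPGroup p S) (hO : OData F p P₀ O) (hFP : FarPair F p Y B)
    (hφm : Mp F (normalizerIn S B) φ) (hφ : Iso F B P₀ φ) {x₁ : Ω} (hx₁Y : x₁ ∈ normalizerIn S Y)
    (hx₁B : x₁ ∈ normalizerIn S B) (hx₁M : φ x₁ ∈ Mof S P₀ O) (hβ : Iso F Y Y β) (hβB : Iso F B B β) :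
    ∃ w γ, w ∈ normalizerIn S Y ∧ w ∈ normalizerIn S B ∧ Iso F Y Y γ ∧ Iso F B B γ ∧
      (∀ z ∈ B, β z = w * γ z * w⁻¹) ∧ ∃ s ∈ S, ∀ y ∈ Y, γ (x₁ * y * x₁⁻¹) = s * γ y * s⁻¹ := by
  classical
  have hYS := hFP.far.le
  have hBY := hFP.le
  have hBS := hBY.trans hYS
  haveI : Finite Y := finite_of_le hYS
  obtain ⟨φ', hφ', l, r⟩ := hφ.inv
  have hBN := le_normalizerIn hBS
  let ρ := rhoHom hBY hYS hφ hφ' l
  let N : Subgroup (Gam F Y B) := O.comap ρ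
  let D : Subgroup (Gam F Y B) := ρ.ker
  let V : Subgroup (Gam F Y B) := (autInducedBy S Y).subgroupOf (Gam F Y B)
  haveI hNn : N.Normal := ⟨fun n hn g => by
    show ρ (g * n * g⁻¹) ∈ O
    rw [map_mul, map_mul, map_inv]
    exact hO.norm _ (rhoHom_mem hBY hYS hφ hφ' l g) _ hn⟩
  haveI hDn : D.Normal := MonoidHom.normal_ker ρ
  have hVp : IsPGroup p V := gam_isP hS
  have hVmax : ∀ T : Subgroup (Gam F Y B), IsPGroup p T → ∃ g : Gam F Y B, ∀ t ∈ T, g * t * g⁻¹ ∈ V := by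
    intro T hT
    obtain ⟨b, hb, hbT⟩ := hFP.conj (T.map (Gam F Y B).subtype) (hT.map _) (by
      rintro _ ⟨t, -, rfl⟩
      exact t.2)
    refine ⟨⟨b, hb⟩, fun t ht => ?_⟩
    exact hbT _ ⟨t, ht, rfl⟩
  have hND : ∀ x ∈ N, ∃ k : ℕ, x ^ (p ^ k) ∈ D := by
    intro x hx
    obtain ⟨k, hk⟩ := hO.isP ⟨ρ x, hx⟩
    refine ⟨k, ?_⟩
    show ρ (x ^ (p ^ k)) = 1
    rw [map_pow]
    exact congrArg Subtype.val hk
  obtain ⟨d, hd, v, hv, γ, hdec, hγ⟩ := frattini_decomp V N D hVp hVmax hND (gamOf hβ hβB hBY)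
  obtain ⟨w, hw, hwx⟩ := exists_of_mem_autInducedBy hv.1
  have hwY : w ∈ normalizerIn S Y := ⟨hw, normalizer_of_aut hwx⟩
  have hwB : w ∈ normalizerIn S B := ⟨hw, normalizer_of_gam hBY v.2 hwx⟩
  refine ⟨w, funOf (γ : MulAut Y), hwY, hwB, Iso.of_mem_autGroup hYS γ.2.1, iso_funOf_gam hBY hYS γ.2, ?_, ?_⟩
  · intro z hz
    have hγz := (iso_funOf_gam (F := F) hBY hYS γ.2).maps z hz
    have h1 : β z = (((gamOf hβ hβB hBY : Gam F Y B) : MulAut Y) ⟨z, hBY hz⟩ : Y) := rfl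
    rw [h1, hdec]
    show (((d : MulAut Y) ((v : MulAut Y) ((γ : MulAut Y) ⟨z, hBY hz⟩)) : Y) : Ω) = _
    have h2 : ((v : MulAut Y) ((γ : MulAut Y) ⟨z, hBY hz⟩) : Y) =
        w * funOf (γ : MulAut Y) z * w⁻¹ := by
      rw [funOf_apply _ ⟨z, hBY hz⟩]
      exact hwx _
    have h3 : w * funOf (γ : MulAut Y) z * w⁻¹ ∈ B := conj_mem_of_normalizer hwB.2 hγz
    rw [← h2] at h3
    -- `d` is trivial on `B`
    have h4 : ρ d = 1 := hd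
    have h5 := rhoHom_apply' hBY hYS hφ hφ' l d h3
    have h6 : ρ d ⟨φ _, hφ.maps _ h3⟩ = ⟨φ _, hφ.maps _ h3⟩ := by rw [h4]; rfl
    have h7 := congrArg Subtype.val h6
    have h8 : (rhoHom hBY hYS hφ hφ' l d ⟨φ _, hφ.maps _ h3⟩ : P₀) = ρ d ⟨φ _, hφ.maps _ h3⟩ := rfl
    rw [h8, h7] at h5
    have hd' : ((d : MulAut Y) ⟨_, hBY h3⟩ : Y).1 ∈ B := (d.2.2 ⟨_, hBY h3⟩).mp h3
    have h9 := hφ.mp.inj h3 hd' h5
    rw [← h2]
    exact h9.symm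
  · -- the conjugation by `x₁`
    let c₁ : Gam F Y B := gamConj hBY hYS hx₁Y hx₁B
    have hc₁V : c₁ ∈ V := mem_autInducedBy_of_conj hx₁Y.1 fun y => rfl
    have hc₁N : c₁ ∈ N := by
      obtain ⟨-, α, hα, hαx⟩ := hx₁M
      have : ρ c₁ = α := by
        apply MulEquiv.ext
        intro y
        apply Subtype.ext
        rw [hαx y]
        have hy := hφ'.maps y y.2
        have h1 : ((ρ c₁ y : P₀) : Ω) = φ (x₁ * φ' y * x₁⁻¹) := rhoHom_apply hBY hYS hφ hφ' l c₁ y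
        rw [h1, hφm.map_mul ((normalizerIn S B).mul_mem hx₁B (hBN hy)) ((normalizerIn S B).inv_mem hx₁B),
          hφm.map_mul hx₁B (hBN hy), hφm.map_inv hx₁B, r y y.2]
      show ρ c₁ ∈ O
      rw [this]
      exact hα
    obtain ⟨s, hs, hsx⟩ := exists_of_mem_autInducedBy (hγ c₁ ⟨hc₁V, hc₁N⟩).1
    refine ⟨s, hs, fun y hy => ?_⟩
    have h1 := hsx ((γ : MulAut Y) ⟨y, hy⟩)
    have h2 : (((γ * c₁ * γ⁻¹ : Gam F Y B) : MulAut Y) ((γ : MulAut Y) ⟨y, hy⟩) : Y) =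
        (γ : MulAut Y) ((c₁ : MulAut Y) ⟨y, hy⟩) := by
      show (γ : MulAut Y) ((c₁ : MulAut Y) ((γ : MulAut Y)⁻¹ ((γ : MulAut Y) ⟨y, hy⟩))) = _
      rw [MulAut.inv_apply_self]
    have h1' : (((γ * c₁ * γ⁻¹ : Gam F Y B) : MulAut Y) ((γ : MulAut Y) ⟨y, hy⟩) : Y).1 = s * ((γ : MulAut Y) ⟨y, hy⟩ : Y).1 * s⁻¹ := h1
    rw [h2] at h1'
    have hxy : x₁ * y * x₁⁻¹ ∈ Y := conj_mem_of_normalizer hx₁Y.2 hy
    rw [funOf_apply (γ : MulAut Y) ⟨_, hxy⟩, funOf_apply (γ : MulAut Y) ⟨y, hy⟩]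
    exact h1'

end Decomp

end Cfsg.Agent.H24.SatC
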