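import Cfsg.Agent.Lib.H24.SatCE

/-!
The key claim: every automorphism of the top member extends to `M`.
-/

set_option autoImplicit false

namespace Cfsg.Agent.H24.SatC

open Cfsg Cfsg.FusionSystem Cfsg.Agent.H25

variable {Ω : Type*} [Group Ω] {S : Subgroup Ω} {F : FusionSystem S}
variable {P P₀ Q Q' Q'' R K X Y A B C W T T' U V : Subgroup Ω} {f g h θ β φ φ' : Ω → Ω} {p : ℕ}
variable {O : Subgroup (MulAut P₀)}

theorem iso_inv_restrict {Z : Subgroup Ω} (hφ : Iso F B C φ) (hφ₂ : Mp F Z φ') (hCZ : C ≤ Z)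
    (l : ∀ z ∈ B, φ' (φ z) = z) : Iso F C B φ' := by
  refine ⟨hφ₂.restrict hCZ, fun y hy => ?_, fun z hz => ⟨φ z, hφ.maps z hz, l z hz⟩⟩
  obtain ⟨z, hz, rfl⟩ := hφ.surj y hy
  rw [l z hz]
  exact hz

variable [Finite S] [Fact p.Prime]

theorem normalizer_M (hO : OData F p P₀ O) (hP₀ : P₀ ≤ S) {g : Ω} (hg : g ∈ normalizerIn S P₀) :
    g ∈ Subgroup.normalizer ((Mof S P₀ O : Subgroup Ω) : Set Ω) := by
  apply mem_normalizer_of_conj
  · exact fun x hx => hO.M_norm hP₀ hx hg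
  · intro x hx
    have := hO.M_norm hP₀ hx (Subgroup.inv_mem _ hg)
    simpa using this

/-- An element of `N(Y, B)` outside `Y` mapping into `M`. -/
theorem exists_x₁ (hS : IsPGroup p S) (hO : OData F p P₀ O) (hP₀ : P₀ ≤ S) (hFP : FarPair F p Y B)
    (hφm : Mp F (normalizerIn S B) φ) (hφ : Iso F B P₀ φ) (hYN : Y ≤ normalizerIn S B)
    (hM : ¬ Mof S P₀ O ≤ (hφm.restrict hYN).img) :
    ∃ x₁, x₁ ∈ normalizerIn S Y ∧ x₁ ∈ normalizerIn S B ∧ x₁ ∉ Y ∧ φ x₁ ∈ Mof S P₀ O := by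
  have hm := hφm.restrict hYN
  have hYS := hFP.far.le
  have hBY := hFP.le
  have hBS := hBY.trans hYS
  have hBN := le_normalizerIn hBS
  obtain ⟨φ₁, hφ₁, l, r⟩ := (Iso.of_mp hm).inv
  set Y' := hm.img with hY'
  have hle' : ∀ y ∈ Y', y ∈ normalizerIn S P₀ := by
    intro y hy
    obtain ⟨x, hx, rfl⟩ := hm.mem_img.mp hy
    exact maps_normalizer hφm hφ hBN normalizerIn_le_normalizer (hYN hx)
  have hP₀Y' : P₀ ≤ Y' := by
    intro y hy
    obtain ⟨x, hx, rfl⟩ := hφ.surj y hy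
    exact hm.mem_img.mpr ⟨x, hBY hx, rfl⟩
  have hJ : Iso F P₀ B φ₁ := iso_inv_restrict hφ hφ₁.mp hP₀Y' (fun z hz => l z (hBY hz))
  have hLE : Y' ≤ Subgroup.normalizer ((Mof S P₀ O : Subgroup Ω) : Set Ω) := fun y hy =>
    normalizer_M hO hP₀ (hle' y hy)
  set Z := Mof S P₀ O ⊔ Y' with hZ
  have hZN : Z ≤ normalizerIn S P₀ := sup_le Mof_le hle'
  have hZS : Z ≤ S := hZN.trans normalizerIn_le
  have hY'Z : Y' ≤ Z := le_sup_right
  have hne : Y' ≠ Z := fun e => hM (by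
    rw [e]
    exact le_sup_left)
  haveI : Finite Z := finite_of_le hZS
  obtain ⟨z, hz, hzY⟩ := exists_normalizer_not_mem (S := Z) (hS.to_le hZS) hY'Z hne
  obtain ⟨hz1, hz2⟩ := mem_normalizerIn.mp hz
  have hz3 : z ∈ ((Mof S P₀ O ⊔ Y' : Subgroup Ω) : Set Ω) := hz1
  rw [Subgroup.coe_mul_of_right_le_normalizer_left _ _ hLE] at hz3
  obtain ⟨x, hx, y, hy, rfl⟩ := hz3
  have hxY : x ∉ Y' := fun h => hzY (Y'.mul_mem h hy)
  have hxN : x ∈ Subgroup.normalizer (Y' : Set Ω) := by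
    have h1 : x = (x * y) * y⁻¹ := by group
    rw [h1]
    exact Subgroup.mul_mem _ hz2 (Subgroup.inv_mem _ ((le_normalizerIn (hY'Z.trans hZS)) hy).2)
  have hY'S : Y' ≤ S := hY'Z.trans hZS
  have hxK : x ∈ normalizerIn S Y' ⊓ normalizerIn S P₀ := ⟨⟨hZS (le_sup_left (a := Mof S P₀ O) hx), hxN⟩, Mof_le hx⟩
  have hKS : normalizerIn S Y' ⊓ normalizerIn S P₀ ≤ S := inf_le_left.trans normalizerIn_le
  have hY'K : Y' ≤ normalizerIn S Y' ⊓ normalizerIn S P₀ := le_inf (le_normalizerIn hY'S) hle'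
  obtain ⟨β₀, g₀, -, -, hh, -, hI, hJ'⟩ := pair_ext' hS hFP hφ₁ hJ hP₀Y' hKS hY'K
    (inf_le_left.trans normalizerIn_le_normalizer) (inf_le_right.trans normalizerIn_le_normalizer)
  have hP₀K := hP₀Y'.trans hY'K
  have hg₀Y : g₀ x ∈ normalizerIn S Y := maps_normalizer hh hI hY'K (inf_le_left.trans normalizerIn_le_normalizer) hxK
  have hg₀B : ∀ {t}, t ∈ normalizerIn S Y' ⊓ normalizerIn S P₀ → g₀ t ∈ normalizerIn S B := fun ht =>
    maps_normalizer hh hJ' hP₀K (inf_le_right.trans normalizerIn_le_normalizer) ht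
  refine ⟨g₀ x, hg₀Y, hg₀B hxK, ?_, ?_⟩
  · intro hmem
    obtain ⟨y₁, hy₁, he⟩ := hI.surj _ hmem
    exact hxY (hh.inj (hY'K hy₁) hxK he ▸ hy₁)
  · refine hO.M_inv (a := φ ∘ g₀) (hJ'.comp hφ) hx
      (maps_normalizer hφm hφ hBN normalizerIn_le_normalizer (hg₀B hxK)) fun t ht => ?_
    have htK := hP₀K ht
    simp only [Function.comp]
    have h1 : x * t * x⁻¹ ∈ normalizerIn S Y' ⊓ normalizerIn S P₀ :=
      Subgroup.mul_mem _ (Subgroup.mul_mem _ hxK htK) (Subgroup.inv_mem _ hxK)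
    rw [hh.map_mul (Subgroup.mul_mem _ hxK htK) (Subgroup.inv_mem _ hxK), hh.map_mul hxK htK, hh.map_inv hxK,
      hφm.map_mul (Subgroup.mul_mem _ (hg₀B hxK) (hg₀B htK)) (Subgroup.inv_mem _ (hg₀B hxK)),
      hφm.map_mul (hg₀B hxK) (hg₀B htK), hφm.map_inv (hg₀B hxK)]

/-- The claim for the stabilizer of the pair. -/
theorem beta_claim (hS : IsPGroup p S) (hO : OData F p P₀ O) (hP₀ : P₀ ≤ S) (hFP : FarPair F p Y B)
    (hφm : Mp F (normalizerIn S B) φ) (hφ : Iso F B P₀ φ) (hYN : Y ≤ normalizerIn S B)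
    (IH : ∀ W b, P₀ ≤ W → W ≤ normalizerIn S P₀ → Mp F W b → Iso F P₀ P₀ b → Nat.card Y < Nat.card W →
      ∃ k, Iso F (Mof S P₀ O) (Mof S P₀ O) k ∧ ∀ x ∈ P₀, k x = b x)
    (hβ : Iso F Y Y β) (hβB : Iso F B B β) :
    ∃ k, Iso F (Mof S P₀ O) (Mof S P₀ O) k ∧ ∀ z ∈ B, k (φ z) = φ (β z) := by
  have hm := hφm.restrict hYN
  have hYS := hFP.far.le
  have hBY := hFP.le
  have hBS := hBY.trans hYS
  have hBN := le_normalizerIn hBS
  have hMS : Mof S P₀ O ≤ S := Mof_le.trans normalizerIn_le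
  have hP₀M := hO.le_M hP₀
  by_cases hMY : Mof S P₀ O ≤ hm.img
  · obtain ⟨φ₁, hφ₁, l, r⟩ := (Iso.of_mp hm).inv
    have hP₀Y' : P₀ ≤ hm.img := by
      intro y hy
      obtain ⟨x, hx, rfl⟩ := hφ.surj y hy
      exact hm.mem_img.mpr ⟨x, hBY hx, rfl⟩
    have hJ : Iso F P₀ B φ₁ := iso_inv_restrict hφ hφ₁.mp hP₀Y' (fun z hz => l z (hBY hz))
    have hmp : Mp F hm.img (φ ∘ β ∘ φ₁) := (hφ₁.comp hβ).mp.comp (fun x hx => hYN ((hφ₁.comp hβ).maps x hx)) hφm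
    have hI : Iso F P₀ P₀ (φ ∘ β ∘ φ₁) := (hJ.comp hβB).comp hφ
    refine ⟨_, hO.k_iso hP₀ (hmp.restrict hMY) hI, fun z hz => ?_⟩
    simp only [Function.comp]
    rw [l z (hBY hz)]
  · obtain ⟨x₁, hx₁Y, hx₁B, hx₁n, hx₁M⟩ := exists_x₁ hS hO hP₀ hFP hφm hφ hYN hMY
    obtain ⟨w, γ, hwY, hwB, hγ, hγB, hval, s, hs, hsx⟩ := decomp hS hO hFP hφm hφ hx₁Y hx₁B hx₁M hβ hβB
    -- the extension of `γ`
    set Kₓ := Subgroup.closure ((Y : Set Ω) ∪ {x₁}) with hKₓ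
    have hYK : Y ≤ Kₓ := fun y hy => Subgroup.subset_closure (Or.inl hy)
    have hx₁K : x₁ ∈ Kₓ := Subgroup.subset_closure (Or.inr rfl)
    have hKN : Kₓ ≤ normalizerIn S Y ⊓ normalizerIn S B := by
      refine (Subgroup.closure_le _).mpr ?_
      rintro y (hy | hy)
      · exact ⟨le_normalizerIn hYS hy, hYN hy⟩
      · rw [Set.mem_singleton_iff] at hy
        subst hy
        exact ⟨hx₁Y, hx₁B⟩
    have hKB : Kₓ ≤ normalizerIn S B := hKN.trans inf_le_right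
    obtain ⟨γh, hγh, hγhv⟩ := recept_ext hFP.far.recep hγ hYK (by
      refine Subgroup.closure_mono ?_
      rintro y (hy | hy)
      · exact mem_good_of_mem hγ hy
      · rw [Set.mem_singleton_iff] at hy
        subst hy
        exact ⟨hx₁Y.1, hx₁Y.2, s, hs, hsx⟩)
    have hIB : Iso F B B γh := hγB.congr fun z hz => (hγhv z (hBY hz)).symm
    have hγhN : ∀ t ∈ Kₓ, γh t ∈ normalizerIn S B := fun t ht =>
      maps_normalizer hγh hIB (hBY.trans hYK) (hKB.trans normalizerIn_le_normalizer) ht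
    have hm₂ := hφm.restrict hKB
    obtain ⟨φ₂, hφ₂, l₂, r₂⟩ := (Iso.of_mp hm₂).inv
    have hP₀W : P₀ ≤ hm₂.img := by
      intro y hy
      obtain ⟨x, hx, rfl⟩ := hφ.surj y hy
      exact hm₂.mem_img.mpr ⟨x, hYK (hBY hx), rfl⟩
    have hWN : hm₂.img ≤ normalizerIn S P₀ := by
      intro y hy
      obtain ⟨x, hx, rfl⟩ := hm₂.mem_img.mp hy
      exact maps_normalizer hφm hφ hBN normalizerIn_le_normalizer (hKB hx)
    have hJ₂ : Iso F P₀ B φ₂ := iso_inv_restrict hφ hφ₂.mp hP₀W (fun z hz => l₂ z (hYK (hBY hz)))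
    have hmp₃ : Mp F hm₂.img (φ ∘ γh ∘ φ₂) := (hφ₂.mp.comp hφ₂.maps hγh).comp
      (fun x hx => hγhN _ (hφ₂.maps x hx)) hφm
    have hI₃ : Iso F P₀ P₀ (φ ∘ γh ∘ φ₂) := (hJ₂.comp hIB).comp hφ
    have hcard : Nat.card Y < Nat.card hm₂.img := by
      rw [← Iso.card_eq' (Iso.of_mp hm₂)]
      haveI : Finite Kₓ := finite_of_le (hKN.trans (inf_le_left.trans normalizerIn_le))
      exact card_lt (lt_of_le_of_ne hYK (fun e => hx₁n (e.ge hx₁K)))
    obtain ⟨k₃, hk₃, hk₃v⟩ := IH _ _ hP₀W hWN hmp₃ hI₃ hcard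
    have hφw : φ w ∈ normalizerIn S P₀ := maps_normalizer hφm hφ hBN normalizerIn_le_normalizer hwB
    have hkv : Iso F (Mof S P₀ O) (Mof S P₀ O) (fun x => φ w * x * (φ w)⁻¹) :=
      Iso.conj_normalizer hMS hφw.1 (normalizer_M hO hP₀ hφw)
    refine ⟨_, hk₃.comp hkv, fun z hz => ?_⟩
    have hφz := hφ.maps z hz
    have hγz : γ z ∈ B := hγB.maps z hz
    have h1 : k₃ (φ z) = φ (γ z) := by
      rw [hk₃v _ hφz]
      simp only [Function.comp]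
      rw [l₂ z (hYK (hBY hz)), hγhv z (hBY hz)]
    simp only [Function.comp]
    rw [h1, hval z hz, hφm.map_mul (Subgroup.mul_mem _ hwB (hBN hγz)) (Subgroup.inv_mem _ hwB),
      hφm.map_mul hwB (hBN hγz), hφm.map_inv hwB]

end Cfsg.Agent.H24.SatC
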