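import Cfsg.Agent.Lib.H24.SatCF

/-!
The key claim: every automorphism of the top member extends to `M`.
-/

set_option autoImplicit false

namespace Cfsg.Agent.H24.SatC

open Cfsg Cfsg.FusionSystem Cfsg.Agent.H25

variable {Ω : Type*} [Group Ω] {S : Subgroup Ω} {F : FusionSystem S}
variable {P P₀ Q Q' Q'' R K X Y A B C W T T' U V : Subgroup Ω} {f g h θ β φ φ' : Ω → Ω} {p : ℕ}
variable {O : Subgroup (MulAut P₀)}

variable [Finite S] [Fact p.Prime]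

/-- Maps between overgroups of `P₀` in `N_S(P₀)` induce elements which extend to `M`. -/
theorem main_claim (hS : IsPGroup p S) (hO : OData F p P₀ O) (hP₀ : P₀ ≤ S)
    (hg : GoodAbove F p (Nat.card P₀)) (hTop : ∀ B, F.IsConj P₀ B → Up F B P₀) :
    ∀ c, ∀ W b, P₀ < W → W ≤ normalizerIn S P₀ → Mp F W b → Iso F P₀ P₀ b → Nat.card S - Nat.card W = c →
      ∃ k, Iso F (Mof S P₀ O) (Mof S P₀ O) k ∧ ∀ x ∈ P₀, k x = b x := by
  intro c
  induction c using Nat.strong_induction_on with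
  | _ c ih =>
    intro W b hP₀W hWN hb hI hc
    have hN₀S : normalizerIn S P₀ ≤ S := normalizerIn_le
    have hWS : W ≤ S := hWN.trans hN₀S
    have hN₀N : normalizerIn S P₀ ≤ Subgroup.normalizer (P₀ : Set Ω) := normalizerIn_le_normalizer
    have hP₀N := le_normalizerIn hP₀
    by_cases hMW : Mof S P₀ O ≤ W
    · exact ⟨b, hO.k_iso hP₀ (hb.restrict hMW) hI, fun _ _ => rfl⟩
    haveI : Finite (normalizerIn S P₀) := finite_of_le hN₀S
    have hWne : W ≠ normalizerIn S P₀ := fun e => hMW (e ▸ Mof_le)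
    have hltN : W < normalizerIn S P₀ := lt_of_le_of_ne hWN hWne
    have hIW := Iso.of_mp hb
    have hW'N : hb.img ≤ normalizerIn S P₀ := by
      intro y hy
      obtain ⟨x, hx, rfl⟩ := hb.mem_img.mp hy
      exact maps_normalizer hb hI hP₀W.le (hWN.trans hN₀N) hx
    have hW'S := hW'N.trans hN₀S
    have hP₀W' : P₀ ≤ hb.img := by
      intro y hy
      obtain ⟨x, hx, rfl⟩ := hI.surj y hy
      exact hb.mem_img.mpr ⟨x, hP₀W.le hx, rfl⟩
    have hcW : Nat.card W = Nat.card hb.img := Iso.card_eq' hIW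
    haveI : Finite W := finite_of_le hWS
    have hcP : Nat.card P₀ < Nat.card W := card_lt hP₀W
    obtain ⟨Y, B, ψ, hFP, hψW, hψP⟩ := exists_farPair hg hW'S (by omega : Nat.card P₀ < Nat.card hb.img) hP₀W'
    obtain ⟨φ, hφm, hφ⟩ := hTop B (isConj_iff.mpr ⟨ψ, hψP⟩)
    have hKS₁ : normalizerIn S W ⊓ normalizerIn S P₀ ≤ S := inf_le_left.trans normalizerIn_le
    have hKS₂ : normalizerIn S hb.img ⊓ normalizerIn S P₀ ≤ S := inf_le_left.trans normalizerIn_le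
    have hWK₁ : W ≤ normalizerIn S W ⊓ normalizerIn S P₀ := le_inf (le_normalizerIn hWS) hWN
    have hWK₂ : hb.img ≤ normalizerIn S hb.img ⊓ normalizerIn S P₀ := le_inf (le_normalizerIn hW'S) hW'N
    obtain ⟨β₁, h₁, hβ₁, hβ₁B, hh₁, h₁v, hI₁, hJ₁⟩ := pair_ext' hS hFP (hIW.comp hψW) (hI.comp hψP) hP₀W.le hKS₁ hWK₁
      (inf_le_left.trans normalizerIn_le_normalizer) (inf_le_right.trans normalizerIn_le_normalizer)
    obtain ⟨β₂, h₂, hβ₂, hβ₂B, hh₂, h₂v, hI₂, hJ₂⟩ := pair_ext' hS hFP hψW hψP hP₀W' hKS₂ hWK₂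
      (inf_le_left.trans normalizerIn_le_normalizer) (inf_le_right.trans normalizerIn_le_normalizer)
    have hYS := hFP.far.le
    have hBY := hFP.le
    have hcY : Nat.card W = Nat.card Y := Iso.card_eq' hI₁
    have hYN : Y ≤ normalizerIn S B := by
      intro y hy
      obtain ⟨x, hx, rfl⟩ := hI₂.surj y hy
      exact maps_normalizer hh₂ hJ₂ (hP₀W'.trans hWK₂) (inf_le_right.trans normalizerIn_le_normalizer) (hWK₂ hx)
    have IH : ∀ W₂ b₂, P₀ ≤ W₂ → W₂ ≤ normalizerIn S P₀ → Mp F W₂ b₂ → Iso F P₀ P₀ b₂ → Nat.card Y < Nat.card W₂ →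
        ∃ k, Iso F (Mof S P₀ O) (Mof S P₀ O) k ∧ ∀ x ∈ P₀, k x = b₂ x := by
      intro W₂ b₂ h1 h2 h3 h4 h5
      have h6 : Nat.card W₂ ≤ Nat.card S := card_le (h2.trans hN₀S)
      have h7 : P₀ ≠ W₂ := by
        intro e
        rw [← e] at h5
        omega
      have h8 : Nat.card W ≤ Nat.card S := card_le hWS
      exact ih (Nat.card S - Nat.card W₂) (by omega) W₂ b₂ (lt_of_le_of_ne h1 h7) h2 h3 h4 rfl
    -- the first map
    have hN₀p : IsPGroup p (normalizerIn S P₀) := hS.to_le hN₀S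
    obtain ⟨g₁, hg₁, hg₁W⟩ := exists_normalizer_not_mem hN₀p hWN hWne
    have hK₁lt : W < normalizerIn S W ⊓ normalizerIn S P₀ := by
      refine lt_of_le_of_ne hWK₁ (fun e => hg₁W ?_)
      rw [e]
      obtain ⟨h1, h2⟩ := mem_normalizerIn.mp hg₁
      exact ⟨mem_normalizerIn.mpr ⟨hN₀S h1, h2⟩, h1⟩
    have hW'ne : hb.img ≠ normalizerIn S P₀ := by
      intro e
      have := card_lt hltN
      rw [hcW, e] at this
      exact lt_irrefl _ this
    obtain ⟨g₂, hg₂, hg₂W⟩ := exists_normalizer_not_mem hN₀p hW'N hW'ne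
    have hK₂lt : hb.img < normalizerIn S hb.img ⊓ normalizerIn S P₀ := by
      refine lt_of_le_of_ne hWK₂ (fun e => hg₂W ?_)
      rw [e]
      obtain ⟨h1, h2⟩ := mem_normalizerIn.mp hg₂
      exact ⟨mem_normalizerIn.mpr ⟨hN₀S h1, h2⟩, h1⟩
    haveI : Finite ↥(normalizerIn S W ⊓ normalizerIn S P₀) := finite_of_le hKS₁
    haveI : Finite ↥(normalizerIn S hb.img ⊓ normalizerIn S P₀) := finite_of_le hKS₂
    have hmaps₁ : ∀ x ∈ normalizerIn S W ⊓ normalizerIn S P₀, h₁ x ∈ normalizerIn S B := fun x hx =>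
      maps_normalizer hh₁ hJ₁ (hP₀W.le.trans hWK₁) (inf_le_right.trans normalizerIn_le_normalizer) hx
    have hmaps₂ : ∀ x ∈ normalizerIn S hb.img ⊓ normalizerIn S P₀, h₂ x ∈ normalizerIn S B := fun x hx =>
      maps_normalizer hh₂ hJ₂ (hP₀W'.trans hWK₂) (inf_le_right.trans normalizerIn_le_normalizer) hx
    obtain ⟨k₁, hk₁, hk₁v⟩ := IH _ (φ ∘ h₁) (hP₀W.le.trans hWK₁) inf_le_right (hh₁.comp hmaps₁ hφm) (hJ₁.comp hφ) (by
      rw [← hcY]
      exact card_lt hK₁lt)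
    obtain ⟨k₂, hk₂, hk₂v⟩ := IH _ (φ ∘ h₂) (hP₀W'.trans hWK₂) inf_le_right (hh₂.comp hmaps₂ hφm) (hJ₂.comp hφ) (by
      rw [← hcY, hcW]
      exact card_lt hK₂lt)
    obtain ⟨β₂', hβ₂', l₂, r₂⟩ := hβ₂.inv
    have hβ₂'B : Iso F B B β₂' := iso_inv_restrict hβ₂B hβ₂'.mp hBY (fun z hz => l₂ z (hBY hz))
    obtain ⟨k₃, hk₃, hk₃v⟩ := beta_claim hS hO hP₀ hFP hφm hφ hYN IH (hβ₂'.comp hβ₁) (hβ₂'B.comp hβ₁B)
    obtain ⟨k₂', hk₂', l₂', -⟩ := hk₂.inv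
    obtain ⟨k₃', hk₃', l₃', -⟩ := hk₃.inv
    refine ⟨k₂' ∘ k₃' ∘ k₁, (hk₁.comp hk₃').comp hk₂', fun x hx => ?_⟩
    have hy := hI.maps x hx
    have hP₀M := hO.le_M hP₀
    have e1 : k₁ x = φ (β₁ (ψ (b x))) := by
      rw [hk₁v x hx]
      simp only [Function.comp]
      rw [h₁v x (hP₀W.le hx)]
      rfl
    have e2 : k₂ (b x) = φ (β₂ (ψ (b x))) := by
      rw [hk₂v _ hy]
      simp only [Function.comp]
      rw [h₂v _ (hP₀W' hy)]
    have hψy : ψ (b x) ∈ B := hψP.maps _ hy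
    have hβ₂y : β₂ (ψ (b x)) ∈ B := hβ₂B.maps _ hψy
    have e3 : k₃ (k₂ (b x)) = k₁ x := by
      rw [e2, hk₃v _ hβ₂y, e1]
      simp only [Function.comp]
      rw [l₂ _ (hBY hψy)]
    have hk₂y : k₂ (b x) ∈ Mof S P₀ O := hk₂.maps _ (hP₀M hy)
    simp only [Function.comp]
    rw [← e3, l₃' _ hk₂y, l₂' _ (hP₀M hy)]

/-- **Claim K.** Every automorphism of the top member extends to `M`. -/
theorem kext {ℋ : Set (Subgroup Ω)} (hS : IsPGroup p S) (hO : OData F p P₀ O) (hP₀ : P₀ ≤ S)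
    (hℋS : ∀ R ∈ ℋ, R ≤ S)
    (hgen : ∀ E : FusionSystem S, (∀ R ∈ ℋ, F.Hom R ⊆ E.Hom R) → F ≤ E)
    (hnotH : ∀ Q, F.IsConj P₀ Q → Q ∉ ℋ) (hneS : ∀ Q, F.IsConj P₀ Q → Q ≠ S)
    (hg : GoodAbove F p (Nat.card P₀)) (hTop : ∀ B, F.IsConj P₀ B → Up F B P₀) {a : Ω → Ω}
    (ha : Iso F P₀ P₀ a) : ∃ k, Iso F (Mof S P₀ O) (Mof S P₀ O) k ∧ ∀ x ∈ P₀, k x = a x := by
  classical
  have hω : ∀ Q, ∃ f, F.IsConj P₀ Q → (Mp F (normalizerIn S Q) f ∧ Iso F Q P₀ f ∧ (Q = P₀ → f = _root_.id)) := by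
    intro Q
    by_cases hQ : F.IsConj P₀ Q
    · by_cases e : Q = P₀
      · subst e
        exact ⟨_root_.id, fun _ => ⟨Mp.id normalizerIn_le, Iso.refl hP₀, fun _ => rfl⟩⟩
      · obtain ⟨f, h1, h2⟩ := hTop Q hQ
        exact ⟨f, fun _ => ⟨h1, h2, fun e' => absurd e' e⟩⟩
    · exact ⟨_root_.id, fun h => absurd h hQ⟩
  choose ω hω using hω
  let G : Subgroup Ω → Subgroup Ω → (Ω → Ω) → Prop := fun Q Q' a =>
    ∃ k, Iso F (Mof S P₀ O) (Mof S P₀ O) k ∧ ∀ x ∈ Q, k (ω Q x) = ω Q' (a x)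
  have hP₀M := hO.le_M hP₀
  have hcard : ∀ {Q}, F.IsConj P₀ Q → Nat.card P₀ = Nat.card Q := fun {Q} hQ => by
    obtain ⟨f, hf⟩ := isConj_iff.mp hQ
    exact Iso.card_eq' hf
  have hpair : ∀ {Q Q' T f}, F.IsConj P₀ Q → Q < T → T ≤ normalizerIn S Q → Mp F T f → Iso F Q Q' f → G Q Q' f := by
    intro Q Q' T f hQ hlt hTN hf hI
    have hQ' : F.IsConj P₀ Q' := isConj_trans hQ (isConj_iff.mpr ⟨f, hI⟩)
    obtain ⟨ω₁, ω₂, -⟩ := hω Q hQ
    obtain ⟨ω₁', ω₂', -⟩ := hω Q' hQ'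
    have hQS := ω₂.mp.le
    have hTS := hTN.trans normalizerIn_le
    have hQN := le_normalizerIn hQS
    have hm := ω₁.restrict hTN
    obtain ⟨ν, hν, l, r⟩ := (Iso.of_mp hm).inv
    have hmp : Mp F hm.img (ω Q' ∘ f ∘ ν) := (hν.mp.comp hν.maps hf).comp
      (fun x hx => maps_normalizer hf hI hlt.le (hTN.trans normalizerIn_le_normalizer) (hν.maps x hx)) ω₁'
    have hP₀W : P₀ ≤ hm.img := by
      intro y hy
      obtain ⟨x, hx, rfl⟩ := ω₂.surj y hy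
      exact hm.mem_img.mpr ⟨x, hlt.le hx, rfl⟩
    have hWN : hm.img ≤ normalizerIn S P₀ := by
      intro y hy
      obtain ⟨x, hx, rfl⟩ := hm.mem_img.mp hy
      exact maps_normalizer ω₁ ω₂ hQN normalizerIn_le_normalizer (hTN hx)
    have hJ : Iso F P₀ Q ν := iso_inv_restrict ω₂ hν.mp hP₀W (fun z hz => l z (hlt.le hz))
    have hI₃ : Iso F P₀ P₀ (ω Q' ∘ f ∘ ν) := (hJ.comp hI).comp ω₂'
    have hlt' : P₀ < hm.img := by
      refine lt_of_le_of_ne hP₀W fun e => ?_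
      haveI : Finite T := finite_of_le hTS
      have h1 := card_lt hlt
      have h2 := Iso.card_eq' (Iso.of_mp hm)
      rw [← e, hcard hQ] at h2
      omega
    obtain ⟨k, hk, hkv⟩ := main_claim hS hO hP₀ hg hTop _ _ _ hlt' hWN hmp hI₃ rfl
    refine ⟨k, hk, fun x hx => ?_⟩
    rw [hkv _ (ω₂.maps x hx)]
    simp only [Function.comp]
    rw [l x (hlt.le hx)]
  have hG : Groupoid F P₀ G := by
    refine ⟨?_, ?_, ?_⟩
    · rintro Q Q' a b - ⟨k, hk, hv⟩ hab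
      exact ⟨k, hk, fun x hx => by rw [hv x hx, hab x hx]⟩
    · rintro Q Q' Q'' a b - ha' - ⟨k₁, hk₁, hv₁⟩ ⟨k₂, hk₂, hv₂⟩
      refine ⟨k₂ ∘ k₁, hk₁.comp hk₂, fun x hx => ?_⟩
      simp only [Function.comp]
      rw [hv₁ x hx, hv₂ _ (ha'.maps x hx)]
    · rintro Q Q' a a' hQ - ha' - hr ⟨k, hk, hv⟩
      obtain ⟨k', hk', l', -⟩ := hk.inv
      refine ⟨k', hk', fun y hy => ?_⟩
      have h1 := hv _ (ha'.maps y hy)
      rw [hr y hy] at h1
      rw [← h1, l' _ (hP₀M ((hω Q hQ).2.1.maps _ (ha'.maps y hy)))]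
  have hmain := gen_principle (ℋ := ℋ) (G := G) (Q := P₀) (Q' := P₀) (a := a) hgen hG
    (fun {Q Q' s} hQ hs hI => by
      have hQS := hI.mp.le
      obtain ⟨g', hg', hg'Q⟩ := exists_normalizer_not_mem hS hQS (hneS Q hQ)
      have hlt : Q < normalizerIn S Q := lt_of_le_of_ne (le_normalizerIn hQS) (fun e => hg'Q (e.ge hg'))
      exact hpair hQ hlt le_rfl (Mp.conj normalizerIn_le hs) hI)
    (fun R hR f hf Q Q' hQR hQ hI => by
      have hRS := hℋS R hR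
      have hne : Q ≠ R := fun e => hnotH Q hQ (e ▸ hR)
      haveI : Finite R := finite_of_le hRS
      obtain ⟨g', hg', hg'Q⟩ := exists_normalizer_not_mem (hS.to_le hRS) hQR hne
      have hlt : Q < normalizerIn R Q := lt_of_le_of_ne (le_normalizerIn hQR) (fun e => hg'Q (e.ge hg'))
      refine hpair hQ hlt ?_ (hf.restrict normalizerIn_le) hI
      intro x hx
      obtain ⟨hx1, hx2⟩ := mem_normalizerIn.mp hx
      exact mem_normalizerIn.mpr ⟨hRS hx1, hx2⟩)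
    (isConj_refl hP₀) ha
  obtain ⟨k, hk, hv⟩ := hmain
  have hid := (hω P₀ (isConj_refl hP₀)).2.2 rfl
  refine ⟨k, hk, fun x hx => ?_⟩
  have := hv x hx
  rwa [hid] at this

end Cfsg.Agent.H24.SatC
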