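import Cfsg.Agent.Lib.H24.SatCG

/-!
The final stage: a member `B` of the class with `Y ≥ B` far, with the pair conjugation property, and all
automorphisms of `B` extending to `Y`, is fully automized and receptive.
-/

set_option autoImplicit false

namespace Cfsg.Agent.H24.SatC

open Cfsg Cfsg.FusionSystem Cfsg.Agent.H25

variable {Ω : Type*} [Group Ω] {S : Subgroup Ω} {F : FusionSystem S}
variable {P P₀ Q Q' Q'' R K X Y A B C W T T' U V : Subgroup Ω} {f g h θ β φ φ' : Ω → Ω} {p : ℕ}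

variable [Finite S] [Fact p.Prime]

/-- From Sylow conjugation to fully automized. -/
theorem fullyAutomized_of_conj (hS : IsPGroup p S) (hB : B ≤ S)
    (h : ∀ R : Subgroup (MulAut B), R ≤ F.autGroup B → IsPGroup p R →
      ∃ a ∈ F.autGroup B, ∀ r ∈ R, a * r * a⁻¹ ∈ autInducedBy S B) : F.IsFullyAutomized p B := by
  classical
  haveI : Finite B := finite_of_le hB
  refine ⟨hB, ⟨(autInducedBy S B).subgroupOf (F.autGroup B), ?_, ?_⟩, rfl⟩
  · exact (Cfsg.Agent.H24.isPGroup_autInducedBy hS B).comap_of_injective _ (Subgroup.subtype_injective _)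
  · intro Q hQ hle
    obtain ⟨a, ha, har⟩ := h (Q.map (F.autGroup B).subtype) (by
      rintro _ ⟨x, -, rfl⟩
      exact x.2) (hQ.map _)
    let a' : F.autGroup B := ⟨a, ha⟩
    let m : Q → ↥((autInducedBy S B).subgroupOf (F.autGroup B)) := fun x =>
      ⟨a' * x * a'⁻¹, har _ ⟨x, x.2, rfl⟩⟩
    have hm : Function.Injective m := by
      intro x y hxy
      have := congrArg Subtype.val hxy
      simp only [m, mul_left_inj, mul_right_inj] at this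
      exact Subtype.ext this
    exact (Subgroup.eq_of_le_of_card_ge hle (Nat.card_le_card_of_injective m hm)).symm

/-- The data of the final stage. -/
structure FinalData (F : FusionSystem S) (p : ℕ) (Y B : Subgroup Ω) : Prop where
  fp : FarPair F p Y B
  yn : Y ≤ normalizerIn S B
  norm : ∀ s ∈ normalizerIn S B, ∀ y ∈ Y, s * y * s⁻¹ ∈ Y
  kext : ∀ {a : Ω → Ω}, Iso F B B a → ∃ k, Iso F Y Y k ∧ ∀ x ∈ B, k x = a x
  top : ∀ Q, F.IsConj B Q → Up F Q B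

omit [Finite S] [Fact p.Prime] in
theorem FinalData.normY (hD : FinalData F p Y B) {s : Ω} (hs : s ∈ normalizerIn S B) :
    s ∈ normalizerIn S Y := by
  refine ⟨hs.1, mem_normalizer_of_conj (fun y hy => hD.norm s hs y hy) (fun y hy => ?_)⟩
  have := hD.norm s⁻¹ (Subgroup.inv_mem _ hs) y hy
  simpa using this

section Res

variable (hD : FinalData F p Y B)
include hD

/-- The restriction homomorphism. -/
noncomputable def FinalData.res : Gam F Y B →* MulAut B :=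
  rhoHom hD.fp.le hD.fp.far.le (Iso.refl (hD.fp.le.trans hD.fp.far.le))
    (Iso.refl (hD.fp.le.trans hD.fp.far.le)) (fun _ _ => rfl)

theorem FinalData.res_apply (γ : Gam F Y B) (z : B) :
    ((hD.res γ z : B) : Ω) = (((γ : MulAut Y) ⟨z, hD.fp.le z.2⟩ : Y) : Ω) :=
  rhoHom_apply hD.fp.le hD.fp.far.le (Iso.refl (hD.fp.le.trans hD.fp.far.le))
    (Iso.refl (hD.fp.le.trans hD.fp.far.le)) (fun _ _ => rfl) γ z

theorem FinalData.res_mem (γ : Gam F Y B) : hD.res γ ∈ F.autGroup B :=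
  rhoHom_mem hD.fp.le hD.fp.far.le (Iso.refl (hD.fp.le.trans hD.fp.far.le))
    (Iso.refl (hD.fp.le.trans hD.fp.far.le)) (fun _ _ => rfl) γ

theorem FinalData.exists_res {α : MulAut B} (hα : α ∈ F.autGroup B) : ∃ γ, hD.res γ = α := by
  have hBS := hD.fp.le.trans hD.fp.far.le
  have hI := Iso.of_mem_autGroup hBS hα
  obtain ⟨k, hk, hkv⟩ := hD.kext hI
  have hkB : Iso F B B k := hI.congr fun x hx => (hkv x hx).symm
  refine ⟨gamOf hk hkB hD.fp.le, ?_⟩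
  apply MulEquiv.ext
  intro z
  apply Subtype.ext
  rw [hD.res_apply, gamOf_apply]
  show k z = _
  rw [hkv z z.2]
  exact toFun_aut α z

theorem FinalData.conj_into (hS : IsPGroup p S) {R : Subgroup (MulAut B)} (hRA : R ≤ F.autGroup B)
    (hRp : IsPGroup p R) : ∃ a ∈ F.autGroup B, ∀ r ∈ R, a * r * a⁻¹ ∈ autInducedBy S B := by
  classical
  have hYS := hD.fp.far.le
  have hBS := hD.fp.le.trans hYS
  haveI : Finite Y := finite_of_le hYS
  let H : Subgroup (Gam F Y B) := R.comap hD.res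
  let q : H →* R := (hD.res.comp H.subtype).codRestrict R (fun h => h.2)
  have hq : Function.Surjective q := by
    intro r
    obtain ⟨γ, hγ⟩ := hD.exists_res (hRA r.2)
    have hγH : γ ∈ H := by
      show hD.res γ ∈ R
      rw [hγ]
      exact r.2
    exact ⟨⟨γ, hγH⟩, Subtype.ext hγ⟩
  obtain ⟨T⟩ : Nonempty (Sylow p H) := inferInstance
  have htop : ((T.mapSurjective hq : Sylow p R) : Subgroup R) = ⊤ :=
    ((T.mapSurjective hq).is_maximal' (hRp.to_subgroup ⊤) le_top).symm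
  rw [Sylow.coe_mapSurjective] at htop
  let T' : Subgroup (MulAut Y) := ((T : Subgroup H).map H.subtype).map (Gam F Y B).subtype
  have hT'G : T' ≤ Gam F Y B := by
    rintro _ ⟨t, -, rfl⟩
    exact t.2
  obtain ⟨β₀, hβ₀, hβ₀T⟩ := hD.fp.conj T' ((T.isPGroup'.map _).map _) hT'G
  refine ⟨hD.res ⟨β₀, hβ₀⟩, hD.res_mem _, fun r hr => ?_⟩
  have h1 : (⟨r, hr⟩ : R) ∈ (T : Subgroup H).map q := by rw [htop]; trivial
  obtain ⟨t, ht, htr⟩ := h1
  have h2 : hD.res (t : Gam F Y B) = r := congrArg Subtype.val htr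
  obtain ⟨s, hs, hsx⟩ := exists_of_mem_autInducedBy
    (hβ₀T ((t : Gam F Y B) : MulAut Y) ⟨(t : Gam F Y B), ⟨t, ht, rfl⟩, rfl⟩)
  have h3 : hD.res ⟨β₀, hβ₀⟩ * r * (hD.res ⟨β₀, hβ₀⟩)⁻¹ =
      hD.res (⟨β₀, hβ₀⟩ * (t : Gam F Y B) * (⟨β₀, hβ₀⟩ : Gam F Y B)⁻¹) := by
    rw [map_mul, map_mul, map_inv, h2]
  rw [h3]
  refine mem_autInducedBy_of_conj hs fun z => ?_
  rw [hD.res_apply]
  exact hsx ⟨z, hD.fp.le z.2⟩

/-- The key extension for automorphisms. -/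
theorem FinalData.rec_aut (hS : IsPGroup p S) {a : Ω → Ω} (ha : Iso F B B a) {X : Subgroup Ω}
    (hXN : X ≤ normalizerIn S B)
    (hX : ∀ x ∈ X, ∃ s ∈ S, ∀ z ∈ B, a (x * z * x⁻¹) = s * a z * s⁻¹) :
    ∃ h, Mp F (X ⊔ Y) h ∧ ∀ z ∈ B, h z = a z := by
  classical
  have hYS := hD.fp.far.le
  have hBY := hD.fp.le
  have hBS := hBY.trans hYS
  haveI : Finite Y := finite_of_le hYS
  obtain ⟨k, hk, hkv⟩ := hD.kext ha
  have hkB : Iso F B B k := ha.congr fun x hx => (hkv x hx).symm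
  let Gg : Subgroup Ω :=
    { carrier := {z | z ∈ normalizerIn S B ∧ ∃ s ∈ S, ∀ w ∈ B, a (z * w * z⁻¹) = s * a w * s⁻¹}
      mul_mem' := by
        rintro z₁ z₂ ⟨h1, s₁, hs₁, hr₁⟩ ⟨h2, s₂, hs₂, hr₂⟩
        refine ⟨Subgroup.mul_mem _ h1 h2, s₁ * s₂, S.mul_mem hs₁ hs₂, fun w hw => ?_⟩
        have h3 : z₂ * w * z₂⁻¹ ∈ B := conj_mem_of_normalizer h2.2 hw
        have h4 : z₁ * z₂ * w * (z₁ * z₂)⁻¹ = z₁ * (z₂ * w * z₂⁻¹) * z₁⁻¹ := by group
        rw [h4, hr₁ _ h3, hr₂ _ hw]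
        group
      one_mem' := ⟨Subgroup.one_mem _, 1, S.one_mem, fun w _ => by simp⟩
      inv_mem' := by
        rintro z ⟨h1, s, hs, hr⟩
        refine ⟨Subgroup.inv_mem _ h1, s⁻¹, S.inv_mem hs, fun w hw => ?_⟩
        have h3 : z⁻¹ * w * z ∈ B := conj_inv_mem_of_normalizer h1.2 hw
        have h4 := hr _ h3
        have h5 : z * (z⁻¹ * w * z) * z⁻¹ = w := by group
        rw [h5] at h4
        rw [h4]
        simp only [inv_inv]
        have h6 : z⁻¹ * (s * a (z⁻¹ * w * z) * s⁻¹ ) = z⁻¹ * a w := by rw [h4]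
        group }
  have hZGg : X ⊔ Y ≤ Gg := by
    refine sup_le (fun x hx => ⟨hXN hx, hX x hx⟩) fun y hy => ⟨hD.yn hy, k y, hk.mp.mem hy, fun w hw => ?_⟩
    have hwY := hBY hw
    have h1 : y * w * y⁻¹ ∈ B := conj_mem_of_normalizer (hD.yn hy).2 hw
    rw [← hkv _ h1, ← hkv _ hw, hk.mp.map_mul (Y.mul_mem hy hwY) (Y.inv_mem hy), hk.mp.map_mul hy hwY,
      hk.mp.map_inv hy]
  have hZN : X ⊔ Y ≤ normalizerIn S B := fun z hz => (hZGg hz).1
  have hZS : X ⊔ Y ≤ S := hZN.trans normalizerIn_le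
  let k' : Gam F Y B := gamOf hk hkB hBY
  let cZ : ↥(X ⊔ Y) →* Gam F Y B := MonoidHom.mk'
    (fun z => gamConj hBY hYS (hD.normY (hZN z.2)) (hZN z.2)) (by
      intro z₁ z₂
      apply Subtype.ext
      apply MulEquiv.ext
      intro y
      apply Subtype.ext
      show ((z₁ * z₂ : ↥(X ⊔ Y)) : Ω) * y * ((z₁ * z₂ : ↥(X ⊔ Y)) : Ω)⁻¹ =
        (z₁ : Ω) * ((z₂ : Ω) * y * (z₂ : Ω)⁻¹) * (z₁ : Ω)⁻¹
      simp only [Subgroup.coe_mul]
      group)
  have hcZ : ∀ (z : ↥(X ⊔ Y)) (y : Y), (((cZ z : Gam F Y B) : MulAut Y) y : Ω) = (z : Ω) * y * (z : Ω)⁻¹ :=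
    fun _ _ => rfl
  let R : Subgroup (Gam F Y B) := cZ.range.map (MulAut.conj k').toMonoidHom
  let V : Subgroup (Gam F Y B) := (autInducedBy S Y).subgroupOf (Gam F Y B)
  let H : Subgroup (Gam F Y B) := (autInducedBy S B).comap hD.res
  have hVp : IsPGroup p V := gam_isP hS
  have hVmax : ∀ T : Subgroup (Gam F Y B), IsPGroup p T → ∃ g : Gam F Y B, ∀ t ∈ T, g * t * g⁻¹ ∈ V := by
    intro T hT
    obtain ⟨b, hb, hbT⟩ := hD.fp.conj (T.map (Gam F Y B).subtype) (hT.map _) (by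
      rintro _ ⟨t, -, rfl⟩
      exact t.2)
    refine ⟨⟨b, hb⟩, fun t ht => ?_⟩
    exact hbT _ ⟨t, ht, rfl⟩
  have hVH : V ≤ H := by
    intro v hv
    obtain ⟨s, hs, hsx⟩ := exists_of_mem_autInducedBy hv
    show hD.res v ∈ autInducedBy S B
    refine mem_autInducedBy_of_conj hs fun z => ?_
    rw [hD.res_apply]
    exact hsx ⟨z, hBY z.2⟩
  have hRH : R ≤ H := by
    rintro _ ⟨_, ⟨z, rfl⟩, rfl⟩
    obtain ⟨-, s, hs, hsx⟩ := hZGg z.2
    show hD.res _ ∈ autInducedBy S B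
    refine mem_autInducedBy_of_conj hs fun w => ?_
    rw [hD.res_apply]
    -- set `u = k'⁻¹ w`
    let u : Y := (k' : MulAut Y)⁻¹ ⟨w, hBY w.2⟩
    have hu1 : (k' : MulAut Y) u = ⟨w, hBY w.2⟩ := by simp [u]
    have hu2 : (u : Ω) ∈ B := (k'.2.2 u).mpr (by rw [hu1]; exact w.2)
    have hu3 : k u = w := congrArg Subtype.val hu1
    have hzu : (z : Ω) * u * (z : Ω)⁻¹ ∈ B := conj_mem_of_normalizer (hZN z.2).2 hu2
    show ((k' : MulAut Y) ((cZ z : Gam F Y B).1 ((k' : MulAut Y)⁻¹ ⟨w, hBY w.2⟩)) : Ω) = _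
    have h2 : (((k' : MulAut Y) ((cZ z : Gam F Y B).1 u) : Y) : Ω) = k ((z : Ω) * u * (z : Ω)⁻¹) := rfl
    rw [show (k' : MulAut Y)⁻¹ ⟨w, hBY w.2⟩ = u from rfl, h2, hkv _ hzu, hsx _ hu2, ← hkv _ hu2, hu3]
  have hZp : IsPGroup p ↥(X ⊔ Y) := hS.to_le hZS
  have hRp : IsPGroup p R := (hZp.of_surjective cZ.rangeRestrict cZ.rangeRestrict_surjective).map _
  obtain ⟨h₀, hh₀, hh₀R⟩ := exists_conj_in_sub V H R hVp hVmax hVH hRH hRp
  obtain ⟨s, hs, hsx⟩ := exists_of_mem_autInducedBy (show hD.res h₀ ∈ autInducedBy S B from hh₀)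
  have hsN : s ∈ normalizerIn S B := ⟨hs, normalizer_of_aut hsx⟩
  let v : Gam F Y B := gamConj hBY hYS (hD.normY hsN) hsN
  have hvV : v ∈ V := mem_autInducedBy_of_conj hs fun y => rfl
  have hvres : hD.res v = hD.res h₀ := by
    apply MulEquiv.ext
    intro z
    apply Subtype.ext
    rw [hsx z, hD.res_apply]
    rfl
  let d : Gam F Y B := v⁻¹ * h₀
  have hd : hD.res d = 1 := by
    show hD.res (v⁻¹ * h₀) = 1
    rw [map_mul, map_inv, hvres]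
    simp
  have hdtriv : ∀ u : Y, (u : Ω) ∈ B → (((d : MulAut Y) u : Y) : Ω) = u := by
    intro u hu
    have h1 := hD.res_apply d ⟨u, hu⟩
    rw [hd] at h1
    exact h1.symm
  let e : Gam F Y B := d * k'
  have he : ∀ z : ↥(X ⊔ Y), e * cZ z * e⁻¹ ∈ V := by
    intro z
    have h1 : k' * cZ z * k'⁻¹ ∈ R := ⟨cZ z, ⟨z, rfl⟩, rfl⟩
    have h2 := hh₀R _ h1
    have h3 : e * cZ z * e⁻¹ = v⁻¹ * (h₀ * (k' * cZ z * k'⁻¹) * h₀⁻¹) * v := by
      show (v⁻¹ * h₀ * k') * cZ z * (v⁻¹ * h₀ * k')⁻¹ = _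
      group
    rw [h3]
    exact V.mul_mem (V.mul_mem (V.inv_mem hvV) h2) hvV
  have hIe := Iso.of_mem_autGroup (F := F) hYS e.2.1
  obtain ⟨h, hh, hhv⟩ := recept_ext hD.fp.far.recep hIe (le_sup_right : Y ≤ X ⊔ Y) (by
    intro z hz
    obtain ⟨s', hs', hsx'⟩ := exists_of_mem_autInducedBy (he ⟨z, hz⟩)
    refine Subgroup.subset_closure ⟨hZS hz, (hD.normY (hZN hz)).2, s', hs', fun y hy => ?_⟩
    have hzy : z * y * z⁻¹ ∈ Y := conj_mem_of_normalizer (hD.normY (hZN hz)).2 hy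
    rw [toFun_aut (e : MulAut Y) ⟨_, hzy⟩, toFun_aut (e : MulAut Y) ⟨y, hy⟩]
    have h1 := hsx' ((e : MulAut Y) ⟨y, hy⟩)
    have h2 : (((e * cZ ⟨z, hz⟩ * e⁻¹ : Gam F Y B) : MulAut Y) ((e : MulAut Y) ⟨y, hy⟩) : Y) =
        (e : MulAut Y) ((cZ ⟨z, hz⟩ : Gam F Y B).1 ⟨y, hy⟩) := by
      show (e : MulAut Y) ((cZ ⟨z, hz⟩ : Gam F Y B).1 ((e : MulAut Y)⁻¹ ((e : MulAut Y) ⟨y, hy⟩))) = _
      rw [MulAut.inv_apply_self]
    have h1' : (((e * cZ ⟨z, hz⟩ * e⁻¹ : Gam F Y B) : MulAut Y) ((e : MulAut Y) ⟨y, hy⟩) : Y).1 =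
        s' * ((e : MulAut Y) ⟨y, hy⟩ : Y).1 * s'⁻¹ := h1
    rw [h2] at h1'
    exact h1')
  refine ⟨h, hh, fun z hz => ?_⟩
  rw [hhv z (hBY hz), toFun_aut (e : MulAut Y) ⟨z, hBY hz⟩]
  have h1 : (k' : MulAut Y) ⟨z, hBY hz⟩ = ⟨k z, hk.maps z (hBY hz)⟩ := rfl
  show (((d : MulAut Y) ((k' : MulAut Y) ⟨z, hBY hz⟩) : Y) : Ω) = _
  rw [h1, hdtriv _ (hkB.maps z hz)]
  exact hkv z hz

/-- **The final stage.** -/
theorem FinalData.far (hS : IsPGroup p S) : Far F p B := by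
  have hYS := hD.fp.far.le
  have hBY := hD.fp.le
  have hBS := hBY.trans hYS
  have hBN := le_normalizerIn hBS
  refine ⟨fullyAutomized_of_conj hS hBS fun R hRA hRp => hD.conj_into hS hRA hRp, hBS, fun P' φ₀ hφ₀ hrange => ?_⟩
  have hu : Iso F P' B (toFun φ₀) := by
    refine ⟨mp_of_mem hφ₀, fun x hx => ?_, fun y hy => ?_⟩
    · rw [toFun_coe φ₀ ⟨x, hx⟩, ← hrange]
      exact ⟨⟨x, hx⟩, rfl⟩
    · rw [← hrange] at hy
      obtain ⟨x, rfl⟩ := hy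
      exact ⟨x, x.2, toFun_coe φ₀ x⟩
  set a₀ := toFun φ₀ with ha₀
  have hP'S := hu.mp.le
  have hP'N := le_normalizerIn hP'S
  obtain ⟨ω, hω, hωI⟩ := hD.top P' (isConj_iff.mpr ⟨_, (hu.inv.choose_spec.1)⟩)
  obtain ⟨ω', hω', l, r⟩ := hωI.inv
  have ha : Iso F B B (a₀ ∘ ω') := hω'.comp hu
  -- the extender
  have hE : ∀ x ∈ extender S P' φ₀, x ∈ normalizerIn S P' ∧ ∃ s ∈ S, ∀ y ∈ P', a₀ (x * y * x⁻¹) = s * a₀ y * s⁻¹ := by
    intro x hx
    induction hx using Subgroup.closure_induction with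
    | mem g hg =>
      obtain ⟨hgS, hgN, s, hs, hsx⟩ := hg
      refine ⟨⟨hgS, hgN⟩, s, hs, fun y hy => ?_⟩
      have h1 : g * y * g⁻¹ ∈ P' := conj_mem_of_normalizer hgN hy
      rw [ha₀, toFun_coe φ₀ ⟨_, h1⟩, toFun_coe φ₀ ⟨y, hy⟩]
      exact hsx ⟨y, hy⟩ h1
    | one =>
      exact ⟨Subgroup.one_mem _, 1, S.one_mem, fun y _ => by simp⟩
    | mul a b _ _ iha ihb =>
      obtain ⟨h1, s₁, hs₁, hr₁⟩ := iha
      obtain ⟨h2, s₂, hs₂, hr₂⟩ := ihb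
      refine ⟨Subgroup.mul_mem _ h1 h2, s₁ * s₂, S.mul_mem hs₁ hs₂, fun y hy => ?_⟩
      have h3 : b * y * b⁻¹ ∈ P' := conj_mem_of_normalizer h2.2 hy
      have h4 : a * b * y * (a * b)⁻¹ = a * (b * y * b⁻¹) * a⁻¹ := by group
      rw [h4, hr₁ _ h3, hr₂ _ hy]
      group
    | inv z _ ihz =>
      obtain ⟨h1, s, hs, hr⟩ := ihz
      refine ⟨Subgroup.inv_mem _ h1, s⁻¹, S.inv_mem hs, fun w hw => ?_⟩
      have h3 : z⁻¹ * w * z ∈ P' := conj_inv_mem_of_normalizer h1.2 hw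
      have h4 := hr _ h3
      have h5 : z * (z⁻¹ * w * z) * z⁻¹ = w := by group
      rw [h5] at h4
      rw [h4]
      simp only [inv_inv]
      have h6 : z⁻¹ * (s * a₀ (z⁻¹ * w * z) * s⁻¹) = z⁻¹ * a₀ w := by rw [h4]
      group
  have hEN : extender S P' φ₀ ≤ normalizerIn S P' := fun x hx => (hE x hx).1
  have hm := hω.restrict hEN
  have hXN : hm.img ≤ normalizerIn S B := by
    intro y hy
    obtain ⟨x, hx, rfl⟩ := hm.mem_img.mp hy
    exact maps_normalizer hω hωI hP'N normalizerIn_le_normalizer (hEN hx)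
  obtain ⟨h, hh, hhv⟩ := hD.rec_aut hS ha hXN (by
    intro y hy
    obtain ⟨x, hx, rfl⟩ := hm.mem_img.mp hy
    obtain ⟨-, s, hs, hr⟩ := hE x hx
    refine ⟨s, hs, fun z hz => ?_⟩
    have hz' := hω'.maps z hz
    have hxN := hEN hx
    have h1 : ω x * z * (ω x)⁻¹ = ω (x * ω' z * x⁻¹) := by
      rw [hω.map_mul (Subgroup.mul_mem _ hxN (hP'N hz')) (Subgroup.inv_mem _ hxN), hω.map_mul hxN (hP'N hz'),
        hω.map_inv hxN, r z hz]
    have h2 : x * ω' z * x⁻¹ ∈ P' := conj_mem_of_normalizer hxN.2 hz'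
    simp only [Function.comp]
    rw [h1, l _ h2, hr _ hz'])
  have hhm : Mp F hm.img h := hh.restrict le_sup_left
  have hfinal : Mp F (extender S P' φ₀) (h ∘ ω) :=
    hm.comp (fun x hx => hm.mem_img.mpr ⟨x, hx, rfl⟩) hhm
  obtain ⟨ψ, hψ, hψv⟩ := hfinal
  refine ⟨ψ, hψ, fun x hP hN => ?_⟩
  rw [hψv ⟨x, hN⟩]
  simp only [Function.comp]
  rw [hhv _ (hωI.maps x hP)]
  simp only [Function.comp]
  rw [l x hP, ha₀, toFun_coe φ₀ ⟨x, hP⟩]

end Res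

end Cfsg.Agent.H24.SatC
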