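import Cfsg.Agent.Lib.H24.SatCH
import Cfsg.Agent.Lib.H01.Fitting

/-!
The saturation criterion (Broto, Castellana, Grodal, Levi, Oliver).
-/

set_option autoImplicit false

namespace Cfsg.Agent.H24.SatC

open Cfsg Cfsg.FusionSystem Cfsg.Agent.H25

variable {Ω : Type*} [Group Ω] {S : Subgroup Ω} {F : FusionSystem S}
variable {P P₀ Q Q' Q'' R K X Y A B C W T T' U V : Subgroup Ω} {f g h θ β φ φ' : Ω → Ω} {p : ℕ}

variable [Finite S] [Fact p.Prime]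

/-- From the top member with all automorphisms extending to `M`, a far member of the class. -/
theorem far_of_top {O : Subgroup (MulAut P₀)} (hS : IsPGroup p S) (hO : OData F p P₀ O) (hP₀ : P₀ ≤ S)
    (hg : GoodAbove F p (Nat.card P₀)) (hTop : ∀ B, F.IsConj P₀ B → Up F B P₀)
    (hMne : ¬ Mof S P₀ O ≤ P₀)
    (hK : ∀ {a : Ω → Ω}, Iso F P₀ P₀ a → ∃ k, Iso F (Mof S P₀ O) (Mof S P₀ O) k ∧ ∀ x ∈ P₀, k x = a x) :
    ∃ B ψ, Far F p B ∧ Iso F P₀ B ψ := by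
  have hP₀M := hO.le_M hP₀
  have hN₀S : normalizerIn S P₀ ≤ S := normalizerIn_le
  have hMS : Mof S P₀ O ≤ S := Mof_le.trans hN₀S
  haveI : Finite (Mof S P₀ O) := finite_of_le hMS
  have hlt : P₀ < Mof S P₀ O := lt_of_le_of_ne hP₀M (fun e => hMne e.ge)
  obtain ⟨Y, B, ψ, hFP, hψM, hψP⟩ := exists_farPair hg hMS (card_lt hlt) hP₀M
  obtain ⟨β, ψh, -, -, hh, -, hI, hJ⟩ := pair_ext' hS hFP hψM hψP hP₀M hN₀S Mof_le
    (fun g hg => normalizer_M hO hP₀ hg) normalizerIn_le_normalizer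
  have hP₀B : F.IsConj P₀ B := isConj_iff.mpr ⟨ψh, hJ⟩
  obtain ⟨φ, hφm, hφI⟩ := hTop B hP₀B
  have hP₀N := le_normalizerIn hP₀
  have hYS := hFP.far.le
  have hBY := hFP.le
  have hBS := hBY.trans hYS
  have hBN := le_normalizerIn hBS
  have hmaps : ∀ x ∈ normalizerIn S P₀, ψh x ∈ normalizerIn S B := fun x hx =>
    maps_normalizer hh hJ hP₀N normalizerIn_le_normalizer hx
  have hmaps' : ∀ x ∈ normalizerIn S B, φ x ∈ normalizerIn S P₀ := fun x hx =>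
    maps_normalizer hφm hφI hBN normalizerIn_le_normalizer hx
  haveI : Finite (normalizerIn S P₀) := finite_of_le hN₀S
  haveI : Finite (normalizerIn S B) := finite_of_le normalizerIn_le
  let m : normalizerIn S P₀ → normalizerIn S B := fun x => ⟨ψh x, hmaps x x.2⟩
  have hm : Function.Injective m := fun x y hxy => Subtype.ext (hh.inj x.2 y.2 (congrArg Subtype.val hxy))
  let m' : normalizerIn S B → normalizerIn S P₀ := fun x => ⟨φ x, hmaps' x x.2⟩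
  have hm' : Function.Injective m' := fun x y hxy => Subtype.ext (hφm.inj x.2 y.2 (congrArg Subtype.val hxy))
  have hb := (Nat.bijective_iff_injective_and_card m).mpr
    ⟨hm, le_antisymm (Nat.card_le_card_of_injective m hm) (Nat.card_le_card_of_injective m' hm')⟩
  have hIN : Iso F (normalizerIn S P₀) (normalizerIn S B) ψh := ⟨hh, hmaps, fun y hy => by
    obtain ⟨x, hx⟩ := hb.2 ⟨y, hy⟩
    exact ⟨x, x.2, congrArg Subtype.val hx⟩⟩
  obtain ⟨ψb, hψb, l, r⟩ := hIN.inv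
  have hMN : Mof S P₀ O ≤ normalizerIn S P₀ := Mof_le
  have hYN : Y ≤ normalizerIn S B := by
    intro y hy
    obtain ⟨x, hx, rfl⟩ := hI.surj y hy
    exact hmaps x (hMN hx)
  have hJ' : Iso F B P₀ ψb := iso_inv_restrict hJ hψb.mp hBN (fun z hz => l z (hP₀N hz))
  have hY' : Iso F Y (Mof S P₀ O) ψb := iso_inv_restrict hI hψb.mp hYN (fun z hz => l z (hMN hz))
  have hD : FinalData F p Y B := by
    refine ⟨hFP, hYN, ?_, ?_, ?_⟩
    · intro s hs y hy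
      obtain ⟨s₀, hs₀, rfl⟩ := hIN.surj s hs
      obtain ⟨x, hx, rfl⟩ := hI.surj y hy
      have h1 := hMN hx
      rw [← hh.map_inv hs₀, ← hh.map_mul hs₀ h1, ← hh.map_mul (Subgroup.mul_mem _ hs₀ h1) (Subgroup.inv_mem _ hs₀)]
      exact hI.maps _ (hO.M_norm hP₀ hx hs₀)
    · intro a ha
      obtain ⟨k', hk', hk'v⟩ := hK ((hJ.comp ha).comp hJ')
      refine ⟨_, (hY'.comp hk').comp hI, fun x hx => ?_⟩
      have hx' := hJ'.maps x hx
      simp only [Function.comp]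
      rw [hk'v _ hx']
      simp only [Function.comp]
      rw [r _ (hBN hx), r _ (hBN (ha.maps x hx))]
    · intro Q hQ
      exact (hTop Q (isConj_trans hP₀B hQ)).trans ⟨ψh, hh, hJ⟩
  exact ⟨B, ψh, hD.far hS, hJ⟩

/-- The subgroup `O_p(Aut_F(P₀))` inside `Aut(P₀)`. -/
noncomputable def Opc (F : FusionSystem S) (p : ℕ) (P₀ : Subgroup Ω) : Subgroup (MulAut P₀) :=
  (Cfsg.pCore p ↥(F.autGroup P₀)).map (F.autGroup P₀).subtype

theorem odata_pCore (hS : IsPGroup p S) (hP₀ : P₀ ≤ S) : OData F p P₀ (Opc F p P₀) := by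
  refine ⟨?_, ?_, (Cfsg.Agent.H01.pCore_isPGroup p).map _, ?_⟩
  · rintro _ ⟨x, -, rfl⟩
    exact x.2
  · rintro a ha _ ⟨x, hx, rfl⟩
    have hn : (Cfsg.pCore p ↥(F.autGroup P₀)).Normal := Cfsg.Agent.H01.pCore_normal p
    let a' : F.autGroup P₀ := ⟨a, ha⟩
    have h1 : a' * x * a'⁻¹ ∈ Cfsg.pCore p ↥(F.autGroup P₀) := hn.conj_mem x hx a'
    exact Subgroup.mem_map.mpr ⟨_, h1, rfl⟩
  · intro x hx α hα
    have hαA : α ∈ F.autGroup P₀ := conj_mem_autGroup hP₀ (hP₀ hx) hα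
    have hαI : α ∈ Inn ↥P₀ := ⟨⟨x, hx⟩, MulEquiv.ext fun y => Subtype.ext (hα y).symm⟩
    have hP₀p : IsPGroup p P₀ := hS.to_le hP₀
    have hInnp : IsPGroup p ↥(Inn ↥P₀) := hP₀p.of_surjective
      (MulAut.conj : P₀ →* MulAut P₀).rangeRestrict (MonoidHom.rangeRestrict_surjective _)
    have hle : (Inn ↥P₀).subgroupOf (F.autGroup P₀) ≤ Cfsg.pCore p ↥(F.autGroup P₀) :=
      Cfsg.Agent.H01.le_pCore (Subgroup.Normal.subgroupOf (innNormal ↥P₀) _)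
        (hInnp.comap_of_injective _ (Subgroup.subtype_injective _))
    exact ⟨⟨α, hαA⟩, hle hαI, rfl⟩

theorem M_not_le {ℋ : Set (Subgroup Ω)} (hS : IsPGroup p S) (hP₀ : P₀ ≤ S)
    (hTop : ∀ Q, F.IsConj P₀ Q → Up F Q P₀) (hnot : P₀ ∉ ℋ)
    (hstar : ∀ P : Subgroup Ω, F.IsCentric P → P ∉ ℋ → ∃ Q, F.IsConj P Q ∧
      ¬ (autInducedBy S Q ⊓ (Cfsg.pCore p ↥(F.autGroup Q)).map (F.autGroup Q).subtype ≤ Inn Q)) :
    ¬ Mof S P₀ (Opc F p P₀) ≤ P₀ := by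
  intro hle
  have hP₀N := le_normalizerIn hP₀
  by_cases hc : F.IsCentric P₀
  · obtain ⟨Q, hQ, hn⟩ := hstar P₀ hc hnot
    obtain ⟨α, ⟨hα₁, y, hy, rfl⟩, hα₃⟩ := SetLike.not_le_iff_exists.mp hn
    obtain ⟨x, hxS, hαx⟩ := exists_of_mem_autInducedBy hα₁
    have hxN : x ∈ normalizerIn S Q := ⟨hxS, normalizer_of_aut hαx⟩
    obtain ⟨ω, hω, hωI⟩ := hTop Q hQ
    obtain ⟨ω', hω', l, r⟩ := hωI.inv
    have hQS := hωI.mp.le
    have hQN := le_normalizerIn hQS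
    have hx : x ∉ Q := fun hx => hα₃ ⟨⟨x, hx⟩, MulEquiv.ext fun z => Subtype.ext (hαx z).symm⟩
    let Φ := autTransport hQS hωI hω' l
    have hΦs := autTransport_surjective hQS hωI hω' l r
    have hΦy : Φ y ∈ Cfsg.pCore p ↥(F.autGroup P₀) :=
      Cfsg.Agent.H01.le_pCore (Subgroup.Normal.map (Cfsg.Agent.H01.pCore_normal p) Φ hΦs)
        ((Cfsg.Agent.H01.pCore_isPGroup p).map _) ⟨y, hy, rfl⟩
    have hmem : ω x ∈ Mof S P₀ (Opc F p P₀) := by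
      refine ⟨maps_normalizer hω hωI hQN normalizerIn_le_normalizer hxN, (Φ y : MulAut P₀), ⟨Φ y, hΦy, rfl⟩, fun z => ?_⟩
      have h1 := autTransport_apply hQS hωI hω' l y z
      have h2 := hαx ⟨ω' z, hω'.maps z z.2⟩
      have hz' := hω'.maps z z.2
      have h3 : (((y : MulAut Q) ⟨ω' z, hz'⟩ : Q) : Ω) = x * ω' z * x⁻¹ := h2
      rw [h1, h3, hω.map_mul (Subgroup.mul_mem _ hxN (hQN hz')) (Subgroup.inv_mem _ hxN), hω.map_mul hxN (hQN hz'),
        hω.map_inv hxN, r z z.2]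
    obtain ⟨t, ht, hte⟩ := hωI.surj _ (hle hmem)
    exact hx (hω.inj (hQN ht) hxN hte ▸ ht)
  · have : ∃ Q, F.IsConj P₀ Q ∧ ¬ centralizerIn S Q ≤ Q := by
      by_contra hcon
      push Not at hcon
      exact hc ⟨hP₀, hcon⟩
    obtain ⟨Q, hQ, hn⟩ := this
    obtain ⟨c, hcC, hcQ⟩ := SetLike.not_le_iff_exists.mp hn
    obtain ⟨ω, hω, hωI⟩ := hTop Q hQ
    have hQS := hωI.mp.le
    have hQN := le_normalizerIn hQS
    have hcN := centralizerIn_le_normalizerIn hcC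
    have hcC' : c ∈ Subgroup.centralizer (Q : Set Ω) := hcC.2
    have h1 := maps_centralizer hω hωI hQN hcN hcC'
    have hmem : ω c ∈ Mof S P₀ (Opc F p P₀) := by
      refine ⟨centralizerIn_le_normalizerIn h1, 1, Subgroup.one_mem _, fun z => ?_⟩
      have h2 := (mem_centralizerIn.mp h1).2 z z.2
      show (z : Ω) = _
      rw [← h2]
      group
    obtain ⟨t, ht, hte⟩ := hωI.surj _ (hle hmem)
    exact hcQ (hω.inj (hQN ht) hcN hte ▸ ht)

/-- **The saturation criterion.** -/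
theorem sat_criterion (hS : IsPGroup p S) (ℋ : Set (Subgroup Ω)) (hℋS : ∀ P ∈ ℋ, P ≤ S)
    (hℋconj : ∀ P ∈ ℋ, ∀ Q, F.IsConj P Q → Q ∈ ℋ)
    (hsat : ∀ P ∈ ℋ, ∃ Q, F.IsConj P Q ∧ F.IsFullyAutomized p Q ∧ F.IsReceptive Q)
    (hgen : ∀ E : FusionSystem S, (∀ P ∈ ℋ, F.Hom P ⊆ E.Hom P) → F ≤ E)
    (hstar : ∀ P : Subgroup Ω, F.IsCentric P → P ∉ ℋ → ∃ Q, F.IsConj P Q ∧
      ¬ (autInducedBy S Q ⊓ (Cfsg.pCore p ↥(F.autGroup Q)).map (F.autGroup Q).subtype ≤ Inn Q)) :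
    F.IsSaturated p := by
  -- `S` is in the family
  have hconjS : ∀ {Q}, F.IsConj S Q → Q = S := by
    intro Q hQ
    obtain ⟨f, hf⟩ := isConj_iff.mp hQ
    have hle := Iso.target_le hf
    refine Subgroup.eq_of_le_of_card_ge hle ?_
    rw [Iso.card_eq' hf]
  have hSℋ : S ∈ ℋ := by
    by_contra hn
    have hcS : F.IsCentric S := ⟨le_rfl, fun Q hQ => by
      rw [hconjS hQ]
      exact inf_le_left⟩
    obtain ⟨Q, hQ, hne⟩ := hstar S hcS hn
    obtain rfl := hconjS hQ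
    obtain ⟨α, ⟨hα₁, -⟩, hα₃⟩ := SetLike.not_le_iff_exists.mp hne
    obtain ⟨x, hxS, hαx⟩ := exists_of_mem_autInducedBy hα₁
    exact hα₃ ⟨⟨x, hxS⟩, MulEquiv.ext fun z => Subtype.ext (hαx z).symm⟩
  have key : ∀ c, ∀ X, X ≤ S → Nat.card S - Nat.card X = c → ∃ Y f, Far F p Y ∧ Iso F X Y f := by
    intro c
    induction c using Nat.strong_induction_on with
    | _ c ih =>
      intro X hXS hc
      have hcardX : Nat.card X ≤ Nat.card S := card_le hXS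
      have hg : GoodAbove F p (Nat.card X) := fun X' hX' hlt => by
        have hcardX' : Nat.card X' ≤ Nat.card S := card_le hX'
        exact ih (Nat.card S - Nat.card X') (by omega) X' hX' rfl
      by_cases hX : X ∈ ℋ
      · obtain ⟨Q, hQ, h1, h2⟩ := hsat X hX
        obtain ⟨f, hf⟩ := isConj_iff.mp hQ
        exact ⟨Q, f, ⟨h1, h2⟩, hf⟩
      · have hnotH : ∀ Q, F.IsConj X Q → Q ∉ ℋ := fun Q hQ hQℋ => hX (hℋconj Q hQℋ X (isConj_symm hQ))
        have hneS : ∀ Q, F.IsConj X Q → Q ≠ S := fun Q hQ e => hnotH Q hQ (e ▸ hSℋ)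
        obtain ⟨P₀, hP₀, hup⟩ := top_exists hS hXS hℋS hgen hnotH hneS hg
        obtain ⟨f, hf⟩ := isConj_iff.mp hP₀
        have hP₀S := Iso.target_le hf
        have hnotH₀ : ∀ Q, F.IsConj P₀ Q → Q ∉ ℋ := fun Q hQ => hnotH Q (isConj_trans hP₀ hQ)
        have hneS₀ : ∀ Q, F.IsConj P₀ Q → Q ≠ S := fun Q hQ => hneS Q (isConj_trans hP₀ hQ)
        have hg₀ : GoodAbove F p (Nat.card P₀) := by
          rw [← Iso.card_eq' hf]
          exact hg
        have hTop₀ : ∀ Q, F.IsConj P₀ Q → Up F Q P₀ := fun Q hQ => hup Q (isConj_trans hP₀ hQ)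
        have hO := odata_pCore (F := F) hS hP₀S
        have hMne := M_not_le hS hP₀S hTop₀ (hnotH₀ P₀ (isConj_refl hP₀S)) hstar
        obtain ⟨B, ψ, hB, hψ⟩ := far_of_top hS hO hP₀S hg₀ hTop₀ hMne
          (fun ha => kext hS hO hP₀S hℋS hgen hnotH₀ hneS₀ hg₀ hTop₀ ha)
        exact ⟨B, ψ ∘ f, hB, hf.comp hψ⟩
  intro P hP
  obtain ⟨Y, f, hY, hf⟩ := key _ P hP rfl
  exact ⟨Y, isConj_iff.mpr ⟨f, hf⟩, hY.auto, hY.recep⟩

end Cfsg.Agent.H24.SatC
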