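import Cfsg.Agent.Lib.H24.RootSub
import Cfsg.Agent.Lib.H29.RootSL

/-!
Siegel transvections of the hyperbolic quadratic space: forms, elements, membership.
-/

set_option autoImplicit false

namespace Cfsg.Agent.H24.Sg

open Matrix Cfsg.Agent.H29.RootSL

variable {F : Type*} [Field F] {n : ℕ}

local notation "Q" => Cfsg.quadFormPlus n F

/-- The polar form. -/
def B (u v : Fin n ⊕ Fin n → F) : F := ∑ i, (u (.inl i) * v (.inr i) + v (.inl i) * u (.inr i))

theorem Q_add (u v : Fin n ⊕ Fin n → F) : Q (u + v) = Q u + Q v + B u v := by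
  simp only [Cfsg.quadFormPlus, B, Pi.add_apply, ← Finset.sum_add_distrib]
  exact Finset.sum_congr rfl fun i _ => by ring

theorem polar (u v : Fin n ⊕ Fin n → F) : Q (u + v) - Q u - Q v = B u v := by
  rw [Q_add]
  ring

theorem Q_smul (a : F) (v : Fin n ⊕ Fin n → F) : Q (a • v) = a ^ 2 * Q v := by
  simp only [Cfsg.quadFormPlus, Pi.smul_apply, smul_eq_mul, Finset.mul_sum]
  exact Finset.sum_congr rfl fun i _ => by ring

theorem B_comm (u v : Fin n ⊕ Fin n → F) : B u v = B v u := by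
  simp only [B]
  exact Finset.sum_congr rfl fun i _ => by ring

theorem B_add_left (u v w : Fin n ⊕ Fin n → F) : B (u + v) w = B u w + B v w := by
  simp only [B, Pi.add_apply, ← Finset.sum_add_distrib]
  exact Finset.sum_congr rfl fun i _ => by ring

theorem B_add_right (u v w : Fin n ⊕ Fin n → F) : B w (u + v) = B w u + B w v := by
  rw [B_comm, B_add_left, B_comm u, B_comm v]

theorem B_smul_left (a : F) (u w : Fin n ⊕ Fin n → F) : B (a • u) w = a * B u w := by
  simp only [B, Pi.smul_apply, smul_eq_mul, Finset.mul_sum]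
  exact Finset.sum_congr rfl fun i _ => by ring

theorem B_smul_right (a : F) (u w : Fin n ⊕ Fin n → F) : B w (a • u) = a * B w u := by
  rw [B_comm, B_smul_left, B_comm u]

theorem B_neg_left (u w : Fin n ⊕ Fin n → F) : B (-u) w = - B u w := by
  have := B_smul_left (-1 : F) u w
  simpa using this

theorem B_neg_right (u w : Fin n ⊕ Fin n → F) : B w (-u) = - B w u := by
  rw [B_comm, B_neg_left, B_comm]

theorem B_sub_left (u v w : Fin n ⊕ Fin n → F) : B (u - v) w = B u w - B v w := by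
  rw [sub_eq_add_neg, B_add_left, B_neg_left]
  ring

theorem B_sub_right (u v w : Fin n ⊕ Fin n → F) : B w (u - v) = B w u - B w v := by
  rw [sub_eq_add_neg, B_add_right, B_neg_right]
  ring

theorem B_self (v : Fin n ⊕ Fin n → F) : B v v = 2 * Q v := by
  simp only [B, Cfsg.quadFormPlus, Finset.mul_sum]
  exact Finset.sum_congr rfl fun i _ => by ring

@[simp] theorem B_zero_left (w : Fin n ⊕ Fin n → F) : B 0 w = 0 := by simp [B]

@[simp] theorem B_zero_right (w : Fin n ⊕ Fin n → F) : B w 0 = 0 := by simp [B]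

/-- The vector representing `B · r`. -/
def dv (r : Fin n ⊕ Fin n → F) : Fin n ⊕ Fin n → F := Sum.elim (fun i => r (.inr i)) (fun i => r (.inl i))

theorem dv_dot (r v : Fin n ⊕ Fin n → F) : dv r ⬝ᵥ v = B v r := by
  simp only [dotProduct, dv, Fintype.sum_sum_type, Sum.elim_inl, Sum.elim_inr, B, ← Finset.sum_add_distrib]
  exact Finset.sum_congr rfl fun i _ => by ring

theorem dv_ne {v : Fin n ⊕ Fin n → F} (hv : v ≠ 0) : dv v ≠ 0 := by
  intro h
  apply hv
  funext j
  cases j with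
  | inl i =>
    have := congrFun h (.inr i)
    simpa [dv] using this
  | inr i =>
    have := congrFun h (.inl i)
    simpa [dv] using this

theorem exists_B_one {v : Fin n ⊕ Fin n → F} (hv : v ≠ 0) : ∃ w, B w v = 1 := by
  classical
  obtain ⟨j, hj⟩ := Function.ne_iff.1 (dv_ne hv)
  refine ⟨(dv v j)⁻¹ • Pi.single j 1, ?_⟩
  rw [B_smul_left, ← dv_dot, dotProduct_single_one, inv_mul_cancel₀ hj]

theorem eq_zero_of_B {z : Fin n ⊕ Fin n → F} (h : ∀ v, B v z = 0) : z = 0 := by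
  by_contra hz
  obtain ⟨w, hw⟩ := exists_B_one hz
  rw [h w] at hw
  exact zero_ne_one hw

/-- Singular pairs. -/
structure Sing (p r : Fin n ⊕ Fin n → F) : Prop where
  hp : Q p = 0
  hr : Q r = 0
  hpr : B p r = 0

theorem Sing.pp {p r : Fin n ⊕ Fin n → F} (h : Sing p r) : B p p = 0 := by rw [B_self, h.hp, mul_zero]

theorem Sing.rr {p r : Fin n ⊕ Fin n → F} (h : Sing p r) : B r r = 0 := by rw [B_self, h.hr, mul_zero]

theorem Sing.rp {p r : Fin n ⊕ Fin n → F} (h : Sing p r) : B r p = 0 := by rw [B_comm, h.hpr]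

theorem Sing.symm {p r : Fin n ⊕ Fin n → F} (h : Sing p r) : Sing r p := ⟨h.hr, h.hp, h.rp⟩

theorem Q_lin {p r : Fin n ⊕ Fin n → F} (h : Sing p r) (u : Fin n ⊕ Fin n → F) (a b : F) :
    Q (u + a • p + b • r) = Q u + a * B u p + b * B u r := by
  simp only [add_assoc, Q_add, Q_smul, h.hp, h.hr, B_add_right, B_smul_left, B_smul_right, h.hpr]
  ring

/-- A singular line with a basis. -/
structure Ln (p r : Fin n ⊕ Fin n → F) : Prop extends Sing p r where
  ind : ∀ a b : F, a • p + b • r = 0 → a = 0 ∧ b = 0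

theorem Ln.p_ne {p r : Fin n ⊕ Fin n → F} (h : Ln p r) : p ≠ 0 := by
  intro h0
  have := (h.ind 1 0 (by simp [h0])).1
  exact one_ne_zero this

theorem Ln.r_ne {p r : Fin n ⊕ Fin n → F} (h : Ln p r) : r ≠ 0 := by
  intro h0
  have := (h.ind 0 1 (by simp [h0])).2
  exact one_ne_zero this

theorem exists_dual {p r : Fin n ⊕ Fin n → F} (h : ∀ a b : F, a • p + b • r = 0 → a = 0 ∧ b = 0) :
    ∃ u, B u p = 0 ∧ B u r = 1 := by
  have hp : p ≠ 0 := by
    intro h0
    exact one_ne_zero (h 1 0 (by simp [h0])).1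
  obtain ⟨w₁, h1⟩ := exists_B_one hp
  have hr' : r - B w₁ r • p ≠ 0 := by
    intro h0
    have : (-(B w₁ r)) • p + (1 : F) • r = 0 := by
      rw [← h0]
      module
    exact one_ne_zero (h _ _ this).2
  obtain ⟨w₂, h2⟩ := exists_B_one hr'
  have h3 : B w₁ (r - B w₁ r • p) = 0 := by
    rw [B_sub_right, B_smul_right, h1]
    ring
  have h4 : B (w₂ - B w₂ p • w₁) p = 0 := by
    rw [B_sub_left, B_smul_left, h1]
    ring
  have h5 : B (w₂ - B w₂ p • w₁) (r - B w₁ r • p) = 1 := by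
    rw [B_sub_left, B_smul_left, h3, h2]
    ring
  refine ⟨w₂ - B w₂ p • w₁, h4, ?_⟩
  rw [B_sub_right, B_smul_right, h4] at h5
  rw [← h5]
  ring

/-- The matrix of a Siegel transvection. -/
def sm (p r : Fin n ⊕ Fin n → F) (c : F) : Matrix (Fin n ⊕ Fin n) (Fin n ⊕ Fin n) F :=
  1 + c • (vecMulVec p (dv r) - vecMulVec r (dv p))

theorem vmv (p d v : Fin n ⊕ Fin n → F) : vecMulVec p d *ᵥ v = (d ⬝ᵥ v) • p := by
  rw [vecMulVec_mulVec]
  ext i
  simp [mul_comm]

theorem sm_mulVec (p r : Fin n ⊕ Fin n → F) (c : F) (v : Fin n ⊕ Fin n → F) :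
    sm p r c *ᵥ v = v + c • (B v r • p - B v p • r) := by
  unfold sm
  rw [add_mulVec, one_mulVec, smul_mulVec, sub_mulVec, vmv, vmv, dv_dot, dv_dot]

theorem mat_ext {M N : Matrix (Fin n ⊕ Fin n) (Fin n ⊕ Fin n) F} (h : ∀ x, M *ᵥ x = N *ᵥ x) : M = N := by
  classical
  ext i j
  have := congrFun (h (Pi.single j 1)) i
  simpa using this

theorem sm_mul {p r : Fin n ⊕ Fin n → F} (h : Sing p r) (c d : F) : sm p r c * sm p r d = sm p r (c + d) := by
  apply mat_ext
  intro v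
  rw [← mulVec_mulVec, sm_mulVec, sm_mulVec, sm_mulVec]
  simp only [B_add_left, B_smul_left, B_sub_left, h.pp, h.rr, h.hpr, h.rp, mul_zero, sub_zero, add_zero]
  module

theorem sm_zero (p r : Fin n ⊕ Fin n → F) : sm p r 0 = 1 := by
  simp [sm]

theorem Q_sm {p r : Fin n ⊕ Fin n → F} (h : Sing p r) (c : F) (v : Fin n ⊕ Fin n → F) :
    Q (sm p r c *ᵥ v) = Q v := by
  rw [sm_mulVec]
  have e : v + c • (B v r • p - B v p • r) = v + (c * B v r) • p + (-(c * B v p)) • r := by module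
  rw [e, Q_lin h]
  ring

/-- The Siegel transvection, as an isometry. -/
def X {p r : Fin n ⊕ Fin n → F} (h : Sing p r) (c : F) : Cfsg.isometryGroup F (Cfsg.quadFormPlus n F) :=
  ⟨⟨sm p r c, sm p r (-c), by rw [sm_mul h, add_neg_cancel, sm_zero], by rw [sm_mul h, neg_add_cancel, sm_zero]⟩,
    fun u _ => Q_sm h c u⟩

/-- The action on vectors. -/
def act (g : Cfsg.isometryGroup F (Cfsg.quadFormPlus n F)) (v : Fin n ⊕ Fin n → F) : Fin n ⊕ Fin n → F :=
  ((g : Matrix.GeneralLinearGroup (Fin n ⊕ Fin n) F) : Matrix (Fin n ⊕ Fin n) (Fin n ⊕ Fin n) F) *ᵥ v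

theorem act_X {p r : Fin n ⊕ Fin n → F} (h : Sing p r) (c : F) (v : Fin n ⊕ Fin n → F) :
    act (X h c) v = v + c • (B v r • p - B v p • r) := sm_mulVec p r c v

theorem act_mul (g h : Cfsg.isometryGroup F (Cfsg.quadFormPlus n F)) (v : Fin n ⊕ Fin n → F) :
    act (g * h) v = act g (act h v) := by
  simp only [act, Matrix.mulVec_mulVec]
  rfl

theorem act_one (v : Fin n ⊕ Fin n → F) : act (1 : Cfsg.isometryGroup F (Cfsg.quadFormPlus n F)) v = v :=
  Matrix.one_mulVec v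

theorem act_add (g : Cfsg.isometryGroup F (Cfsg.quadFormPlus n F)) (x y : Fin n ⊕ Fin n → F) :
    act g (x + y) = act g x + act g y := Matrix.mulVec_add _ _ _

theorem act_smul (g : Cfsg.isometryGroup F (Cfsg.quadFormPlus n F)) (a : F) (x : Fin n ⊕ Fin n → F) :
    act g (a • x) = a • act g x := Matrix.mulVec_smul _ _ _

theorem act_zero (g : Cfsg.isometryGroup F (Cfsg.quadFormPlus n F)) : act g 0 = 0 := Matrix.mulVec_zero _

theorem act_sub (g : Cfsg.isometryGroup F (Cfsg.quadFormPlus n F)) (x y : Fin n ⊕ Fin n → F) :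
    act g (x - y) = act g x - act g y := Matrix.mulVec_sub _ _ _

theorem act_Q (g : Cfsg.isometryGroup F (Cfsg.quadFormPlus n F)) (v : Fin n ⊕ Fin n → F) : Q (act g v) = Q v :=
  g.2 v v

theorem act_B (g : Cfsg.isometryGroup F (Cfsg.quadFormPlus n F)) (x y : Fin n ⊕ Fin n → F) :
    B (act g x) (act g y) = B x y := by
  rw [← polar, ← polar, ← act_add, act_Q, act_Q, act_Q]

theorem act_inv_act (g : Cfsg.isometryGroup F (Cfsg.quadFormPlus n F)) (v : Fin n ⊕ Fin n → F) :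
    act g⁻¹ (act g v) = v := by
  rw [← act_mul, inv_mul_cancel, act_one]

theorem act_act_inv (g : Cfsg.isometryGroup F (Cfsg.quadFormPlus n F)) (v : Fin n ⊕ Fin n → F) :
    act g (act g⁻¹ v) = v := by
  rw [← act_mul, mul_inv_cancel, act_one]

theorem iso_ext {g h : Cfsg.isometryGroup F (Cfsg.quadFormPlus n F)} (H : ∀ v, act g v = act h v) : g = h :=
  Subtype.ext (Units.ext (mat_ext H))

theorem X_zero {p r : Fin n ⊕ Fin n → F} (h : Sing p r) : X h 0 = 1 :=
  iso_ext fun v => by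
    rw [act_X, act_one]
    simp

theorem X_mul {p r : Fin n ⊕ Fin n → F} (h : Sing p r) (c d : F) : X h c * X h d = X h (c + d) :=
  Subtype.ext (Units.ext (sm_mul h c d))

theorem X_inv {p r : Fin n ⊕ Fin n → F} (h : Sing p r) (c : F) : (X h c)⁻¹ = X h (-c) := by
  apply inv_eq_of_mul_eq_one_right
  rw [X_mul, add_neg_cancel, X_zero]

/-- The group of Siegel transvections of the line `⟨p, r⟩`. -/
def TT (F : Type*) [Field F] (n : ℕ) (p r : Fin n ⊕ Fin n → F) :
    Subgroup ↥(Cfsg.isometryGroup F (Cfsg.quadFormPlus n F)) :=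
  Subgroup.closure {σ : ↥(Cfsg.isometryGroup F (Cfsg.quadFormPlus n F)) | ∀ v : Fin n ⊕ Fin n → F,
    Cfsg.quadFormPlus n F (v + p) - Cfsg.quadFormPlus n F v - Cfsg.quadFormPlus n F p = 0 →
    Cfsg.quadFormPlus n F (v + r) - Cfsg.quadFormPlus n F v - Cfsg.quadFormPlus n F r = 0 →
      ((σ : Matrix.GeneralLinearGroup (Fin n ⊕ Fin n) F) : Matrix (Fin n ⊕ Fin n) (Fin n ⊕ Fin n) F) *ᵥ v = v}

/-- The family of these groups. -/
def SS (F : Type*) [Field F] (n : ℕ) : Set (Subgroup ↥(Cfsg.isometryGroup F (Cfsg.quadFormPlus n F))) :=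
  {A | ∃ p r : Fin n ⊕ Fin n → F, LinearIndependent F ![p, r] ∧
    Cfsg.quadFormPlus n F p = 0 ∧ Cfsg.quadFormPlus n F r = 0 ∧
    Cfsg.quadFormPlus n F (p + r) = 0 ∧ A = TT F n p r}

theorem ln_of_mem {p r : Fin n ⊕ Fin n → F} (h1 : LinearIndependent F ![p, r]) (h2 : Q p = 0) (h3 : Q r = 0)
    (h4 : Q (p + r) = 0) : Ln p r :=
  { hp := h2, hr := h3, hpr := by rw [← polar, h4, h2, h3]; ring, ind := LinearIndependent.pair_iff.1 h1 }

theorem mem_SS {p r : Fin n ⊕ Fin n → F} (h : Ln p r) : TT F n p r ∈ SS F n :=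
  ⟨p, r, LinearIndependent.pair_iff.2 h.ind, h.hp, h.hr, by rw [Q_add, h.hp, h.hr, h.hpr]; ring, rfl⟩

/-- The double perp. -/
theorem perp2 {p r u₁ u₂ : Fin n ⊕ Fin n → F} (h₁p : B u₁ p = 1) (h₁r : B u₁ r = 0) (h₂p : B u₂ p = 0)
    (h₂r : B u₂ r = 1) (z : Fin n ⊕ Fin n → F) (hz : ∀ w, B w p = 0 → B w r = 0 → B z w = 0) :
    z = B z u₁ • p + B z u₂ • r := by
  have h0 : z - B z u₁ • p - B z u₂ • r = 0 := by
    apply eq_zero_of_B
    intro v
    have hw1 : B (v - B v p • u₁ - B v r • u₂) p = 0 := by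
      simp only [B_sub_left, B_smul_left, h₁p, h₂p]
      ring
    have hw2 : B (v - B v p • u₁ - B v r • u₂) r = 0 := by
      simp only [B_sub_left, B_smul_left, h₁r, h₂r]
      ring
    have h1 := hz _ hw1 hw2
    have h2 : B p (v - B v p • u₁ - B v r • u₂) = 0 := by rw [B_comm]; exact hw1
    have h3 : B r (v - B v p • u₁ - B v r • u₂) = 0 := by rw [B_comm]; exact hw2
    have h4 : B (z - B z u₁ • p - B z u₂ • r) (v - B v p • u₁ - B v r • u₂) = 0 := by
      simp only [B_sub_left (z - B z u₁ • p), B_sub_left z, B_smul_left]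
      rw [h1, h2, h3]
      ring
    have hp1 : B p u₁ = 1 := by rw [B_comm]; exact h₁p
    have hp2 : B p u₂ = 0 := by rw [B_comm]; exact h₂p
    have hr1 : B r u₁ = 0 := by rw [B_comm]; exact h₁r
    have hr2 : B r u₂ = 1 := by rw [B_comm]; exact h₂r
    have h5 : B (z - B z u₁ • p - B z u₂ • r) u₁ = 0 := by
      simp only [B_sub_left, B_smul_left, hp1, hr1]
      ring
    have h6 : B (z - B z u₁ • p - B z u₂ • r) u₂ = 0 := by
      simp only [B_sub_left, B_smul_left, hp2, hr2]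
      ring
    rw [B_comm]
    have e : v = (v - B v p • u₁ - B v r • u₂) + B v p • u₁ + B v r • u₂ := by abel
    have e2 : B (z - B z u₁ • p - B z u₂ • r) v = B (z - B z u₁ • p - B z u₂ • r) (v - B v p • u₁ - B v r • u₂) +
        B v p * B (z - B z u₁ • p - B z u₂ • r) u₁ + B v r * B (z - B z u₁ • p - B z u₂ • r) u₂ := by
      conv_lhs => rw [e]
      rw [B_add_right, B_add_right, B_smul_right, B_smul_right]
    rw [e2, h4, h5, h6]
    ring
  rw [sub_sub, sub_eq_zero] at h0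
  exact h0

theorem gen_eq_X {p r : Fin n ⊕ Fin n → F} (h : Ln p r) (σ : Cfsg.isometryGroup F (Cfsg.quadFormPlus n F))
    (hσ : ∀ v, B v p = 0 → B v r = 0 → act σ v = v) : ∃ c, σ = X h.toSing c := by
  obtain ⟨u₂, h₂p, h₂r⟩ := exists_dual h.ind
  obtain ⟨u₁, h₁r, h₁p⟩ := exists_dual (p := r) (r := p) (fun a b hab => by
    have := h.ind b a (by rw [add_comm]; exact hab)
    exact ⟨this.2, this.1⟩)
  have key : ∀ t, ∀ w, B w p = 0 → B w r = 0 → B (act σ t - t) w = 0 := by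
    intro t w h1 h2
    rw [B_sub_left]
    have h3 := act_B σ t w
    rw [hσ w h1 h2] at h3
    rw [h3]
    ring
  have e₁ := perp2 h₁p h₁r h₂p h₂r _ (key u₁)
  have e₂ := perp2 h₁p h₁r h₂p h₂r _ (key u₂)
  obtain ⟨a₁, ha₁⟩ : ∃ a₁, a₁ = B (act σ u₁ - u₁) u₁ := ⟨_, rfl⟩
  obtain ⟨b₁, hb₁⟩ : ∃ b₁, b₁ = B (act σ u₁ - u₁) u₂ := ⟨_, rfl⟩
  obtain ⟨a₂, ha₂⟩ : ∃ a₂, a₂ = B (act σ u₂ - u₂) u₁ := ⟨_, rfl⟩
  obtain ⟨b₂, hb₂⟩ : ∃ b₂, b₂ = B (act σ u₂ - u₂) u₂ := ⟨_, rfl⟩
  rw [← ha₁, ← hb₁] at e₁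
  rw [← ha₂, ← hb₂] at e₂
  have f₁ : act σ u₁ = u₁ + a₁ • p + b₁ • r := by
    rw [add_assoc, ← e₁]
    abel
  have f₂ : act σ u₂ = u₂ + a₂ • p + b₂ • r := by
    rw [add_assoc, ← e₂]
    abel
  have g₁ : a₁ = 0 := by
    have h3 := act_Q σ u₁
    rw [f₁, Q_lin h.toSing, h₁p, h₁r] at h3
    linear_combination h3
  have g₂ : b₂ = 0 := by
    have h3 := act_Q σ u₂
    rw [f₂, Q_lin h.toSing, h₂p, h₂r] at h3
    linear_combination h3
  have g₃ : b₁ = -a₂ := by
    have h3 := act_Q σ (u₁ + u₂)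
    have h4 : act σ (u₁ + u₂) = (u₁ + u₂) + a₂ • p + b₁ • r := by
      rw [act_add, f₁, f₂, g₁, g₂]
      module
    rw [h4, Q_lin h.toSing, B_add_left, B_add_left, h₁p, h₁r, h₂p, h₂r] at h3
    linear_combination h3
  refine ⟨a₂, iso_ext fun v => ?_⟩
  rw [act_X]
  have hw1 : B (v - B v p • u₁ - B v r • u₂) p = 0 := by
    simp only [B_sub_left, B_smul_left, h₁p, h₂p]
    ring
  have hw2 : B (v - B v p • u₁ - B v r • u₂) r = 0 := by
    simp only [B_sub_left, B_smul_left, h₁r, h₂r]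
    ring
  have h5 := hσ _ hw1 hw2
  have e : v = (v - B v p • u₁ - B v r • u₂) + B v p • u₁ + B v r • u₂ := by abel
  calc act σ v = act σ ((v - B v p • u₁ - B v r • u₂) + B v p • u₁ + B v r • u₂) := by rw [← e]
    _ = (v - B v p • u₁ - B v r • u₂) + B v p • (u₁ + a₁ • p + b₁ • r) + B v r • (u₂ + a₂ • p + b₂ • r) := by
        rw [act_add, act_add, act_smul, act_smul, h5, f₁, f₂]
    _ = v + a₂ • (B v r • p - B v p • r) := by
        rw [g₁, g₂, g₃]
        module

theorem mem_TT {p r : Fin n ⊕ Fin n → F} (h : Ln p r) {x : Cfsg.isometryGroup F (Cfsg.quadFormPlus n F)} :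
    x ∈ TT F n p r ↔ ∃ c, x = X h.toSing c := by
  constructor
  · intro hx
    induction hx using Subgroup.closure_induction with
    | mem σ hσ =>
      refine gen_eq_X h σ fun v h1 h2 => hσ v ?_ ?_
      · rw [polar]
        exact h1
      · rw [polar]
        exact h2
    | one => exact ⟨0, (X_zero _).symm⟩
    | mul x y _ _ hx hy =>
      obtain ⟨c, rfl⟩ := hx
      obtain ⟨d, rfl⟩ := hy
      exact ⟨c + d, X_mul _ c d⟩
    | inv x _ hx =>
      obtain ⟨c, rfl⟩ := hx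
      exact ⟨-c, X_inv _ c⟩
  · rintro ⟨c, rfl⟩
    refine Subgroup.subset_closure fun v h1 h2 => ?_
    rw [polar] at h1 h2
    show act _ v = v
    rw [act_X, h1, h2]
    simp

theorem X_mem {p r : Fin n ⊕ Fin n → F} (h : Ln p r) (c : F) : X h.toSing c ∈ TT F n p r :=
  (mem_TT h).2 ⟨c, rfl⟩

theorem X_ne_one {p r : Fin n ⊕ Fin n → F} (h : Ln p r) {c : F} (hc : c ≠ 0) : X h.toSing c ≠ 1 := by
  intro h1
  obtain ⟨u, hu1, hu2⟩ := exists_dual h.ind
  have h2 := act_X h.toSing c u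
  rw [h1, act_one, hu1, hu2] at h2
  have h3 : c • ((1 : F) • p - (0 : F) • r) = 0 := by simpa using h2.symm
  rcases smul_eq_zero.1 h3 with h4 | h4
  · exact hc h4
  · apply h.p_ne
    simpa using h4

theorem TT_comm {p r : Fin n ⊕ Fin n → F} (h : Ln p r) : ∀ a ∈ TT F n p r, ∀ b ∈ TT F n p r, a * b = b * a := by
  intro a ha b hb
  obtain ⟨x, rfl⟩ := (mem_TT h).1 ha
  obtain ⟨y, rfl⟩ := (mem_TT h).1 hb
  rw [X_mul, X_mul, add_comm]

theorem TT_ne_bot {p r : Fin n ⊕ Fin n → F} (h : Ln p r) : TT F n p r ≠ ⊥ := by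
  intro h0
  have h1 := X_mem h 1
  rw [h0, Subgroup.mem_bot] at h1
  exact X_ne_one h one_ne_zero h1

theorem act_sing (g : Cfsg.isometryGroup F (Cfsg.quadFormPlus n F)) {p r : Fin n ⊕ Fin n → F} (h : Sing p r) :
    Sing (act g p) (act g r) := ⟨by rw [act_Q]; exact h.hp, by rw [act_Q]; exact h.hr, by rw [act_B]; exact h.hpr⟩

theorem act_ln (g : Cfsg.isometryGroup F (Cfsg.quadFormPlus n F)) {p r : Fin n ⊕ Fin n → F} (h : Ln p r) :
    Ln (act g p) (act g r) :=
  { act_sing g h.toSing with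
    ind := fun a b hab => by
      apply h.ind
      have h1 : act g (a • p + b • r) = 0 := by
        rw [act_add, act_smul, act_smul, hab]
      rw [← act_inv_act g (a • p + b • r), h1, act_zero] }

theorem conj_X (g : Cfsg.isometryGroup F (Cfsg.quadFormPlus n F)) {p r : Fin n ⊕ Fin n → F} (h : Sing p r) (c : F) :
    g * X h c * g⁻¹ = X (act_sing g h) c :=
  iso_ext fun v => by
    rw [act_mul, act_mul, act_X, act_X, act_add, act_smul, act_act_inv, act_sub, act_smul, act_smul]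
    have h1 : ∀ t, B (act g⁻¹ v) t = B v (act g t) := fun t => by
      rw [← act_B g (act g⁻¹ v) t, act_act_inv]
    rw [h1, h1]

theorem conjBy_TT {p r : Fin n ⊕ Fin n → F} (h : Ln p r) (g : Cfsg.isometryGroup F (Cfsg.quadFormPlus n F)) :
    Cfsg.conjBy (TT F n p r) g = TT F n (act g p) (act g r) := by
  ext x
  rw [mem_TT (act_ln g h)]
  constructor
  · rintro ⟨y, hy, rfl⟩
    obtain ⟨c, rfl⟩ := (mem_TT h).1 hy
    exact ⟨c, conj_X g h.toSing c⟩
  · rintro ⟨c, rfl⟩
    exact ⟨X h.toSing c, X_mem h c, conj_X g h.toSing c⟩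

theorem ln_change {p r p' r' : Fin n ⊕ Fin n → F} (h : Ln p r) {a b c d : F} (hp : p' = a • p + b • r)
    (hr : r' = c • p + d • r) (hΔ : a * d - b * c ≠ 0) : Ln p' r' := by
  subst hp hr
  have hs : Sing (a • p + b • r) (c • p + d • r) := by
    refine ⟨?_, ?_, ?_⟩
    · have := Q_lin h.toSing (0 : Fin n ⊕ Fin n → F) a b
      simpa [Cfsg.quadFormPlus] using this
    · have := Q_lin h.toSing (0 : Fin n ⊕ Fin n → F) c d
      simpa [Cfsg.quadFormPlus] using this
    · simp only [B_add_left, B_add_right, B_smul_left, B_smul_right, h.pp, h.rr, h.hpr, h.rp, mul_zero, add_zero]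
  refine { hs with ind := fun s t hst => ?_ }
  have h1 : (s * a + t * c) • p + (s * b + t * d) • r = 0 := by
    rw [← hst]
    module
  obtain ⟨h2, h3⟩ := h.ind _ _ h1
  constructor
  · have : s * (a * d - b * c) = 0 := by linear_combination d * h2 - c * h3
    rcases mul_eq_zero.1 this with h4 | h4
    · exact h4
    · exact absurd h4 hΔ
  · have : t * (a * d - b * c) = 0 := by linear_combination a * h3 - b * h2
    rcases mul_eq_zero.1 this with h4 | h4
    · exact h4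
    · exact absurd h4 hΔ

theorem TT_change {p r p' r' : Fin n ⊕ Fin n → F} (h : Ln p r) {a b c d : F} (hp : p' = a • p + b • r)
    (hr : r' = c • p + d • r) (hΔ : a * d - b * c ≠ 0) : TT F n p' r' = TT F n p r := by
  have h' := ln_change h hp hr hΔ
  have key : ∀ e : F, X h'.toSing e = X h.toSing (e * (a * d - b * c)) := fun e =>
    iso_ext fun v => by
      rw [act_X, act_X, hp, hr]
      simp only [B_add_right, B_smul_right]
      module
  ext x
  rw [mem_TT h', mem_TT h]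
  constructor
  · rintro ⟨e, rfl⟩
    exact ⟨_, key e⟩
  · rintro ⟨e, rfl⟩
    refine ⟨e * (a * d - b * c)⁻¹, ?_⟩
    rw [key, inv_mul_cancel_right₀ hΔ]

theorem TT_swap {p r : Fin n ⊕ Fin n → F} (h : Ln p r) : TT F n r p = TT F n p r :=
  TT_change (a := 0) (b := 1) (c := 1) (d := 0) h (by simp) (by simp) (by simp)

theorem ln_swap {p r : Fin n ⊕ Fin n → F} (h : Ln p r) : Ln r p :=
  ln_change (a := 0) (b := 1) (c := 1) (d := 0) h (by simp) (by simp) (by simp)

theorem X_comm_of_perp {p r p' r' : Fin n ⊕ Fin n → F} (h : Sing p r) (h' : Sing p' r') (h1 : B p p' = 0)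
    (h2 : B p r' = 0) (h3 : B r p' = 0) (h4 : B r r' = 0) (c d : F) : X h c * X h' d = X h' d * X h c :=
  iso_ext fun v => by
    have h1' : B p' p = 0 := by rw [B_comm]; exact h1
    have h2' : B r' p = 0 := by rw [B_comm]; exact h2
    have h3' : B p' r = 0 := by rw [B_comm]; exact h3
    have h4' : B r' r = 0 := by rw [B_comm]; exact h4
    simp only [act_mul, act_X, B_add_left, B_smul_left, B_sub_left, h1, h2, h3, h4, h1', h2', h3', h4', mul_zero,
      sub_zero, add_zero]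
    module

end Cfsg.Agent.H24.Sg
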