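import Cfsg.Agent.Lib.H24.SgA

/-!
Siegel transvections: pairs of lines in hyperbolic position; the image of `SL₂`.
-/

set_option autoImplicit false

namespace Cfsg.Agent.H24.Sg

open Matrix Cfsg.Agent.H29.RootSL

variable {F : Type*} [Field F] {n : ℕ}

local notation "Q" => Cfsg.quadFormPlus n F

/-- Two lines in hyperbolic position. -/
structure Hyp (x r y w : Fin n ⊕ Fin n → F) : Prop where
  h1 : Ln x r
  h2 : Ln y w
  xy : B x y = 1
  xw : B x w = 0
  ry : B r y = 0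
  rw : B r w = 1

variable {x r y w : Fin n ⊕ Fin n → F}

theorem Hyp.symm (h : Hyp x r y w) : Hyp y w x r :=
  ⟨h.h2, h.h1, by rw [B_comm]; exact h.xy, by rw [B_comm]; exact h.ry, by rw [B_comm]; exact h.xw,
    by rw [B_comm]; exact h.rw⟩

theorem Hyp.rank_cond (h : Hyp x r y w) : Cfsg.RankOneCondition (TT F n x r) (TT F n y w) := by
  intro a ha ha1
  obtain ⟨c, rfl⟩ := (mem_TT h.h1).1 ha
  have hc : c ≠ 0 := by
    rintro rfl
    exact ha1 (X_zero _)
  obtain ⟨d, hd⟩ : ∃ d, d = -c⁻¹ := ⟨_, rfl⟩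
  have hd0 : d ≠ 0 := by
    rw [hd]
    exact neg_ne_zero.2 (inv_ne_zero hc)
  have hcd1 : c * -d = 1 := by
    rw [hd, neg_neg, mul_inv_cancel₀ hc]
  have hcd2 : -c * d = 1 := by
    rw [hd, neg_mul_neg, mul_inv_cancel₀ hc]
  refine ⟨X h.h2.toSing d, X_mem h.h2 d, X_ne_one h.h2 hd0, ?_⟩
  rw [conjBy_TT h.h1, conjBy_TT h.h2, X_inv, X_inv]
  have h1 : act (X h.h2.toSing (-d)) x = x + d • w := by
    rw [act_X, h.xw, h.xy]
    module
  have h2 : act (X h.h2.toSing (-d)) r = r + (-d) • y := by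
    rw [act_X, h.rw, h.ry]
    module
  have h3 : act (X h.h1.toSing (-c)) y = y + c • r := by
    rw [act_X, B_comm y r, B_comm y x, h.ry, h.xy]
    module
  have h4 : act (X h.h1.toSing (-c)) w = w + (-c) • x := by
    rw [act_X, B_comm w r, B_comm w x, h.rw, h.xw]
    module
  have hL : Ln (x + d • w) (r + (-d) • y) := by
    rw [← h1, ← h2]
    exact act_ln _ h.h1
  rw [h1, h2, h3, h4]
  refine (TT_change hL (a := 0) (b := c) (c := -c) (d := 0) ?_ ?_ ?_).symm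
  · rw [zero_smul, zero_add, smul_add, smul_smul, hcd1, one_smul, add_comm]
  · rw [zero_smul, add_zero, smul_add, smul_smul, hcd2, one_smul, add_comm]
  · have : (0 : F) * 0 - c * -c = c * c := by ring
    rw [this]
    exact mul_ne_zero hc hc

theorem Hyp.ne (h : Hyp x r y w) : TT F n x r ≠ TT F n y w := by
  intro he
  have h1 : X h.h1.toSing 1 ∈ TT F n y w := he ▸ X_mem h.h1 1
  obtain ⟨c, hc⟩ := (mem_TT h.h2).1 h1
  have h2 := congrArg (fun g => act g y) hc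
  simp only [act_X, B_comm y r, B_comm y x, h.ry, h.xy, h.h2.hpr, h.h2.pp] at h2
  have h3 : r = 0 := by
    have h4 : y + (1 : F) • ((0 : F) • x - (1 : F) • r) = y := by
      rw [h2]
      simp
    simpa using h4
  exact h.h1.r_ne h3

theorem Hyp.rankOne (h : Hyp x r y w) : Cfsg.IsRankOnePair (TT F n x r) (TT F n y w) :=
  ⟨h.ne, Cfsg.Agent.H24.RootSub.nilpotent_of_comm' (TT_comm h.h1),
    Cfsg.Agent.H24.RootSub.nilpotent_of_comm' (TT_comm h.h2), h.rank_cond, h.symm.rank_cond⟩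

/-- The sign twist. -/
def sg (M : Matrix (Fin 2) (Fin 2) F) : Matrix (Fin 2) (Fin 2) F := !![M 0 0, -M 0 1; -M 1 0, M 1 1]

theorem sg_mul (M N : Matrix (Fin 2) (Fin 2) F) : sg (M * N) = sg M * sg N := by
  ext i j
  fin_cases i <;> fin_cases j <;> simp [sg, Matrix.mul_apply, Fin.sum_univ_two] <;> ring

theorem sg_one : sg (1 : Matrix (Fin 2) (Fin 2) F) = 1 := by
  ext i j
  fin_cases i <;> fin_cases j <;> simp [sg]

theorem tm_tm {p₀ r₀ : Fin n ⊕ Fin n → F} (hs : Sing p₀ r₀) (c : F) :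
    tm p₀ (dv r₀) c * tm r₀ (dv p₀) (-c) = sm p₀ r₀ c :=
  mat_ext fun v => by
    rw [← mulVec_mulVec, tm_mulVec, tm_mulVec, sm_mulVec]
    simp only [dv_dot, B_add_left, B_smul_left, hs.rr, mul_zero, add_zero]
    module

/-- The matrix image of `M`. -/
def PhiM (x r y w : Fin n ⊕ Fin n → F) (M : Matrix (Fin 2) (Fin 2) F) :
    Matrix (Fin n ⊕ Fin n) (Fin n ⊕ Fin n) F :=
  phiM x (dv r) w (dv y) M * phiM r (dv x) y (dv w) (sg M)

theorem phiM_one' (p f q g : Fin n ⊕ Fin n → F) : phiM p f q g (1 : Matrix (Fin 2) (Fin 2) F) = 1 := by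
  simp [phiM]

theorem PhiM_one : PhiM x r y w 1 = 1 := by
  rw [PhiM, sg_one, phiM_one', phiM_one', mul_one]

theorem QM_PM_zero {p f q g : Fin n ⊕ Fin n → F} (hgp : g ⬝ᵥ p = 0) (hgq : g ⬝ᵥ q = 0) (hfp : f ⬝ᵥ p = 0)
    (hfq : f ⬝ᵥ q = 0) : QM g f * PM p q = 0 := by
  ext a b
  rw [Matrix.mul_apply]
  fin_cases a <;> fin_cases b
  · simpa [QM, PM, dotProduct] using hgp
  · simpa [QM, PM, dotProduct] using hgq
  · simpa [QM, PM, dotProduct] using hfp
  · simpa [QM, PM, dotProduct] using hfq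

namespace Hyp

variable (h : Hyp x r y w)
include h

theorem hgp₁ : dv y ⬝ᵥ x = 1 := by rw [dv_dot]; exact h.xy
theorem hgq₁ : dv y ⬝ᵥ w = 0 := by rw [dv_dot, B_comm]; exact h.h2.hpr
theorem hfp₁ : dv r ⬝ᵥ x = 0 := by rw [dv_dot]; exact h.h1.hpr
theorem hfq₁ : dv r ⬝ᵥ w = 1 := by rw [dv_dot, B_comm]; exact h.rw
theorem hgp₂ : dv w ⬝ᵥ r = 1 := by rw [dv_dot]; exact h.rw
theorem hgq₂ : dv w ⬝ᵥ y = 0 := by rw [dv_dot]; exact h.h2.hpr
theorem hfp₂ : dv x ⬝ᵥ r = 0 := by rw [dv_dot, B_comm]; exact h.h1.hpr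
theorem hfq₂ : dv x ⬝ᵥ y = 1 := by rw [dv_dot, B_comm]; exact h.xy

theorem cross₁ : QM (dv y) (dv r) * PM r y = 0 :=
  QM_PM_zero (by rw [dv_dot]; exact h.ry) (by rw [dv_dot]; exact h.h2.pp) (by rw [dv_dot]; exact h.h1.rr)
    (by rw [dv_dot, B_comm]; exact h.ry)

theorem cross₂ : QM (dv w) (dv x) * PM x w = 0 :=
  QM_PM_zero (by rw [dv_dot]; exact h.xw) (by rw [dv_dot]; exact h.h2.rr) (by rw [dv_dot]; exact h.h1.pp)
    (by rw [dv_dot, B_comm]; exact h.xw)

theorem comm_blocks (M N : Matrix (Fin 2) (Fin 2) F) :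
    phiM r (dv x) y (dv w) N * phiM x (dv r) w (dv y) M = phiM x (dv r) w (dv y) M * phiM r (dv x) y (dv w) N := by
  unfold phiM
  have e1 : PM r y * (N - 1) * QM (dv w) (dv x) * (PM x w * (M - 1) * QM (dv y) (dv r)) = 0 := by
    calc _ = PM r y * (N - 1) * (QM (dv w) (dv x) * PM x w) * (M - 1) * QM (dv y) (dv r) := by
          simp only [Matrix.mul_assoc]
      _ = 0 := by rw [h.cross₂]; simp
  have e2 : PM x w * (M - 1) * QM (dv y) (dv r) * (PM r y * (N - 1) * QM (dv w) (dv x)) = 0 := by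
    calc _ = PM x w * (M - 1) * (QM (dv y) (dv r) * PM r y) * (N - 1) * QM (dv w) (dv x) := by
          simp only [Matrix.mul_assoc]
      _ = 0 := by rw [h.cross₁]; simp
  simp only [mul_add, add_mul, mul_one, one_mul, e1, e2, add_zero]
  abel

theorem PhiM_mul (M N : Matrix (Fin 2) (Fin 2) F) : PhiM x r y w (M * N) = PhiM x r y w M * PhiM x r y w N := by
  unfold PhiM
  rw [sg_mul, phiM_mul h.hgp₁ h.hgq₁ h.hfp₁ h.hfq₁, phiM_mul h.hgp₂ h.hgq₂ h.hfp₂ h.hfq₂]
  calc _ = phiM x (dv r) w (dv y) M * (phiM x (dv r) w (dv y) N * phiM r (dv x) y (dv w) (sg M)) *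
        phiM r (dv x) y (dv w) (sg N) := by simp only [mul_assoc]
    _ = phiM x (dv r) w (dv y) M * (phiM r (dv x) y (dv w) (sg M) * phiM x (dv r) w (dv y) N) *
        phiM r (dv x) y (dv w) (sg N) := by rw [h.comm_blocks]
    _ = _ := by simp only [mul_assoc]

theorem PhiM_upper {M : Matrix (Fin 2) (Fin 2) F} (h1 : M 1 0 = 0) (h2 : M 0 0 = 1) (h3 : M 1 1 = 1) :
    PhiM x r y w M = sm x r (M 0 1) := by
  unfold PhiM
  rw [phiM_upper h1 h2 h3, phiM_upper (M := sg M) (by simp [sg, h1]) (by simp [sg, h2]) (by simp [sg, h3])]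
  have : (sg M) 0 1 = -M 0 1 := by simp [sg]
  rw [this]
  exact tm_tm h.h1.toSing _

theorem PhiM_lower {M : Matrix (Fin 2) (Fin 2) F} (h1 : M 0 1 = 0) (h2 : M 0 0 = 1) (h3 : M 1 1 = 1) :
    PhiM x r y w M = sm w y (M 1 0) := by
  unfold PhiM
  rw [phiM_lower h1 h2 h3, phiM_lower (M := sg M) (by simp [sg, h1]) (by simp [sg, h2]) (by simp [sg, h3])]
  have : (sg M) 1 0 = -M 1 0 := by simp [sg]
  rw [this]
  exact tm_tm h.h2.toSing.symm _

theorem PhiM_recover (M : Matrix (Fin 2) (Fin 2) F) : QM (dv y) (dv r) * PhiM x r y w M * PM x w = M := by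
  have h1 : phiM r (dv x) y (dv w) (sg M) * PM x w = PM x w := by
    unfold phiM
    rw [Matrix.add_mul, Matrix.one_mul, Matrix.mul_assoc, h.cross₂, Matrix.mul_zero, add_zero]
  have hone := QM_mul_PM h.hgp₁ h.hgq₁ h.hfp₁ h.hfq₁
  unfold PhiM
  rw [Matrix.mul_assoc, Matrix.mul_assoc, h1]
  unfold phiM
  rw [Matrix.add_mul, Matrix.one_mul, Matrix.mul_add, hone]
  have e : QM (dv y) (dv r) * (PM x w * (M - 1) * QM (dv y) (dv r) * PM x w) =
      (QM (dv y) (dv r) * PM x w) * (M - 1) * (QM (dv y) (dv r) * PM x w) := by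
    simp only [Matrix.mul_assoc]
  rw [e, hone, Matrix.one_mul, Matrix.mul_one]
  abel

theorem PhiM_Q (M : Matrix.SpecialLinearGroup (Fin 2) F) (v : Fin n ⊕ Fin n → F) :
    Q (PhiM x r y w (M : Matrix (Fin 2) (Fin 2) F) *ᵥ v) = Q v := by
  revert v
  refine Cfsg.Agent.Lead.transvection_induction' (ι := Fin 2) (F := F)
    (fun M => ∀ v, Q (PhiM x r y w (M : Matrix (Fin 2) (Fin 2) F) *ᵥ v) = Q v) ?_ ?_ M
  · intro i j hij c
    have hcoe : ∀ a b : Fin 2, ((Matrix.SpecialLinearGroup.transvection hij c : Matrix.SpecialLinearGroup (Fin 2) F) : Matrix (Fin 2) (Fin 2) F) a b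
        = (1 + Matrix.single i j c : Matrix (Fin 2) (Fin 2) F) a b := fun _ _ => rfl
    fin_cases i <;> fin_cases j
    · exact absurd rfl hij
    · rw [h.PhiM_upper (by rw [hcoe]; simp [Matrix.single_apply]) (by rw [hcoe]; simp [Matrix.single_apply])
        (by rw [hcoe]; simp [Matrix.single_apply])]
      exact Q_sm h.h1.toSing _
    · rw [h.PhiM_lower (by rw [hcoe]; simp [Matrix.single_apply]) (by rw [hcoe]; simp [Matrix.single_apply])
        (by rw [hcoe]; simp [Matrix.single_apply])]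
      exact Q_sm h.h2.toSing.symm _
    · exact absurd rfl hij
  · intro A B hA hB v
    rw [Matrix.SpecialLinearGroup.coe_mul, h.PhiM_mul, ← Matrix.mulVec_mulVec, hA, hB]

theorem psl2 : Cfsg.IsPSL2PairOver F (TT F n x r) (TT F n y w) := by
  classical
  let Φ₀ : Matrix.SpecialLinearGroup (Fin 2) F →* Matrix (Fin n ⊕ Fin n) (Fin n ⊕ Fin n) F :=
    { toFun := fun M => PhiM x r y w (M : Matrix (Fin 2) (Fin 2) F)
      map_one' := by
        rw [Matrix.SpecialLinearGroup.coe_one]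
        exact PhiM_one
      map_mul' := fun M N => by
        rw [Matrix.SpecialLinearGroup.coe_mul]
        exact h.PhiM_mul _ _ }
  let Φ₁ : Matrix.SpecialLinearGroup (Fin 2) F →* Matrix.GeneralLinearGroup (Fin n ⊕ Fin n) F := Φ₀.toHomUnits
  let φ : Matrix.SpecialLinearGroup (Fin 2) F →* Cfsg.isometryGroup F (Cfsg.quadFormPlus n F) :=
    Φ₁.codRestrict _ (fun M u _ => h.PhiM_Q M u)
  have hφ : ∀ M, ((φ M : Cfsg.isometryGroup F (Cfsg.quadFormPlus n F)) : Matrix.GeneralLinearGroup (Fin n ⊕ Fin n) F).1 =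
      PhiM x r y w (M : Matrix (Fin 2) (Fin 2) F) := fun _ => rfl
  have hinj : Function.Injective φ := by
    intro M N he
    have h1 : PhiM x r y w (M : Matrix (Fin 2) (Fin 2) F) = PhiM x r y w (N : Matrix (Fin 2) (Fin 2) F) := by
      rw [← hφ, ← hφ, he]
    apply Subtype.ext
    rw [← h.PhiM_recover (M : Matrix (Fin 2) (Fin 2) F), h1, h.PhiM_recover]
  have hupper : (Cfsg.upperUnipotentSL2 F).map φ = TT F n x r := by
    unfold Cfsg.upperUnipotentSL2
    rw [MonoidHom.map_closure]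
    apply le_antisymm
    · rw [Subgroup.closure_le]
      rintro _ ⟨M, ⟨h1, h2, h3⟩, rfl⟩
      refine (mem_TT h.h1).2 ⟨(M : Matrix (Fin 2) (Fin 2) F) 0 1, Subtype.ext (Units.ext ?_)⟩
      exact h.PhiM_upper h1 h2 h3
    · intro z hz
      obtain ⟨c, rfl⟩ := (mem_TT h.h1).1 hz
      apply Subgroup.subset_closure
      let M : Matrix.SpecialLinearGroup (Fin 2) F := ⟨!![1, c; 0, 1], by simp [Matrix.det_fin_two]⟩
      refine ⟨M, ⟨by simp [M], by simp [M], by simp [M]⟩, Subtype.ext (Units.ext ?_)⟩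
      have h1 := h.PhiM_upper (M := (M : Matrix (Fin 2) (Fin 2) F)) (by simp [M]) (by simp [M]) (by simp [M])
      have h2 : (M : Matrix (Fin 2) (Fin 2) F) 0 1 = c := by simp [M]
      rw [h2] at h1
      exact h1
  have hlower : (Cfsg.lowerUnipotentSL2 F).map φ = TT F n y w := by
    rw [TT_swap (ln_swap h.h2)]
    unfold Cfsg.lowerUnipotentSL2
    rw [MonoidHom.map_closure]
    have hL := ln_swap h.h2
    apply le_antisymm
    · rw [Subgroup.closure_le]
      rintro _ ⟨M, ⟨h1, h2, h3⟩, rfl⟩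
      refine (mem_TT hL).2 ⟨(M : Matrix (Fin 2) (Fin 2) F) 1 0, Subtype.ext (Units.ext ?_)⟩
      exact h.PhiM_lower h1 h2 h3
    · intro z hz
      obtain ⟨c, rfl⟩ := (mem_TT hL).1 hz
      apply Subgroup.subset_closure
      let M : Matrix.SpecialLinearGroup (Fin 2) F := ⟨!![1, 0; c, 1], by simp [Matrix.det_fin_two]⟩
      refine ⟨M, ⟨by simp [M], by simp [M], by simp [M]⟩, Subtype.ext (Units.ext ?_)⟩
      have h1 := h.PhiM_lower (M := (M : Matrix (Fin 2) (Fin 2) F)) (by simp [M]) (by simp [M]) (by simp [M])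
      have h2 : (M : Matrix (Fin 2) (Fin 2) F) 1 0 = c := by simp [M]
      rw [h2] at h1
      exact h1
  refine ⟨φ, ?_, ?_, hupper, hlower⟩
  · rw [← hupper, ← hlower, ← Subgroup.map_sup, upper_sup_lower, MonoidHom.range_eq_map]
  · rw [(MonoidHom.ker_eq_bot_iff _).2 hinj]
    exact bot_le

end Hyp

end Cfsg.Agent.H24.Sg
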