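import Cfsg.Agent.Lib.H24.SgB

/-!
Siegel transvections: the relative positions of two lines; the commutator case; connectivity.
-/

set_option autoImplicit false

namespace Cfsg.Agent.H24.Sg

open Matrix Cfsg.Agent.H29.RootSL
open scoped commutatorElement

variable {F : Type*} [Field F] {n : ℕ}

local notation "Q" => Cfsg.quadFormPlus n F

theorem hyp_of_det {p r u w : Fin n ⊕ Fin n → F} (h : Ln p r) (h' : Ln u w)
    (hΔ : B p u * B r w - B p w * B r u ≠ 0) : ∃ y w', TT F n y w' = TT F n u w ∧ Hyp p r y w' := by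
  obtain ⟨Δ, hd⟩ : ∃ Δ, Δ = B p u * B r w - B p w * B r u := ⟨_, rfl⟩
  rw [← hd] at hΔ
  obtain ⟨a, ha⟩ : ∃ a, a = B r w * Δ⁻¹ := ⟨_, rfl⟩
  obtain ⟨b, hb⟩ : ∃ b, b = -B r u * Δ⁻¹ := ⟨_, rfl⟩
  obtain ⟨c, hc⟩ : ∃ c, c = -B p w * Δ⁻¹ := ⟨_, rfl⟩
  obtain ⟨d, hd'⟩ : ∃ d, d = B p u * Δ⁻¹ := ⟨_, rfl⟩
  have hdet : a * d - b * c ≠ 0 := by
    have e : B r w * B p u - (-B r u) * (-B p w) = Δ := by
      rw [hd]
      ring
    have h1 : a * d - b * c = Δ⁻¹ := by
      calc a * d - b * c = (B r w * B p u - (-B r u) * (-B p w)) * (Δ⁻¹ * Δ⁻¹) := by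
            rw [ha, hb, hc, hd']
            ring
        _ = Δ⁻¹ := by
            rw [e]
            field_simp
    rw [h1]
    exact inv_ne_zero hΔ
  have hL := ln_change h' (p' := a • u + b • w) (r' := c • u + d • w) rfl rfl hdet
  refine ⟨a • u + b • w, c • u + d • w, TT_change h' rfl rfl hdet, h, hL, ?_, ?_, ?_, ?_⟩
  · rw [B_add_right, B_smul_right, B_smul_right, ha, hb]
    field_simp
    rw [hd]
    ring
  · rw [B_add_right, B_smul_right, B_smul_right, hc, hd']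
    field_simp
    ring
  · rw [B_add_right, B_smul_right, B_smul_right, ha, hb]
    field_simp
    ring
  · rw [B_add_right, B_smul_right, B_smul_right, hc, hd']
    field_simp
    rw [hd]
    ring

/-- Two lines in rank-one position. -/
structure Dg0 (x r y w : Fin n ⊕ Fin n → F) : Prop where
  h1 : Ln x r
  h2 : Ln y w
  xy : B x y = 0
  xw : B x w = 0
  ry : B r y = 0
  rw : B r w = 1

theorem nf_aux {p r p' r' : Fin n ⊕ Fin n → F} (h : Ln p r) (h' : Ln p' r') (hβ : B r r' ≠ 0)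
    (hΔ : B p p' * B r r' - B p r' * B r p' = 0) :
    ∃ x r₀ y w, TT F n x r₀ = TT F n p r ∧ TT F n y w = TT F n p' r' ∧ Dg0 x r₀ y w := by
  obtain ⟨t, ht⟩ : ∃ t, t = B p r' * (B r r')⁻¹ := ⟨_, rfl⟩
  obtain ⟨s, hs⟩ : ∃ s, s = B r p' * (B r r')⁻¹ := ⟨_, rfl⟩
  have e1 : p + (-t) • r = (1 : F) • p + (-t) • r := by simp
  have e2 : r = (0 : F) • p + (1 : F) • r := by simp
  have e3 : p' + (-s) • r' = (1 : F) • p' + (-s) • r' := by simp
  have e4 : (B r r')⁻¹ • r' = (0 : F) • p' + (B r r')⁻¹ • r' := by simp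
  have d1 : (1 : F) * 1 - (-t) * 0 ≠ 0 := by simp
  have d2 : (1 : F) * (B r r')⁻¹ - (-s) * 0 ≠ 0 := by simpa using hβ
  refine ⟨p + (-t) • r, r, p' + (-s) • r', (B r r')⁻¹ • r', TT_change h e1 e2 d1, TT_change h' e3 e4 d2,
    ln_change h e1 e2 d1, ln_change h' e3 e4 d2, ?_, ?_, ?_, ?_⟩
  · simp only [B_add_left, B_add_right, B_smul_left, B_smul_right]
    rw [ht, hs]
    field_simp
    linear_combination hΔ
  · simp only [B_add_left, B_smul_left, B_smul_right]
    rw [ht]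
    field_simp
    ring
  · simp only [B_add_right, B_smul_right]
    rw [hs]
    field_simp
    ring
  · rw [B_smul_right, inv_mul_cancel₀ hβ]

theorem tri {p r p' r' : Fin n ⊕ Fin n → F} (h : Ln p r) (h' : Ln p' r') :
    (∃ y w, TT F n y w = TT F n p' r' ∧ Hyp p r y w) ∨
    (B p p' = 0 ∧ B p r' = 0 ∧ B r p' = 0 ∧ B r r' = 0) ∨
    (∃ x r₀ y w, TT F n x r₀ = TT F n p r ∧ TT F n y w = TT F n p' r' ∧ Dg0 x r₀ y w) := by
  by_cases hΔ : B p p' * B r r' - B p r' * B r p' = 0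
  · right
    by_cases h1 : B r r' = 0
    · by_cases h2 : B r p' = 0
      · by_cases h3 : B p r' = 0
        · by_cases h4 : B p p' = 0
          · exact Or.inl ⟨h4, h3, h2, h1⟩
          · right
            obtain ⟨x, r₀, y, w, e1, e2, e3⟩ := nf_aux (ln_swap h) (ln_swap h') h4 (by
              linear_combination hΔ)
            exact ⟨x, r₀, y, w, e1.trans (TT_swap h), e2.trans (TT_swap h'), e3⟩
        · right
          obtain ⟨x, r₀, y, w, e1, e2, e3⟩ := nf_aux (ln_swap h) h' h3 (by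
            linear_combination -hΔ)
          exact ⟨x, r₀, y, w, e1.trans (TT_swap h), e2, e3⟩
      · right
        obtain ⟨x, r₀, y, w, e1, e2, e3⟩ := nf_aux h (ln_swap h') h2 (by
          linear_combination -hΔ)
        exact ⟨x, r₀, y, w, e1, e2.trans (TT_swap h'), e3⟩
    · exact Or.inr (nf_aux h h' h1 hΔ)
  · exact Or.inl (hyp_of_det h h' hΔ)

theorem Dg0.formula {x r y w : Fin n ⊕ Fin n → F} (h : Dg0 x r y w) (hs : Sing y x) (c d : F) :
    X h.h1.toSing c * X h.h2.toSing d = X hs (c * d) * (X h.h2.toSing d * X h.h1.toSing c) :=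
  iso_ext fun v => by
    have a1 : B y r = 0 := by rw [B_comm]; exact h.ry
    have a2 : B y x = 0 := by rw [B_comm]; exact h.xy
    have a3 : B w r = 1 := by rw [B_comm]; exact h.rw
    have a4 : B w x = 0 := by rw [B_comm]; exact h.xw
    have a5 : B x r = 0 := h.h1.hpr
    have a6 : B r r = 0 := h.h1.rr
    have a7 : B x x = 0 := h.h1.pp
    have a8 : B r x = 0 := h.h1.rp
    have a9 : B y w = 0 := h.h2.hpr
    have a10 : B y y = 0 := h.h2.pp
    have a11 : B w y = 0 := h.h2.rp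
    have a12 : B w w = 0 := h.h2.rr
    simp only [act_mul, act_X, B_add_left, B_smul_left, B_sub_left, a1, a2, a3, a4, a5, a6, a7, a8, a9, a10, a11,
      a12, h.xy, h.xw, h.ry, h.rw, mul_zero, mul_one, sub_zero, add_zero, zero_sub]
    module

theorem Dg0.commutator {x r y w : Fin n ⊕ Fin n → F} (h : Dg0 x r y w) (hs : Sing y x) (c d : F) :
    X h.h1.toSing c * X h.h2.toSing d * (X h.h1.toSing c)⁻¹ * (X h.h2.toSing d)⁻¹ = X hs (c * d) := by
  rw [h.formula hs]
  group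

theorem Dg0.sing {x r y w : Fin n ⊕ Fin n → F} (h : Dg0 x r y w) : Sing y x :=
  ⟨h.h2.hp, h.h1.hp, by rw [B_comm]; exact h.xy⟩

theorem Dg0.not_rank {x r y w : Fin n ⊕ Fin n → F} (h : Dg0 x r y w) :
    ¬ Cfsg.IsRankOnePair (TT F n x r) (TT F n y w) := by
  intro hR
  have hc : (1 : F) ≠ 0 := one_ne_zero
  obtain ⟨b, hb, -, hb2⟩ := hR.cond_left (X h.h1.toSing 1) (X_mem h.h1 1) (X_ne_one h.h1 hc)
  obtain ⟨d, rfl⟩ := (mem_TT h.h2).1 hb
  rw [conjBy_TT h.h1, conjBy_TT h.h2, X_inv, X_inv] at hb2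
  have a1 : B y r = 0 := by rw [B_comm]; exact h.ry
  have a2 : B y x = 0 := by rw [B_comm]; exact h.xy
  have a3 : B w r = 1 := by rw [B_comm]; exact h.rw
  have a4 : B w x = 0 := by rw [B_comm]; exact h.xw
  have e1 : act (X h.h2.toSing (-d)) x = x := by
    rw [act_X, h.xw, h.xy]
    simp
  have e2 : act (X h.h2.toSing (-d)) r = r + (-d) • y := by
    rw [act_X, h.rw, h.ry]
    module
  have e3 : act (X h.h1.toSing (-1)) y = y := by
    rw [act_X, a1, a2]
    simp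
  have e4 : act (X h.h1.toSing (-1)) w = w + (-1 : F) • x := by
    rw [act_X, a3, a4]
    module
  rw [e1, e2, e3, e4] at hb2
  have hL1 : Ln x (r + (-d) • y) := by
    have := act_ln (X h.h2.toSing (-d)) h.h1
    rwa [e1, e2] at this
  have hL2 : Ln y (w + (-1 : F) • x) := by
    have := act_ln (X h.h1.toSing (-1)) h.h2
    rwa [e3, e4] at this
  have h3 : X hL2.toSing 1 ∈ TT F n x (r + (-d) • y) := hb2 ▸ X_mem hL2 1
  obtain ⟨e, he⟩ := (mem_TT hL1).1 h3
  have h4 := congrArg (fun g => act g r) he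
  simp only [act_X, B_add_right, B_smul_right, h.h1.rr, h.ry, h.rw, h.h1.rp, mul_zero, add_zero] at h4
  have h5 : y = 0 := by
    have h6 : r + (1 : F) • ((1 : F) • y - (0 : F) • (w + (-1 : F) • x)) = r + e • ((0 : F) • x - (0 : F) • (r + (-d) • y)) := by
      simpa using h4
    simpa using h6
  exact h.h2.p_ne h5

theorem not_rank_of_comm {G : Type*} [Group G] {A B₀ : Subgroup G} (hA : A ≠ ⊥) (h : ⁅A, B₀⁆ = ⊥)
    (hAc : ∀ a ∈ A, ∀ b ∈ A, a * b = b * a) (hBc : ∀ a ∈ B₀, ∀ b ∈ B₀, a * b = b * a) :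
    ¬ Cfsg.IsRankOnePair A B₀ := by
  intro hR
  have hcomm : ∀ a ∈ A, ∀ b ∈ B₀, a * b = b * a := by
    intro a ha b hb
    have h1 : ⁅a, b⁆ ∈ ⁅A, B₀⁆ := Subgroup.commutator_mem_commutator ha hb
    rw [h, Subgroup.mem_bot, commutatorElement_eq_one_iff_mul_comm] at h1
    exact h1
  obtain ⟨a₀, ha₀⟩ := (Subgroup.ne_bot_iff_exists_ne_one (H := A)).1 hA
  obtain ⟨b, hb, -, hb2⟩ := hR.cond_left a₀.1 a₀.2 (fun h' => ha₀ (Subtype.ext h'))
  apply hR.ne
  have h1 : Cfsg.conjBy A b⁻¹ = A := by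
    ext y
    constructor
    · rintro ⟨z, hz, rfl⟩
      have e : (MulAut.conj b⁻¹).toMonoidHom z = z := by
        show b⁻¹ * z * b⁻¹⁻¹ = z
        rw [inv_inv, mul_assoc, hcomm z hz b hb, ← mul_assoc, inv_mul_cancel, one_mul]
      rw [e]
      exact hz
    · intro hy
      refine ⟨y, hy, ?_⟩
      show b⁻¹ * y * b⁻¹⁻¹ = y
      rw [inv_inv, mul_assoc, hcomm y hy b hb, ← mul_assoc, inv_mul_cancel, one_mul]
  have h2 : Cfsg.conjBy B₀ a₀.1⁻¹ = B₀ := by
    ext y
    constructor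
    · rintro ⟨z, hz, rfl⟩
      have e : (MulAut.conj a₀.1⁻¹).toMonoidHom z = z := by
        show a₀.1⁻¹ * z * a₀.1⁻¹⁻¹ = z
        rw [inv_inv, mul_assoc, ← hcomm a₀.1 a₀.2 z hz, ← mul_assoc, inv_mul_cancel, one_mul]
      rw [e]
      exact hz
    · intro hy
      refine ⟨y, hy, ?_⟩
      show a₀.1⁻¹ * y * a₀.1⁻¹⁻¹ = y
      rw [inv_inv, mul_assoc, ← hcomm a₀.1 a₀.2 y hy, ← mul_assoc, inv_mul_cancel, one_mul]
  rw [← h1, hb2, h2]

theorem comm_of_perp {p r p' r' : Fin n ⊕ Fin n → F} (h : Ln p r) (h' : Ln p' r') (h1 : B p p' = 0)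
    (h2 : B p r' = 0) (h3 : B r p' = 0) (h4 : B r r' = 0) : ⁅TT F n p r, TT F n p' r'⁆ = ⊥ := by
  rw [Subgroup.commutator_eq_bot_iff_le_centralizer]
  intro a ha
  obtain ⟨c, rfl⟩ := (mem_TT h).1 ha
  rw [Subgroup.mem_centralizer_iff]
  intro b hb
  obtain ⟨d, rfl⟩ := (mem_TT h').1 hb
  exact (X_comm_of_perp h.toSing h'.toSing h1 h2 h3 h4 c d).symm

theorem Dg0.comm_of_dep {x r y w : Fin n ⊕ Fin n → F} (h : Dg0 x r y w) {κ : F} (hκ : y = κ • x) :
    ⁅TT F n x r, TT F n y w⁆ = ⊥ := by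
  have hone : ∀ e : F, X h.sing e = 1 := fun e =>
    iso_ext fun v => by
      rw [act_X, act_one, hκ, B_smul_right]
      module
  rw [Subgroup.commutator_eq_bot_iff_le_centralizer]
  intro a ha
  obtain ⟨c, rfl⟩ := (mem_TT h.h1).1 ha
  rw [Subgroup.mem_centralizer_iff]
  intro b hb
  obtain ⟨d, rfl⟩ := (mem_TT h.h2).1 hb
  have h1 := h.formula h.sing c d
  rw [hone, one_mul] at h1
  exact h1.symm

theorem Dg0.commCase {x r y w : Fin n ⊕ Fin n → F} (h : Dg0 x r y w) (hL : Ln y x) :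
    Cfsg.RootCommutatorCase (SS F n) (TT F n x r) (TT F n y w) := by
  have hs := h.sing
  have hcom : ⁅TT F n x r, TT F n y w⁆ = TT F n y x := by
    apply le_antisymm
    · rw [Subgroup.commutator_le]
      intro a ha b hb
      obtain ⟨c, rfl⟩ := (mem_TT h.h1).1 ha
      obtain ⟨d, rfl⟩ := (mem_TT h.h2).1 hb
      rw [commutatorElement_def, h.commutator hs]
      exact X_mem hL _
    · intro z hz
      obtain ⟨e, rfl⟩ := (mem_TT hL).1 hz
      have h1 := h.commutator hs 1 e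
      rw [one_mul] at h1
      have h2 : X hs e = ⁅X h.h1.toSing 1, X h.h2.toSing e⁆ := by
        rw [commutatorElement_def, h1]
      rw [show X hL.toSing e = X hs e from rfl, h2]
      exact Subgroup.commutator_mem_commutator (X_mem h.h1 1) (X_mem h.h2 e)
  refine ⟨?_, ?_, ?_, ?_⟩
  · rw [hcom]
    exact mem_SS hL
  · intro c₀ hc₀ z hz
    rw [hcom] at hc₀
    obtain ⟨e, rfl⟩ := (mem_TT hL).1 hc₀
    have hle : TT F n x r ⊔ TT F n y w ≤ Subgroup.centralizer ({X hL.toSing e} : Set _) := by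
      refine sup_le (fun a ha => ?_) (fun a ha => ?_)
      · obtain ⟨c, rfl⟩ := (mem_TT h.h1).1 ha
        rw [Subgroup.mem_centralizer_iff]
        intro t ht
        rw [Set.mem_singleton_iff] at ht
        subst ht
        refine X_comm_of_perp hL.toSing h.h1.toSing ?_ ?_ h.h1.pp h.h1.hpr e c
        · rw [B_comm]; exact h.xy
        · rw [B_comm]; exact h.ry
      · obtain ⟨c, rfl⟩ := (mem_TT h.h2).1 ha
        rw [Subgroup.mem_centralizer_iff]
        intro t ht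
        rw [Set.mem_singleton_iff] at ht
        subst ht
        exact X_comm_of_perp hL.toSing h.h2.toSing h.h2.pp h.h2.hpr h.xy h.xw e c
    have h1 := Subgroup.mem_centralizer_iff.1 (hle hz) _ (Set.mem_singleton _)
    exact h1
  · intro a ha ha1
    obtain ⟨c, rfl⟩ := (mem_TT h.h1).1 ha
    have hc : c ≠ 0 := by
      rintro rfl
      exact ha1 (X_zero _)
    rw [hcom]
    apply le_antisymm
    · rw [Subgroup.closure_le]
      rintro _ ⟨b, hb, rfl⟩
      obtain ⟨d, rfl⟩ := (mem_TT h.h2).1 hb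
      show _ * _ * _ * _ ∈ _
      rw [h.commutator hs]
      exact X_mem hL _
    · intro z hz
      obtain ⟨e, rfl⟩ := (mem_TT hL).1 hz
      apply Subgroup.subset_closure
      refine ⟨X h.h2.toSing (c⁻¹ * e), X_mem h.h2 _, ?_⟩
      show _ * _ * _ * _ = _
      rw [h.commutator hs, mul_inv_cancel_left₀ hc]
  · intro b hb hb1
    obtain ⟨d, rfl⟩ := (mem_TT h.h2).1 hb
    have hd : d ≠ 0 := by
      rintro rfl
      exact hb1 (X_zero _)
    rw [hcom]
    apply le_antisymm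
    · rw [Subgroup.closure_le]
      rintro _ ⟨a, ha, rfl⟩
      obtain ⟨c, rfl⟩ := (mem_TT h.h1).1 ha
      show _ * _ * _ * _ ∈ _
      rw [h.commutator hs]
      exact X_mem hL _
    · intro z hz
      obtain ⟨e, rfl⟩ := (mem_TT hL).1 hz
      apply Subgroup.subset_closure
      refine ⟨X h.h1.toSing (e * d⁻¹), X_mem h.h1 _, ?_⟩
      show _ * _ * _ * _ = _
      rw [h.commutator hs, inv_mul_cancel_right₀ hd]

theorem Dg0.cases {x r y w : Fin n ⊕ Fin n → F} (h : Dg0 x r y w) :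
    ⁅TT F n x r, TT F n y w⁆ = ⊥ ∨ Cfsg.RootCommutatorCase (SS F n) (TT F n x r) (TT F n y w) := by
  by_cases hind : ∀ a b : F, a • y + b • x = 0 → a = 0 ∧ b = 0
  · exact Or.inr (h.commCase { h.sing with ind := hind })
  · push Not at hind
    obtain ⟨a, b, hab, hne⟩ := hind
    have ha : a ≠ 0 := by
      intro ha0
      have hb0 := hne ha0
      rw [ha0, zero_smul, zero_add] at hab
      rcases smul_eq_zero.1 hab with h1 | h1
      · exact hb0 h1
      · exact h.h1.p_ne h1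
    refine Or.inl (h.comm_of_dep (κ := -(a⁻¹ * b)) ?_)
    have h1 : a • y = (-b) • x := by
      rw [neg_smul]
      exact eq_neg_of_add_eq_zero_left hab
    calc y = a⁻¹ • (a • y) := by rw [smul_smul, inv_mul_cancel₀ ha, one_smul]
      _ = -(a⁻¹ * b) • x := by rw [h1, smul_smul]; ring_nf

theorem ss_comm : ∀ A ∈ SS F n, ∀ a ∈ A, ∀ b ∈ A, a * b = b * a := by
  rintro _ ⟨p, r, h1, h2, h3, h4, rfl⟩ a ha b hb
  exact TT_comm (ln_of_mem h1 h2 h3 h4) a ha b hb

theorem ss_ne : ∀ A ∈ SS F n, A ≠ ⊥ := by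
  rintro _ ⟨p, r, h1, h2, h3, h4, rfl⟩
  exact TT_ne_bot (ln_of_mem h1 h2 h3 h4)

theorem ss_conj : ∀ A ∈ SS F n, ∀ g : Cfsg.isometryGroup F (Cfsg.quadFormPlus n F), Cfsg.conjBy A g ∈ SS F n := by
  rintro _ ⟨p, r, h1, h2, h3, h4, rfl⟩ g
  have h := ln_of_mem h1 h2 h3 h4
  rw [conjBy_TT h]
  exact mem_SS (act_ln g h)

theorem ss_pair : ∀ A ∈ SS F n, ∀ C ∈ SS F n,
    ⁅A, C⁆ = ⊥ ∨ Cfsg.IsRankOnePair A C ∨ Cfsg.RootCommutatorCase (SS F n) A C := by
  rintro _ ⟨p, r, h1, h2, h3, h4, rfl⟩ _ ⟨p', r', h1', h2', h3', h4', rfl⟩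
  have h := ln_of_mem h1 h2 h3 h4
  have h' := ln_of_mem h1' h2' h3' h4'
  rcases tri h h' with ⟨y, w, e, hH⟩ | ⟨a, b, c, d⟩ | ⟨x, r₀, y, w, e1, e2, hD⟩
  · right; left
    rw [← e]
    exact hH.rankOne
  · left
    exact comm_of_perp h h' a b c d
  · rw [← e1, ← e2]
    rcases hD.cases with h5 | h5
    · exact Or.inl h5
    · exact Or.inr (Or.inr h5)

theorem ss_psl : ∀ A ∈ SS F n, ∀ C ∈ SS F n, Cfsg.IsRankOnePair A C → Cfsg.IsPSL2PairOver F A C := by
  rintro _ ⟨p, r, h1, h2, h3, h4, rfl⟩ _ ⟨p', r', h1', h2', h3', h4', rfl⟩ hR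
  have h := ln_of_mem h1 h2 h3 h4
  have h' := ln_of_mem h1' h2' h3' h4'
  rcases tri h h' with ⟨y, w, e, hH⟩ | ⟨a, b, c, d⟩ | ⟨x, r₀, y, w, e1, e2, hD⟩
  · rw [← e]
    exact hH.psl2
  · exact absurd hR (not_rank_of_comm (TT_ne_bot h) (comm_of_perp h h' a b c d) (TT_comm h) (TT_comm h'))
  · rw [← e1, ← e2] at hR
    exact absurd hR hD.not_rank

/-! ### Connectivity -/

theorem exists_perp4 (hn : 3 ≤ n) (a b c d : Fin n ⊕ Fin n → F) :
    ∃ z : Fin n ⊕ Fin n → F, z ≠ 0 ∧ B z a = 0 ∧ B z b = 0 ∧ B z c = 0 ∧ B z d = 0 := by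
  classical
  let R : Matrix (Fin 4) (Fin n ⊕ Fin n) F := Matrix.of ![dv a, dv b, dv c, dv d]
  have hker : LinearMap.ker (Matrix.mulVecLin R) ≠ ⊥ := by
    apply LinearMap.ker_ne_bot_of_finrank_lt
    simp only [Module.finrank_fintype_fun_eq_card, Fintype.card_fin, Fintype.card_sum]
    omega
  obtain ⟨z, hz, hz0⟩ := (Submodule.ne_bot_iff _).1 hker
  have hz' : R *ᵥ z = 0 := hz
  refine ⟨z, hz0, ?_, ?_, ?_, ?_⟩
  · have := congrFun hz' 0
    rw [← dv_dot]
    simpa [R, Matrix.mulVec] using this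
  · have := congrFun hz' 1
    rw [← dv_dot]
    simpa [R, Matrix.mulVec] using this
  · have := congrFun hz' 2
    rw [← dv_dot]
    simpa [R, Matrix.mulVec] using this
  · have := congrFun hz' 3
    rw [← dv_dot]
    simpa [R, Matrix.mulVec] using this

theorem avoid_core {u a b : Fin n ⊕ Fin n → F} (hQa : Q a = 0) (hQb : Q b = 0) (hau : B a u = 0) (hbu : B b u = 0)
    (h1 : ∃ v, B v u = 0 ∧ B v a ≠ 0) (h2 : ∃ v, B v u = 0 ∧ B v b ≠ 0)
    (h3 : B a b ≠ 0 → ∃ c, B c u = 0 ∧ B c a = 0 ∧ B c b = 0 ∧ Q c ≠ 0) :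
    ∃ w, B w u = 0 ∧ Q w = 0 ∧ B w a ≠ 0 ∧ B w b ≠ 0 := by
  obtain ⟨v₁, hv₁u, hv₁a⟩ := h1
  obtain ⟨v₂, hv₂u, hv₂b⟩ := h2
  obtain ⟨v, hvu, hva, hvb⟩ : ∃ v, B v u = 0 ∧ B v a ≠ 0 ∧ B v b ≠ 0 := by
    by_cases h4 : B v₁ b = 0
    · by_cases h5 : B v₂ a = 0
      · refine ⟨v₁ + v₂, ?_, ?_, ?_⟩
        · rw [B_add_left, hv₁u, hv₂u, add_zero]
        · rwa [B_add_left, h5, add_zero]
        · rwa [B_add_left, h4, zero_add]
      · exact ⟨v₂, hv₂u, h5, hv₂b⟩
    · exact ⟨v₁, hv₁u, hv₁a, h4⟩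
  have haa : B a a = 0 := by rw [B_self, hQa, mul_zero]
  have hbb : B b b = 0 := by rw [B_self, hQb, mul_zero]
  by_cases hab : B a b = 0
  · obtain ⟨l, hl⟩ : ∃ l, l = -(Q v) * (B v a)⁻¹ := ⟨_, rfl⟩
    have hl1 : l * B v a = -(Q v) := by
      rw [hl, inv_mul_cancel_right₀ hva]
    refine ⟨v + l • a, ?_, ?_, ?_, ?_⟩
    · rw [B_add_left, B_smul_left, hvu, hau]
      ring
    · rw [Q_add, Q_smul, hQa, B_smul_right, hl1]
      ring
    · rw [B_add_left, B_smul_left, haa, mul_zero, add_zero]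
      exact hva
    · rw [B_add_left, B_smul_left, hab, mul_zero, add_zero]
      exact hvb
  · obtain ⟨c, hcu, hca, hcb, hQc⟩ := h3 hab
    obtain ⟨t, ht⟩ : ∃ t, t = -(Q c) * (B a b)⁻¹ := ⟨_, rfl⟩
    have ht1 : t * B a b = -(Q c) := by
      rw [ht, inv_mul_cancel_right₀ hab]
    have hac : B a c = 0 := by rw [B_comm]; exact hca
    have hbc : B b c = 0 := by rw [B_comm]; exact hcb
    have hba : B b a = B a b := B_comm b a
    refine ⟨a + t • b + c, ?_, ?_, ?_, ?_⟩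
    · simp only [B_add_left, B_smul_left, hau, hbu, hcu]
      ring
    · rw [Q_add, Q_add, Q_smul, hQa, hQb]
      simp only [B_add_left, B_add_right, B_smul_left, B_smul_right, hac, hbc]
      linear_combination ht1
    · simp only [B_add_left, B_smul_left, haa, hba, hca]
      rw [ht1]
      simpa using hQc
    · simp only [B_add_left, B_smul_left, hbb, hcb]
      simpa using hab

theorem exists_c (hn : 3 ≤ n) {a b t₁ t₂ : Fin n ⊕ Fin n → F}
    (hproj : ∀ z, ∃ z', (B z' a = 0 ∧ B z' b = 0 ∧ B z' t₁ = 0 ∧ B z' t₂ = 0) ∧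
      ∀ c, B c a = 0 → B c b = 0 → B c t₁ = 0 → B c t₂ = 0 → B z' c = B z c) :
    ∃ c, B c a = 0 ∧ B c b = 0 ∧ B c t₁ = 0 ∧ B c t₂ = 0 ∧ Q c ≠ 0 := by
  obtain ⟨c₁, hc₁0, h1, h2, h3, h4⟩ := exists_perp4 hn a b t₁ t₂
  obtain ⟨z, hz⟩ := exists_B_one hc₁0
  obtain ⟨z', ⟨h5, h6, h7, h8⟩, h9⟩ := hproj z
  have h10 : B z' c₁ = 1 := by rw [h9 c₁ h1 h2 h3 h4, hz]
  by_cases hQ1 : Q c₁ = 0
  · by_cases hQ2 : Q z' = 0
    · refine ⟨z' + c₁, ?_, ?_, ?_, ?_, ?_⟩
      · rw [B_add_left, h5, h1, add_zero]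
      · rw [B_add_left, h6, h2, add_zero]
      · rw [B_add_left, h7, h3, add_zero]
      · rw [B_add_left, h8, h4, add_zero]
      · rw [Q_add, hQ1, hQ2, h10]
        simp
    · exact ⟨z', h5, h6, h7, h8, hQ2⟩
  · exact ⟨c₁, h1, h2, h3, h4, hQ1⟩

theorem avoid0 (hn : 3 ≤ n) {a b : Fin n ⊕ Fin n → F} (ha : a ≠ 0) (hb : b ≠ 0) (hQa : Q a = 0) (hQb : Q b = 0) :
    ∃ w, Q w = 0 ∧ B w a ≠ 0 ∧ B w b ≠ 0 := by
  have haa : B a a = 0 := by rw [B_self, hQa, mul_zero]
  have hbb : B b b = 0 := by rw [B_self, hQb, mul_zero]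
  obtain ⟨w, -, h1, h2, h3⟩ := avoid_core (u := 0) hQa hQb (B_zero_right a) (B_zero_right b)
    (by
      obtain ⟨v, hv⟩ := exists_B_one ha
      exact ⟨v, B_zero_right v, by rw [hv]; exact one_ne_zero⟩)
    (by
      obtain ⟨v, hv⟩ := exists_B_one hb
      exact ⟨v, B_zero_right v, by rw [hv]; exact one_ne_zero⟩)
    (fun hab => by
      have hba : B b a = B a b := B_comm b a
      obtain ⟨c, h1, h2, h3, -, h5⟩ := exists_c (t₁ := 0) (t₂ := 0) hn (a := a) (b := b) (fun z => by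
        refine ⟨z - (B z b * (B a b)⁻¹) • a - (B z a * (B a b)⁻¹) • b, ⟨?_, ?_, B_zero_right _, B_zero_right _⟩, ?_⟩
        · simp only [B_sub_left, B_smul_left, haa, hba]
          field_simp
          ring
        · simp only [B_sub_left, B_smul_left, hbb]
          field_simp
          ring
        · intro c h1 h2 _ _
          have h3 : B a c = 0 := by rw [B_comm]; exact h1
          have h4 : B b c = 0 := by rw [B_comm]; exact h2
          simp only [B_sub_left, B_smul_left, h3, h4]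
          ring)
      exact ⟨c, B_zero_right c, h1, h2, h5⟩)
  exact ⟨w, h1, h2, h3⟩

theorem avoid1 (hn : 3 ≤ n) {u a b : Fin n ⊕ Fin n → F} (hu : u ≠ 0) (hQu : Q u = 0) (hQa : Q a = 0) (hQb : Q b = 0)
    (hau : B a u = 0) (hbu : B b u = 0)
    (hia : ∀ s t : F, s • u + t • a = 0 → s = 0 ∧ t = 0) (hib : ∀ s t : F, s • u + t • b = 0 → s = 0 ∧ t = 0) :
    ∃ w, B w u = 0 ∧ Q w = 0 ∧ B w a ≠ 0 ∧ B w b ≠ 0 := by
  have haa : B a a = 0 := by rw [B_self, hQa, mul_zero]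
  have hbb : B b b = 0 := by rw [B_self, hQb, mul_zero]
  have huu : B u u = 0 := by rw [B_self, hQu, mul_zero]
  have hua : B u a = 0 := by rw [B_comm]; exact hau
  have hub : B u b = 0 := by rw [B_comm]; exact hbu
  refine avoid_core hQa hQb hau hbu ?_ ?_ ?_
  · obtain ⟨v, h1, h2⟩ := exists_dual hia
    exact ⟨v, h1, by rw [h2]; exact one_ne_zero⟩
  · obtain ⟨v, h1, h2⟩ := exists_dual hib
    exact ⟨v, h1, by rw [h2]; exact one_ne_zero⟩
  · intro hab
    have hba : B b a = B a b := B_comm b a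
    obtain ⟨u₀, hu₀⟩ := exists_B_one hu
    -- the projection to the perp of `a, b`
    have hP : ∀ z, B (z - (B z b * (B a b)⁻¹) • a - (B z a * (B a b)⁻¹) • b) a = 0 ∧
        B (z - (B z b * (B a b)⁻¹) • a - (B z a * (B a b)⁻¹) • b) b = 0 := by
      intro z
      constructor
      · simp only [B_sub_left, B_smul_left, haa, hba]
        field_simp
        ring
      · simp only [B_sub_left, B_smul_left, hbb]
        field_simp
        ring
    obtain ⟨u₁, hu₁⟩ : ∃ u₁, u₁ = u₀ - (B u₀ b * (B a b)⁻¹) • a - (B u₀ a * (B a b)⁻¹) • b := ⟨_, rfl⟩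
    have hu₁a : B u₁ a = 0 := by rw [hu₁]; exact (hP u₀).1
    have hu₁b : B u₁ b = 0 := by rw [hu₁]; exact (hP u₀).2
    have hu₁u : B u₁ u = 1 := by
      rw [hu₁]
      simp only [B_sub_left, B_smul_left, hau, hbu, hu₀]
      ring
    obtain ⟨us, hus⟩ : ∃ us, us = u₁ + (-(Q u₁)) • u := ⟨_, rfl⟩
    have husu : B us u = 1 := by
      rw [hus, B_add_left, B_smul_left, huu, hu₁u]
      ring
    have husa : B us a = 0 := by
      rw [hus, B_add_left, B_smul_left, hua, hu₁a]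
      ring
    have husb : B us b = 0 := by
      rw [hus, B_add_left, B_smul_left, hub, hu₁b]
      ring
    have husQ : Q us = 0 := by
      rw [hus, Q_add, Q_smul, hQu, B_smul_right, hu₁u]
      ring
    have husus : B us us = 0 := by rw [B_self, husQ, mul_zero]
    have huus : B u us = 1 := by rw [B_comm]; exact husu
    have haus : B a us = 0 := by rw [B_comm]; exact husa
    have hbus : B b us = 0 := by rw [B_comm]; exact husb
    obtain ⟨c, h1, h2, h3, -, h5⟩ := exists_c (t₁ := u) (t₂ := us) hn (a := a) (b := b) (fun z => by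
      obtain ⟨z₁, hz₁⟩ : ∃ z₁, z₁ = z - (B z b * (B a b)⁻¹) • a - (B z a * (B a b)⁻¹) • b := ⟨_, rfl⟩
      have hz₁a : B z₁ a = 0 := by rw [hz₁]; exact (hP z).1
      have hz₁b : B z₁ b = 0 := by rw [hz₁]; exact (hP z).2
      refine ⟨z₁ - B z₁ u • us - B z₁ us • u, ⟨?_, ?_, ?_, ?_⟩, ?_⟩
      · simp only [B_sub_left, B_smul_left, husa, hua, hz₁a]
        ring
      · simp only [B_sub_left, B_smul_left, husb, hub, hz₁b]
        ring
      · simp only [B_sub_left, B_smul_left, husu, huu]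
        ring
      · simp only [B_sub_left, B_smul_left, husus, huus]
        ring
      · intro c h1 h2 h3 h4
        have e1 : B a c = 0 := by rw [B_comm]; exact h1
        have e2 : B b c = 0 := by rw [B_comm]; exact h2
        have e3 : B u c = 0 := by rw [B_comm]; exact h3
        have e4 : B us c = 0 := by rw [B_comm]; exact h4
        simp only [B_sub_left, B_smul_left, e3, e4]
        rw [hz₁]
        simp only [B_sub_left, B_smul_left, e1, e2]
        ring)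
    exact ⟨c, h3, h1, h2, h5⟩

theorem Q_comb {p r : Fin n ⊕ Fin n → F} (h : Sing p r) (s t : F) : Q (s • p + t • r) = 0 := by
  have := Q_lin h (0 : Fin n ⊕ Fin n → F) s t
  simpa [Cfsg.quadFormPlus] using this

theorem exists_common (hn : 3 ≤ n) {p r p' r' : Fin n ⊕ Fin n → F} (h : Ln p r) (h' : Ln p' r') :
    ∃ u w, Ln u w ∧ B p u * B r w - B p w * B r u ≠ 0 ∧ B p' u * B r' w - B p' w * B r' u ≠ 0 := by
  obtain ⟨u, hQu, hup, hup'⟩ := avoid0 hn h.p_ne h'.p_ne h.hp h'.hp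
  have hu0 : u ≠ 0 := by
    rintro rfl
    exact hup (B_zero_left p)
  have key : ∀ {p r : Fin n ⊕ Fin n → F}, Ln p r → B u p ≠ 0 →
      Q (B u r • p + (-(B u p)) • r) = 0 ∧ B (B u r • p + (-(B u p)) • r) u = 0 ∧
      ∀ s t : F, s • u + t • (B u r • p + (-(B u p)) • r) = 0 → s = 0 ∧ t = 0 := by
    intro p r h hup
    refine ⟨Q_comb h.toSing _ _, ?_, ?_⟩
    · simp only [B_add_left, B_smul_left, B_comm p u, B_comm r u]
      ring
    · intro s t hst
      have h1 := congrArg (fun v => B v p) hst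
      simp only [B_add_left, B_smul_left, h.pp, h.rp, B_zero_left, mul_zero, add_zero] at h1
      have hs : s = 0 := by
        rcases mul_eq_zero.1 h1 with h2 | h2
        · exact h2
        · exact absurd h2 hup
      refine ⟨hs, ?_⟩
      rw [hs, zero_smul, zero_add] at hst
      rcases smul_eq_zero.1 hst with h2 | h2
      · exact h2
      · exact absurd (neg_eq_zero.1 (h.ind _ _ h2).2) hup
  obtain ⟨qa, bau, ia⟩ := key h hup
  obtain ⟨qb, bbu, ib⟩ := key h' hup'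
  obtain ⟨w, hwu, hQw, hwa, hwb⟩ := avoid1 hn hu0 hQu qa qb bau bbu ia ib
  have d1 : B p u * B r w - B p w * B r u ≠ 0 := by
    intro h0
    apply hwa
    simp only [B_add_right, B_smul_right, B_comm w p, B_comm w r, B_comm u r, B_comm u p]
    linear_combination -h0
  have d2 : B p' u * B r' w - B p' w * B r' u ≠ 0 := by
    intro h0
    apply hwb
    simp only [B_add_right, B_smul_right, B_comm w p', B_comm w r', B_comm u r', B_comm u p']
    linear_combination -h0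
  refine ⟨u, w, { hp := hQu, hr := hQw, hpr := by rw [B_comm]; exact hwu, ind := fun s t hst => ?_ }, d1, d2⟩
  have h1 := congrArg (fun v => B p v) hst
  have h2 := congrArg (fun v => B r v) hst
  simp only [B_add_right, B_smul_right, B_zero_right] at h1 h2
  constructor
  · have h3 : s * (B p u * B r w - B p w * B r u) = 0 := by
      linear_combination (B r w) * h1 - (B p w) * h2
    rcases mul_eq_zero.1 h3 with h4 | h4
    · exact h4
    · exact absurd h4 d1
  · have h3 : t * (B p u * B r w - B p w * B r u) = 0 := by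
      linear_combination (B p u) * h2 - (B r u) * h1
    rcases mul_eq_zero.1 h3 with h4 | h4
    · exact h4
    · exact absurd h4 d1

theorem ss_conn (hn : 3 ≤ n) : Cfsg.IsConnectedFamily (Cfsg.FAdj (SS F n)) (SS F n) := by
  rintro _ ⟨p, r, h1, h2, h3, h4, rfl⟩ _ ⟨p', r', h1', h2', h3', h4', rfl⟩
  have h := ln_of_mem h1 h2 h3 h4
  have h' := ln_of_mem h1' h2' h3' h4'
  obtain ⟨u, w, hL, d1, d2⟩ := exists_common hn h h'
  obtain ⟨y, w', e, hH⟩ := hyp_of_det h hL d1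
  obtain ⟨y', w'', e', hH'⟩ := hyp_of_det h' hL d2
  have r1 : Cfsg.IsRankOnePair (TT F n p r) (TT F n u w) := by
    rw [← e]
    exact hH.rankOne
  have r2 : Cfsg.IsRankOnePair (TT F n p' r') (TT F n u w) := by
    rw [← e']
    exact hH'.rankOne
  exact Relation.ReflTransGen.tail (Relation.ReflTransGen.single (b := TT F n u w)
    ⟨mem_SS h, mem_SS hL, r1⟩) ⟨mem_SS hL, mem_SS h', Cfsg.RankOnePair_symm r2⟩

end Cfsg.Agent.H24.Sg
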