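import Cfsg.Agent.Lib.H24.SgC

/-!
Siegel transvections: assembly.
-/

set_option autoImplicit false

namespace Cfsg.Agent.H24.RootSub

open Cfsg

variable {G : Type*} [Group G] {A B H : Subgroup G}

theorem commCase_up {S : Set (Subgroup G)} (hA : A ≤ Gen S) (hB : B ≤ Gen S)
    (h : RootCommutatorCase S A B) :
    RootCommutatorCase (Sub S) (A.subgroupOf (Gen S)) (B.subgroupOf (Gen S)) := by
  obtain ⟨h1, h2, h3, h4⟩ := h
  have hmap : ⁅A.subgroupOf (Gen S), B.subgroupOf (Gen S)⁆.map (Gen S).subtype = ⁅A, B⁆ := by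
    rw [Subgroup.map_commutator, map_sub hA, map_sub hB]
  have hsup : (A.subgroupOf (Gen S) ⊔ B.subgroupOf (Gen S)).map (Gen S).subtype = A ⊔ B := by
    rw [Subgroup.map_sup, map_sub hA, map_sub hB]
  refine ⟨?_, ?_, ?_, ?_⟩
  · refine ⟨⁅A, B⁆, h1, ?_⟩
    apply Subgroup.map_injective (Gen S).subtype_injective
    rw [hmap]
    exact map_sub (le_gen h1)
  · intro c hc x hx
    apply Subtype.ext
    have hc' : (c : G) ∈ ⁅A, B⁆ := hmap ▸ (⟨c, hc, rfl⟩ : (c : G) ∈ ⁅A.subgroupOf (Gen S), B.subgroupOf (Gen S)⁆.map (Gen S).subtype)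
    have hx' : (x : G) ∈ A ⊔ B := hsup ▸ (⟨x, hx, rfl⟩ : (x : G) ∈ (A.subgroupOf (Gen S) ⊔ B.subgroupOf (Gen S)).map (Gen S).subtype)
    exact h2 _ hc' _ hx'
  · intro a ha ha1
    apply Subgroup.map_injective (Gen S).subtype_injective
    rw [hmap, MonoidHom.map_closure, ← h3 a.1 (Subgroup.mem_subgroupOf.1 ha) (fun h' => ha1 (Subtype.ext h'))]
    congr 1
    ext t
    constructor
    · rintro ⟨_, ⟨b, hb, rfl⟩, rfl⟩
      exact ⟨b.1, Subgroup.mem_subgroupOf.1 hb, rfl⟩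
    · rintro ⟨b, hb, rfl⟩
      exact ⟨_, ⟨⟨b, hB hb⟩, Subgroup.mem_subgroupOf.2 hb, rfl⟩, rfl⟩
  · intro b hb hb1
    apply Subgroup.map_injective (Gen S).subtype_injective
    rw [hmap, MonoidHom.map_closure, ← h4 b.1 (Subgroup.mem_subgroupOf.1 hb) (fun h' => hb1 (Subtype.ext h'))]
    congr 1
    ext t
    constructor
    · rintro ⟨_, ⟨a, ha, rfl⟩, rfl⟩
      exact ⟨a.1, Subgroup.mem_subgroupOf.1 ha, rfl⟩
    · rintro ⟨a, ha, rfl⟩
      exact ⟨_, ⟨⟨a, hA ha⟩, Subgroup.mem_subgroupOf.2 ha, rfl⟩, rfl⟩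

variable {S : Set (Subgroup G)}

theorem isRootSet' (hcomm : ∀ A ∈ S, ∀ a ∈ A, ∀ b ∈ A, a * b = b * a) (hne : ∀ A ∈ S, A ≠ ⊥)
    (hconj : ∀ A ∈ S, ∀ g : G, conjBy A g ∈ S)
    (hpair : ∀ A ∈ S, ∀ B ∈ S, ⁅A, B⁆ = ⊥ ∨ IsRankOnePair A B ∨ RootCommutatorCase S A B) :
    IsRootSubgroupSet (Sub S) where
  commutative := by
    rintro _ ⟨A, hA, rfl⟩
    exact ⟨⟨fun a b => Subtype.ext (Subtype.ext (hcomm A hA a.1.1 (Subgroup.mem_subgroupOf.1 a.2) b.1.1 (Subgroup.mem_subgroupOf.1 b.2)))⟩⟩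
  ne_bot := by
    rintro _ ⟨A, hA, rfl⟩ h
    apply hne A hA
    have h1 := map_sub (le_gen hA)
    rw [← h1]
    change (A.subgroupOf (Gen S)).map _ = ⊥
    rw [show A.subgroupOf (Gen S) = ⊥ from h, Subgroup.map_bot]
  generates := gen_top
  conj_mem := by
    rintro _ ⟨A, hA, rfl⟩ g
    refine ⟨conjBy A g.1, hconj A hA g.1, ?_⟩
    exact (conj_sub g).symm
  pair := by
    rintro _ ⟨A, hA, rfl⟩ _ ⟨B, hB, rfl⟩
    rcases hpair A hA B hB with h | h | h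
    · exact Or.inl (comm_down (le_gen hA) (le_gen hB) h)
    · exact Or.inr (Or.inl ⟨fun he => h.ne (sub_inj (le_gen hA) (le_gen hB) he),
        nilpotent_sub (hcomm A hA), nilpotent_sub (hcomm B hB),
        rankCond_down (le_gen hB) h.cond_left, rankCond_down (le_gen hA) h.cond_right⟩)
    · exact Or.inr (Or.inr (commCase_up (le_gen hA) (le_gen hB) h))

end Cfsg.Agent.H24.RootSub

namespace Cfsg.Agent.H24.Sg

variable {F : Type*} [Field F] {n : ℕ}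

/-- The main theorem. -/
theorem main (hn : 3 ≤ n) :
    Cfsg.IsKRootSubgroupSet F (Cfsg.Agent.H24.RootSub.Sub (SS F n)) ∧
      Cfsg.IsConnectedFamily (Cfsg.FAdj (SS F n)) (SS F n) :=
  ⟨Cfsg.Agent.H24.RootSub.isKRoot F ss_comm
    (Cfsg.Agent.H24.RootSub.isRootSet' ss_comm ss_ne ss_conj ss_pair) ss_psl, ss_conn hn⟩

end Cfsg.Agent.H24.Sg
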