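import Mathlib

/-!
Chevalley–Warning for quadratic maps of elementary abelian 2-groups.
-/

set_option autoImplicit false

namespace Cfsg.Agent.H24.Suz

open MvPolynomial

section Chev

variable {d : ℕ}

/-- The truncation of a vector to the coordinates in `t`. -/
def trunc (t : Finset (Fin d)) (x : Fin d → ZMod 2) : Fin d → ZMod 2 :=
  fun j => if j ∈ t then x j else 0

theorem trunc_empty (x : Fin d → ZMod 2) : trunc ∅ x = 0 := by
  ext j
  simp [trunc]

theorem trunc_univ (x : Fin d → ZMod 2) : trunc Finset.univ x = x := by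
  ext j
  simp [trunc]

theorem trunc_insert (a : Fin d) (t : Finset (Fin d)) (ha : a ∉ t) (x : Fin d → ZMod 2) :
    trunc (insert a t) x = trunc t x + Pi.single a (x a) := by
  ext j
  by_cases hj : j = a
  · subst hj
    simp [trunc, ha]
  · simp [trunc, Finset.mem_insert, hj, Pi.single_apply]

theorem exists_poly (g : (Fin d → ZMod 2) → ZMod 2)
    (b : (Fin d → ZMod 2) → (Fin d → ZMod 2) → ZMod 2)
    (hb1 : ∀ x x' y, b (x + x') y = b x y + b x' y) (hb2 : ∀ x y y', b x (y + y') = b x y + b x y')
    (hg : ∀ x y, g (x + y) = g x + g y + b x y) :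
    ∃ P : MvPolynomial (Fin d) (ZMod 2), P.totalDegree ≤ 2 ∧ ∀ x, eval x P = g x := by
  have hb00 : ∀ y, b 0 y = 0 := by
    intro y
    have := hb1 0 0 y
    rw [add_zero] at this
    simpa using this
  have hb00' : ∀ x, b x 0 = 0 := by
    intro x
    have := hb2 x 0 0
    rw [add_zero] at this
    simpa using this
  have hg0 : g 0 = 0 := by
    have := hg 0 0
    rw [add_zero, hb00, add_zero] at this
    simpa using this
  let e : Fin d → Fin d → ZMod 2 := fun a => Pi.single a 1
  have h01 : ∀ c : ZMod 2, c = 0 ∨ c = 1 := by decide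
  have hsingle : ∀ (a : Fin d) (c : ZMod 2), g (Pi.single a c) = c * g (e a) := by
    intro a c
    rcases h01 c with rfl | rfl
    · simp [hg0]
    · simp [e]
  have hsb1 : ∀ (a : Fin d) (c : ZMod 2) (y), b (Pi.single a c) y = c * b (e a) y := by
    intro a c y
    rcases h01 c with rfl | rfl
    · simp [hb00]
    · simp [e]
  have hsb2 : ∀ (a : Fin d) (c : ZMod 2) (y), b y (Pi.single a c) = c * b y (e a) := by
    intro a c y
    rcases h01 c with rfl | rfl
    · simp [hb00']
    · simp [e]
  have hbtrunc : ∀ (t : Finset (Fin d)) (x y), b (trunc t x) y = ∑ j ∈ t, x j * b (e j) y := by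
    intro t x y
    induction t using Finset.induction_on with
    | empty => simp [trunc_empty, hb00]
    | insert a t ha ih =>
      rw [trunc_insert a t ha, hb1, ih, hsb1, Finset.sum_insert ha, add_comm]
  have hmain : ∀ t : Finset (Fin d), ∃ P : MvPolynomial (Fin d) (ZMod 2), P.totalDegree ≤ 2 ∧
      ∀ x, eval x P = g (trunc t x) := by
    intro t
    induction t using Finset.induction_on with
    | empty =>
      refine ⟨0, by simp, fun x => ?_⟩
      simp [trunc_empty, hg0]
    | insert a t ha ih =>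
      obtain ⟨P, hP1, hP2⟩ := ih
      refine ⟨P + C (g (e a)) * X a + ∑ j ∈ t, C (b (e j) (e a)) * X j * X a, ?_, fun x => ?_⟩
      · refine (totalDegree_add _ _).trans (max_le ((totalDegree_add _ _).trans (max_le hP1 ?_)) ?_)
        · refine (totalDegree_mul _ _).trans ?_
          rw [totalDegree_C, totalDegree_X]
          omega
        · refine (totalDegree_finsetSum _ _).trans (Finset.sup_le fun j _ => ?_)
          refine (totalDegree_mul _ _).trans ?_
          have h1 : (C (b (e j) (e a)) * X j : MvPolynomial (Fin d) (ZMod 2)).totalDegree ≤ 1 := by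
            refine (totalDegree_mul _ _).trans ?_
            rw [totalDegree_C, totalDegree_X]
          rw [totalDegree_X]
          omega
      · rw [trunc_insert a t ha, hg, hsingle a (x a), hsb2 a (x a), hbtrunc, ← hP2]
        simp only [map_add, map_mul, eval_C, eval_X, map_sum]
        rw [Finset.mul_sum]
        congr 1
        · ring
        · exact Finset.sum_congr rfl fun j _ => by ring
  obtain ⟨P, hP1, hP2⟩ := hmain Finset.univ
  refine ⟨P, hP1, fun x => ?_⟩
  rw [hP2, trunc_univ]

theorem chev_coord {n : ℕ} (hd : 2 * n < d) (s : (Fin d → ZMod 2) → (Fin n → ZMod 2))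
    (B : (Fin d → ZMod 2) → (Fin d → ZMod 2) → (Fin n → ZMod 2))
    (hB1 : ∀ x x' y, B (x + x') y = B x y + B x' y) (hB2 : ∀ x y y', B x (y + y') = B x y + B x y')
    (hs : ∀ x y, s (x + y) = s x + s y + B x y) : ∃ x, x ≠ 0 ∧ s x = 0 := by
  have : Fact (Nat.Prime 2) := ⟨Nat.prime_two⟩
  have hpoly := fun k : Fin n => exists_poly (fun x => s x k) (fun x y => B x y k)
    (fun x x' y => by simp [hB1]) (fun x y y' => by simp [hB2]) (fun x y => by simp [hs])
  choose f hf1 hf2 using hpoly
  have hsum : (∑ k, (f k).totalDegree) < Fintype.card (Fin d) := by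
    rw [Fintype.card_fin]
    calc (∑ k, (f k).totalDegree) ≤ ∑ _k : Fin n, 2 := Finset.sum_le_sum fun k _ => hf1 k
      _ = 2 * n := by simp [mul_comm]
      _ < d := hd
  have hdvd : 2 ∣ Fintype.card { x : Fin d → ZMod 2 // ∀ k, eval x (f k) = 0 } := by
    convert char_dvd_card_solutions_of_fintype_sum_lt 2 hsum
  have h0s : s 0 = 0 := by
    have hB0 : B 0 0 = 0 := by
      have := hB1 0 0 0
      rw [add_zero] at this
      simpa using this
    have := hs 0 0
    rw [add_zero, hB0, add_zero] at this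
    simpa using this
  have h0 : ∀ k, eval (0 : Fin d → ZMod 2) (f k) = 0 := by
    intro k
    rw [hf2, h0s]
    rfl
  have hpos : 0 < Fintype.card { x : Fin d → ZMod 2 // ∀ k, eval x (f k) = 0 } :=
    Fintype.card_pos_iff.mpr ⟨⟨0, h0⟩⟩
  have hlt : 1 < Fintype.card { x : Fin d → ZMod 2 // ∀ k, eval x (f k) = 0 } := by
    have := Nat.le_of_dvd hpos hdvd
    omega
  obtain ⟨x, hx⟩ := Fintype.exists_ne_of_one_lt_card hlt ⟨0, h0⟩
  refine ⟨x.1, fun h => hx (Subtype.ext h), ?_⟩
  ext k
  have := x.2 k
  rw [hf2] at this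
  exact this

end Chev

theorem chev_abs {A W : Type*} [AddCommGroup A] [AddCommGroup W] [Finite A] [Finite W]
    (hA : ∀ a : A, a + a = 0) (hW : ∀ w : W, w + w = 0) (s : A → W) (B : A → A → W)
    (hB1 : ∀ x x' y, B (x + x') y = B x y + B x' y) (hB2 : ∀ x y y', B x (y + y') = B x y + B x y')
    (hs : ∀ x y, s (x + y) = s x + s y + B x y) (hs0 : ∀ x, s x = 0 → x = 0) :
    ∃ d n : ℕ, Nat.card A = 2 ^ d ∧ Nat.card W = 2 ^ n ∧ d ≤ 2 * n := by
  have : Fact (Nat.Prime 2) := ⟨Nat.prime_two⟩
  let mA : Module (ZMod 2) A := AddCommGroup.zmodModule (fun x => by rw [two_nsmul]; exact hA x)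
  let mW : Module (ZMod 2) W := AddCommGroup.zmodModule (fun x => by rw [two_nsmul]; exact hW x)
  have fA : Module.Finite (ZMod 2) A := Module.Finite.of_finite
  have fW : Module.Finite (ZMod 2) W := Module.Finite.of_finite
  let eA := (Module.finBasis (ZMod 2) A).equivFun
  let eW := (Module.finBasis (ZMod 2) W).equivFun
  obtain ⟨d, hd⟩ : ∃ d, d = Module.finrank (ZMod 2) A := ⟨_, rfl⟩
  obtain ⟨n, hn⟩ : ∃ n, n = Module.finrank (ZMod 2) W := ⟨_, rfl⟩
  refine ⟨Module.finrank (ZMod 2) A, Module.finrank (ZMod 2) W, ?_, ?_, ?_⟩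
  · rw [Nat.card_congr eA.toEquiv, Nat.card_eq_fintype_card, Fintype.card_fun, ZMod.card, Fintype.card_fin]
  · rw [Nat.card_congr eW.toEquiv, Nat.card_eq_fintype_card, Fintype.card_fun, ZMod.card, Fintype.card_fin]
  · by_contra hcon
    push Not at hcon
    obtain ⟨x, hx, hx0⟩ := chev_coord hcon (fun x => eW (s (eA.symm x)))
      (fun x y => eW (B (eA.symm x) (eA.symm y)))
      (fun x x' y => by simp [hB1]) (fun x y y' => by simp [hB2])
      (fun x y => by simp [hs])
    apply hx
    have h1 : s (eA.symm x) = 0 := by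
      apply eW.injective
      rw [map_zero]
      exact hx0
    have h2 := hs0 _ h1
    have h3 := congrArg eA h2
    simpa using h3

end Cfsg.Agent.H24.Suz
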