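import Cfsg.Agent.Lib.H24.RootSub
import Cfsg.Agent.Lib.H29.RootSL
import Cfsg.Agent.Lib.H12.UTrans
import Cfsg.Agent.Lib.H28.Subfield

/-!
The groups of unitary transvections of `SU_n(q)`.
-/

set_option autoImplicit false

namespace Cfsg.Agent.H24.USU

open Matrix Cfsg.Agent.Lead Cfsg.Agent.H29.RootSL
open scoped MatrixGroups

variable {F : Type*} [Field F] [Fintype F] {q n : ℕ}

local notation "herm" => Cfsg.hermForm n F q

/-- The action on vectors. -/
def act (g : Cfsg.SU n F q) (v : Fin n → F) : Fin n → F :=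
  ((g : SpecialLinearGroup (Fin n) F) : Matrix (Fin n) (Fin n) F) *ᵥ v

theorem act_mul (g h : Cfsg.SU n F q) (v : Fin n → F) : act (g * h) v = act g (act h v) := by
  simp only [act, Matrix.mulVec_mulVec]
  rfl

theorem act_one (v : Fin n → F) : act (1 : Cfsg.SU n F q) v = v := Matrix.one_mulVec v

theorem act_add (g : Cfsg.SU n F q) (x y : Fin n → F) : act g (x + y) = act g x + act g y := Matrix.mulVec_add _ _ _

theorem act_smul (g : Cfsg.SU n F q) (a : F) (x : Fin n → F) : act g (a • x) = a • act g x := Matrix.mulVec_smul _ _ _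

theorem act_zero (g : Cfsg.SU n F q) : act g 0 = 0 := Matrix.mulVec_zero _

theorem act_herm (g : Cfsg.SU n F q) (x y : Fin n → F) : herm (act g x) (act g y) = herm x y := g.2 x y

theorem act_inv_act (g : Cfsg.SU n F q) (v : Fin n → F) : act g⁻¹ (act g v) = v := by
  rw [← act_mul, inv_mul_cancel, act_one]

theorem act_act_inv (g : Cfsg.SU n F q) (v : Fin n → F) : act g (act g⁻¹ v) = v := by
  rw [← act_mul, mul_inv_cancel, act_one]

theorem act_ne_zero (g : Cfsg.SU n F q) {p : Fin n → F} (hp : p ≠ 0) : act g p ≠ 0 := fun h =>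
  hp (by rw [← act_inv_act g p, h, act_zero])

theorem mat_ext {M N : Matrix (Fin n) (Fin n) F} (h : ∀ x, M *ᵥ x = N *ᵥ x) : M = N := by
  classical
  ext i j
  have := congrFun (h (Pi.single j 1)) i
  simpa using this

theorem su_ext {g h : Cfsg.SU n F q} (H : ∀ v, act g v = act h v) : g = h :=
  Subtype.ext (Subtype.ext (mat_ext H))

/-- The group of unitary transvections with centre `p`. -/
def TT (F : Type*) [Field F] (q n : ℕ) (p : Fin n → F) : Subgroup ↥(Cfsg.SU n F q) :=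
  Subgroup.closure {g : ↥(Cfsg.SU n F q) |
    (∀ v : Fin n → F, ∃ c : F, ((g : Matrix.SpecialLinearGroup (Fin n) F) : Matrix (Fin n) (Fin n) F) *ᵥ v = v + c • p) ∧
    ∀ v : Fin n → F, Cfsg.hermForm n F q v p = 0 →
      ((g : Matrix.SpecialLinearGroup (Fin n) F) : Matrix (Fin n) (Fin n) F) *ᵥ v = v}

/-- The family of these groups. -/
def SS (F : Type*) [Field F] (q n : ℕ) : Set (Subgroup ↥(Cfsg.SU n F q)) :=
  {A | ∃ p : Fin n → F, p ≠ 0 ∧ Cfsg.hermForm n F q p p = 0 ∧ A = TT F q n p}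

variable (hF : Fintype.card F = q ^ 2)
include hF

theorem q_ne : q ≠ 0 := by
  have := two_le_q hF
  omega

theorem q_add (a b : F) : (a + b) ^ q = a ^ q + b ^ q := by
  obtain ⟨φ, hφ⟩ := exists_frob hF
  simp only [← hφ, map_add]

theorem q_neg (a : F) : (-a) ^ q = -(a ^ q) := by
  obtain ⟨φ, hφ⟩ := exists_frob hF
  simp only [← hφ, map_neg]

theorem act_uT (p : Fin n → F) (c : F) (hi : herm p p = 0) (hc : c ^ q + c = 0) (x : Fin n → F) :
    act (uT hF p c hi hc) x = x + (c * herm x p) • p := uTmat_mulVec p c x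

theorem exists_eps : ∃ ε : F, ε ≠ 0 ∧ ε ^ q + ε = 0 := by
  obtain ⟨w, hw⟩ := exists_not_fixed hF
  refine ⟨w ^ q - w, sub_ne_zero.2 hw, ?_⟩
  obtain ⟨φ, hφ⟩ := exists_frob hF
  rw [← hφ, map_sub, hφ, hφ, pow_q_sq hF]
  ring

omit hF in
theorem exists_herm_one (hq : q ≠ 0) {p : Fin n → F} (hp : p ≠ 0) : ∃ w, herm w p = 1 := by
  classical
  obtain ⟨i, hi⟩ := Function.ne_iff.1 hp
  refine ⟨((p i) ^ q)⁻¹ • Pi.single i 1, ?_⟩
  rw [herm_smul_left]
  have h1 : herm (Pi.single i 1) p = (p i) ^ q := by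
    simp [Cfsg.hermForm, Pi.single_apply]
  rw [h1, inv_mul_cancel₀ (pow_ne_zero q hi)]

theorem uT_zero (p : Fin n → F) (hi : herm p p = 0) (h0 : (0 : F) ^ q + 0 = 0) : uT hF p 0 hi h0 = 1 :=
  su_ext fun v => by
    rw [act_uT, act_one]
    simp

theorem uT_mul (p : Fin n → F) (c d : F) (hi : herm p p = 0) (hc : c ^ q + c = 0) (hd : d ^ q + d = 0)
    (hcd : (c + d) ^ q + (c + d) = 0) : uT hF p c hi hc * uT hF p d hi hd = uT hF p (c + d) hi hcd :=
  su_ext fun v => by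
    rw [act_mul, act_uT, act_uT, act_uT, herm_add_left, herm_smul_left, hi]
    simp only [mul_zero, add_zero]
    module

theorem uT_inv (p : Fin n → F) (c : F) (hi : herm p p = 0) (hc : c ^ q + c = 0) (hc' : (-c) ^ q + -c = 0) :
    (uT hF p c hi hc)⁻¹ = uT hF p (-c) hi hc' := by
  apply inv_eq_of_mul_eq_one_right
  refine su_ext fun v => ?_
  rw [act_mul, act_uT, act_uT, act_one, herm_add_left, herm_smul_left, hi]
  simp only [mul_zero, add_zero]
  module

theorem neg_ok {c : F} (hc : c ^ q + c = 0) : (-c) ^ q + -c = 0 := by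
  rw [q_neg hF]
  linear_combination -hc

theorem mem_TT {p : Fin n → F} (hp : p ≠ 0) (hi : herm p p = 0) {x : Cfsg.SU n F q} :
    x ∈ TT F q n p ↔ ∃ (c : F) (hc : c ^ q + c = 0), x = uT hF p c hi hc := by
  have hq0 := q_ne hF
  constructor
  · intro hx
    induction hx using Subgroup.closure_induction with
    | mem g hg =>
      obtain ⟨h1, h2⟩ := hg
      obtain ⟨w, hw⟩ := exists_herm_one hq0 hp
      obtain ⟨c, hc⟩ := h1 w
      have hpw : herm p w = 1 := by rw [herm_conj hF w p, hw, one_pow]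
      have h4 : act g w = w + c • p := hc
      have hcq : c ^ q + c = 0 := by
        have h3 := act_herm g w w
        rw [h4] at h3
        simp only [herm_add_left, herm_add_right hF, herm_smul_left, herm_smul_right hF, hw, hpw, hi] at h3
        linear_combination h3
      refine ⟨c, hcq, su_ext fun v => ?_⟩
      rw [act_uT]
      have h5 : herm (v - herm v p • w) p = 0 := by
        rw [sub_eq_add_neg, herm_add_left, ← neg_smul, herm_smul_left, hw]
        ring
      have h6 : act g (v - herm v p • w) = v - herm v p • w := h2 _ h5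
      calc act g v = act g ((v - herm v p • w) + herm v p • w) := by rw [sub_add_cancel]
        _ = (v - herm v p • w) + herm v p • (w + c • p) := by rw [act_add, act_smul, h6, h4]
        _ = v + (c * herm v p) • p := by module
    | one => exact ⟨0, by simp [hq0], (uT_zero hF p hi _).symm⟩
    | mul x y _ _ hx hy =>
      obtain ⟨c, hc, rfl⟩ := hx
      obtain ⟨d, hd, rfl⟩ := hy
      have hcd : (c + d) ^ q + (c + d) = 0 := by
        rw [q_add hF]
        linear_combination hc + hd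
      exact ⟨c + d, hcd, uT_mul hF p c d hi hc hd hcd⟩
    | inv x _ hx =>
      obtain ⟨c, hc, rfl⟩ := hx
      exact ⟨-c, neg_ok hF hc, uT_inv hF p c hi hc _⟩
  · rintro ⟨c, hc, rfl⟩
    refine Subgroup.subset_closure ⟨fun v => ⟨c * herm v p, uTmat_mulVec p c v⟩, fun v hv => ?_⟩
    show act _ v = v
    rw [act_uT, hv]
    simp

theorem uT_mem {p : Fin n → F} (hp : p ≠ 0) (hi : herm p p = 0) {c : F} (hc : c ^ q + c = 0) :
    uT hF p c hi hc ∈ TT F q n p := (mem_TT hF hp hi).2 ⟨c, hc, rfl⟩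

theorem uT_ne_one {p : Fin n → F} (hp : p ≠ 0) (hi : herm p p = 0) {c : F} (hc : c ^ q + c = 0) (hc0 : c ≠ 0) :
    uT hF p c hi hc ≠ 1 := by
  intro h
  obtain ⟨w, hw⟩ := exists_herm_one (q_ne hF) hp
  have h1 := act_uT hF p c hi hc w
  rw [h, act_one, hw, mul_one] at h1
  have h2 : c • p = 0 := by simpa using h1.symm
  rcases smul_eq_zero.1 h2 with h3 | h3
  · exact hc0 h3
  · exact hp h3

theorem conj_uT (g : Cfsg.SU n F q) {p : Fin n → F} (c : F) (hi : herm p p = 0) (hc : c ^ q + c = 0)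
    (hi' : herm (act g p) (act g p) = 0) :
    g * uT hF p c hi hc * g⁻¹ = uT hF (act g p) c hi' hc :=
  su_ext fun v => by
    rw [act_mul, act_mul, act_uT, act_uT, act_add, act_smul, act_act_inv]
    have h1 : herm (act g⁻¹ v) p = herm v (act g p) := by
      rw [← act_herm g (act g⁻¹ v) p, act_act_inv]
    rw [h1]

theorem conjBy_TT {p : Fin n → F} (hp : p ≠ 0) (hi : herm p p = 0) (g : Cfsg.SU n F q) :
    Cfsg.conjBy (TT F q n p) g = TT F q n (act g p) := by
  have hi' : herm (act g p) (act g p) = 0 := by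
    rw [act_herm]
    exact hi
  ext x
  rw [mem_TT hF (act_ne_zero g hp) hi']
  constructor
  · rintro ⟨y, hy, rfl⟩
    obtain ⟨c, hc, rfl⟩ := (mem_TT hF hp hi).1 hy
    exact ⟨c, hc, conj_uT hF g c hi hc hi'⟩
  · rintro ⟨c, hc, rfl⟩
    exact ⟨uT hF p c hi hc, uT_mem hF hp hi hc, conj_uT hF g c hi hc hi'⟩

theorem TT_smul {p : Fin n → F} (hp : p ≠ 0) (hi : herm p p = 0) {a : F} (ha : a ≠ 0) :
    TT F q n (a • p) = TT F q n p := by
  have hi' : herm (a • p) (a • p) = 0 := by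
    simp only [herm_smul_left, herm_smul_right hF, hi, mul_zero]
  have hap : a • p ≠ 0 := smul_ne_zero ha hp
  have hN : a * a ^ q ≠ 0 := mul_ne_zero ha (pow_ne_zero q ha)
  ext x
  rw [mem_TT hF hap hi', mem_TT hF hp hi]
  constructor
  · rintro ⟨c, hc, rfl⟩
    have h1 : (c * (a * a ^ q)) ^ q + c * (a * a ^ q) = 0 := by
      rw [mul_pow, mul_pow, pow_q_sq hF]
      linear_combination (a * a ^ q) * hc
    refine ⟨c * (a * a ^ q), h1, su_ext fun v => ?_⟩
    rw [act_uT, act_uT, herm_smul_right hF]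
    module
  · rintro ⟨c, hc, rfl⟩
    have h1 : (c * (a * a ^ q)⁻¹) ^ q + c * (a * a ^ q)⁻¹ = 0 := by
      rw [mul_pow, inv_pow, mul_pow, pow_q_sq hF, mul_comm (a ^ q) a]
      linear_combination (a * a ^ q)⁻¹ * hc
    refine ⟨c * (a * a ^ q)⁻¹, h1, su_ext fun v => ?_⟩
    rw [act_uT, act_uT, herm_smul_right hF, smul_smul]
    congr 2
    field_simp

theorem uT_comm {p r : Fin n → F} (hip : herm p p = 0) (hir : herm r r = 0) (h : herm p r = 0) {c d : F}
    (hc : c ^ q + c = 0) (hd : d ^ q + d = 0) :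
    uT hF p c hip hc * uT hF r d hir hd = uT hF r d hir hd * uT hF p c hip hc :=
  su_ext fun v => by
    have h' : herm r p = 0 := by
      rw [herm_conj hF p r, h, zero_pow (q_ne hF)]
    simp only [act_mul, act_uT, herm_add_left, herm_smul_left, h, h', mul_zero, add_zero]
    module

theorem TT_comm {p : Fin n → F} (hp : p ≠ 0) (hi : herm p p = 0) {a b : Cfsg.SU n F q}
    (ha : a ∈ TT F q n p) (hb : b ∈ TT F q n p) : a * b = b * a := by
  obtain ⟨x, hx, rfl⟩ := (mem_TT hF hp hi).1 ha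
  obtain ⟨y, hy, rfl⟩ := (mem_TT hF hp hi).1 hb
  exact uT_comm hF hi hi hi hx hy

theorem TT_perp_comm {p r : Fin n → F} (hp : p ≠ 0) (hr : r ≠ 0) (hip : herm p p = 0) (hir : herm r r = 0)
    (h : herm p r = 0) : ⁅TT F q n p, TT F q n r⁆ = ⊥ := by
  rw [Subgroup.commutator_eq_bot_iff_le_centralizer]
  intro a ha
  obtain ⟨x, hx, rfl⟩ := (mem_TT hF hp hip).1 ha
  rw [Subgroup.mem_centralizer_iff]
  intro b hb
  obtain ⟨y, hy, rfl⟩ := (mem_TT hF hr hir).1 hb
  have h' : herm r p = 0 := by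
    rw [herm_conj hF p r, h, zero_pow (q_ne hF)]
  exact uT_comm hF hir hip h' hy hx

theorem rank_cond {p r : Fin n → F} (hp : p ≠ 0) (hr : r ≠ 0) (hip : herm p p = 0) (hir : herm r r = 0)
    (h : herm p r ≠ 0) : Cfsg.RankOneCondition (TT F q n p) (TT F q n r) := by
  intro a ha ha1
  obtain ⟨c, hc, rfl⟩ := (mem_TT hF hp hip).1 ha
  have hq0 := q_ne hF
  have hc0 : c ≠ 0 := by
    rintro rfl
    exact ha1 (uT_zero hF p hip _)
  obtain ⟨α, hα⟩ : ∃ α, α = herm p r := ⟨_, rfl⟩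
  have hα0 : α ≠ 0 := hα ▸ h
  have hα' : herm r p = α ^ q := by rw [hα]; exact herm_conj hF p r
  have hαq : α ^ q ≠ 0 := pow_ne_zero q hα0
  have hcq : c ^ q = -c := by linear_combination hc
  obtain ⟨d, hdd⟩ : ∃ d, d = (c * (α * α ^ q))⁻¹ := ⟨_, rfl⟩
  have hd0 : d ≠ 0 := by
    rw [hdd]
    exact inv_ne_zero (mul_ne_zero hc0 (mul_ne_zero hα0 hαq))
  have hd : d ^ q + d = 0 := by
    rw [hdd, inv_pow, mul_pow, mul_pow, pow_q_sq hF, hcq, mul_comm (α ^ q) α]
    have h5 : c * (α * α ^ q) ≠ 0 := mul_ne_zero hc0 (mul_ne_zero hα0 hαq)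
    field_simp
    ring
  refine ⟨uT hF r d hir hd, uT_mem hF hr hir hd, uT_ne_one hF hr hir hd hd0, ?_⟩
  obtain ⟨κ, hκd⟩ : ∃ κ, κ = -c * α ^ q := ⟨_, rfl⟩
  have hκ : κ ≠ 0 := by
    rw [hκd]
    exact mul_ne_zero (neg_ne_zero.2 hc0) hαq
  have hkey : κ * (-d * α) = 1 := by
    rw [hκd, hdd]
    field_simp
  rw [conjBy_TT hF hp hip, conjBy_TT hF hr hir]
  have e1 : act (uT hF p c hip hc)⁻¹ r = κ • act (uT hF r d hir hd)⁻¹ p := by
    rw [uT_inv hF p c hip hc (neg_ok hF hc), uT_inv hF r d hir hd (neg_ok hF hd), act_uT, act_uT, hα', ← hα,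
      smul_add, smul_smul, hkey, one_smul, add_comm, hκd]
  rw [e1]
  exact (TT_smul hF (act_ne_zero _ hp) (by rw [act_herm]; exact hip) hκ).symm

theorem TT_ne {p r : Fin n → F} (hp : p ≠ 0) (hr : r ≠ 0) (hip : herm p p = 0) (hir : herm r r = 0)
    (h : herm p r ≠ 0) : TT F q n p ≠ TT F q n r := by
  intro he
  obtain ⟨ε, hε0, hε⟩ := exists_eps hF
  have h1 : uT hF p ε hip hε ∈ TT F q n r := he ▸ uT_mem hF hp hip hε
  obtain ⟨c, hc, hu⟩ := (mem_TT hF hr hir).1 h1
  have h2 := congrArg (fun g => act g r) hu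
  simp only [act_uT, hir, mul_zero, zero_smul, add_zero] at h2
  have h3 : (ε * herm r p) • p = 0 := by simpa using h2
  rcases smul_eq_zero.1 h3 with h4 | h4
  · rcases mul_eq_zero.1 h4 with h5 | h5
    · exact hε0 h5
    · rw [herm_conj hF p r] at h5
      exact h (eq_zero_of_pow_eq_zero h5)
  · exact hp h4

theorem rankOne_TT {p r : Fin n → F} (hp : p ≠ 0) (hr : r ≠ 0) (hip : herm p p = 0) (hir : herm r r = 0)
    (h : herm p r ≠ 0) : Cfsg.IsRankOnePair (TT F q n p) (TT F q n r) := by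
  have h' : herm r p ≠ 0 := by
    rw [herm_conj hF p r]
    exact pow_ne_zero q h
  exact ⟨TT_ne hF hp hr hip hir h,
    Cfsg.Agent.H24.RootSub.nilpotent_of_comm' fun a ha b hb => TT_comm hF hp hip ha hb,
    Cfsg.Agent.H24.RootSub.nilpotent_of_comm' fun a ha b hb => TT_comm hF hr hir ha hb,
    rank_cond hF hp hr hip hir h, rank_cond hF hr hp hir hip h'⟩

theorem not_rank_of_zero {p r : Fin n → F} (hp : p ≠ 0) (hr : r ≠ 0) (hip : herm p p = 0) (hir : herm r r = 0)
    (h0 : herm p r = 0) : ¬ Cfsg.IsRankOnePair (TT F q n p) (TT F q n r) := by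
  intro h
  obtain ⟨ε, hε0, hε⟩ := exists_eps hF
  obtain ⟨b, hb, -, hb2⟩ := h.cond_left (uT hF p ε hip hε) (uT_mem hF hp hip hε) (uT_ne_one hF hp hip hε hε0)
  obtain ⟨y, hy, rfl⟩ := (mem_TT hF hr hir).1 hb
  have h' : herm r p = 0 := by
    rw [herm_conj hF p r, h0, zero_pow (q_ne hF)]
  rw [conjBy_TT hF hp hip, conjBy_TT hF hr hir, uT_inv hF r y hir hy (neg_ok hF hy),
    uT_inv hF p ε hip hε (neg_ok hF hε), act_uT, act_uT, h0, h'] at hb2
  simp only [mul_zero, zero_smul, add_zero] at hb2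
  exact h.ne hb2

theorem commute_form_zero {r p : Fin n → F} (hr : r ≠ 0) (hir : herm r r = 0) (hip : herm p p = 0) {d e : F}
    (hd : d ^ q + d = 0) (he : e ^ q + e = 0) (hd0 : d ≠ 0) (he0 : e ≠ 0)
    (h : uT hF r d hir hd * uT hF p e hip he = uT hF p e hip he * uT hF r d hir hd) : herm r p = 0 := by
  have h1 := congrArg (fun g => act g r) h
  simp only [act_mul, act_uT, herm_add_left, herm_smul_left, hir, mul_zero, zero_smul, add_zero, zero_add] at h1
  have h2 : (d * (e * herm r p * herm p r)) • r = 0 :=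
    add_left_cancel (h1.trans (add_zero _).symm)
  rcases smul_eq_zero.1 h2 with h3 | h3
  · have h4 : herm r p * herm p r = 0 := by
      have h5 : d * e * (herm r p * herm p r) = 0 := by
        linear_combination h3
      rcases mul_eq_zero.1 h5 with h6 | h6
      · exact absurd h6 (mul_ne_zero hd0 he0)
      · exact h6
    rcases mul_eq_zero.1 h4 with h5 | h5
    · exact h5
    · rw [herm_conj hF r p] at h5
      exact eq_zero_of_pow_eq_zero h5
  · exact absurd h3 hr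

theorem not_comm {p r : Fin n → F} (hp : p ≠ 0) (hr : r ≠ 0) (hip : herm p p = 0) (hir : herm r r = 0)
    (h1 : ⁅TT F q n p, TT F q n r⁆ ∈ SS F q n)
    (h2 : ∀ c ∈ ⁅TT F q n p, TT F q n r⁆, ∀ x ∈ TT F q n p ⊔ TT F q n r, c * x = x * c) : False := by
  obtain ⟨s, hs, his, hsT⟩ := h1
  have hq0 := q_ne hF
  obtain ⟨ε, hε0, hε⟩ := exists_eps hF
  by_cases hα : herm p r = 0
  · rw [TT_perp_comm hF hp hr hip hir hα] at hsT
    have h3 := uT_mem hF hs his hε
    rw [← hsT, Subgroup.mem_bot] at h3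
    exact uT_ne_one hF hs his hε hε0 h3
  · have hα' : herm r p ≠ 0 := by
      rw [herm_conj hF p r]
      exact pow_ne_zero q hα
    obtain ⟨a, haa⟩ : ∃ a, a = uT hF p ε hip hε := ⟨_, rfl⟩
    obtain ⟨b, hbb⟩ : ∃ b, b = uT hF r ε hir hε := ⟨_, rfl⟩
    have ham : a ∈ TT F q n p := haa ▸ uT_mem hF hp hip hε
    have hbm : b ∈ TT F q n r := hbb ▸ uT_mem hF hr hir hε
    have hcm : a * b * a⁻¹ * b⁻¹ ∈ ⁅TT F q n p, TT F q n r⁆ :=
      Subgroup.commutator_mem_commutator ham hbm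
    have hcen : ∀ x ∈ TT F q n p ⊔ TT F q n r, a * b * a⁻¹ * b⁻¹ * x = x * (a * b * a⁻¹ * b⁻¹) :=
      fun x hx => h2 _ hcm x hx
    rw [hsT] at hcm
    obtain ⟨d, hd, hdu⟩ := (mem_TT hF hs his).1 hcm
    have hfix : ∀ u : Fin n → F, ∀ (hu : herm u u = 0), uT hF u ε hu hε ∈ TT F q n p ⊔ TT F q n r →
        act (a * b * a⁻¹ * b⁻¹) u = u := by
      intro u hu hmem
      rw [hdu]
      by_cases hd0 : d = 0
      · subst hd0
        rw [act_uT]
        simp
      · have h3 := hcen _ hmem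
        rw [hdu] at h3
        have h4 := commute_form_zero hF hs his hu hd hε hd0 hε0 h3
        rw [act_uT, herm_conj hF s u, h4, zero_pow hq0]
        simp
    have hfp := hfix p hip (Subgroup.mem_sup_left (uT_mem hF hp hip hε))
    have hfr := hfix r hir (Subgroup.mem_sup_right (uT_mem hF hr hir hε))
    have hkey : a * b = (a * b * a⁻¹ * b⁻¹) * (b * a) := by group
    have h5 : act (a * b) p = act (a * b * a⁻¹ * b⁻¹) (act b (act a p)) := by
      rw [← act_mul b a, ← act_mul, ← hkey]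
    rw [act_mul a b] at h5
    have ha1 : act a p = p := by
      rw [haa, act_uT, hip]
      simp
    have hb1 : act b p = p + (ε * herm p r) • r := by
      rw [hbb, act_uT]
    have har : act a r = r + (ε * herm r p) • p := by rw [haa, act_uT]
    rw [ha1, hb1] at h5
    simp only [act_add, act_smul] at h5
    rw [hfp, hfr, ha1, har] at h5
    have h6 : ((ε * herm p r) * (ε * herm r p)) • p = 0 := by
      have h7 : p + (ε * herm p r) • r + ((ε * herm p r) * (ε * herm r p)) • p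
          = p + (ε * herm p r) • r := by
        refine Eq.trans ?_ h5
        module
      simpa using h7
    rcases smul_eq_zero.1 h6 with h7 | h7
    · exact (mul_ne_zero (mul_ne_zero hε0 hα) (mul_ne_zero hε0 hα')) h7
    · exact hp h7

theorem exists_iso_both {p r : Fin n → F} (hp : p ≠ 0) (hr : r ≠ 0) (hip : herm p p = 0) (hrp : herm r p = 0) :
    ∃ z : Fin n → F, z ≠ 0 ∧ herm z z = 0 ∧ herm p z ≠ 0 ∧ herm r z ≠ 0 := by
  have hq0 := q_ne hF
  obtain ⟨z₁, h₁⟩ := exists_herm_one hq0 hp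
  obtain ⟨z₂, h₂⟩ := exists_herm_one hq0 hr
  have h₁' : herm p z₁ = 1 := by rw [herm_conj hF z₁ p, h₁, one_pow]
  have h₂' : herm r z₂ = 1 := by rw [herm_conj hF z₂ r, h₂, one_pow]
  obtain ⟨u, hu1, hu2⟩ : ∃ u, herm p u ≠ 0 ∧ herm r u ≠ 0 := by
    by_cases h3 : herm r z₁ = 0
    · by_cases h4 : herm p z₂ = 0
      · refine ⟨z₁ + z₂, ?_, ?_⟩
        · rw [herm_add_right hF, h₁', h4, add_zero]
          exact one_ne_zero
        · rw [herm_add_right hF, h3, h₂', zero_add]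
          exact one_ne_zero
      · exact ⟨z₂, h4, by rw [h₂']; exact one_ne_zero⟩
    · exact ⟨z₁, by rw [h₁']; exact one_ne_zero, h3⟩
  obtain ⟨β, hβ⟩ : ∃ β, β = herm p u := ⟨_, rfl⟩
  have hβ0 : β ≠ 0 := hβ ▸ hu1
  have hup : herm u p = β ^ q := by rw [hβ]; exact herm_conj hF p u
  have hrr : (-herm u u) ^ q = -herm u u := by
    rw [q_neg hF, ← herm_conj hF u u]
  obtain ⟨s, hs⟩ := Cfsg.Agent.H12.UTrans.exists_trace_eq hF _ hrr
  obtain ⟨l, hl⟩ : ∃ l, l = s * β⁻¹ := ⟨_, rfl⟩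
  have hl1 : l * β = s := by
    rw [hl]
    field_simp
  have hl2 : l ^ q * β ^ q = s ^ q := by rw [← mul_pow, hl1]
  have hz1 : herm p (u + l • p) = β := by
    rw [herm_add_right hF, herm_smul_right hF, hip, ← hβ]
    ring
  have hz2 : herm r (u + l • p) = herm r u := by
    rw [herm_add_right hF, herm_smul_right hF, hrp]
    ring
  refine ⟨u + l • p, ?_, ?_, ?_, ?_⟩
  · intro h0
    rw [h0] at hz1
    have h3 : herm p (0 : Fin n → F) = 0 := by
      simp [Cfsg.hermForm, hq0]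
    rw [h3] at hz1
    exact hβ0 hz1.symm
  · simp only [herm_add_left, herm_add_right hF, herm_smul_left, herm_smul_right hF, hip, hup, ← hβ]
    linear_combination hl2 + hl1 + hs
  · rw [hz1]
    exact hβ0
  · rw [hz2]
    exact hu2

/-! ### The image of `SL₂` -/

section PSL2

variable {L : Type*} [Field L] (ι : L →+* F)

omit hF in
theorem cv_dot (v x : Fin n → F) : (fun j => v j ^ q) ⬝ᵥ x = herm x v := by
  simp [dotProduct, Cfsg.hermForm, mul_comm]

theorem psl2_of_pair (hι₁ : ∀ s, ι s ^ q = ι s) (hι₂ : ∀ x : F, x ^ q = x → ∃ s, ι s = x)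
    {p w : Fin n → F} {ε : F} (hp : p ≠ 0) (hw : w ≠ 0) (hip : herm p p = 0) (hiw : herm w w = 0)
    (hε0 : ε ≠ 0) (hε : ε ^ q + ε = 0) (hpw : herm p w = ε) :
    Cfsg.IsPSL2PairOver L (TT F q n p) (TT F q n w) := by
  classical
  have hεq : ε ^ q = -ε := by linear_combination hε
  have hwp : herm w p = -ε := by rw [herm_conj hF p w, hpw, hεq]
  have hε1 : -ε ≠ 0 := neg_ne_zero.2 hε0
  obtain ⟨f, hf⟩ : ∃ f : Fin n → F, f = (-ε)⁻¹ • (fun j => p j ^ q) := ⟨_, rfl⟩
  obtain ⟨g, hg⟩ : ∃ g : Fin n → F, g = ε⁻¹ • (fun j => w j ^ q) := ⟨_, rfl⟩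
  have hgp : g ⬝ᵥ p = 1 := by
    rw [hg, smul_dotProduct, cv_dot, hpw, smul_eq_mul, inv_mul_cancel₀ hε0]
  have hgw : g ⬝ᵥ w = 0 := by
    rw [hg, smul_dotProduct, cv_dot, hiw, smul_zero]
  have hfp : f ⬝ᵥ p = 0 := by
    rw [hf, smul_dotProduct, cv_dot, hip, smul_zero]
  have hfw : f ⬝ᵥ w = 1 := by
    rw [hf, smul_dotProduct, cv_dot, hwp, smul_eq_mul, inv_mul_cancel₀ hε1]
  have tm_f : ∀ c, tm p f c = uTmat q p (c * (-ε)⁻¹) := fun c => by
    unfold tm uTmat
    rw [hf, vecMulVec_smul, smul_smul]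
  have tm_g : ∀ c, tm w g c = uTmat q w (c * ε⁻¹) := fun c => by
    unfold tm uTmat
    rw [hg, vecMulVec_smul, smul_smul]
  have ht1 : ∀ s : L, (ι s * (-ε)⁻¹) ^ q + ι s * (-ε)⁻¹ = 0 := fun s => by
    rw [mul_pow, hι₁, inv_pow, q_neg hF, hεq]
    field_simp
    ring
  have ht2 : ∀ s : L, (ι s * ε⁻¹) ^ q + ι s * ε⁻¹ = 0 := fun s => by
    rw [mul_pow, hι₁, inv_pow, hεq]
    field_simp
    ring
  let φ₀ : SpecialLinearGroup (Fin 2) L →* SpecialLinearGroup (Fin n) F :=
    (phi (ι := Fin n) hgp hgw hfp hfw).comp (SpecialLinearGroup.map ι)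
  have hent : ∀ (M : SpecialLinearGroup (Fin 2) L) (i j : Fin 2),
      ((SpecialLinearGroup.map ι M : SpecialLinearGroup (Fin 2) F) : Matrix (Fin 2) (Fin 2) F) i j =
        ι ((M : Matrix (Fin 2) (Fin 2) L) i j) := fun _ _ _ => rfl
  have hφ₀ : ∀ M, ((φ₀ M : SpecialLinearGroup (Fin n) F) : Matrix (Fin n) (Fin n) F) =
      phiM p f w g ((SpecialLinearGroup.map ι M : SpecialLinearGroup (Fin 2) F) : Matrix (Fin 2) (Fin 2) F) :=
    fun _ => rfl
  have hup : ∀ M : SpecialLinearGroup (Fin 2) L, (M : Matrix (Fin 2) (Fin 2) L) 1 0 = 0 →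
      (M : Matrix (Fin 2) (Fin 2) L) 0 0 = 1 → (M : Matrix (Fin 2) (Fin 2) L) 1 1 = 1 →
      φ₀ M = (uT hF p (ι ((M : Matrix (Fin 2) (Fin 2) L) 0 1) * (-ε)⁻¹) hip (ht1 _) : Cfsg.SU n F q).1 := by
    intro M h1 h2 h3
    apply Subtype.ext
    rw [hφ₀, phiM_upper (by rw [hent, h1, map_zero]) (by rw [hent, h2, map_one]) (by rw [hent, h3, map_one]),
      tm_f, hent]
    rfl
  have hlo : ∀ M : SpecialLinearGroup (Fin 2) L, (M : Matrix (Fin 2) (Fin 2) L) 0 1 = 0 →
      (M : Matrix (Fin 2) (Fin 2) L) 0 0 = 1 → (M : Matrix (Fin 2) (Fin 2) L) 1 1 = 1 →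
      φ₀ M = (uT hF w (ι ((M : Matrix (Fin 2) (Fin 2) L) 1 0) * ε⁻¹) hiw (ht2 _) : Cfsg.SU n F q).1 := by
    intro M h1 h2 h3
    apply Subtype.ext
    rw [hφ₀, phiM_lower (by rw [hent, h1, map_zero]) (by rw [hent, h2, map_one]) (by rw [hent, h3, map_one]),
      tm_g, hent]
    rfl
  have hmem : ∀ M, φ₀ M ∈ Cfsg.SU n F q := by
    intro M
    refine Cfsg.Agent.Lead.transvection_induction' (ι := Fin 2) (F := L)
      (fun M => φ₀ M ∈ Cfsg.SU n F q) ?_ ?_ M
    · intro i j hij c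
      have hcoe : ∀ a b : Fin 2, ((Matrix.SpecialLinearGroup.transvection hij c : Matrix.SpecialLinearGroup (Fin 2) L) : Matrix (Fin 2) (Fin 2) L) a b
          = (1 + Matrix.single i j c : Matrix (Fin 2) (Fin 2) L) a b := fun _ _ => rfl
      fin_cases i <;> fin_cases j
      · exact absurd rfl hij
      · rw [hup _ (by rw [hcoe]; simp [Matrix.single_apply]) (by rw [hcoe]; simp [Matrix.single_apply])
          (by rw [hcoe]; simp [Matrix.single_apply])]
        exact Subtype.property _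
      · rw [hlo _ (by rw [hcoe]; simp [Matrix.single_apply]) (by rw [hcoe]; simp [Matrix.single_apply])
          (by rw [hcoe]; simp [Matrix.single_apply])]
        exact Subtype.property _
      · exact absurd rfl hij
    · intro A B hA hB
      rw [map_mul]
      exact Subgroup.mul_mem _ hA hB
  let φ : SpecialLinearGroup (Fin 2) L →* Cfsg.SU n F q := φ₀.codRestrict _ hmem
  have hφinj : Function.Injective φ := by
    intro M N h
    have h1 : φ₀ M = φ₀ N := congrArg Subtype.val h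
    have h2 := phi_injective (ι := Fin n) hgp hgw hfp hfw h1
    apply Subtype.ext
    ext i j
    apply ι.injective
    have := congrArg (fun X : SpecialLinearGroup (Fin 2) F => (X : Matrix (Fin 2) (Fin 2) F) i j) h2
    exact this
  have hupper : (Cfsg.upperUnipotentSL2 L).map φ = TT F q n p := by
    unfold Cfsg.upperUnipotentSL2
    rw [MonoidHom.map_closure]
    apply le_antisymm
    · rw [Subgroup.closure_le]
      rintro _ ⟨M, ⟨h1, h2, h3⟩, rfl⟩
      refine (mem_TT hF hp hip).2 ⟨_, ht1 ((M : Matrix (Fin 2) (Fin 2) L) 0 1), Subtype.ext ?_⟩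
      exact hup M h1 h2 h3
    · intro x hx
      obtain ⟨c, hc, rfl⟩ := (mem_TT hF hp hip).1 hx
      have hcq : c ^ q = -c := by linear_combination hc
      obtain ⟨s, hs⟩ := hι₂ (c * (-ε)) (by rw [mul_pow, q_neg hF, hεq, hcq]; ring)
      apply Subgroup.subset_closure
      let M : SpecialLinearGroup (Fin 2) L := ⟨!![1, s; 0, 1], by simp [Matrix.det_fin_two]⟩
      refine ⟨M, ⟨by simp [M], by simp [M], by simp [M]⟩, Subtype.ext ?_⟩
      have h1 := hup M (by simp [M]) (by simp [M]) (by simp [M])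
      have h2 : (M : Matrix (Fin 2) (Fin 2) L) 0 1 = s := by simp [M]
      have h3 : ι s * (-ε)⁻¹ = c := by
        rw [hs]
        field_simp
      show φ₀ M = _
      rw [h1]
      apply Subtype.ext
      rw [uT_coe, uT_coe, h2, h3]
  have hlower : (Cfsg.lowerUnipotentSL2 L).map φ = TT F q n w := by
    unfold Cfsg.lowerUnipotentSL2
    rw [MonoidHom.map_closure]
    apply le_antisymm
    · rw [Subgroup.closure_le]
      rintro _ ⟨M, ⟨h1, h2, h3⟩, rfl⟩
      refine (mem_TT hF hw hiw).2 ⟨_, ht2 ((M : Matrix (Fin 2) (Fin 2) L) 1 0), Subtype.ext ?_⟩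
      exact hlo M h1 h2 h3
    · intro x hx
      obtain ⟨c, hc, rfl⟩ := (mem_TT hF hw hiw).1 hx
      have hcq : c ^ q = -c := by linear_combination hc
      obtain ⟨s, hs⟩ := hι₂ (c * ε) (by rw [mul_pow, hεq, hcq]; ring)
      apply Subgroup.subset_closure
      let M : SpecialLinearGroup (Fin 2) L := ⟨!![1, 0; s, 1], by simp [Matrix.det_fin_two]⟩
      refine ⟨M, ⟨by simp [M], by simp [M], by simp [M]⟩, Subtype.ext ?_⟩
      have h1 := hlo M (by simp [M]) (by simp [M]) (by simp [M])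
      have h2 : (M : Matrix (Fin 2) (Fin 2) L) 1 0 = s := by simp [M]
      have h3 : ι s * ε⁻¹ = c := by
        rw [hs]
        field_simp
      show φ₀ M = _
      rw [h1]
      apply Subtype.ext
      rw [uT_coe, uT_coe, h2, h3]
  refine ⟨φ, ?_, ?_, hupper, hlower⟩
  · rw [← hupper, ← hlower, ← Subgroup.map_sup, upper_sup_lower, MonoidHom.range_eq_map]
  · rw [(MonoidHom.ker_eq_bot_iff _).2 hφinj]
    exact bot_le

theorem psl2_TT (hι₁ : ∀ s, ι s ^ q = ι s) (hι₂ : ∀ x : F, x ^ q = x → ∃ s, ι s = x)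
    {p r : Fin n → F} (hp : p ≠ 0) (hr : r ≠ 0) (hip : herm p p = 0) (hir : herm r r = 0)
    (h : herm p r ≠ 0) : Cfsg.IsPSL2PairOver L (TT F q n p) (TT F q n r) := by
  obtain ⟨ε, hε0, hε⟩ := exists_eps hF
  obtain ⟨a, ha⟩ : ∃ a, a = (ε * (herm p r)⁻¹) ^ q := ⟨_, rfl⟩
  have ha0 : a ≠ 0 := by
    rw [ha]
    exact pow_ne_zero q (mul_ne_zero hε0 (inv_ne_zero h))
  have haq : a ^ q = ε * (herm p r)⁻¹ := by
    rw [ha, pow_q_sq hF]
  have h1 : herm p (a • r) = ε := by
    rw [herm_smul_right hF, haq]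
    field_simp
  have hi' : herm (a • r) (a • r) = 0 := by
    simp only [herm_smul_left, herm_smul_right hF, hir, mul_zero]
  have h2 := psl2_of_pair hF ι hι₁ hι₂ hp (smul_ne_zero ha0 hr) hip hi' hε0 hε h1
  rwa [TT_smul hF hr hir ha0] at h2

end PSL2

/-! ### Assembly -/

open Cfsg.Agent.H24.RootSub in
theorem ss_comm : ∀ A ∈ SS F q n, ∀ a ∈ A, ∀ b ∈ A, a * b = b * a := by
  rintro _ ⟨p, hp, hi, rfl⟩ a ha b hb
  exact TT_comm hF hp hi ha hb

theorem ss_ne : ∀ A ∈ SS F q n, A ≠ ⊥ := by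
  rintro _ ⟨p, hp, hi, rfl⟩ h
  obtain ⟨ε, hε0, hε⟩ := exists_eps hF
  have h3 := uT_mem hF hp hi hε
  rw [h, Subgroup.mem_bot] at h3
  exact uT_ne_one hF hp hi hε hε0 h3

theorem ss_conj : ∀ A ∈ SS F q n, ∀ g : Cfsg.SU n F q, Cfsg.conjBy A g ∈ SS F q n := by
  rintro _ ⟨p, hp, hi, rfl⟩ g
  exact ⟨act g p, act_ne_zero g hp, by rw [act_herm]; exact hi, conjBy_TT hF hp hi g⟩

theorem ss_pair : ∀ A ∈ SS F q n, ∀ B ∈ SS F q n, ⁅A, B⁆ = ⊥ ∨ Cfsg.IsRankOnePair A B := by
  rintro _ ⟨p, hp, hip, rfl⟩ _ ⟨r, hr, hir, rfl⟩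
  by_cases h : herm p r = 0
  · exact Or.inl (TT_perp_comm hF hp hr hip hir h)
  · exact Or.inr (rankOne_TT hF hp hr hip hir h)

theorem ss_conn : Cfsg.IsConnectedFamily (Cfsg.FAdj (SS F q n)) (SS F q n) := by
  rintro _ ⟨p, hp, hip, rfl⟩ _ ⟨r, hr, hir, rfl⟩
  have hmem : ∀ u : Fin n → F, u ≠ 0 → herm u u = 0 → TT F q n u ∈ SS F q n :=
    fun u hu hi => ⟨u, hu, hi, rfl⟩
  by_cases h : herm p r = 0
  · have h' : herm r p = 0 := by
      rw [herm_conj hF p r, h, zero_pow (q_ne hF)]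
    obtain ⟨z, hz0, hiz, hz1, hz2⟩ := exists_iso_both hF hp hr hip h'
    have hz2' : herm z r ≠ 0 := by
      rw [herm_conj hF r z]
      exact pow_ne_zero q hz2
    exact Relation.ReflTransGen.tail (Relation.ReflTransGen.single (b := TT F q n z)
      ⟨hmem p hp hip, hmem z hz0 hiz, rankOne_TT hF hp hz0 hip hiz hz1⟩)
      ⟨hmem z hz0 hiz, hmem r hr hir, rankOne_TT hF hz0 hr hiz hir hz2'⟩
  · exact Relation.ReflTransGen.single ⟨hmem p hp hip, hmem r hr hir, rankOne_TT hF hp hr hip hir h⟩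

theorem ss_nonempty (m : ℕ) : (SS F q (m + 2)).Nonempty := by
  classical
  have hq2 := two_le_q hF
  obtain ⟨φ, hφ⟩ := exists_frob hF
  obtain ⟨a, ha0, ha⟩ := exists_norm_eq hF (-1) (by simp) (by rw [← hφ, map_neg, map_one])
  let v : Fin (m + 2) → F := Pi.single 0 1 + a • Pi.single 1 1
  have h01 : (0 : Fin (m + 2)) ≠ 1 := by
    intro h
    have := congrArg Fin.val h
    simp at this
  have hv : Cfsg.hermForm (m + 2) F q v v = 0 := by
    simp only [v]
    rw [herm_add_left, herm_add_right hF, herm_add_right hF, herm_smul_left, herm_smul_right hF,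
      herm_smul_right hF, herm_smul_left, herm_single_single hF, herm_single_single hF,
      herm_single_single hF, herm_single_single hF, if_pos rfl, if_pos rfl, if_neg h01,
      if_neg (Ne.symm h01)]
    rw [pow_succ] at ha
    linear_combination ha
  have hv0 : v ≠ 0 := by
    intro h
    have h1 := congrFun h 0
    simp [v, Pi.single_apply, h01] at h1
  exact ⟨_, v, hv0, hv, rfl⟩

theorem exists_L : ∃ (L : Type) (_ : Field L) (_ : Fintype L) (ι : L →+* F), Fintype.card L = q ∧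
    (∀ s, ι s ^ q = ι s) ∧ ∀ x : F, x ^ q = x → ∃ s, ι s = x := by
  classical
  have hq2 := two_le_q hF
  obtain ⟨r, hr⟩ := CharP.exists F
  obtain ⟨k, hrp, hk⟩ := FiniteField.card F r
  haveI : Fact r.Prime := ⟨hrp⟩
  have hq : q ∣ r ^ (k : ℕ) := by
    rw [← hk, hF]
    exact Dvd.intro_left (q ^ 1) (by ring)
  obtain ⟨d, -, rfl⟩ := (Nat.dvd_prime_pow hrp).1 hq
  have hd : 0 < d := by
    rcases Nat.eq_zero_or_pos d with h | h
    · subst h
      simp at hq2
    · exact h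
  have hc := Cfsg.Agent.H28.card_fixedSub (F := F) r d 2 hd (by norm_num) hF
  let K := Cfsg.Agent.H28.fixedSub F r d
  haveI hfinG : Finite (GaloisField r d) := by
    apply Nat.finite_of_card_ne_zero
    rw [GaloisField.card r d hd.ne']
    exact pow_ne_zero _ hrp.ne_zero
  have hcG : Nat.card (GaloisField r d) = r ^ d := GaloisField.card r d hd.ne'
  letI : Fintype (GaloisField r d) := Fintype.ofFinite _
  letI : Fintype K := Fintype.ofFinite _
  have hcc : Fintype.card (GaloisField r d) = Fintype.card K := by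
    rw [← Nat.card_eq_fintype_card, ← Nat.card_eq_fintype_card]
    exact hcG.trans hc.symm
  let e : GaloisField r d ≃+* K := FiniteField.ringEquivOfCardEq hcc
  refine ⟨GaloisField r d, inferInstance, Fintype.ofFinite _, K.subtype.comp e.toRingHom, ?_, ?_, ?_⟩
  · rw [Fintype.card_eq_nat_card, hcG]
  · intro s
    exact (e s).2
  · intro x hx
    exact ⟨e.symm ⟨x, hx⟩, by simp⟩

/-- The main theorem. -/
theorem main (m : ℕ) :
    Cfsg.IsRootSubgroupClass (Cfsg.Agent.H24.RootSub.Sub (SS F q (m + 2))) ∧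
    Cfsg.IsDegenerateRootSet (Cfsg.Agent.H24.RootSub.Sub (SS F q (m + 2))) ∧
    (∃ (L : Type) (_ : Field L) (_ : Fintype L), Fintype.card L = q ∧
      Cfsg.IsKRootSubgroupSet L (Cfsg.Agent.H24.RootSub.Sub (SS F q (m + 2)))) ∧
    Cfsg.IsConnectedFamily (Cfsg.FAdj (Cfsg.Agent.H24.RootSub.Sub (SS F q (m + 2))))
      (Cfsg.Agent.H24.RootSub.Sub (SS F q (m + 2))) := by
  have hroot : Cfsg.IsRootSubgroupSet (Cfsg.Agent.H24.RootSub.Sub (SS F q (m + 2))) :=
    Cfsg.Agent.H24.RootSub.isRootSet (ss_comm hF) (ss_ne hF) (ss_conj hF) (ss_pair hF)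
  refine ⟨⟨hroot, Cfsg.Agent.H24.RootSub.isClass (ss_ne hF) (ss_nonempty hF m) (ss_conn hF)⟩, ?_, ?_,
    Cfsg.Agent.H24.RootSub.isConn (ss_comm hF) (ss_conn hF)⟩
  · apply Cfsg.Agent.H24.RootSub.isDegenerate
    rintro _ ⟨p, hp, hip, rfl⟩ _ ⟨r, hr, hir, rfl⟩ h1 h2
    exact not_comm hF hp hr hip hir h1 h2
  · obtain ⟨L, i1, i2, ι, hcard, h1, h2⟩ := exists_L hF
    refine ⟨L, i1, i2, hcard, Cfsg.Agent.H24.RootSub.isKRoot L (ss_comm hF) hroot ?_⟩
    rintro _ ⟨p, hp, hip, rfl⟩ _ ⟨r, hr, hir, rfl⟩ h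
    by_cases h0 : Cfsg.hermForm (m + 2) F q p r = 0
    · exact absurd h (not_rank_of_zero hF hp hr hip hir h0)
    · exact psl2_TT hF ι h1 h2 hp hr hip hir h0

end Cfsg.Agent.H24.USU
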