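import Mathlib
import Cfsg.Agent.Lib.H15.BaerSuzuki

/-!
A Baer-Suzuki theorem for unipotent linear groups over an arbitrary field, by reduction to finite
residue fields of a finitely generated subring.
-/

set_option autoImplicit false

namespace Cfsg.Agent.H24

universe u

/-- `ℤ` is a Jacobson ring. -/
theorem isJacobsonRing_int_aux : IsJacobsonRing ℤ := by
  rw [isJacobsonRing_iff_prime_eq]
  intro P hP
  by_cases hP0 : P = ⊥
  · subst hP0
    apply le_antisymm _ Ideal.le_jacobson
    intro x hx
    rw [Ideal.mem_jacobson_bot] at hx
    have h1 := hx 3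
    rw [Int.isUnit_iff] at h1
    have : x = 0 := by omega
    simp [this]
  · haveI : P.IsMaximal := Ideal.IsPrime.isMaximal hP hP0
    exact le_antisymm (sInf_le ⟨le_rfl, this⟩) Ideal.le_jacobson

/-- A field of finite type over `ℤ` is finite. -/
theorem finite_of_finiteType_int (F : Type*) [Field F] [Algebra ℤ F] [Algebra.FiniteType ℤ F] : Finite F := by
  haveI := isJacobsonRing_int_aux
  have hfin := finite_of_finite_type_of_isJacobsonRing ℤ F
  obtain ⟨p, hp⟩ := CharP.exists F
  rcases CharP.char_is_prime_or_zero F p with hpp | hp0
  · haveI : AddGroup.FG F := by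
      have h2 : @Module.Finite ℤ F _ _ (AddCommGroup.toIntModule F) := by
        have e : (Algebra.toModule : Module ℤ F) = AddCommGroup.toIntModule F := Subsingleton.elim _ _
        rw [← e]
        exact hfin
      exact (Module.Finite.iff_addGroup_fg).mp h2
    apply AddCommGroup.finite_of_fg_isAddTorsion
    intro x
    rw [isOfFinAddOrder_iff_nsmul_eq_zero]
    refine ⟨p, hpp.pos, ?_⟩
    rw [nsmul_eq_mul, CharP.cast_eq_zero F p, zero_mul]
  · exfalso
    subst hp0
    haveI : CharZero F := CharP.charP_to_charZero F
    have hinj : Function.Injective (algebraMap ℤ F) := by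
      have h : algebraMap ℤ F = Int.castRingHom F := RingHom.ext_int _ _
      rw [h]
      exact Int.cast_injective
    haveI := hfin
    haveI : Algebra.IsIntegral ℤ F := Algebra.IsIntegral.of_finite ℤ F
    have := isField_of_isIntegral_of_isField (R := ℤ) (S := F) hinj (Field.toIsField F)
    exact Int.not_isField this

/-- Residue fields of finitely generated rings separate nonzero elements. -/
theorem exists_maximal_not_mem {R : Type*} [CommRing R] [IsDomain R] [Algebra ℤ R] [Algebra.FiniteType ℤ R]
    {r : R} (hr : r ≠ 0) : ∃ 𝔪 : Ideal R, 𝔪.IsMaximal ∧ r ∉ 𝔪 := by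
  haveI := isJacobsonRing_int_aux
  haveI : IsJacobsonRing R := isJacobsonRing_of_finiteType (A := ℤ)
  by_contra hno
  push Not at hno
  have h1 : r ∈ (⊥ : Ideal R).jacobson := by
    refine Ideal.mem_sInf.mpr ?_
    rintro I ⟨-, hI⟩
    exact hno I hI
  have hrad : (⊥ : Ideal R).IsRadical := Ideal.isPrime_bot.isRadical
  have h2 := (isJacobsonRing_iff.mp ‹IsJacobsonRing R› ⊥ hrad).le h1
  exact hr (by simpa using h2)

/-- A `p`-group acts unipotently on a vector space over a finite field of characteristic `p`. -/
theorem prod_eq_zero_of_isPGroup {F : Type*} [Field F] [Finite F] (p : ℕ) [hp : Fact p.Prime] [CharP F p]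
    {P : Type*} [Group P] (hP : IsPGroup p P) (n : ℕ) :
    ∀ (V : Type u) [AddCommGroup V] [Module F V] [FiniteDimensional F V] (ρ : P →* Module.End F V),
      Module.finrank F V = n → ∀ l : List P, l.length = n →
        (l.map fun g => ρ g - 1).prod = 0 := by
  induction n with
  | zero =>
    intro V _ _ _ ρ hV l hl
    have : Subsingleton V := Module.finrank_zero_iff.mp hV
    have hl' : l = [] := List.length_eq_zero_iff.mp hl
    subst hl'
    exact Subsingleton.elim _ _
  | succ n ih =>
    intro V _ _ _ ρ hV l hl
    classical
    haveI : Finite V := Module.finite_of_finite F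
    -- the dual action
    letI act : MulAction P (Module.Dual F V) :=
      { smul := fun g φ => φ.comp (ρ g⁻¹)
        one_smul := fun φ => by
          apply LinearMap.ext
          intro v
          change φ (ρ 1⁻¹ v) = φ v
          simp
        mul_smul := fun g h φ => by
          apply LinearMap.ext
          intro v
          change φ (ρ (g * h)⁻¹ v) = φ (ρ h⁻¹ (ρ g⁻¹ v))
          rw [mul_inv_rev, map_mul]
          rfl }
    have hsm : ∀ (g : P) (φ : Module.Dual F V) (v : V), (g • φ) v = φ (ρ g⁻¹ v) := fun _ _ _ => rfl
    haveI : Finite (Module.Dual F V) := Module.finite_of_finite F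
    have hmod := hP.card_modEq_card_fixedPoints (Module.Dual F V)
    have hpc : p ∣ Nat.card (Module.Dual F V) := by
      have h1 : Module.finrank F (Module.Dual F V) = n + 1 := by
        rw [Subspace.dual_finrank_eq, hV]
      have h2 : Nat.card (Module.Dual F V) = Nat.card F ^ (n + 1) := by
        rw [← h1]
        exact Module.natCard_eq_pow_finrank
      rw [h2]
      have h3 : p ∣ Nat.card F := by
        haveI := Fintype.ofFinite F
        obtain ⟨m, -, hm⟩ := FiniteField.card F p
        rw [Nat.card_eq_fintype_card, hm]
        exact dvd_pow_self p m.ne_zero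
      exact dvd_pow h3 (by omega)
    have hpT : p ∣ Nat.card (MulAction.fixedPoints P (Module.Dual F V)) :=
      (Nat.modEq_zero_iff_dvd.mp (hmod.symm.trans (Nat.modEq_zero_iff_dvd.mpr hpc)))
    have h0mem : (0 : Module.Dual F V) ∈ MulAction.fixedPoints P (Module.Dual F V) := by
      intro g
      apply LinearMap.ext
      intro v
      simp [hsm]
    have hne : Nat.card (MulAction.fixedPoints P (Module.Dual F V)) ≠ 0 := by
      haveI : Nonempty (MulAction.fixedPoints P (Module.Dual F V)) := ⟨⟨0, h0mem⟩⟩
      exact Nat.card_pos.ne'
    have h1lt : 1 < Nat.card (MulAction.fixedPoints P (Module.Dual F V)) := by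
      have := Nat.le_of_dvd (Nat.pos_of_ne_zero hne) hpT
      have := hp.out.two_le
      omega
    haveI := Finite.one_lt_card_iff_nontrivial.mp h1lt
    obtain ⟨⟨φ, hφfix⟩, hφne⟩ := exists_ne (⟨0, h0mem⟩ : MulAction.fixedPoints P (Module.Dual F V))
    have hφ0 : φ ≠ 0 := fun h => hφne (Subtype.ext h)
    have hfix : ∀ (g : P) (v : V), φ (ρ g v) = φ v := by
      intro g v
      have h1 := congrArg (fun ψ : Module.Dual F V => ψ v) (hφfix g⁻¹)
      simpa [hsm] using h1
    let H := LinearMap.ker φ
    have hinv : ∀ (g : P), ∀ x ∈ H, ρ g x ∈ H := by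
      intro g x hx
      rw [LinearMap.mem_ker] at hx ⊢
      rw [hfix, hx]
    let ρ' : P →* Module.End F H :=
      { toFun := fun g => (ρ g).restrict (hinv g)
        map_one' := by
          apply LinearMap.ext
          intro x
          apply Subtype.ext
          simp
        map_mul' := fun g h => by
          apply LinearMap.ext
          intro x
          apply Subtype.ext
          simp }
    have hρ' : ∀ (g : P) (x : H), ((ρ' g x : H) : V) = ρ g x := fun _ _ => rfl
    have hres : ∀ (l' : List P) (w : H), (l'.map fun g => ρ g - 1).prod (w : V) =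
        (((l'.map fun g => ρ' g - 1).prod w : H) : V) := by
      intro l'
      induction l' with
      | nil => intro w; rfl
      | cons g l' ih =>
        intro w
        simp only [List.map_cons, List.prod_cons, Module.End.mul_apply]
        rw [ih]
        simp [hρ']
    have hfinH : Module.finrank F H = n := by
      have := Module.Dual.finrank_ker_add_one_of_ne_zero hφ0
      change Module.finrank F (LinearMap.ker φ) = n
      omega
    rcases List.eq_nil_or_concat l with rfl | ⟨l', g, rfl⟩
    · simp at hl
    · have hl' : l'.length = n := by simpa using hl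
      have hzero := ih H ρ' hfinH l' hl'
      apply LinearMap.ext
      intro v
      simp only [List.concat_eq_append, List.map_append, List.map_cons, List.map_nil, List.prod_append,
        List.prod_cons, List.prod_nil, mul_one, Module.End.mul_apply]
      have hw : (ρ g - 1) v ∈ H := by
        rw [LinearMap.mem_ker]
        simp [hfix]
      have := hres l' ⟨_, hw⟩
      rw [this, hzero]
      simp

end Cfsg.Agent.H24
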