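import Mathlib
import Cfsg.Agent.Lib.H24.UniBS

/-!
The Baer-Suzuki theorem for unipotent linear groups: matrix form, over residue fields.
-/

set_option autoImplicit false

namespace Cfsg.Agent.H24

universe u

open Cfsg.Agent.H15 in
theorem core_residue {k : Type*} [Field k] {d : ℕ} {R : Type*} {F : Type u} [CommRing R] [Field F] [Finite F]
    (ι₀ : R →+* k) (hι : Function.Injective ι₀) (φ : R →+* F)
    (𝒲 : Set (Subgroup (Matrix (Fin d) (Fin d) k)ˣ))
    (hW : ∀ A ∈ 𝒲, ∀ B ∈ 𝒲, ∀ u ∈ A ⊔ B, ∃ N : ℕ, ((u : Matrix (Fin d) (Fin d) k) - 1) ^ N = 0)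
    (C : Subgroup (Matrix (Fin d) (Fin d) k)ˣ)
    (hCle : C ≤ (Units.map (ι₀.mapMatrix (m := Fin d)).toMonoidHom).range)
    (X : Set (Matrix (Fin d) (Fin d) k)ˣ) (hX : Subgroup.closure X = C) (hXW : ∀ x ∈ X, ∃ A ∈ 𝒲, x ∈ A)
    (hconj : ∀ A ∈ 𝒲, ∀ g ∈ C, A.map (MulAut.conj g).toMonoidHom ∈ 𝒲)
    (l : List (Matrix (Fin d) (Fin d) R)ˣ)
    (hl : ∀ u ∈ l, Units.map (ι₀.mapMatrix (m := Fin d)).toMonoidHom u ∈ C) (hlen : l.length = d) :
    φ.mapMatrix (l.map fun u : (Matrix (Fin d) (Fin d) R)ˣ => (u : Matrix (Fin d) (Fin d) R) - 1).prod = 0 := by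
  classical
  rcases Nat.eq_zero_or_pos d with hd | hd
  · subst hd
    exact Subsingleton.elim _ _
  haveI : Nonempty (Fin d) := ⟨⟨0, hd⟩⟩
  set ι' : (Matrix (Fin d) (Fin d) R)ˣ →* (Matrix (Fin d) (Fin d) k)ˣ :=
    Units.map (ι₀.mapMatrix (m := Fin d)).toMonoidHom with hι'
  set π' : (Matrix (Fin d) (Fin d) R)ˣ →* (Matrix (Fin d) (Fin d) F)ˣ :=
    Units.map (φ.mapMatrix (m := Fin d)).toMonoidHom with hπ'
  have hιinj : Function.Injective (ι₀.mapMatrix (m := Fin d)) := by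
    intro a b hab
    ext i j
    exact hι (congrFun (congrFun hab i) j)
  have hι'inj : Function.Injective ι' := by
    intro a b hab
    apply Units.ext
    apply hιinj
    exact congrArg Units.val hab
  obtain ⟨p, hp⟩ := CharP.exists F
  haveI : Fact p.Prime := ⟨CharP.char_is_prime F p⟩
  haveI : CharP (Matrix (Fin d) (Fin d) F) p := Matrix.charP p
  have pelt : ∀ u : (Matrix (Fin d) (Fin d) R)ˣ,
      (∃ N : ℕ, ((ι' u : Matrix (Fin d) (Fin d) k) - 1) ^ N = 0) → ∃ e : ℕ, π' u ^ (p ^ e) = 1 := by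
    rintro u ⟨N, hN⟩
    have h1 : ((u : Matrix (Fin d) (Fin d) R) - 1) ^ N = 0 := by
      apply hιinj
      rw [map_pow, map_sub, map_one, map_zero]
      exact hN
    have h2 : ((π' u : Matrix (Fin d) (Fin d) F) - 1) ^ N = 0 := by
      have := congrArg (φ.mapMatrix (m := Fin d)) h1
      rw [map_pow, map_sub, map_one, map_zero] at this
      exact this
    refine ⟨N, ?_⟩
    have hle : N ≤ p ^ N := (Nat.lt_pow_self (Fact.out : p.Prime).one_lt).le
    have h3 : ((π' u : Matrix (Fin d) (Fin d) F) - 1) ^ (p ^ N) = 0 := pow_eq_zero_of_le hle h2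
    rw [sub_pow_char_pow_of_commute p N (Commute.one_right _), one_pow, sub_eq_zero] at h3
    apply Units.ext
    simpa using h3
  set H : Subgroup (Matrix (Fin d) (Fin d) F)ˣ := (C.comap ι').map π' with hH
  let f : Subgroup (Matrix (Fin d) (Fin d) k)ˣ → Subgroup (Matrix (Fin d) (Fin d) F)ˣ :=
    fun A => ((A ⊓ C).comap ι').map π'
  let Sg : Set (Subgroup ↥H) := (fun A => (f A).subgroupOf H) '' 𝒲
  have hpK : ∀ A ∈ 𝒲, ∀ B ∈ 𝒲, IsPGroup p ↥(((A ⊔ B).comap ι').map π') := by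
    rintro A hA B hB ⟨y, u, hu, rfl⟩
    obtain ⟨e, he⟩ := pelt u (hW A hA B hB _ hu)
    exact ⟨e, Subtype.ext he⟩
  have hfK : ∀ A B : Subgroup (Matrix (Fin d) (Fin d) k)ˣ, f A ≤ ((A ⊔ B).comap ι').map π' := by
    intro A B
    exact Subgroup.map_mono (Subgroup.comap_mono (inf_le_left.trans le_sup_left))
  have hfK' : ∀ A B : Subgroup (Matrix (Fin d) (Fin d) k)ˣ, f B ≤ ((A ⊔ B).comap ι').map π' := by
    intro A B
    exact Subgroup.map_mono (Subgroup.comap_mono (inf_le_left.trans le_sup_right))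
  have hpSub : ∀ K : Subgroup (Matrix (Fin d) (Fin d) F)ˣ, IsPGroup p K → IsPGroup p ↥(K.subgroupOf H) := by
    intro K hK
    exact hK.comap_of_injective H.subtype H.subtype_injective
  have hsubm : ∀ K K' : Subgroup (Matrix (Fin d) (Fin d) F)ˣ, K ≤ K' → K.subgroupOf H ≤ K'.subgroupOf H :=
    fun K K' h x hx => Subgroup.mem_subgroupOf.mpr (h (Subgroup.mem_subgroupOf.mp hx))
  have hPF : PFam p Sg := by
    refine ⟨?_, ?_, ?_⟩
    · rintro _ ⟨A, hA, rfl⟩
      refine (hpSub _ (hpK A hA A hA)).to_le ?_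
      exact hsubm _ _ (hfK A A)
    · rintro _ ⟨A, hA, rfl⟩ ⟨g, h, hh, rfl⟩
      refine ⟨A.map (MulAut.conj (ι' h)).toMonoidHom, hconj A hA _ hh, ?_⟩
      ext ⟨y, hy⟩
      constructor
      · rintro hym
        obtain ⟨w, hw, hwy⟩ := Subgroup.mem_subgroupOf.mp hym
        obtain ⟨hwA, hwC⟩ := hw
        refine ⟨⟨π' (h⁻¹ * w * h), ⟨h⁻¹ * w * h, ?_, rfl⟩⟩, ?_, ?_⟩
        · change ι' (h⁻¹ * w * h) ∈ C
          rw [map_mul, map_mul, map_inv]
          exact C.mul_mem (C.mul_mem (C.inv_mem hh) hwC) hh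
        · refine Subgroup.mem_subgroupOf.mpr ⟨h⁻¹ * w * h, ⟨?_, ?_⟩, rfl⟩
          · obtain ⟨a, ha, hae⟩ := hwA
            change ι' (h⁻¹ * w * h) ∈ A
            rw [map_mul, map_mul, map_inv, ← hae]
            simpa [MulAut.conj_apply, mul_assoc] using ha
          · change ι' (h⁻¹ * w * h) ∈ C
            rw [map_mul, map_mul, map_inv]
            exact C.mul_mem (C.mul_mem (C.inv_mem hh) hwC) hh
        · apply Subtype.ext
          simp only [MulEquiv.coe_toMonoidHom, MulAut.conj_apply, Subgroup.coe_mul, InvMemClass.coe_inv]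
          have hwy' : π' w = y := hwy
          rw [← hwy']
          simp [map_mul, mul_assoc]
      · rintro ⟨⟨z, hz⟩, hzm, hzy⟩
        have hzy' : π' h * z * (π' h)⁻¹ = y := congrArg Subtype.val hzy
        subst hzy'
        obtain ⟨w, hw, hwz⟩ := Subgroup.mem_subgroupOf.mp hzm
        obtain ⟨hwA, hwC⟩ := hw
        refine Subgroup.mem_subgroupOf.mpr ⟨h * w * h⁻¹, ⟨?_, ?_⟩, ?_⟩
        · change ι' (h * w * h⁻¹) ∈ _
          rw [map_mul, map_mul, map_inv]
          exact ⟨_, hwA, rfl⟩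
        · change ι' (h * w * h⁻¹) ∈ C
          rw [map_mul, map_mul, map_inv]
          exact C.mul_mem (C.mul_mem hh hwC) (C.inv_mem hh)
        · have hwz' : π' w = z := hwz
          rw [map_mul, map_mul, map_inv, hwz']
    · rintro _ ⟨A, hA, rfl⟩ _ ⟨B, hB, rfl⟩
      refine (hpSub _ (hpK A hA B hB)).to_le ?_
      exact sup_le (hsubm _ _ (hfK A B)) (hsubm _ _ (hfK' A B))
  have hPsup : IsPGroup p ↥(sSup Sg) := isPGroup_sSup_of_pFam _ ↥H Sg rfl hPF
  have htop : ∀ y : H, y ∈ sSup Sg := by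
    set T : Subgroup (Matrix (Fin d) (Fin d) R)ˣ := ((sSup Sg).map H.subtype).comap π' with hT
    have hCT : C ≤ T.map ι' := by
      rw [← hX, Subgroup.closure_le]
      intro x hx
      obtain ⟨A, hA, hxA⟩ := hXW x hx
      have hxC : x ∈ C := hX ▸ Subgroup.subset_closure hx
      obtain ⟨u, rfl⟩ := hCle hxC
      refine ⟨u, ?_, rfl⟩
      refine ⟨⟨π' u, ⟨u, hxC, rfl⟩⟩, ?_, rfl⟩
      refine (le_sSup ⟨A, hA, rfl⟩ : (f A).subgroupOf H ≤ sSup Sg) ?_
      exact Subgroup.mem_subgroupOf.mpr ⟨u, ⟨hxA, hxC⟩, rfl⟩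
    rintro ⟨y, u, hu, rfl⟩
    obtain ⟨v, hv, hvu⟩ := hCT hu
    have : v = u := hι'inj hvu
    subst this
    obtain ⟨y', hy', hyy⟩ := hv
    have : y' = ⟨π' v, ⟨v, hu, rfl⟩⟩ := Subtype.ext hyy
    rwa [this] at hy'
  have hPH : IsPGroup p ↥H := by
    intro y
    obtain ⟨e, he⟩ := hPsup ⟨y, htop y⟩
    exact ⟨e, congrArg Subtype.val he⟩
  -- apply the unipotence over `F`
  let σ : Matrix (Fin d) (Fin d) F ≃ₐ[F] Module.End F (Fin d → F) := Matrix.toLinAlgEquiv'
  let ρ₀ : (Matrix (Fin d) (Fin d) F)ˣ →* Module.End F (Fin d → F) :=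
    (σ.toAlgHom.toRingHom.toMonoidHom).comp (Units.coeHom _)
  let ρ : ↥H →* Module.End F (Fin d → F) := ρ₀.comp H.subtype
  have hmem : ∀ y ∈ l.map π', y ∈ H := by
    intro y hy
    obtain ⟨u, hu, rfl⟩ := List.mem_map.mp hy
    exact ⟨u, hl u hu, rfl⟩
  obtain ⟨l', hl'⟩ : ∃ l' : List ↥H, l'.map H.subtype = l.map π' := by
    lift (l.map π') to List ↥H using hmem with l'
    exact ⟨l', rfl⟩
  have hlen' : l'.length = d := by
    have := congrArg List.length hl'
    simpa [hlen] using this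
  have hz := prod_eq_zero_of_isPGroup (F := F) p hPH d (Fin d → F) ρ (by simp) l' hlen'
  apply σ.injective
  rw [map_zero, ← hz]
  have hind : ∀ (l₁ : List (Matrix (Fin d) (Fin d) R)ˣ) (l₂ : List ↥H), l₂.map H.subtype = l₁.map π' →
      σ (φ.mapMatrix (l₁.map fun u : (Matrix (Fin d) (Fin d) R)ˣ => (u : Matrix (Fin d) (Fin d) R) - 1).prod) =
        (l₂.map fun g => ρ g - 1).prod := by
    intro l₁
    induction l₁ with
    | nil =>
      intro l₂ h
      have : l₂ = [] := List.map_eq_nil_iff.mp h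
      subst this
      simp
    | cons u l₁ ih =>
      intro l₂ h
      cases l₂ with
      | nil => simp at h
      | cons g l₂ =>
        simp only [List.map_cons, List.cons.injEq] at h
        obtain ⟨h1, h2⟩ := h
        simp only [List.map_cons, List.prod_cons, map_mul]
        rw [ih l₂ h2]
        congr 1
        rw [map_sub, map_sub, map_one, map_one]
        congr 1
        have : (g : (Matrix (Fin d) (Fin d) F)ˣ) = π' u := h1
        change σ _ = σ ((g : (Matrix (Fin d) (Fin d) F)ˣ) : Matrix (Fin d) (Fin d) F)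
        rw [this]
        rfl
  exact hind l l' hl'

end Cfsg.Agent.H24
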