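import Mathlib
import Cfsg.Agent.Lib.H24.UniBS2
import Cfsg.Prelude.Def_RootSubgroups

/-!
The Baer-Suzuki theorem for unipotent linear groups.
-/

set_option autoImplicit false

namespace Cfsg.Agent.H24

universe u

/-- Finitely many elements of `sSup 𝒲` are in the closure of finitely many elements of members. -/
theorem exists_finite_closure {G : Type*} [Group G] (𝒲 : Set (Subgroup G)) (l : List G)
    (hl : ∀ g ∈ l, g ∈ sSup 𝒲) :
    ∃ X : Set G, X.Finite ∧ (∀ x ∈ X, ∃ A ∈ 𝒲, x ∈ A) ∧ ∀ g ∈ l, g ∈ Subgroup.closure X := by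
  classical
  let T : Subgroup G :=
    { carrier := {g | ∃ X : Set G, X.Finite ∧ (∀ x ∈ X, ∃ A ∈ 𝒲, x ∈ A) ∧ g ∈ Subgroup.closure X}
      one_mem' := ⟨∅, Set.finite_empty, by simp, Subgroup.one_mem _⟩
      mul_mem' := by
        rintro a b ⟨X, hX, hXW, ha⟩ ⟨Y, hY, hYW, hb⟩
        refine ⟨X ∪ Y, hX.union hY, ?_, Subgroup.mul_mem _ (Subgroup.closure_mono Set.subset_union_left ha)
          (Subgroup.closure_mono Set.subset_union_right hb)⟩
        rintro x (hx | hx)
        · exact hXW x hx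
        · exact hYW x hx
      inv_mem' := by
        rintro a ⟨X, hX, hXW, ha⟩
        exact ⟨X, hX, hXW, Subgroup.inv_mem _ ha⟩ }
  have hle : sSup 𝒲 ≤ T := by
    refine sSup_le fun A hA g hg => ?_
    exact ⟨{g}, Set.finite_singleton g, by rintro x rfl; exact ⟨A, hA, hg⟩, Subgroup.subset_closure rfl⟩
  induction l with
  | nil => exact ⟨∅, Set.finite_empty, by simp, by simp⟩
  | cons a l ih =>
    obtain ⟨X, hX, hXW, hXl⟩ := ih (fun g hg => hl g (List.mem_cons_of_mem _ hg))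
    obtain ⟨Y, hY, hYW, hYa⟩ := hle (hl a List.mem_cons_self)
    refine ⟨X ∪ Y, hX.union hY, ?_, ?_⟩
    · rintro x (hx | hx)
      · exact hXW x hx
      · exact hYW x hx
    · intro g hg
      rcases List.mem_cons.mp hg with rfl | hg
      · exact Subgroup.closure_mono Set.subset_union_right hYa
      · exact Subgroup.closure_mono Set.subset_union_left (hXl g hg)

/-- The Baer-Suzuki theorem for unipotent matrix groups. -/
theorem unipotent_matrix_bs {k : Type*} [Field k] {d : ℕ}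
    (𝒲 : Set (Subgroup (Matrix (Fin d) (Fin d) k)ˣ))
    (hW : ∀ A ∈ 𝒲, ∀ B ∈ 𝒲, ∀ u ∈ A ⊔ B, ∃ N : ℕ, ((u : Matrix (Fin d) (Fin d) k) - 1) ^ N = 0)
    (hconj : ∀ A ∈ 𝒲, ∀ g ∈ sSup 𝒲, A.map (MulAut.conj g).toMonoidHom ∈ 𝒲)
    (l : List (Matrix (Fin d) (Fin d) k)ˣ) (hl : ∀ g ∈ l, g ∈ sSup 𝒲) (hlen : l.length = d) :
    (l.map fun g : (Matrix (Fin d) (Fin d) k)ˣ => (g : Matrix (Fin d) (Fin d) k) - 1).prod = 0 := by
  classical
  obtain ⟨X, hXf, hXW, hXl⟩ := exists_finite_closure 𝒲 l hl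
  set C := Subgroup.closure X with hC
  have hCle : C ≤ sSup 𝒲 := by
    rw [hC, Subgroup.closure_le]
    intro x hx
    obtain ⟨A, hA, hxA⟩ := hXW x hx
    exact (le_sSup hA : A ≤ sSup 𝒲) hxA
  -- the finitely generated subring
  let s : Set k := ⋃ x ∈ X, (Set.range fun ij : Fin d × Fin d => (x : Matrix (Fin d) (Fin d) k) ij.1 ij.2) ∪
    (Set.range fun ij : Fin d × Fin d => ((x⁻¹ : (Matrix (Fin d) (Fin d) k)ˣ) : Matrix (Fin d) (Fin d) k) ij.1 ij.2)
  have hs : s.Finite := by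
    refine hXf.biUnion fun x _ => ?_
    exact (Set.finite_range _).union (Set.finite_range _)
  let R : Subalgebra ℤ k := Algebra.adjoin ℤ s
  haveI : Algebra.FiniteType ℤ R := (Subalgebra.fg_iff_finiteType R).mp ⟨hs.toFinset, by simp [R]⟩
  let ι₀ : R →+* k := R.val.toRingHom
  have hι : Function.Injective ι₀ := Subtype.val_injective
  have hιinj : Function.Injective (ι₀.mapMatrix (m := Fin d)) := by
    intro a b hab
    ext i j
    exact congrFun (congrFun hab i) j
  have hmemR : ∀ x ∈ X, ∀ i j, (x : Matrix (Fin d) (Fin d) k) i j ∈ R := by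
    intro x hx i j
    refine Algebra.subset_adjoin (Set.mem_biUnion hx (Or.inl ⟨(i, j), rfl⟩))
  have hmemR' : ∀ x ∈ X, ∀ i j, ((x⁻¹ : (Matrix (Fin d) (Fin d) k)ˣ) : Matrix (Fin d) (Fin d) k) i j ∈ R := by
    intro x hx i j
    refine Algebra.subset_adjoin (Set.mem_biUnion hx (Or.inr ⟨(i, j), rfl⟩))
  set ι' : (Matrix (Fin d) (Fin d) R)ˣ →* (Matrix (Fin d) (Fin d) k)ˣ :=
    Units.map (ι₀.mapMatrix (m := Fin d)).toMonoidHom with hι'
  have hCrange : C ≤ ι'.range := by
    rw [hC, Subgroup.closure_le]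
    intro x hx
    let y : Matrix (Fin d) (Fin d) R := fun i j => ⟨_, hmemR x hx i j⟩
    let z : Matrix (Fin d) (Fin d) R := fun i j => ⟨_, hmemR' x hx i j⟩
    have hy : ι₀.mapMatrix y = (x : Matrix (Fin d) (Fin d) k) := by ext i j; rfl
    have hz : ι₀.mapMatrix z = ((x⁻¹ : (Matrix (Fin d) (Fin d) k)ˣ) : Matrix (Fin d) (Fin d) k) := by ext i j; rfl
    refine ⟨⟨y, z, ?_, ?_⟩, ?_⟩
    · apply hιinj
      rw [map_mul, hy, hz, map_one]
      exact x.mul_inv
    · apply hιinj
      rw [map_mul, hy, hz, map_one]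
      exact x.inv_mul
    · apply Units.ext
      exact hy
  -- lift the list
  have hlift : ∀ g ∈ l, g ∈ Set.range ι' := fun g hg => hCrange (hXl g hg)
  obtain ⟨l', hl'⟩ : ∃ l' : List (Matrix (Fin d) (Fin d) R)ˣ, l'.map ι' = l := by
    have : l ∈ Set.range (List.map ι') := by
      rw [Set.range_list_map]
      exact hlift
    exact this
  subst hl'
  have hlen' : l'.length = d := by simpa using hlen
  have hl'C : ∀ u ∈ l', ι' u ∈ C := fun u hu => hXl _ (List.mem_map_of_mem hu)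
  set P := (l'.map fun u : (Matrix (Fin d) (Fin d) R)ˣ => (u : Matrix (Fin d) (Fin d) R) - 1).prod with hP
  have hP0 : P = 0 := by
    apply Matrix.ext
    intro i j
    by_contra hne
    obtain ⟨𝔪, h𝔪, hr⟩ := exists_maximal_not_mem (R := R) (r := P i j) hne
    letI : Field (R ⧸ 𝔪) := Ideal.Quotient.field 𝔪
    haveI : Algebra.FiniteType ℤ (R ⧸ 𝔪) :=
      Algebra.FiniteType.of_surjective (Ideal.Quotient.mkₐ ℤ 𝔪) (Ideal.Quotient.mk_surjective)
    haveI : Finite (R ⧸ 𝔪) := finite_of_finiteType_int _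
    have hcore := core_residue ι₀ hι (Ideal.Quotient.mk 𝔪) 𝒲 hW C hCrange X rfl hXW
      (fun A hA g hg => hconj A hA g (hCle hg)) l' hl'C hlen'
    have h1 : (Ideal.Quotient.mk 𝔪).mapMatrix P i j = 0 := by rw [hP, hcore]; rfl
    exact hr (Ideal.Quotient.eq_zero_iff_mem.mp h1)
  have h2 : ι₀.mapMatrix (m := Fin d) P = ((l'.map ι').map fun g : (Matrix (Fin d) (Fin d) k)ˣ =>
      (g : Matrix (Fin d) (Fin d) k) - 1).prod := by
    rw [hP, map_list_prod, List.map_map, List.map_map]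
    congr 1
    apply List.map_congr_left
    intro u _
    change ι₀.mapMatrix ((u : Matrix (Fin d) (Fin d) R) - 1) = _
    rw [map_sub, map_one]
    rfl
  rw [← h2, hP0, map_zero]

theorem list_bind_coe {α β : Type*} (f : α → β) (l : List α) :
    (l.flatMap fun a => pure (f a)) = l.map f := by
  induction l with
  | nil => rfl
  | cons a l ih =>
    have ih' : List.flatMap (fun a => [f a]) l = List.map f l := ih
    simp [List.flatMap_cons, ih']

/-- S5061: the statement for `GL(M)`. -/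
theorem unipotent_bs {k : Type*} [Field k] {M : Type*} [AddCommGroup M] [Module k M] [FiniteDimensional k M]
    {G : Subgroup (LinearMap.GeneralLinearGroup k M)} {W : Set (Subgroup (LinearMap.GeneralLinearGroup k M))}
    (hWG : ∀ A ∈ W, A ≤ G) (hWW : ∀ A ∈ W, ∀ B ∈ W, Cfsg.IsUnipotentOn (A ⊔ B))
    (hWconj : ∀ A ∈ W, ∀ g ∈ G, Cfsg.conjBy A g ∈ W) :
    Cfsg.IsUnipotentOn (⨆ A ∈ W, A) ∧ ∀ g ∈ G, Cfsg.conjBy (⨆ A ∈ W, A) g = ⨆ A ∈ W, A := by
  classical
  constructor
  · set d := Module.finrank k M with hd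
    let b : Module.Basis (Fin d) k M := Module.finBasis k M
    let e : Module.End k M ≃ₐ[k] Matrix (Fin d) (Fin d) k := LinearMap.toMatrixAlgEquiv b
    let E : LinearMap.GeneralLinearGroup k M →* (Matrix (Fin d) (Fin d) k)ˣ :=
      Units.map e.toAlgHom.toRingHom.toMonoidHom
    have hEval : ∀ g : LinearMap.GeneralLinearGroup k M,
        ((E g : (Matrix (Fin d) (Fin d) k)ˣ) : Matrix (Fin d) (Fin d) k) = e (g : M →ₗ[k] M) := fun _ => rfl
    have hEinj : Function.Injective E := by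
      intro a c h
      apply Units.ext
      apply e.injective
      rw [← hEval, ← hEval, h]
    have hEsurj : Function.Surjective E := by
      intro u
      refine ⟨⟨e.symm u, e.symm (u⁻¹ : (Matrix (Fin d) (Fin d) k)ˣ), ?_, ?_⟩, ?_⟩
      · rw [← map_mul]; simp
      · rw [← map_mul]; simp
      · apply Units.ext
        simp [hEval]
    let 𝒲 : Set (Subgroup (Matrix (Fin d) (Fin d) k)ˣ) := (fun A => A.map E) '' W
    have hsup : sSup 𝒲 = (⨆ A ∈ W, A).map E := by
      rw [sSup_image, Subgroup.map_iSup]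
      simp only [Subgroup.map_iSup]
    have hW : ∀ A ∈ 𝒲, ∀ B ∈ 𝒲, ∀ u ∈ A ⊔ B, ∃ N : ℕ, ((u : Matrix (Fin d) (Fin d) k) - 1) ^ N = 0 := by
      rintro _ ⟨A, hA, rfl⟩ _ ⟨B, hB, rfl⟩ u hu
      rw [← Subgroup.map_sup] at hu
      obtain ⟨g, hg, rfl⟩ := hu
      obtain ⟨N, hN⟩ := hWW A hA B hB
      refine ⟨N, ?_⟩
      have h1 := hN (List.replicate N g) (fun x hx => by rw [List.eq_of_mem_replicate hx]; exact hg) (by simp)
      have h2 : ((g : M →ₗ[k] M) - 1) ^ N = 0 := by
        have h1' := h1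
        change (List.map _ ((List.replicate N g).flatMap fun a => pure _)).prod = 0 at h1'
        rw [list_bind_coe] at h1'
        simpa [List.map_replicate, List.prod_replicate] using h1'
      have h3 := congrArg e h2
      rw [map_pow, map_sub, map_one, map_zero] at h3
      exact h3
    have hconj : ∀ A ∈ 𝒲, ∀ g ∈ sSup 𝒲, A.map (MulAut.conj g).toMonoidHom ∈ 𝒲 := by
      rintro _ ⟨A, hA, rfl⟩ u hu
      rw [hsup] at hu
      obtain ⟨g, hg, rfl⟩ := hu
      have hgG : g ∈ G := by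
        have : (⨆ A ∈ W, A) ≤ G := iSup₂_le hWG
        exact this hg
      refine ⟨Cfsg.conjBy A g, hWconj A hA g hgG, ?_⟩
      ext u
      simp only [Subgroup.mem_map, MulEquiv.coe_toMonoidHom, MulAut.conj_apply]
      constructor
      · rintro ⟨x, ⟨a, ha, rfl⟩, rfl⟩
        exact ⟨E a, ⟨a, ha, rfl⟩, by simp [map_mul]⟩
      · rintro ⟨x, ⟨a, ha, rfl⟩, rfl⟩
        exact ⟨g * a * g⁻¹, ⟨a, ha, rfl⟩, by simp [map_mul]⟩
    refine ⟨d, ?_⟩
    intro l hl hlen
    have hmain := unipotent_matrix_bs 𝒲 hW hconj (l.map E)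
      (by
        intro u hu
        obtain ⟨g, hg, rfl⟩ := List.mem_map.mp hu
        rw [hsup]
        exact ⟨g, hl g hg, rfl⟩)
      (by simpa using hlen)
    apply e.injective
    change e (List.map _ (l.flatMap fun a => pure _)).prod = _
    rw [list_bind_coe, map_zero, ← hmain, map_list_prod, List.map_map, List.map_map, List.map_map]
    congr 1
    apply List.map_congr_left
    intro g _
    simp [hEval]
  · intro g hg
    have hsub : ∀ (h : LinearMap.GeneralLinearGroup k M), h ∈ G →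
        Cfsg.conjBy (⨆ A ∈ W, A) h ≤ ⨆ A ∈ W, A := by
      intro h hh
      rw [Cfsg.conjBy, Subgroup.map_iSup]
      refine iSup_le fun A => ?_
      rw [Subgroup.map_iSup]
      refine iSup_le fun hA => ?_
      exact le_iSup₂_of_le (Cfsg.conjBy A h) (hWconj A hA h hh) le_rfl
    apply le_antisymm (hsub g hg)
    intro x hx
    have h1 := hsub g⁻¹ (G.inv_mem hg) ⟨x, hx, rfl⟩
    refine ⟨g⁻¹ * x * g, ?_, by simp [MulAut.conj_apply, mul_assoc]⟩
    simpa [MulAut.conj_apply] using h1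

end Cfsg.Agent.H24
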